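import Mathlib
import Cfsg.Prelude.Def_GeometricClasses
import Cfsg.Agent.Lib.Helper29.Transv

/-!
Basic facts on `Cfsg.Geo.IsMDecomposition` and `Cfsg.Geo.decompositionStabilizer`.
-/

set_option autoImplicit false

namespace Cfsg.Agent.Lib.Helper29

open Matrix Module

variable {ι : Type} [Fintype ι] [DecidableEq ι] {F : Type*} [Field F]

theorem isInternal_of_isMDecomposition {t m : ℕ} {D : Fin t → Submodule F (ι → F)}
    (hD : Cfsg.Geo.IsMDecomposition m D) : DirectSum.IsInternal D :=
  DirectSum.isInternal_submodule_of_iSupIndep_of_iSup_eq_top hD.indep hD.iSup_eq_top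

/-- The number of blocks times their dimension is the dimension of the space. -/
theorem card_eq_of_isMDecomposition {t m : ℕ} {D : Fin t → Submodule F (ι → F)}
    (hD : Cfsg.Geo.IsMDecomposition m D) : t * m = Fintype.card ι := by
  have hI := isInternal_of_isMDecomposition hD
  have e := LinearEquiv.finrank_eq (LinearEquiv.ofBijective (DirectSum.coeLinearMap D) hI)
  rw [Module.finrank_directSum, Module.finrank_fintype_fun_eq_card] at e
  rw [← e]
  simp [hD.finrank_eq]

theorem mem_decompositionStabilizer_iff {t : ℕ} (D : Fin t → Submodule F (ι → F)) (g : GL ι F) :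
    g ∈ Cfsg.Geo.decompositionStabilizer D ↔
      ∃ σ : Equiv.Perm (Fin t), ∀ i, glMap g (D i) = D (σ i) := Iff.rfl

end Cfsg.Agent.Lib.Helper29
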