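import Mathlib
import Cfsg.Prelude.Def_GeometricClasses

/-!
Transport of `Cfsg.Geo.IsMaximalIn` under conjugation.
-/

set_option autoImplicit false

namespace Cfsg.Agent.Lib.Helper29

theorem isMaximalIn_conj {G : Type*} [Group G] {K H H' : Subgroup G} (P : G)
    (hK : ∀ x, x ∈ K ↔ P * x * P⁻¹ ∈ K) (hH : ∀ x, x ∈ H ↔ P * x * P⁻¹ ∈ H')
    (h : Cfsg.Geo.IsMaximalIn K H) : Cfsg.Geo.IsMaximalIn K H' := by
  have back : ∀ y : G, P * (P⁻¹ * y * P) * P⁻¹ = y := fun y => by group
  obtain ⟨hlt, hmax⟩ := h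
  refine ⟨lt_of_le_of_ne ?_ ?_, ?_⟩
  · intro y hy
    have h1 : P⁻¹ * y * P ∈ H := by rw [hH, back]; exact hy
    have h2 := (hK _).mp (hlt.le h1)
    rwa [back] at h2
  · intro heq
    apply hlt.ne
    ext x
    rw [hH, hK, heq]
  · intro M' hHM hMK
    have hM := hmax (M'.comap (MulAut.conj P).toMonoidHom)
      (by
        intro x hx
        rw [Subgroup.mem_comap]
        exact hHM ((hH x).mp hx))
      (by
        intro x hx
        rw [Subgroup.mem_comap] at hx
        exact (hK x).mpr (hMK hx))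
    rcases hM with hM | hM
    · left
      ext y
      have h1 : P⁻¹ * y * P ∈ M'.comap (MulAut.conj P).toMonoidHom ↔ P⁻¹ * y * P ∈ H := by rw [hM]
      rw [Subgroup.mem_comap, hH, back] at h1
      have h2 : (MulAut.conj P).toMonoidHom (P⁻¹ * y * P) = y := back y
      rwa [h2] at h1
    · right
      ext y
      have h1 : P⁻¹ * y * P ∈ M'.comap (MulAut.conj P).toMonoidHom ↔ P⁻¹ * y * P ∈ K := by rw [hM]
      rw [Subgroup.mem_comap, hK, back] at h1
      have h2 : (MulAut.conj P).toMonoidHom (P⁻¹ * y * P) = y := back y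
      rwa [h2] at h1

end Cfsg.Agent.Lib.Helper29
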