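import Mathlib
import Cfsg.Agent.Lib.Helper15.OmegaTrans

/-!
Point-centres for overgroups in `Ω(Q)`: singular vectors `u` whose whole group of Eichler transformations
`E(u,v)` lies in a given subgroup `M`.
-/

set_option autoImplicit false

namespace Cfsg.Agent.Lib.Helper29

open Matrix QuadraticMap Module Cfsg.Agent.Lib.Helper15

variable {ι : Type} [Fintype ι] [DecidableEq ι] {F : Type*} [Field F] (Q : QuadraticForm F (ι → F))

/-- the singular vectors all of whose Eichler transformations lie in `M` -/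
def ocentres (M : Subgroup (Cfsg.isometryGroup F ⇑Q)) : Set (ι → F) :=
  {u | ∃ hu : Q u = 0, ∀ (v : ι → F) (huv : polar Q u v = 0), eich Q u v hu huv ∈ M}

variable {Q} {M : Subgroup (Cfsg.isometryGroup F ⇑Q)}

theorem ocentres_sing {u : ι → F} (hu : u ∈ ocentres Q M) : Q u = 0 := hu.1

theorem ocentres_act {u : ι → F} (hu : u ∈ ocentres Q M) {g : Cfsg.isometryGroup F ⇑Q} (hg : g ∈ M) :
    act Q g u ∈ ocentres Q M := by
  obtain ⟨hu0, hu1⟩ := hu
  refine ⟨by rw [Q_act, hu0], ?_⟩
  intro v huv
  have h1 : polar Q u (act Q g⁻¹ v) = 0 := by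
    rw [← polar_act g, act_act_inv, huv]
  have h2 := M.mul_mem (M.mul_mem hg (hu1 _ h1)) (M.inv_mem hg)
  rw [conj_eich] at h2
  rwa [eich_congr Q rfl (act_act_inv g v) _ _ _ huv] at h2

theorem ocentres_smul {u : ι → F} (hu : u ∈ ocentres Q M) (c : F) : c • u ∈ ocentres Q M := by
  obtain ⟨hu0, hu1⟩ := hu
  refine ⟨by rw [QuadraticMap.map_smul, hu0, smul_zero], ?_⟩
  intro v huv
  by_cases hc : c = 0
  · subst hc
    have : eich Q ((0 : F) • u) v (by rw [QuadraticMap.map_smul, hu0, smul_zero]) huv = 1 := by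
      apply iso_ext
      intro x
      rw [act_eich, act_one]
      simp
    rw [this]
    exact M.one_mem
  · have h1 : polar Q u v = 0 := by
      rw [polar_smul_left, smul_eq_mul] at huv
      exact (mul_eq_zero.1 huv).resolve_left hc
    rw [eich_smul_left Q u v c hu0 h1]
    exact hu1 _ _

/-- the Eichler transformations with centre `u` are transitive on the singular vectors opposite `u` -/
theorem ocentres_opp {u y z : ι → F} (hu : u ∈ ocentres Q M) (hy : y ∈ ocentres Q M)
    (huy : polar Q u y ≠ 0) (hz : Q z = 0) (huz : polar Q u z ≠ 0) : z ∈ ocentres Q M := by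
  obtain ⟨hu0, hu1⟩ := hu
  have hy0 := hy.1
  set c := polar Q u y / polar Q u z with hc
  have hc0 : c ≠ 0 := div_ne_zero huy huz
  set z' := c • z with hz'
  have hQz' : Q z' = 0 := by rw [hz', QuadraticMap.map_smul, hz, smul_zero]
  have huz' : polar Q u z' = polar Q u y := by
    rw [hz', polar_smul_right, smul_eq_mul, hc]
    field_simp
  set v := (polar Q u y)⁻¹ • (z' - y) with hv
  have huv : polar Q u v = 0 := by
    rw [hv, polar_smul_right, polar_sub_right, huz', sub_self, smul_zero]
  have h1 := ocentres_act hy (hu1 v huv)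
  obtain ⟨d, hd⟩ : ∃ d : F, act Q (eich Q u v hu0 huv) y = z' - d • u := by
    refine ⟨polar Q v y + Q v * polar Q u y, ?_⟩
    rw [act_eich]
    congr 1
    rw [hv, smul_smul, mul_inv_cancel₀ huy, one_smul, add_sub_cancel]
  have hd0 : d = 0 := by
    have h2 : Q (z' - d • u) = 0 := by rw [← hd, Q_act, hy0]
    rw [sub_eq_add_neg, ← neg_smul, QuadraticMap.map_add Q, hQz', QuadraticMap.map_smul, hu0, polar_smul_right,
      polar_comm Q z' u, huz'] at h2
    simp only [smul_eq_mul, mul_zero, add_zero, zero_add, neg_mul, neg_eq_zero] at h2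
    exact (mul_eq_zero.1 h2).resolve_right huy
  rw [hd, hd0, zero_smul, sub_zero] at h1
  have h3 := ocentres_smul h1 c⁻¹
  rwa [hz', smul_smul, inv_mul_cancel₀ hc0, one_smul] at h3

/-- two opposite centres force every singular vector to be a centre -/
theorem ocentres_univ (hQ : (polarBilin Q).Nondegenerate) {u u' : ι → F} (hu : u ∈ ocentres Q M)
    (hu' : u' ∈ ocentres Q M) (huu' : polar Q u u' ≠ 0) (z : ι → F) (hz : Q z = 0) : z ∈ ocentres Q M := by
  have hu'u : polar Q u' u ≠ 0 := by rw [polar_comm]; exact huu'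
  by_cases h1 : polar Q u z = 0
  · by_cases h2 : polar Q u' z = 0
    · by_cases hz0 : z = 0
      · rw [hz0, ← zero_smul F u]
        exact ocentres_smul hu 0
      · have hnot : z ∉ Submodule.span F {u} := by
          intro h
          obtain ⟨c, rfl⟩ := Submodule.mem_span_singleton.1 h
          rw [polar_smul_right, smul_eq_mul] at h2
          rcases mul_eq_zero.1 h2 with h | h
          · apply hz0; rw [h, zero_smul]
          · exact hu'u h
        obtain ⟨z', hz', huz', hz'z⟩ := exists_singular_partner Q hQ z u hz (by rw [polar_comm]; exact h1) hnot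
        by_cases h3 : polar Q u' z' = 0
        · -- y = u + z'
          have hy : Q (u + z') = 0 := by rw [QuadraticMap.map_add Q, hu.1, hz', huz']; ring
          have hyu' : polar Q u' (u + z') ≠ 0 := by rw [polar_add_right, h3, add_zero]; exact hu'u
          have hyC : u + z' ∈ ocentres Q M := ocentres_opp hu' hu hu'u hy hyu'
          refine ocentres_opp hyC hu' (by rw [polar_comm]; exact hyu') hz ?_
          rw [polar_add_left, h1, hz'z]; simp
        · have hz'C : z' ∈ ocentres Q M := ocentres_opp hu' hu hu'u hz' h3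
          refine ocentres_opp hz'C hu' (by rw [polar_comm]; exact h3) hz ?_
          rw [hz'z]; exact one_ne_zero
    · exact ocentres_opp hu' hu hu'u hz h2
  · exact ocentres_opp hu hu' huu' hz h1

theorem omega_le_of_ocentres [Fintype F] (hQ : (polarBilin Q).Nondegenerate) (hn : 5 ≤ Fintype.card ι)
    (h : ∀ z, Q z = 0 → z ∈ ocentres Q M) : Cfsg.Omega F ⇑Q ≤ M := by
  set s : Set (Cfsg.isometryGroup F ⇑Q) :=
    {g | ∃ (u v : ι → F) (hu : Q u = 0) (huv : polar Q u v = 0), g = eich Q u v hu huv} with hs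
  have h1 : Subgroup.normalClosure s ≤ M := by
    unfold Subgroup.normalClosure
    rw [Subgroup.closure_le]
    intro a ha
    rw [Group.mem_conjugatesOfSet_iff] at ha
    obtain ⟨b, ⟨u, v, hu, huv, rfl⟩, hba⟩ := ha
    obtain ⟨c, hc⟩ := isConj_iff.1 hba
    rw [← hc, conj_eich]
    exact (h _ (by rw [Q_act, hu])).2 _ _
  refine le_trans ?_ h1
  apply Omega_le_of_siegel Q _ _ hQ hn
  intro u v hu huv _
  exact Subgroup.subset_normalClosure ⟨u, v, hu, huv, rfl⟩

theorem omega_le_of_opp [Fintype F] (hQ : (polarBilin Q).Nondegenerate) (hn : 5 ≤ Fintype.card ι)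
    {u u' : ι → F} (hu : u ∈ ocentres Q M) (hu' : u' ∈ ocentres Q M) (huu' : polar Q u u' ≠ 0) :
    Cfsg.Omega F ⇑Q ≤ M :=
  omega_le_of_ocentres hQ hn (ocentres_univ hQ hu hu' huu')

end Cfsg.Agent.Lib.Helper29
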