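import Mathlib
import Cfsg.Agent.Lib.Helper29.OmCentres

/-!
Stabilisers of totally singular subspaces are maximal in `Ω(Q)`.
-/

set_option autoImplicit false

namespace Cfsg.Agent.Lib.Helper29

open Matrix QuadraticMap Module Cfsg.Agent.Lib.Helper15

variable {ι : Type} [Fintype ι] [DecidableEq ι] {F : Type*} [Field F] {Q : QuadraticForm F (ι → F)}

omit [Fintype ι] [DecidableEq ι] in
theorem polar_ts {W : Submodule F (ι → F)} (hW : ∀ w ∈ W, Q w = 0) {x y : ι → F} (hx : x ∈ W) (hy : y ∈ W) :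
    polar Q x y = 0 := by
  unfold polar
  rw [hW _ (W.add_mem hx hy), hW _ hx, hW _ hy]; ring

omit [Fintype ι] [DecidableEq ι] in
/-- adding a perpendicular singular vector to a totally singular subspace -/
theorem ts_sup_span {W : Submodule F (ι → F)} (hW : ∀ w ∈ W, Q w = 0) {x : ι → F} (hx : Q x = 0)
    (hWx : ∀ w ∈ W, polar Q w x = 0) : ∀ y ∈ W ⊔ Submodule.span F {x}, Q y = 0 := by
  intro y hy
  obtain ⟨w, hw, z, hz, rfl⟩ := Submodule.mem_sup.1 hy
  obtain ⟨c, rfl⟩ := Submodule.mem_span_singleton.1 hz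
  rw [QuadraticMap.map_add Q, hW w hw, QuadraticMap.map_smul, hx, polar_smul_right, hWx w hw]
  simp

omit [DecidableEq ι] in
/-- a singular vector perpendicular to `W` pairing to one with a singular `x ∈ W^⊥ \ W` -/
theorem exists_singular_partner_sub (hQ : (polarBilin Q).Nondegenerate) (W : Submodule F (ι → F)) (x : ι → F)
    (hx : Q x = 0) (hWx : ∀ w ∈ W, polar Q w x = 0) (hnot : x ∉ W) :
    ∃ a, Q a = 0 ∧ (∀ w ∈ W, polar Q w a = 0) ∧ polar Q a x = 1 := by
  obtain ⟨y, hy1, hy2⟩ := exists_perp_not_perp' Q hQ W x hnot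
  obtain ⟨y', h1, h2⟩ : ∃ y', polar Q y' x = 1 ∧ ∀ w ∈ W, polar Q w y' = 0 :=
    ⟨(polar Q y x)⁻¹ • y, by rw [polar_smul_left, smul_eq_mul, inv_mul_cancel₀ hy2],
      fun w hw => by rw [polar_smul_right, hy1 w hw, smul_zero]⟩
  refine ⟨y' - Q y' • x, ?_, ?_, ?_⟩
  · rw [sub_eq_add_neg, ← neg_smul, QuadraticMap.map_add Q, QuadraticMap.map_smul, hx, polar_smul_right, h1]
    simp
  · intro w hw
    rw [polar_sub_right, polar_smul_right, h2 w hw, hWx w hw]; simp
  · rw [polar_sub_left, polar_smul_left, polar_self, hx, h1]; simp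

omit [DecidableEq ι] in
/-- a non-singular vector perpendicular to `W`, `a`, `x` -/
theorem exists_nonsingular_perp (hQ : (polarBilin Q).Nondegenerate) (W : Submodule F (ι → F))
    (hW : ∀ w ∈ W, Q w = 0) (x a : ι → F)
    (hx : Q x = 0) (hWx : ∀ w ∈ W, polar Q w x = 0) (hnot : x ∉ W) (hax : polar Q a x = 1)
    (hdim : 2 * (finrank F W + 1) ≠ Fintype.card ι) :
    ∃ b, Q b ≠ 0 ∧ (∀ w ∈ W, polar Q w b = 0) ∧ polar Q a b = 0 ∧ polar Q x b = 0 := by
  by_contra hcon
  push Not at hcon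
  set Y := W ⊔ Submodule.span F {a, x} with hY
  set X := LinearMap.BilinForm.orthogonal (polarBilin Q) Y with hX
  have hXmem : ∀ b ∈ X, (∀ w ∈ W, polar Q w b = 0) ∧ polar Q a b = 0 ∧ polar Q x b = 0 := by
    intro b hb
    refine ⟨fun w hw => hb w (Submodule.mem_sup_left hw), ?_, ?_⟩
    · exact hb a (Submodule.mem_sup_right (Submodule.subset_span (by simp)))
    · exact hb x (Submodule.mem_sup_right (Submodule.subset_span (by simp)))
  have hXts : ∀ b ∈ X, Q b = 0 := by
    intro b hb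
    by_contra hne
    obtain ⟨h1, h2, h3⟩ := hXmem b hb
    exact hcon b hne h1 h2 h3
  have h1 : finrank F X = finrank F (ι → F) - finrank F Y := LinearMap.BilinForm.finrank_orthogonal hQ Y
  have h2 : finrank F Y ≤ finrank F W + 2 := by
    have e1 : finrank F Y ≤ finrank F W + finrank F (Submodule.span F {a, x}) :=
      Submodule.finrank_add_le_finrank_add_finrank W (Submodule.span F {a, x})
    have e2 : finrank F (Submodule.span F {a, x}) ≤ 2 := by
      classical
      have := finrank_span_finset_le_card (R := F) ({a, x} : Finset (ι → F))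
      have h3 : ({a, x} : Finset (ι → F)).card ≤ 2 := Finset.card_le_two
      have h4 : ((({a, x} : Finset (ι → F)) : Set (ι → F))) = {a, x} := by simp
      rw [h4] at this
      unfold Set.finrank at this
      omega
    omega
  have hxX : x ∉ X := by
    intro h
    have := (hXmem x h).2.1
    rw [hax] at this
    exact one_ne_zero this
  have h3 : finrank F X < finrank F (X ⊔ Submodule.span F {x} : Submodule F (ι → F)) := by
    apply Submodule.finrank_lt_finrank_of_lt
    refine lt_of_le_of_ne le_sup_left ?_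
    intro h
    apply hxX
    rw [h]
    exact Submodule.mem_sup_right (Submodule.mem_span_singleton_self x)
  have h4 := two_mul_finrank_le_of_ts Q (nd_of_nondegenerate hQ) _
    (ts_sup_span hXts hx (fun b hb => by rw [polar_comm]; exact (hXmem b hb).2.2))
  have h5 : finrank F W < finrank F (W ⊔ Submodule.span F {x} : Submodule F (ι → F)) := by
    apply Submodule.finrank_lt_finrank_of_lt
    refine lt_of_le_of_ne le_sup_left ?_
    intro h
    apply hnot
    rw [h]
    exact Submodule.mem_sup_right (Submodule.mem_span_singleton_self x)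
  have h6 := two_mul_finrank_le_of_ts Q (nd_of_nondegenerate hQ) _ (ts_sup_span hW hx hWx)
  rw [finrank_fintype_fun_eq_card] at h1 h4 h6
  have h7 := Submodule.finrank_le Y
  rw [finrank_fintype_fun_eq_card] at h7
  omega

/-- an overgroup of the stabiliser of a totally singular subspace which moves it contains `Ω` -/
theorem omega_le_of_parabolic [Fintype F] (hQ : (polarBilin Q).Nondegenerate) (hn : 5 ≤ Fintype.card ι)
    (W : Submodule F (ι → F)) (hW : ∀ w ∈ W, Q w = 0)
    (hdim : ∀ x, Q x = 0 → (∀ w ∈ W, polar Q w x = 0) → x ∉ W → 2 * (finrank F W + 1) ≠ Fintype.card ι)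
    (M : Subgroup (Cfsg.isometryGroup F ⇑Q))
    (hM : ∀ g ∈ Cfsg.Omega F ⇑Q, (∀ w ∈ W, act Q g w ∈ W) → g ∈ M)
    (g : Cfsg.isometryGroup F ⇑Q) (hg : g ∈ M) (w₀ : ι → F) (hw₀ : w₀ ∈ W) (hgw : act Q g w₀ ∉ W) :
    Cfsg.Omega F ⇑Q ≤ M := by
  have hWC : ∀ u ∈ W, u ∈ ocentres Q M := by
    intro u hu
    refine ⟨hW u hu, ?_⟩
    intro v huv
    apply hM _ (eich_mem_Omega Q hQ hn _ _ _ _)
    intro w hw
    rw [act_eich, polar_ts hW hu hw, zero_smul, add_zero]
    exact W.sub_mem hw (W.smul_mem _ hu)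
  set x := act Q g w₀ with hx
  have hxC : x ∈ ocentres Q M := ocentres_act (hWC w₀ hw₀) hg
  have hQx : Q x = 0 := hxC.1
  by_cases hperp : ∀ w ∈ W, polar Q w x = 0
  · obtain ⟨a, ha, hWa, hax⟩ := exists_singular_partner_sub hQ W x hQx hperp hgw
    obtain ⟨b, hb, hWb, hab, hxb⟩ := exists_nonsingular_perp hQ W hW x a hQx hperp hgw hax (hdim x hQx hperp hgw)
    have hh : eich Q a b ha hab ∈ M := by
      apply hM _ (eich_mem_Omega Q hQ hn _ _ _ _)
      intro w hw
      rw [act_eich, polar_comm Q a w, hWa w hw, polar_comm Q b w, hWb w hw]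
      simpa using hw
    have hyC := ocentres_act hxC hh
    apply omega_le_of_opp hQ hn hxC hyC
    rw [act_eich, hax, polar_comm Q b x, hxb, polar_sub_right, polar_add_right, polar_smul_right, polar_smul_right,
      polar_self, hQx, hxb, polar_comm Q x a, hax]
    simpa using hb
  · push Not at hperp
    obtain ⟨w, hw, hwx⟩ := hperp
    exact omega_le_of_opp hQ hn (hWC w hw) hxC hwx

/-- the bridge to the vocabulary of `Cfsg.Geo` -/
theorem parabolic_isMaximalIn [Fintype F] (hQ : (polarBilin Q).Nondegenerate) (hn : 5 ≤ Fintype.card ι)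
    (W : Submodule F (ι → F)) (hW0 : W ≠ ⊥) (hW : ∀ w ∈ W, Q w = 0)
    (hdim : ∀ x, Q x = 0 → (∀ w ∈ W, polar Q w x = 0) → x ∉ W → 2 * (finrank F W + 1) ≠ Fintype.card ι) :
    Cfsg.Geo.IsMaximalIn (Cfsg.Geo.omegaGL ⇑Q) (Cfsg.Geo.subspaceStabilizer W ⊓ Cfsg.Geo.omegaGL ⇑Q) := by
  constructor
  · refine lt_of_le_of_ne inf_le_right ?_
    intro heq
    obtain ⟨w₀, hw₀, hw₀0⟩ := Submodule.exists_mem_ne_zero_of_ne_bot hW0
    obtain ⟨f, hf, hwf⟩ := exists_hyp_partner Q (nd_of_nondegenerate hQ) w₀ hw₀0 (hW w₀ hw₀)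
    have hf0 : f ≠ 0 := by
      rintro rfl
      simp at hwf
    obtain ⟨g, hg, hgw⟩ := exists_Omega_act_eq Q hQ hn w₀ f (hW w₀ hw₀) hf hw₀0 hf0
    have h1 : (g : GL ι F) ∈ Cfsg.Geo.omegaGL ⇑Q := (mem_omegaGL _ _).2 ⟨g, hg, rfl⟩
    rw [← heq] at h1
    have h2 := ((mem_subspaceStabilizer W _).1 h1.1 w₀).1 hw₀
    have h3 : f ∈ W := by rw [← hgw]; exact h2
    rw [polar_ts hW hw₀ h3] at hwf
    exact zero_ne_one hwf
  · intro M hHM hMK
    by_cases hMH : M ≤ Cfsg.Geo.subspaceStabilizer W ⊓ Cfsg.Geo.omegaGL ⇑Q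
    · exact Or.inl (le_antisymm hMH hHM)
    · right
      apply le_antisymm hMK
      obtain ⟨g, hgM, hgH⟩ := SetLike.not_le_iff_exists.1 hMH
      obtain ⟨g', hg'Ω, rfl⟩ := (mem_omegaGL _ _).1 (hMK hgM)
      have hns : (g' : GL ι F) ∉ Cfsg.Geo.subspaceStabilizer W := fun h => hgH ⟨h, hMK hgM⟩
      obtain ⟨w₀, hw₀, hgw⟩ : ∃ w₀ ∈ W, act Q g' w₀ ∉ W := by
        by_contra hcon
        push Not at hcon
        exact hns (mem_subspaceStabilizer_of_forall W _ hcon)
      have key := omega_le_of_parabolic hQ hn W hW hdim (M.comap (Cfsg.isometryGroup F ⇑Q).subtype) (by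
        intro h hh hhW
        apply hHM
        exact ⟨mem_subspaceStabilizer_of_forall W _ hhW, (mem_omegaGL _ _).2 ⟨h, hh, rfl⟩⟩) g' hgM w₀ hw₀ hgw
      intro k hk
      obtain ⟨k', hk', rfl⟩ := (mem_omegaGL _ _).1 hk
      exact key hk'

end Cfsg.Agent.Lib.Helper29
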