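import Mathlib
import Cfsg.Agent.Lib.Helper29.OmParabolic

/-!
Membership of single Eichler transformations in a subgroup `M` of the isometry group; commutator formula.
-/

set_option autoImplicit false

namespace Cfsg.Agent.Lib.Helper29

open Matrix QuadraticMap Module Cfsg.Agent.Lib.Helper15

variable {ι : Type} [Fintype ι] [DecidableEq ι] {F : Type*} [Field F] {Q : QuadraticForm F (ι → F)}

/-- the Eichler transformation `E(u,v)` (if defined) lies in `M` -/
def EM (M : Subgroup (Cfsg.isometryGroup F ⇑Q)) (u v : ι → F) : Prop :=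
  ∀ (hu : Q u = 0) (huv : polar Q u v = 0), eich Q u v hu huv ∈ M

variable {M : Subgroup (Cfsg.isometryGroup F ⇑Q)}

theorem EM_add {u v w : ι → F} (h1 : EM M u v) (h2 : EM M u w) (huv : polar Q u v = 0) : EM M u (v + w) := by
  intro hu huvw
  have huw : polar Q u w = 0 := by
    rw [polar_add_right, huv, zero_add] at huvw
    exact huvw
  have := M.mul_mem (h1 hu huv) (h2 hu huw)
  rwa [eich_mul] at this

theorem EM_neg {u v : ι → F} (h1 : EM M u v) : EM M u (-v) := by
  intro hu huv
  have huv' : polar Q u v = 0 := by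
    rw [polar_neg_right, neg_eq_zero] at huv
    exact huv
  have := M.inv_mem (h1 hu huv')
  rwa [eich_inv] at this

theorem EM_sub {u v w : ι → F} (h1 : EM M u v) (h2 : EM M u w) (huv : polar Q u v = 0) : EM M u (v - w) := by
  rw [sub_eq_add_neg]
  exact EM_add h1 (EM_neg h2) huv

theorem EM_self (u : ι → F) (c : F) : EM M u (c • u) := by
  intro hu huv
  rw [eich_smul_self]
  exact M.one_mem

theorem EM_zero (u : ι → F) : EM M u 0 := by
  intro hu huv
  rw [eich_zero]
  exact M.one_mem

theorem EM_act {u v : ι → F} (h1 : EM M u v) {g : Cfsg.isometryGroup F ⇑Q} (hg : g ∈ M) :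
    EM M (act Q g u) (act Q g v) := by
  intro hu huv
  have hu' : Q u = 0 := by rw [← Q_act g, hu]
  have huv' : polar Q u v = 0 := by rw [← polar_act g, huv]
  have h2 := M.mul_mem (M.mul_mem hg (h1 hu' huv')) (M.inv_mem hg)
  rwa [conj_eich] at h2

theorem EM_congr {u u' v v' : ι → F} (h1 : EM M u v) (e1 : u = u') (e2 : v = v') : EM M u' v' := by
  subst e1; subst e2; exact h1

/-- Siegel transformations are symmetric in the two vectors -/
theorem EM_symm {u v : ι → F} (h1 : EM M u v) (hu : Q u = 0) : EM M v (-u) := by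
  intro hv hvu
  have huv : polar Q u v = 0 := by
    rw [polar_neg_right, neg_eq_zero, polar_comm] at hvu
    exact hvu
  have : eich Q v (-u) hv hvu = eich Q u v hu huv := by
    apply iso_ext
    intro x
    rw [act_eich, act_eich, hv, QuadraticMap.map_neg, hu, polar_neg_left]
    simp only [zero_mul, add_zero, smul_neg, neg_smul, sub_neg_eq_add]
    abel
  rw [this]
  exact h1 hu huv

theorem EM_smul_left {u v : ι → F} (c : F) (h1 : EM M u (c • v)) (huv : polar Q u v = 0) (hu : Q u = 0) :
    EM M (c • u) v := by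
  intro hcu hcuv
  rw [eich_smul_left Q u v c hu huv]
  exact h1 _ _

/-- commutator formula: `E(x,y)` fixing `u`. -/
theorem EM_comm {x y u v : ι → F} (h1 : EM M x y) (h2 : EM M u v) (hx : Q x = 0) (hxy : polar Q x y = 0)
    (huv : polar Q u v = 0) (hxu : polar Q x u = 0) (hyu : polar Q y u = 0) :
    EM M u (polar Q x v • y - (polar Q y v + Q y * polar Q x v) • x) := by
  have h3 := EM_act h2 (h1 hx hxy)
  have e1 : act Q (eich Q x y hx hxy) u = u := by
    rw [act_eich, hxu, hyu]; simp
  have e2 : act Q (eich Q x y hx hxy) v = v + polar Q x v • y - (polar Q y v + Q y * polar Q x v) • x := by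
    rw [act_eich]
  rw [e1, e2] at h3
  have huv2 : polar Q u (v + polar Q x v • y - (polar Q y v + Q y * polar Q x v) • x) = 0 := by
    rw [polar_sub_right, polar_add_right, polar_smul_right, polar_smul_right, huv, polar_comm Q u y, hyu,
      polar_comm Q u x, hxu]
    simp
  have h4 := EM_sub h3 h2 huv2
  refine EM_congr h4 rfl ?_
  abel

theorem mem_ocentres_iff {u : ι → F} : u ∈ ocentres Q M ↔ Q u = 0 ∧ ∀ v, EM M u v := by
  constructor
  · rintro ⟨hu, h⟩
    exact ⟨hu, fun v _ huv => h v huv⟩
  · rintro ⟨hu, h⟩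
    exact ⟨hu, fun v huv => h v hu huv⟩

/-- A vector of `W` outside `A` killed by `k` functionals. -/
theorem exists_ker_notMem_om {V : Type*} [AddCommGroup V] [Module F V]
    [FiniteDimensional F V] (W A : Submodule F V) {k : ℕ} (f : Fin k → Dual F V)
    (h : finrank F A + k < finrank F W) : ∃ z ∈ W, (∀ i, f i z = 0) ∧ z ∉ A := by
  let Ψ : W →ₗ[F] (Fin k → F) := LinearMap.pi (fun i => (f i) ∘ₗ W.subtype)
  have h1 := LinearMap.finrank_range_add_finrank_ker Ψ
  have h2 : finrank F (LinearMap.range Ψ) ≤ k := by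
    calc _ ≤ finrank F (Fin k → F) := Submodule.finrank_le _
      _ = k := by simp
  have h3 : ¬ (LinearMap.ker Ψ).map W.subtype ≤ A := fun hle => by
    have h4 := Submodule.finrank_mono hle
    rw [Submodule.finrank_map_subtype_eq] at h4
    omega
  obtain ⟨z, hz, hzA⟩ := SetLike.not_le_iff_exists.mp h3
  obtain ⟨y, hy, rfl⟩ := Submodule.mem_map.mp hz
  refine ⟨_, y.2, fun i => ?_, hzA⟩
  have : Ψ y = 0 := hy
  exact congrFun this i

/-- A singular vector of `W` outside `A` killed by `k` functionals. -/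
theorem exists_singular_ker_notMem [Finite F] {V : Type*} [AddCommGroup V] [Module F V]
    [FiniteDimensional F V] (Q : QuadraticForm F V) (W A : Submodule F V) {k : ℕ} (f : Fin k → Dual F V)
    (h : finrank F A + k + 3 ≤ finrank F W) : ∃ z ∈ W, Q z = 0 ∧ (∀ i, f i z = 0) ∧ z ∉ A := by
  let Ψ : W →ₗ[F] (Fin k → F) := LinearMap.pi (fun i => (f i) ∘ₗ W.subtype)
  have h1 := LinearMap.finrank_range_add_finrank_ker Ψ
  have h2 : finrank F (LinearMap.range Ψ) ≤ k := by
    calc _ ≤ finrank F (Fin k → F) := Submodule.finrank_le _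
      _ = k := by simp
  set K := LinearMap.ker Ψ with hK
  set A' : Submodule F K := A.comap (W.subtype ∘ₗ K.subtype) with hA'
  obtain ⟨C, hC⟩ := Submodule.exists_isCompl A'
  have h3 := Submodule.finrank_add_eq_of_isCompl hC
  have h4 : finrank F A' ≤ finrank F A := by
    have hinj : Function.Injective (W.subtype ∘ₗ K.subtype) := by
      intro a b hab
      exact Subtype.ext (Subtype.ext hab)
    have e1 : finrank F (A'.map (W.subtype ∘ₗ K.subtype)) = finrank F A' :=
      (LinearEquiv.finrank_eq (Submodule.equivMapOfInjective _ hinj A')).symm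
    rw [← e1]
    apply Submodule.finrank_mono
    rintro _ ⟨a, ha, rfl⟩
    exact ha
  have h5 : 3 ≤ finrank F C := by omega
  obtain ⟨z, hz0, hz⟩ := exists_isotropic (V := C) (Q.comp (W.subtype ∘ₗ K.subtype ∘ₗ C.subtype)) h5
  refine ⟨_, (z : K).1.2, hz, fun i => ?_, ?_⟩
  · have : Ψ (z : K) = 0 := (z : K).2
    exact congrFun this i
  · intro hzA
    apply hz0
    have : (z : K) ∈ A' ⊓ C := ⟨hzA, z.2⟩
    rw [hC.inf_eq_bot] at this
    exact Subtype.ext this

end Cfsg.Agent.Lib.Helper29
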