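import Mathlib
import Cfsg.Agent.Lib.Helper29.OmEM

/-!
Orthogonal decompositions `V = W ⊥ W'` and overgroups of the stabiliser in `Ω(Q)`.
-/

set_option autoImplicit false

namespace Cfsg.Agent.Lib.Helper29

open Matrix QuadraticMap Module Cfsg.Agent.Lib.Helper15

variable {ι : Type} [Fintype ι] [DecidableEq ι] {F : Type*} [Field F] {Q : QuadraticForm F (ι → F)}

/-- an orthogonal decomposition of the whole space -/
structure OPair (Q : QuadraticForm F (ι → F)) (W W' : Submodule F (ι → F)) : Prop where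
  perp : ∀ w ∈ W, ∀ w' ∈ W', polar Q w w' = 0
  sup : ∀ x, ∃ a ∈ W, ∃ b ∈ W', x = a + b

namespace OPair

variable {W W' : Submodule F (ι → F)}

omit [Fintype ι] [DecidableEq ι] in
theorem symm (P : OPair Q W W') : OPair Q W' W :=
  ⟨fun w hw w' hw' => by rw [polar_comm]; exact P.perp w' hw' w hw,
   fun x => by obtain ⟨a, ha, b, hb, rfl⟩ := P.sup x; exact ⟨b, hb, a, ha, add_comm _ _⟩⟩

omit [Fintype ι] [DecidableEq ι] in
theorem mem_of_perp (P : OPair Q W W') (hQ : (polarBilin Q).Nondegenerate) {y : ι → F}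
    (hy : ∀ w' ∈ W', polar Q w' y = 0) : y ∈ W := by
  obtain ⟨a, ha, b, hb, rfl⟩ := P.sup y
  have hb0 : b = 0 := by
    apply hQ.1 b
    intro z
    obtain ⟨a', ha', b', hb', rfl⟩ := P.sup z
    show polar Q b (a' + b') = 0
    rw [polar_add_right, polar_comm Q b a', P.perp a' ha' b hb, zero_add]
    have := hy b' hb'
    rw [polar_add_right, polar_comm Q b' a, P.perp a ha b' hb', zero_add] at this
    rw [polar_comm]; exact this
  rw [hb0, add_zero]; exact ha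

omit [Fintype ι] [DecidableEq ι] in
theorem disj (P : OPair Q W W') (hQ : (polarBilin Q).Nondegenerate) {x : ι → F} (h1 : x ∈ W) (h2 : x ∈ W') :
    x = 0 := by
  apply hQ.1 x
  intro z
  obtain ⟨a, ha, b, hb, rfl⟩ := P.sup z
  show polar Q x (a + b) = 0
  rw [polar_add_right, P.perp x h1 b hb, polar_comm Q x a, P.perp a ha x h2, add_zero]

omit [DecidableEq ι] in
theorem exists_dual (P : OPair Q W W') (hQ : (polarBilin Q).Nondegenerate) (S : Submodule F (ι → F))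
    (hS : S ≤ W) {c : ι → F} (hc : c ∈ W) (hnot : c ∉ S) :
    ∃ v ∈ W, (∀ s ∈ S, polar Q s v = 0) ∧ polar Q v c = 1 := by
  have h1 : c ∉ W' ⊔ S := by
    intro h
    obtain ⟨w', hw', s, hs, e⟩ := Submodule.mem_sup.1 h
    have h0 : w' = 0 := P.disj hQ (by
      have : w' = c - s := by rw [← e]; abel
      rw [this]; exact W.sub_mem hc (hS hs)) hw'
    apply hnot; rw [← e, h0, zero_add]; exact hs
  obtain ⟨y, hy1, hy2⟩ := exists_perp_not_perp' Q hQ _ c h1
  refine ⟨(polar Q y c)⁻¹ • y,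
    W.smul_mem _ (P.mem_of_perp hQ (fun w' hw' => hy1 w' (Submodule.mem_sup_left hw'))), ?_, ?_⟩
  · intro s hs; rw [polar_smul_right, hy1 s (Submodule.mem_sup_right hs), smul_zero]
  · rw [polar_smul_left, smul_eq_mul, inv_mul_cancel₀ hy2]

omit [DecidableEq ι] in
theorem exists_dual₀ (P : OPair Q W W') (hQ : (polarBilin Q).Nondegenerate) {c : ι → F} (hc : c ∈ W)
    (hc0 : c ≠ 0) : ∃ v ∈ W, polar Q v c = 1 := by
  obtain ⟨v, hv, -, h⟩ := P.exists_dual hQ ⊥ bot_le hc (by simpa using hc0)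
  exact ⟨v, hv, h⟩

omit [DecidableEq ι] in
theorem exists_singular_not_perp [Finite F] (P : OPair Q W W') (hQ : (polarBilin Q).Nondegenerate)
    (h3 : 3 ≤ finrank F W) {d : ι → F} (hd : d ∈ W) (hd0 : d ≠ 0) : ∃ u ∈ W, Q u = 0 ∧ polar Q u d ≠ 0 := by
  obtain ⟨s, hs, hQs, -, hs0⟩ := exists_singular_ker_notMem Q W ⊥ (k := 0) (fun i => i.elim0) (by simpa using h3)
  have hs0' : s ≠ 0 := by simpa using hs0
  by_cases hsd : polar Q s d = 0
  · obtain ⟨t₁, ht₁, h1⟩ := P.exists_dual₀ hQ hs hs0'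
    obtain ⟨t₂, ht₂, h2⟩ := P.exists_dual₀ hQ hd hd0
    obtain ⟨t, ht, hts, htd⟩ : ∃ t ∈ W, polar Q t s ≠ 0 ∧ polar Q t d ≠ 0 := by
      by_cases c1 : polar Q t₁ d = 0
      · by_cases c2 : polar Q t₂ s = 0
        · refine ⟨t₁ + t₂, W.add_mem ht₁ ht₂, ?_, ?_⟩
          · rw [polar_add_left, h1, c2]; simp
          · rw [polar_add_left, h2, c1]; simp
        · exact ⟨t₂, ht₂, c2, by rw [h2]; exact one_ne_zero⟩
      · exact ⟨t₁, ht₁, by rw [h1]; exact one_ne_zero, c1⟩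
    refine ⟨t - (Q t / polar Q t s) • s, W.sub_mem ht (W.smul_mem _ hs), ?_, ?_⟩
    · rw [sub_eq_add_neg, ← neg_smul, QuadraticMap.map_add Q, QuadraticMap.map_smul, hQs, polar_smul_right,
        smul_eq_mul, smul_eq_mul]
      field_simp
      ring
    · rw [polar_sub_left, polar_smul_left, hsd]; simpa using htd
  · exact ⟨s, hs, hQs, hsd⟩

omit [DecidableEq ι] in
theorem exists_perp_pair (P : OPair Q W W') (hQ : (polarBilin Q).Nondegenerate)
    (h3 : 3 ≤ finrank F W) {u : ι → F} (hu : u ∈ W) (hu0 : u ≠ 0) :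
    ∃ v₁ ∈ W, ∃ v₂ ∈ W, polar Q u v₁ = 0 ∧ polar Q u v₂ = 0 ∧ polar Q v₁ v₂ ≠ 0 := by
  obtain ⟨f, hf, hfu⟩ := P.exists_dual₀ hQ hu hu0
  obtain ⟨v₁, hv₁, hk, hv₁0⟩ := exists_ker_notMem_om W ⊥ (k := 2) ![polarBilin Q u, polarBilin Q f]
    (by simp; omega)
  have hv₁0' : v₁ ≠ 0 := by simpa using hv₁0
  have k1 : polar Q u v₁ = 0 := hk 0
  have k2 : polar Q f v₁ = 0 := hk 1
  obtain ⟨y, hy, hyv⟩ := P.exists_dual₀ hQ hv₁ hv₁0'
  refine ⟨v₁, hv₁, y - polar Q u y • f, W.sub_mem hy (W.smul_mem _ hf), k1, ?_, ?_⟩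
  · rw [polar_sub_right, polar_smul_right, polar_comm Q u f, hfu]; simp
  · rw [polar_sub_right, polar_smul_right, polar_comm Q v₁ f, k2, polar_comm Q v₁ y, hyv]; simp

omit [DecidableEq ι] in
theorem exists_nonsingular (P : OPair Q W W') (hQ : (polarBilin Q).Nondegenerate)
    (h3 : 3 ≤ finrank F W) {u : ι → F} (hu : u ∈ W) (hu0 : u ≠ 0) :
    ∃ t ∈ W, polar Q u t = 0 ∧ Q t ≠ 0 := by
  obtain ⟨v₁, hv₁, v₂, hv₂, k1, k2, k3⟩ := P.exists_perp_pair hQ h3 hu hu0
  by_cases c1 : Q v₁ = 0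
  · by_cases c2 : Q v₂ = 0
    · refine ⟨v₁ + v₂, W.add_mem hv₁ hv₂, by rw [polar_add_right, k1, k2, add_zero], ?_⟩
      rw [QuadraticMap.map_add Q, c1, c2]; simpa using k3
    · exact ⟨v₂, hv₂, k2, c2⟩
  · exact ⟨v₁, hv₁, k1, c1⟩

omit [DecidableEq ι] in
/-- the singular vectors of `W` span `W` -/
theorem le_of_singular [Finite F] (P : OPair Q W W') (hQ : (polarBilin Q).Nondegenerate)
    (h3 : 3 ≤ finrank F W) (S : Submodule F (ι → F)) (hS : ∀ u ∈ W, Q u = 0 → u ∈ S) : W ≤ S := by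
  intro w hw
  by_contra hwS
  obtain ⟨v, hv, hv1, hv2⟩ := P.exists_dual hQ (S ⊓ W) inf_le_right hw (fun h => hwS h.1)
  have hv0 : v ≠ 0 := by
    rintro rfl
    simp at hv2
  obtain ⟨u, hu, hQu, huv⟩ := P.exists_singular_not_perp hQ h3 hv hv0
  exact huv (hv1 u ⟨hS u hu hQu, hu⟩)

/-- irreducibility of `W` under the Eichler transformations of `W` -/
theorem irr [Finite F] (P : OPair Q W W') (hQ : (polarBilin Q).Nondegenerate)
    (h3 : 3 ≤ finrank F W) (A : Submodule F (ι → F)) {d : ι → F} (hd : d ∈ W) (hdA : d ∈ A) (hd0 : d ≠ 0)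
    (hinv : ∀ u ∈ W, ∀ v ∈ W, ∀ (hu : Q u = 0) (huv : polar Q u v = 0), ∀ a ∈ A, act Q (eich Q u v hu huv) a ∈ A) :
    W ≤ A := by
  obtain ⟨u, hu, hQu, hud⟩ := P.exists_singular_not_perp hQ h3 hd hd0
  have hu0 : u ≠ 0 := by
    rintro rfl
    simp at hud
  obtain ⟨v₁, hv₁, v₂, hv₂, k1, k2, k3⟩ := P.exists_perp_pair hQ h3 hu hu0
  have key : ∀ v ∈ W, polar Q u v = 0 → polar Q u d • v - (polar Q v d + Q v * polar Q u d) • u ∈ A := by
    intro v hv huv
    have := A.sub_mem (hinv u hu v hv hQu huv d hdA) hdA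
    rw [act_eich] at this
    convert this using 1
    abel
  have huA : u ∈ A := by
    have e1 := key v₁ hv₁ k1
    have e2 := key v₂ hv₂ k2
    have e3 := key (v₁ + v₂) (W.add_mem hv₁ hv₂) (by rw [polar_add_right, k1, k2, add_zero])
    have e4 := A.sub_mem (A.add_mem e1 e2) e3
    have e5 : polar Q u d • v₁ - (polar Q v₁ d + Q v₁ * polar Q u d) • u
        + (polar Q u d • v₂ - (polar Q v₂ d + Q v₂ * polar Q u d) • u)
        - (polar Q u d • (v₁ + v₂) - (polar Q (v₁ + v₂) d + Q (v₁ + v₂) * polar Q u d) • u)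
        = (polar Q v₁ v₂ * polar Q u d) • u := by
      rw [polar_add_left, QuadraticMap.map_add Q]
      module
    rw [e5] at e4
    have := A.smul_mem (polar Q v₁ v₂ * polar Q u d)⁻¹ e4
    rwa [smul_smul, inv_mul_cancel₀ (mul_ne_zero k3 hud), one_smul] at this
  have hperp : ∀ v ∈ W, polar Q u v = 0 → v ∈ A := by
    intro v hv huv
    have e1 := A.add_mem (key v hv huv) (A.smul_mem (polar Q v d + Q v * polar Q u d) huA)
    rw [sub_add_cancel] at e1
    have := A.smul_mem (polar Q u d)⁻¹ e1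
    rwa [smul_smul, inv_mul_cancel₀ hud, one_smul] at this
  intro w hw
  have e1 : w = (w - (polar Q u w / polar Q u d) • d) + (polar Q u w / polar Q u d) • d := by abel
  rw [e1]
  refine A.add_mem (hperp _ (W.sub_mem hw (W.smul_mem _ hd)) ?_) (A.smul_mem _ hdA)
  rw [polar_sub_right, polar_smul_right, smul_eq_mul]
  field_simp
  ring

section group

variable {M : Subgroup (Cfsg.isometryGroup F ⇑Q)}

theorem EM_of_mem [Finite F] (P : OPair Q W W') (hQ : (polarBilin Q).Nondegenerate) (hn : 5 ≤ Fintype.card ι)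
    (hM : ∀ g ∈ Cfsg.Omega F ⇑Q, (∀ w ∈ W, act Q g w ∈ W) → (∀ w ∈ W', act Q g w ∈ W') → g ∈ M)
    {u v : ι → F} (hu : u ∈ W) (hv : v ∈ W) : EM M u v := by
  intro hQu huv
  apply hM _ (eich_mem_Omega Q hQ hn _ _ _ _)
  · intro w hw
    rw [act_eich]
    exact W.sub_mem (W.add_mem hw (W.smul_mem _ hv)) (W.smul_mem _ hu)
  · intro w hw
    rw [act_eich, P.perp u hu w hw, P.perp v hv w hw]
    simpa using hw

/-- a centre in `W` forces `M ≥ Ω` -/
theorem omega_le_of_centre [Fintype F] (P : OPair Q W W') (hQ : (polarBilin Q).Nondegenerate)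
    (hn : 5 ≤ Fintype.card ι) (h3 : 3 ≤ finrank F W)
    (hM : ∀ g ∈ Cfsg.Omega F ⇑Q, (∀ w ∈ W, act Q g w ∈ W) → (∀ w ∈ W', act Q g w ∈ W') → g ∈ M)
    {u₀ : ι → F} (hu₀ : u₀ ∈ W) (hu₀0 : u₀ ≠ 0) (hC : u₀ ∈ ocentres Q M) : Cfsg.Omega F ⇑Q ≤ M := by
  obtain ⟨s, hs, hQs, hsu⟩ := P.exists_singular_not_perp hQ h3 hu₀ hu₀0
  have hs0 : s ≠ 0 := by
    rintro rfl
    simp at hsu
  obtain ⟨t, ht, hst, hQt⟩ := P.exists_nonsingular hQ h3 hs hs0
  have hh := P.EM_of_mem hQ hn hM hs ht hQs hst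
  apply omega_le_of_opp hQ hn hC (ocentres_act hC hh)
  rw [act_eich, polar_sub_right, polar_add_right, polar_smul_right, polar_smul_right, polar_self, hC.1,
    polar_comm Q u₀ s, polar_comm Q u₀ t]
  simp only [smul_eq_mul, smul_zero, zero_add]
  have : polar Q s u₀ * polar Q t u₀ - (polar Q t u₀ + Q t * polar Q s u₀) * polar Q s u₀
      = - (Q t * polar Q s u₀ * polar Q s u₀) := by ring
  rw [this, neg_ne_zero]
  exact mul_ne_zero (mul_ne_zero hQt hsu) hsu

/-- an Eichler transformation `E(u,z)`, `u ∈ W`, `z ∉ W`, (with its multiples) forces `M ≥ Ω` -/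
theorem omega_le_of_extra [Fintype F] (P : OPair Q W W') (hQ : (polarBilin Q).Nondegenerate)
    (hn : 5 ≤ Fintype.card ι) (h3 : 3 ≤ finrank F W) (h3' : 3 ≤ finrank F W')
    (hM : ∀ g ∈ Cfsg.Omega F ⇑Q, (∀ w ∈ W, act Q g w ∈ W) → (∀ w ∈ W', act Q g w ∈ W') → g ∈ M)
    {u₀ z : ι → F} (hu₀ : u₀ ∈ W) (hu₀0 : u₀ ≠ 0) (hQu₀ : Q u₀ = 0) (hu₀z : polar Q u₀ z = 0) (hz : z ∉ W)
    (hE : ∀ c : F, EM M u₀ (c • z)) : Cfsg.Omega F ⇑Q ≤ M := by
  have hM' : ∀ g ∈ Cfsg.Omega F ⇑Q, (∀ w ∈ W', act Q g w ∈ W') → (∀ w ∈ W, act Q g w ∈ W) → g ∈ M :=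
    fun g hg h1 h2 => hM g hg h2 h1
  obtain ⟨c₀, hc₀, d, hd, rfl⟩ := P.sup z
  have hd0 : d ≠ 0 := by
    rintro rfl
    apply hz
    rw [add_zero]; exact hc₀
  have hu₀c₀ : polar Q u₀ c₀ = 0 := by
    rw [polar_add_right, P.perp u₀ hu₀ d hd, add_zero] at hu₀z
    exact hu₀z
  -- the submodule of admissible vectors
  let A : Submodule F (ι → F) :=
    { carrier := {b | polar Q u₀ b = 0 ∧ ∀ c : F, EM M u₀ (c • b)}
      add_mem' := by
        rintro a b ⟨ha0, ha⟩ ⟨hb0, hb⟩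
        refine ⟨by rw [polar_add_right, ha0, hb0, add_zero], fun c => ?_⟩
        rw [smul_add]
        exact EM_add (ha c) (hb c) (by rw [polar_smul_right, ha0, smul_zero])
      zero_mem' := ⟨by simp, fun c => by rw [smul_zero]; exact EM_zero _⟩
      smul_mem' := by
        rintro c a ⟨ha0, ha⟩
        refine ⟨by rw [polar_smul_right, ha0, smul_zero], fun c' => ?_⟩
        rw [smul_smul]
        exact ha _ }
  have hdA : d ∈ A := by
    refine ⟨P.perp u₀ hu₀ d hd, fun c => ?_⟩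
    have h1 := EM_sub (hE c) (P.EM_of_mem hQ hn hM hu₀ (W.smul_mem c hc₀))
      (by rw [polar_smul_right, hu₀z, smul_zero])
    refine EM_congr h1 rfl ?_
    rw [smul_add, add_sub_cancel_left]
  have hW'A : W' ≤ A := by
    apply P.symm.irr hQ h3' A hd hdA hd0
    intro u hu v hv hQu huv a ha
    have hh := P.symm.EM_of_mem hQ hn hM' hu hv hQu huv
    have hfix : act Q (eich Q u v hQu huv) u₀ = u₀ := by
      rw [act_eich, polar_comm Q u u₀, P.perp u₀ hu₀ u hu, polar_comm Q v u₀, P.perp u₀ hu₀ v hv]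
      simp
    refine ⟨?_, fun c => ?_⟩
    · rw [← hfix, polar_act]; exact ha.1
    · have := EM_act (ha.2 c) hh
      rw [hfix, act_smul] at this
      exact this
  apply P.omega_le_of_centre hQ hn h3 hM hu₀ hu₀0
  rw [mem_ocentres_iff]
  refine ⟨hQu₀, fun v => ?_⟩
  intro hu huv
  obtain ⟨a, ha, b, hb, rfl⟩ := P.sup v
  have h1 := (hW'A hb).2 1
  rw [one_smul] at h1
  have hu₀a : polar Q u₀ a = 0 := by
    rw [polar_add_right, P.perp u₀ hu₀ b hb, add_zero] at huv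
    exact huv
  exact EM_add (P.EM_of_mem hQ hn hM hu₀ ha) h1 hu₀a hu huv

/-- the `W`-component of `y` is a multiple of that of `x` whenever `E(x,y) ∈ M` and `x ∉ W` -/
theorem omega_le_of_comp [Fintype F] (P : OPair Q W W') (hQ : (polarBilin Q).Nondegenerate)
    (hn : 5 ≤ Fintype.card ι) (h7 : 7 ≤ finrank F W) (h3' : 3 ≤ finrank F W')
    (hM : ∀ g ∈ Cfsg.Omega F ⇑Q, (∀ w ∈ W, act Q g w ∈ W) → (∀ w ∈ W', act Q g w ∈ W') → g ∈ M)
    {a b c₁ d₁ : ι → F} (ha : a ∈ W) (hb : b ∈ W') (hc₁ : c₁ ∈ W) (hd₁ : d₁ ∈ W') (hb0 : b ≠ 0)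
    (hx : Q (a + b) = 0) (hxy : polar Q (a + b) (c₁ + d₁) = 0) (hE : EM M (a + b) (c₁ + d₁))
    (hnot : c₁ ∉ Submodule.span F {a}) : Cfsg.Omega F ⇑Q ≤ M := by
  have hfr : finrank F (Submodule.span F {a, c₁}) ≤ 2 := by
    classical
    have := finrank_span_finset_le_card (R := F) ({a, c₁} : Finset (ι → F))
    have h3 : ({a, c₁} : Finset (ι → F)).card ≤ 2 := Finset.card_le_two
    have h4 : ((({a, c₁} : Finset (ι → F)) : Set (ι → F))) = {a, c₁} := by simp
    rw [h4] at this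
    unfold Set.finrank at this
    omega
  obtain ⟨u, hu, hQu, hk, hunot⟩ := exists_singular_ker_notMem Q W (Submodule.span F {a, c₁}) (k := 2)
    ![polarBilin Q a, polarBilin Q c₁] (by omega)
  have k1 : polar Q a u = 0 := hk 0
  have k2 : polar Q c₁ u = 0 := hk 1
  have hu0 : u ≠ 0 := by
    rintro rfl
    exact hunot (Submodule.zero_mem _)
  have hc₁not : c₁ ∉ Submodule.span F {a, u} := by
    intro h
    obtain ⟨α, β, hαβ⟩ := Submodule.mem_span_pair.1 h
    by_cases hβ : β = 0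
    · apply hnot
      rw [Submodule.mem_span_singleton]
      exact ⟨α, by rw [← hαβ, hβ]; simp⟩
    · apply hunot
      rw [Submodule.mem_span_pair]
      refine ⟨-(β⁻¹ * α), β⁻¹, ?_⟩
      rw [← hαβ, smul_add, smul_smul, smul_smul, inv_mul_cancel₀ hβ, one_smul, neg_smul]
      abel
  obtain ⟨v, hv, hv1, hv2⟩ := P.exists_dual hQ (Submodule.span F {a, u}) (by
    rw [Submodule.span_le]
    rintro x (rfl | rfl)
    · exact ha
    · exact hu) hc₁ hc₁not
  have hav : polar Q a v = 0 := hv1 a (Submodule.subset_span (by simp))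
  have huv : polar Q u v = 0 := hv1 u (Submodule.subset_span (by simp))
  have hxu : polar Q (a + b) u = 0 := by
    rw [polar_add_left, k1, polar_comm Q b u, P.perp u hu b hb, add_zero]
  have hyu : polar Q (c₁ + d₁) u = 0 := by
    rw [polar_add_left, k2, polar_comm Q d₁ u, P.perp u hu d₁ hd₁, add_zero]
  have hxv : polar Q (a + b) v = 0 := by
    rw [polar_add_left, hav, polar_comm Q b v, P.perp v hv b hb, add_zero]
  have hyv : polar Q (c₁ + d₁) v = 1 := by
    rw [polar_add_left, polar_comm Q c₁ v, hv2, polar_comm Q d₁ v, P.perp v hv d₁ hd₁, add_zero]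
  apply P.omega_le_of_extra hQ hn (by omega) h3' hM hu hu0 hQu (z := a + b) (by rw [polar_comm]; exact hxu)
  · intro h
    apply hb0
    apply P.disj hQ _ hb
    have : b = (a + b) - a := by abel
    rw [this]
    exact W.sub_mem h ha
  · intro c
    have h1 := EM_comm hE (P.EM_of_mem hQ hn hM hu (W.smul_mem (-c) hv)) hx hxy
      (by rw [polar_smul_right, huv, smul_zero]) hxu hyu
    refine EM_congr h1 rfl ?_
    rw [polar_smul_right, polar_smul_right, hxv, hyv]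
    simp
    exact add_comm _ _

/-- main theorem: an element of `M` mapping `W` neither into `W` nor into `W'` forces `M ≥ Ω` -/
theorem omega_le [Fintype F] (P : OPair Q W W') (hQ : (polarBilin Q).Nondegenerate)
    (hn : 5 ≤ Fintype.card ι) (h7 : 7 ≤ finrank F W) (h7' : 7 ≤ finrank F W')
    (hM : ∀ g ∈ Cfsg.Omega F ⇑Q, (∀ w ∈ W, act Q g w ∈ W) → (∀ w ∈ W', act Q g w ∈ W') → g ∈ M)
    {g : Cfsg.isometryGroup F ⇑Q} (hg : g ∈ M) {w₀ w₁ : ι → F} (hw₀ : w₀ ∈ W) (hgw₀ : act Q g w₀ ∉ W)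
    (hw₁ : w₁ ∈ W) (hgw₁ : act Q g w₁ ∉ W') : Cfsg.Omega F ⇑Q ≤ M := by
  have hM' : ∀ g ∈ Cfsg.Omega F ⇑Q, (∀ w ∈ W', act Q g w ∈ W') → (∀ w ∈ W, act Q g w ∈ W) → g ∈ M :=
    fun g hg h1 h2 => hM g hg h2 h1
  have hex : ∀ (S : Submodule F (ι → F)) (w : ι → F), w ∈ W → act Q g w ∉ S →
      ∃ u ∈ W, Q u = 0 ∧ act Q g u ∉ S := by
    intro S w hw hgw
    by_contra hcon
    push Not at hcon
    have := P.le_of_singular hQ (by omega) (S.comap (Matrix.mulVecLin ((g : GL ι F) : Matrix ι ι F)))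
      (fun u hu hQu => hcon u hu hQu)
    exact hgw (this hw)
  obtain ⟨ua, hua, hQua, hgua⟩ := hex W w₀ hw₀ hgw₀
  obtain ⟨ub, hub, hQub, hgub⟩ := hex W' w₁ hw₁ hgw₁
  obtain ⟨u₁, hu₁, hQu₁, hg1, hg2⟩ : ∃ u₁ ∈ W, Q u₁ = 0 ∧ act Q g u₁ ∉ W ∧ act Q g u₁ ∉ W' := by
    by_cases c1 : act Q g ua ∈ W'
    · by_cases c2 : act Q g ub ∈ W
      · have hperp : polar Q ua ub = 0 := by
          rw [← polar_act g, polar_comm]
          exact P.perp _ c2 _ c1
        refine ⟨ua + ub, W.add_mem hua hub, by rw [QuadraticMap.map_add Q, hQua, hQub, hperp]; ring, ?_, ?_⟩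
        · intro h
          rw [act_add] at h
          exact hgua ((W.add_mem_iff_left c2).1 h)
        · intro h
          rw [act_add] at h
          exact hgub ((W'.add_mem_iff_right c1).1 h)
      · exact ⟨ub, hub, hQub, c2, hgub⟩
    · exact ⟨ua, hua, hQua, hgua, c1⟩
  obtain ⟨a, ha, b, hb, hab⟩ := P.sup (act Q g u₁)
  have ha0 : a ≠ 0 := by
    rintro rfl
    apply hg2
    rw [hab, zero_add]; exact hb
  have hb0 : b ≠ 0 := by
    rintro rfl
    apply hg1
    rw [hab, add_zero]; exact ha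
  have hx : Q (a + b) = 0 := by rw [← hab, Q_act, hQu₁]
  by_contra hcon
  -- every vector of `g (W ∩ u₁^⊥)` lies in the span of `a`, `b`
  have hY : ∀ w ∈ W, polar Q u₁ w = 0 → act Q g w ∈ Submodule.span F {a, b} := by
    intro w hw hu₁w
    obtain ⟨c₁, hc₁, d₁, hd₁, hcd⟩ := P.sup (act Q g w)
    have hE : EM M (a + b) (c₁ + d₁) := by
      rw [← hab, ← hcd]
      exact EM_act (P.EM_of_mem hQ hn hM hu₁ hw) hg
    have hxy : polar Q (a + b) (c₁ + d₁) = 0 := by rw [← hab, ← hcd, polar_act, hu₁w]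
    have m1 : c₁ ∈ Submodule.span F {a} := by
      by_contra hnot
      exact hcon (P.omega_le_of_comp hQ hn h7 (by omega) hM ha hb hc₁ hd₁ hb0 hx hxy hE hnot)
    have m2 : d₁ ∈ Submodule.span F {b} := by
      by_contra hnot
      refine hcon (P.symm.omega_le_of_comp hQ hn h7' (by omega) hM' hb ha hd₁ hc₁ ha0 ?_ ?_ ?_ hnot)
      · rw [add_comm]; exact hx
      · rw [add_comm b a, add_comm d₁ c₁]; exact hxy
      · rw [add_comm b a, add_comm d₁ c₁]; exact hE
    rw [hcd]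
    obtain ⟨α, rfl⟩ := Submodule.mem_span_singleton.1 m1
    obtain ⟨β, rfl⟩ := Submodule.mem_span_singleton.1 m2
    exact Submodule.mem_span_pair.2 ⟨α, β, rfl⟩
  have hfr : finrank F (Submodule.span F {a, b}) ≤ 2 := by
    classical
    have := finrank_span_finset_le_card (R := F) ({a, b} : Finset (ι → F))
    have h3 : ({a, b} : Finset (ι → F)).card ≤ 2 := Finset.card_le_two
    have h4 : ((({a, b} : Finset (ι → F)) : Set (ι → F))) = {a, b} := by simp
    rw [h4] at this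
    unfold Set.finrank at this
    omega
  set T := (Submodule.span F {a, b}).comap (Matrix.mulVecLin ((g : GL ι F) : Matrix ι ι F)) with hT
  have hfrT : finrank F T ≤ 2 := by
    have e1 : finrank F (T.map (Matrix.mulVecLin ((g : GL ι F) : Matrix ι ι F))) = finrank F T :=
      finrank_map_GL T _
    rw [← e1]
    refine le_trans (Submodule.finrank_mono ?_) hfr
    rintro _ ⟨t, ht, rfl⟩
    exact ht
  obtain ⟨z, hz, hk, hzT⟩ := exists_ker_notMem_om W T (k := 1) ![polarBilin Q u₁] (by omega)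
  exact hzT (hY z hz (hk 0))

end group

end OPair

end Cfsg.Agent.Lib.Helper29
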