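import Mathlib
import Cfsg.Agent.Lib.Helper29.OmOPair

/-!
Bridging lemmas: decompositions into two subspaces, subgroups of GL versus subgroups of the isometry group.
-/

set_option autoImplicit false

namespace Cfsg.Agent.Lib.Helper29

open Matrix QuadraticMap Module Cfsg.Agent.Lib.Helper15

variable {ι : Type} [Fintype ι] [DecidableEq ι] {F : Type*} [Field F]

theorem map_toLin_eq_of_forall (g : GL ι F) (W W' : Submodule F (ι → F))
    (h : ∀ w ∈ W, (g : Matrix ι ι F) *ᵥ w ∈ W') (hf : finrank F W = finrank F W') :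
    W.map (Matrix.toLin' (g : Matrix ι ι F)) = W' := by
  apply Submodule.eq_of_le_of_finrank_eq
  · rintro _ ⟨w, hw, rfl⟩
    exact h w hw
  · rw [← hf]
    exact finrank_map_GL W g

theorem sup_eq_top_of_pair {k : ℕ} {D : Fin 2 → Submodule F (ι → F)} (hD : Cfsg.Geo.IsMDecomposition k D) :
    D 0 ⊔ D 1 = ⊤ := by
  apply le_antisymm le_top
  rw [← hD.iSup_eq_top]
  apply iSup_le
  intro i
  fin_cases i
  · exact le_sup_left
  · exact le_sup_right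

theorem exists_add_of_pair {k : ℕ} {D : Fin 2 → Submodule F (ι → F)} (hD : Cfsg.Geo.IsMDecomposition k D)
    (v : ι → F) : ∃ a ∈ D 0, ∃ b ∈ D 1, v = a + b := by
  have hv : v ∈ D 0 ⊔ D 1 := by rw [sup_eq_top_of_pair hD]; trivial
  obtain ⟨w, hw, w', hw', e⟩ := Submodule.mem_sup.mp hv
  exact ⟨w, hw, w', hw', e.symm⟩

theorem mem_pairStab_fix {D : Fin 2 → Submodule F (ι → F)} (g : GL ι F)
    (h0 : ∀ w ∈ D 0, (g : Matrix ι ι F) *ᵥ w ∈ D 0) (h1 : ∀ w ∈ D 1, (g : Matrix ι ι F) *ᵥ w ∈ D 1) :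
    g ∈ Cfsg.Geo.decompositionStabilizer D := by
  refine ⟨1, fun i => ?_⟩
  fin_cases i
  · exact map_toLin_eq_of_forall g _ _ h0 rfl
  · exact map_toLin_eq_of_forall g _ _ h1 rfl

theorem mem_pairStab_swap {k : ℕ} {D : Fin 2 → Submodule F (ι → F)} (hD : Cfsg.Geo.IsMDecomposition k D)
    (g : GL ι F)
    (h0 : ∀ w ∈ D 0, (g : Matrix ι ι F) *ᵥ w ∈ D 1) (h1 : ∀ w ∈ D 1, (g : Matrix ι ι F) *ᵥ w ∈ D 0) :
    g ∈ Cfsg.Geo.decompositionStabilizer D := by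
  refine ⟨Equiv.swap 0 1, fun i => ?_⟩
  fin_cases i
  · exact map_toLin_eq_of_forall g _ _ h0 ((hD.finrank_eq _).trans (hD.finrank_eq _).symm)
  · exact map_toLin_eq_of_forall g _ _ h1 ((hD.finrank_eq _).trans (hD.finrank_eq _).symm)

/-- an element of the stabiliser of a pair maps `D 0` into `D 0` or into `D 1` -/
theorem pairStab_cases {D : Fin 2 → Submodule F (ι → F)} {g : GL ι F}
    (hg : g ∈ Cfsg.Geo.decompositionStabilizer D) :
    (∀ w ∈ D 0, (g : Matrix ι ι F) *ᵥ w ∈ D 0) ∨ (∀ w ∈ D 0, (g : Matrix ι ι F) *ᵥ w ∈ D 1) := by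
  obtain ⟨σ, hσ⟩ := hg
  have hcases : σ 0 = 0 ∨ σ 0 = 1 := by
    generalize σ 0 = j
    fin_cases j
    · left; rfl
    · right; rfl
  have h0 := hσ 0
  rcases hcases with hc | hc
  · left
    intro w hw
    rw [hc] at h0
    rw [← h0]
    exact ⟨w, hw, rfl⟩
  · right
    intro w hw
    rw [hc] at h0
    rw [← h0]
    exact ⟨w, hw, rfl⟩

/-- maximality in `Ω` from a statement about subgroups of the isometry group -/
theorem isMaximalIn_omega_of {Q : QuadraticForm F (ι → F)} (H : Subgroup (GL ι F))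
    (hne : ∃ g ∈ Cfsg.Omega F ⇑Q, ((g : Cfsg.isometryGroup F ⇑Q) : GL ι F) ∉ H)
    (hmax : ∀ M : Subgroup (Cfsg.isometryGroup F ⇑Q),
      (∀ g ∈ Cfsg.Omega F ⇑Q, ((g : Cfsg.isometryGroup F ⇑Q) : GL ι F) ∈ H → g ∈ M) →
      ∀ g ∈ M, g ∈ Cfsg.Omega F ⇑Q → ((g : Cfsg.isometryGroup F ⇑Q) : GL ι F) ∉ H → Cfsg.Omega F ⇑Q ≤ M) :
    Cfsg.Geo.IsMaximalIn (Cfsg.Geo.omegaGL ⇑Q) (H ⊓ Cfsg.Geo.omegaGL ⇑Q) := by
  constructor
  · refine lt_of_le_of_ne inf_le_right ?_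
    intro heq
    obtain ⟨g, hg, hgH⟩ := hne
    have h1 : (g : GL ι F) ∈ Cfsg.Geo.omegaGL ⇑Q := (mem_omegaGL _ _).2 ⟨g, hg, rfl⟩
    rw [← heq] at h1
    exact hgH h1.1
  · intro M hHM hMK
    by_cases hMH : M ≤ H ⊓ Cfsg.Geo.omegaGL ⇑Q
    · exact Or.inl (le_antisymm hMH hHM)
    · right
      apply le_antisymm hMK
      obtain ⟨g, hgM, hgH⟩ := SetLike.not_le_iff_exists.1 hMH
      obtain ⟨g', hg'Ω, rfl⟩ := (mem_omegaGL _ _).1 (hMK hgM)
      have key := hmax (M.comap (Cfsg.isometryGroup F ⇑Q).subtype) (by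
        intro h hh hhH
        apply hHM
        exact ⟨hhH, (mem_omegaGL _ _).2 ⟨h, hh, rfl⟩⟩) g' hgM hg'Ω (fun h => hgH ⟨h, hMK hgM⟩)
      intro k hk
      obtain ⟨k', hk', rfl⟩ := (mem_omegaGL _ _).1 hk
      exact key hk'

end Cfsg.Agent.Lib.Helper29
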