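import Mathlib
import Cfsg.Agent.Lib.Helper29.OmBridge

/-!
The stabiliser of a non-singular point is maximal in `Ω(Q)`.
-/

set_option autoImplicit false

namespace Cfsg.Agent.Lib.Helper29

open Matrix QuadraticMap Module Cfsg.Agent.Lib.Helper15

variable {ι : Type} [Fintype ι] [DecidableEq ι] {F : Type*} [Field F] {Q : QuadraticForm F (ι → F)}

omit [DecidableEq ι] in
theorem finrank_span_pair_le (a b : ι → F) : finrank F (Submodule.span F {a, b}) ≤ 2 := by
  classical
  have := finrank_span_finset_le_card (R := F) ({a, b} : Finset (ι → F))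
  have h3 : ({a, b} : Finset (ι → F)).card ≤ 2 := Finset.card_le_two
  have h4 : ((({a, b} : Finset (ι → F)) : Set (ι → F))) = {a, b} := by simp
  rw [h4] at this
  unfold Set.finrank at this
  omega

omit [DecidableEq ι] in
theorem exists_nonsingular_pairPerp (hQ : (polarBilin Q).Nondegenerate) (hn : 5 ≤ Fintype.card ι) (u v : ι → F) :
    ∃ w, polar Q u w = 0 ∧ polar Q v w = 0 ∧ Q w ≠ 0 := by
  by_contra hcon
  push Not at hcon
  have h1 := two_mul_finrank_le_of_ts Q (nd_of_nondegenerate hQ) (pairPerp Q u v) (by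
    intro w hw
    rw [mem_pairPerp] at hw
    exact hcon w hw.1 hw.2)
  have h2 := three_le_finrank_pairPerp Q hn u v
  have h3 := LinearMap.finrank_range_add_finrank_ker ((polarBilin Q u).prod (polarBilin Q v))
  have h4 : finrank F (LinearMap.range ((polarBilin Q u).prod (polarBilin Q v))) ≤ 2 := by
    have := Submodule.finrank_le (LinearMap.range ((polarBilin Q u).prod (polarBilin Q v)))
    rwa [finrank_prod, finrank_self] at this
  rw [finrank_fintype_fun_eq_card] at h1 h3
  unfold pairPerp at h1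
  omega

theorem omega_le_of_point [Fintype F] (hQ : (polarBilin Q).Nondegenerate) (hn : 7 ≤ Fintype.card ι)
    (v : ι → F) (hv : Q v ≠ 0) (M : Subgroup (Cfsg.isometryGroup F ⇑Q))
    (hM : ∀ g ∈ Cfsg.Omega F ⇑Q, act Q g v = v → g ∈ M)
    (g : Cfsg.isometryGroup F ⇑Q) (hg : g ∈ M) (hgv : act Q g v ∉ Submodule.span F {v}) :
    Cfsg.Omega F ⇑Q ≤ M := by
  have hn5 : 5 ≤ Fintype.card ι := by omega
  have E1 : ∀ u w : ι → F, polar Q u v = 0 → polar Q w v = 0 → EM M u w := by
    intro u w huv hwv hu huw
    apply hM _ (eich_mem_Omega Q hQ hn5 _ _ _ _)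
    rw [act_eich, huv, hwv]; simp
  set v₁ := act Q g v with hv₁
  have E2 : ∀ u w : ι → F, polar Q u v₁ = 0 → polar Q w v₁ = 0 → EM M u w := by
    intro u w huv hwv
    have h1 := E1 (act Q g⁻¹ u) (act Q g⁻¹ w) (by rw [← polar_act g, act_act_inv]; exact huv)
      (by rw [← polar_act g, act_act_inv]; exact hwv)
    have h2 := EM_act h1 hg
    rwa [act_act_inv, act_act_inv] at h2
  obtain ⟨u, -, hQu, hk, hunot⟩ := exists_singular_ker_notMem Q ⊤ (Submodule.span F {v, v₁}) (k := 2)
    ![polarBilin Q v, polarBilin Q v₁] (by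
      have := finrank_span_pair_le v v₁
      rw [finrank_top, finrank_fintype_fun_eq_card]
      omega)
  have k1 : polar Q v u = 0 := hk 0
  have k2 : polar Q v₁ u = 0 := hk 1
  have hu0 : u ≠ 0 := by
    rintro rfl
    exact hunot (Submodule.zero_mem _)
  have hvnot : v ∉ Submodule.span F {u, v₁} := by
    intro h
    obtain ⟨α, β, hαβ⟩ := Submodule.mem_span_pair.1 h
    by_cases hα : α = 0
    · by_cases hβ : β = 0
      · rw [hα, hβ] at hαβ
        simp at hαβ
        rw [← hαβ] at hv
        simp at hv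
      · apply hgv
        rw [Submodule.mem_span_singleton]
        refine ⟨β⁻¹, ?_⟩
        rw [← hαβ, hα, zero_smul, zero_add, smul_smul, inv_mul_cancel₀ hβ, one_smul]
    · apply hunot
      rw [Submodule.mem_span_pair]
      refine ⟨α⁻¹, -(α⁻¹ * β), ?_⟩
      rw [← hαβ, smul_add, smul_smul, smul_smul, inv_mul_cancel₀ hα, one_smul, neg_smul]
      abel
  obtain ⟨p₀, hp₀1, hp₀2⟩ := exists_perp_not_perp' Q hQ _ v hvnot
  obtain ⟨p, hpu, hpv₁, hpv⟩ : ∃ p, polar Q u p = 0 ∧ polar Q v₁ p = 0 ∧ polar Q p v = 1 :=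
    ⟨(polar Q p₀ v)⁻¹ • p₀, by rw [polar_smul_right, hp₀1 u (Submodule.subset_span (by simp)), smul_zero],
      by rw [polar_smul_right, hp₀1 v₁ (Submodule.subset_span (by simp)), smul_zero],
      by rw [polar_smul_left, smul_eq_mul, inv_mul_cancel₀ hp₀2]⟩
  have huC : u ∈ ocentres Q M := by
    rw [mem_ocentres_iff]
    refine ⟨hQu, fun w => ?_⟩
    intro hu huw
    have e : w = (w - polar Q w v • p) + polar Q w v • p := by abel
    have h1 : EM M u (w - polar Q w v • p) := by
      apply E1 _ _ (by rw [polar_comm]; exact k1)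
      rw [polar_sub_left, polar_smul_left, hpv]; simp
    have h2 : EM M u (polar Q w v • p) := by
      apply E2 _ _ (by rw [polar_comm]; exact k2)
      rw [polar_smul_left, polar_comm Q p v₁, hpv₁, smul_zero]
    have h3 := EM_add h1 h2 (by rw [polar_sub_right, polar_smul_right, huw, hpu]; simp)
    rw [← e] at h3
    exact h3 hu huw
  have hunot' : u ∉ Submodule.span F {v} := by
    intro h
    apply hunot
    exact Submodule.span_mono (by simp) h
  obtain ⟨s, hQs, hvs, hus⟩ := exists_singular_perp Q hQ hn5 v u hunot'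
  obtain ⟨t, hst, hvt, hQt⟩ := exists_nonsingular_pairPerp hQ hn5 s v
  have hh := E1 s t (by rw [polar_comm]; exact hvs) (by rw [polar_comm]; exact hvt) hQs hst
  apply omega_le_of_opp hQ hn5 huC (ocentres_act huC hh)
  rw [act_eich, polar_sub_right, polar_add_right, polar_smul_right, polar_smul_right, polar_self, hQu,
    polar_comm Q s u, polar_comm Q t u]
  simp only [smul_eq_mul, smul_zero, zero_add]
  have : polar Q u s * polar Q u t - (polar Q u t + Q t * polar Q u s) * polar Q u s
      = - (Q t * polar Q u s * polar Q u s) := by ring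
  rw [this, neg_ne_zero]
  exact mul_ne_zero (mul_ne_zero hQt hus) hus

theorem point_isMaximalIn [Fintype F] (hQ : (polarBilin Q).Nondegenerate) (hn : 7 ≤ Fintype.card ι)
    (v : ι → F) (hv : Q v ≠ 0) :
    Cfsg.Geo.IsMaximalIn (Cfsg.Geo.omegaGL ⇑Q)
      (Cfsg.Geo.subspaceStabilizer (Submodule.span F {v}) ⊓ Cfsg.Geo.omegaGL ⇑Q) := by
  have hn5 : 5 ≤ Fintype.card ι := by omega
  apply isMaximalIn_omega_of
  · obtain ⟨u, -, hQu, hk, hu0⟩ := exists_singular_ker_notMem Q ⊤ ⊥ (k := 1)
      ![polarBilin Q v] (by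
        rw [finrank_top, finrank_fintype_fun_eq_card]
        simp; omega)
    have hu0' : u ≠ 0 := by simpa using hu0
    have k1 : polar Q v u = 0 := hk 0
    have hvnot : v ∉ Submodule.span F {u} := by
      intro h
      obtain ⟨c, rfl⟩ := Submodule.mem_span_singleton.1 h
      rw [QuadraticMap.map_smul, hQu, smul_zero] at hv
      exact hv rfl
    obtain ⟨y, huy, hyv⟩ := exists_perp_not_perp Q hQ v u hvnot
    refine ⟨eich Q u y hQu huy, eich_mem_Omega Q hQ hn5 _ _ _ _, fun h => ?_⟩
    have h1 := ((mem_subspaceStabilizer _ _).1 h v).1 (Submodule.mem_span_singleton_self v)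
    have h2 : act Q (eich Q u y hQu huy) v = v - polar Q y v • u := by
      rw [act_eich, polar_comm Q u v, k1]; simp
    have h3 : v - polar Q y v • u ∈ Submodule.span F {v} := by rw [← h2]; exact h1
    have h4 := (Submodule.sub_mem_iff_right _ (Submodule.mem_span_singleton_self v)).1 h3
    have h5 := Submodule.smul_mem _ (polar Q y v)⁻¹ h4
    rw [smul_smul, inv_mul_cancel₀ hyv, one_smul] at h5
    obtain ⟨c, rfl⟩ := Submodule.mem_span_singleton.1 h5
    rw [QuadraticMap.map_smul, smul_eq_mul] at hQu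
    rcases mul_eq_zero.1 hQu with h | h
    · apply hu0'
      have : c = 0 := by simpa using h
      rw [this, zero_smul]
    · exact hv h
  · intro M hHM g hgM _ hgH
    apply omega_le_of_point hQ hn v hv M _ g hgM
    · intro h
      apply hgH
      apply mem_subspaceStabilizer_of_forall
      intro w hw
      obtain ⟨c, rfl⟩ := Submodule.mem_span_singleton.1 hw
      rw [Matrix.mulVec_smul]
      exact Submodule.smul_mem _ _ h
    · intro h hh hhv
      apply hHM h hh
      apply mem_subspaceStabilizer_of_forall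
      intro w hw
      obtain ⟨c, rfl⟩ := Submodule.mem_span_singleton.1 hw
      rw [Matrix.mulVec_smul]
      apply Submodule.smul_mem
      have : ((h : GL ι F) : Matrix ι ι F) *ᵥ v = v := hhv
      rw [this]
      exact Submodule.mem_span_singleton_self v

end Cfsg.Agent.Lib.Helper29
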