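import Mathlib
import Cfsg.Agent.Lib.Helper29.OmPoint

/-!
General existence lemmas for singular vectors perpendicular to a finite family.
-/

set_option autoImplicit false

namespace Cfsg.Agent.Lib.Helper29

open Matrix QuadraticMap Module Cfsg.Agent.Lib.Helper15

variable {ι : Type} [Fintype ι] {F : Type*} [Field F] {Q : QuadraticForm F (ι → F)}

omit [Fintype ι] in
theorem finrank_span_range_le {k : ℕ} (r : Fin k → (ι → F)) :
    finrank F (Submodule.span F (Set.range r)) ≤ k := by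
  have := finrank_range_le_card (R := F) r
  unfold Set.finrank at this
  simpa using this

omit [Fintype ι] in
theorem perp_span_range {k : ℕ} {r : Fin k → (ι → F)} {z : ι → F} (h : ∀ i, polar Q (r i) z = 0) :
    ∀ s ∈ Submodule.span F (Set.range r), polar Q s z = 0 := by
  intro s hs
  induction hs using Submodule.span_induction with
  | mem x hx => obtain ⟨i, rfl⟩ := hx; exact h i
  | zero => simp
  | add x y _ _ hx hy => rw [polar_add_left, hx, hy, add_zero]
  | smul c x _ hx => rw [polar_smul_left, hx, smul_zero]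

/-- a singular vector perpendicular to a family and not perpendicular to a vector outside its span -/
theorem exists_singular_perp_fam [Finite F] (hQ : (polarBilin Q).Nondegenerate) {k : ℕ} (r : Fin k → (ι → F))
    (v : ι → F) (hv : v ∉ Submodule.span F (Set.range r)) (hdim : 2 * k + 3 ≤ Fintype.card ι) :
    ∃ z, Q z = 0 ∧ (∀ i, polar Q (r i) z = 0) ∧ polar Q v z ≠ 0 := by
  set R := Submodule.span F (Set.range r) with hR
  have hfr : finrank F R ≤ k := finrank_span_range_le r
  obtain ⟨z₀, -, hQz₀, hk, hz₀R⟩ := exists_singular_ker_notMem Q ⊤ R (fun i => polarBilin Q (r i)) (by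
    rw [finrank_top, finrank_fintype_fun_eq_card]; omega)
  have hk' : ∀ i, polar Q (r i) z₀ = 0 := hk
  by_cases hvz : polar Q v z₀ = 0
  · obtain ⟨y₀, hy₀R, hy₀z⟩ := exists_perp_not_perp' Q hQ R z₀ hz₀R
    obtain ⟨y, hyR, hyv⟩ := exists_perp_not_perp' Q hQ R v hv
    obtain ⟨y₁, h1, h2, h3⟩ : ∃ y₁, (∀ w ∈ R, polar Q w y₁ = 0) ∧ polar Q y₁ z₀ ≠ 0 ∧ polar Q y₁ v ≠ 0 := by
      by_cases c1 : polar Q y z₀ = 0
      · by_cases c2 : polar Q y₀ v = 0
        · refine ⟨y + y₀, fun w hw => by rw [polar_add_right, hyR w hw, hy₀R w hw, add_zero], ?_, ?_⟩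
          · rw [polar_add_left, c1, zero_add]; exact hy₀z
          · rw [polar_add_left, c2, add_zero]; exact hyv
        · exact ⟨y₀, hy₀R, hy₀z, c2⟩
      · exact ⟨y, hyR, c1, hyv⟩
    refine ⟨y₁ - (Q y₁ / polar Q y₁ z₀) • z₀, ?_, ?_, ?_⟩
    · rw [sub_eq_add_neg, ← neg_smul, QuadraticMap.map_add Q, QuadraticMap.map_smul, hQz₀, polar_smul_right,
        smul_eq_mul, smul_eq_mul]
      field_simp
      ring
    · intro i
      rw [polar_sub_right, polar_smul_right, h1 _ (Submodule.subset_span ⟨i, rfl⟩), hk' i]; simp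
    · rw [polar_sub_right, polar_smul_right, hvz, polar_comm Q v y₁]; simpa using h3
  · exact ⟨z₀, hQz₀, hk', hvz⟩

/-- two non-perpendicular vectors perpendicular to a family -/
theorem exists_polar_ne_zero_fam (hQ : (polarBilin Q).Nondegenerate) {k : ℕ} (r : Fin k → (ι → F))
    (hdim : 2 * k < Fintype.card ι) :
    ∃ w₁ w₂, (∀ i, polar Q (r i) w₁ = 0) ∧ (∀ i, polar Q (r i) w₂ = 0) ∧ polar Q w₁ w₂ ≠ 0 := by
  set R := Submodule.span F (Set.range r) with hR
  have hfr : finrank F R ≤ k := finrank_span_range_le r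
  obtain ⟨w₁, -, hk, hw₁R⟩ := exists_ker_notMem_om ⊤ R (fun i => polarBilin Q (r i)) (by
    rw [finrank_top, finrank_fintype_fun_eq_card]; omega)
  obtain ⟨y, hyR, hyw⟩ := exists_perp_not_perp' Q hQ R w₁ hw₁R
  exact ⟨w₁, y, hk, fun i => hyR _ (Submodule.subset_span ⟨i, rfl⟩), by rw [polar_comm]; exact hyw⟩

/-- a non-singular vector perpendicular to a family -/
theorem exists_nonsingular_fam (hQ : (polarBilin Q).Nondegenerate) {k : ℕ} (r : Fin k → (ι → F))
    (hdim : 2 * k < Fintype.card ι) : ∃ w, (∀ i, polar Q (r i) w = 0) ∧ Q w ≠ 0 := by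
  obtain ⟨v₁, v₂, k1, k2, k3⟩ := exists_polar_ne_zero_fam hQ r hdim
  by_cases c1 : Q v₁ = 0
  · by_cases c2 : Q v₂ = 0
    · refine ⟨v₁ + v₂, fun i => by rw [polar_add_right, k1, k2, add_zero], ?_⟩
      rw [QuadraticMap.map_add Q, c1, c2]; simpa using k3
    · exact ⟨v₂, k2, c2⟩
  · exact ⟨v₁, k1, c1⟩

/-- a vector perpendicular to a family pairing to one with a vector outside its span -/
theorem exists_dual_fam (hQ : (polarBilin Q).Nondegenerate) {k : ℕ} (r : Fin k → (ι → F))
    (v : ι → F) (hv : v ∉ Submodule.span F (Set.range r)) :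
    ∃ p, (∀ i, polar Q (r i) p = 0) ∧ polar Q v p = 1 := by
  obtain ⟨y, hyR, hyv⟩ := exists_perp_not_perp' Q hQ _ v hv
  refine ⟨(polar Q y v)⁻¹ • y, fun i => ?_, ?_⟩
  · rw [polar_smul_right, hyR _ (Submodule.subset_span ⟨i, rfl⟩), smul_zero]
  · rw [polar_smul_right, polar_comm Q v y, smul_eq_mul, inv_mul_cancel₀ hyv]

end Cfsg.Agent.Lib.Helper29
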