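import Mathlib
import Cfsg.Agent.Lib.Helper29.OmGeom

/-!
Complex structures (quadratic field extensions acting by similarities, with non-trivial adjoint) on a quadratic
space, the associated unitary transvections and Eichler transformations inside `Ω(Q)`.
-/

set_option autoImplicit false

namespace Cfsg.Agent.Lib.Helper29

open Matrix QuadraticMap Module Cfsg.Agent.Lib.Helper15

variable {ι : Type} [Fintype ι] [DecidableEq ι] {F : Type*} [Field F] {Q : QuadraticForm F (ι → F)}

/-- `L` generates a quadratic field extension whose non-trivial automorphism is the adjoint for `Q`. -/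
structure CStr (Q : QuadraticForm F (ι → F)) (L : (ι → F) →ₗ[F] (ι → F)) (t N : F) : Prop where
  sq : ∀ x, L (L x) = t • L x - N • x
  adj : ∀ x y, polar Q (L x) y = t * polar Q x y - polar Q x (L y)
  QL : ∀ x, Q (L x) = N * Q x
  pol : ∀ x, polar Q x (L x) = t * Q x
  irr : ∀ x, x ≠ 0 → L x ∉ Submodule.span F {x}

namespace CStr

variable {L : (ι → F) →ₗ[F] (ι → F)} {t N : F}

omit [Fintype ι] [DecidableEq ι] in
theorem adj' (S : CStr Q L t N) (x y : ι → F) : polar Q x (L y) = t * polar Q x y - polar Q (L x) y := by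
  rw [S.adj]; ring

omit [Fintype ι] [DecidableEq ι] in
theorem polar_LL (S : CStr Q L t N) (x y : ι → F) : polar Q (L x) (L y) = N * polar Q x y := by
  rw [S.adj, S.sq, polar_sub_right, polar_smul_right, polar_smul_right]
  simp only [smul_eq_mul]
  ring

omit [Fintype ι] [DecidableEq ι] in
theorem norm_ne_zero (S : CStr Q L t N) {x₀ : ι → F} (hx₀ : x₀ ≠ 0) {a b : F} (hab : a ≠ 0 ∨ b ≠ 0) :
    a ^ 2 + t * a * b + N * b ^ 2 ≠ 0 := by
  intro h
  have hb : b ≠ 0 := by
    rintro rfl
    simp at h hab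
    exact hab h
  set y := (a + b * t) • x₀ - b • L x₀ with hy
  have hy0 : y ≠ 0 := by
    intro h0
    apply S.irr x₀ hx₀
    rw [Submodule.mem_span_singleton]
    refine ⟨b⁻¹ * (a + b * t), ?_⟩
    have : b • L x₀ = (a + b * t) • x₀ := (sub_eq_zero.1 h0).symm
    rw [mul_smul, ← this, smul_smul, inv_mul_cancel₀ hb, one_smul]
  have h1 : a • y + b • L y = 0 := by
    have : a • y + b • L y = (a ^ 2 + t * a * b + N * b ^ 2) • x₀ := by
      rw [hy, map_sub, map_smul, map_smul, S.sq]
      module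
    rw [this, h, zero_smul]
  apply S.irr y hy0
  rw [Submodule.mem_span_singleton]
  refine ⟨-(b⁻¹ * a), ?_⟩
  have h2 : b • L y = -(a • y) := eq_neg_of_add_eq_zero_right h1
  have h3 : L y = b⁻¹ • (b • L y) := by rw [smul_smul, inv_mul_cancel₀ hb, one_smul]
  rw [h3, h2, smul_neg, smul_smul, neg_smul]

omit [Fintype ι] [DecidableEq ι] in
/-- solving `a w + b L w` and its image under `L` for `w` -/
theorem mem_of_comb (S : CStr Q L t N) {x₀ : ι → F} (hx₀ : x₀ ≠ 0) (B : Submodule F (ι → F)) {a b : F}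
    (hab : a ≠ 0 ∨ b ≠ 0) {w : ι → F} (h1 : a • w + b • L w ∈ B) (h2 : a • L w + b • L (L w) ∈ B) : w ∈ B := by
  have h3 := B.sub_mem (B.smul_mem (a + b * t) h1) (B.smul_mem b h2)
  have h4 : (a + b * t) • (a • w + b • L w) - b • (a • L w + b • L (L w))
      = (a ^ 2 + t * a * b + N * b ^ 2) • w := by
    rw [S.sq]
    module
  rw [h4] at h3
  have := B.smul_mem (a ^ 2 + t * a * b + N * b ^ 2)⁻¹ h3
  rwa [smul_smul, inv_mul_cancel₀ (S.norm_ne_zero hx₀ hab), one_smul] at this

omit [Fintype ι] [DecidableEq ι] in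
theorem Q_L_eq_zero (S : CStr Q L t N) {u : ι → F} (hu : Q u = 0) : Q (L u) = 0 := by
  rw [S.QL, hu, mul_zero]

omit [Fintype ι] [DecidableEq ι] in
theorem polar_self_L (S : CStr Q L t N) {u : ι → F} (hu : Q u = 0) : polar Q u (L u) = 0 := by
  rw [S.pol, hu, mul_zero]

omit [Fintype ι] [DecidableEq ι] in
theorem polar_L_of_perp (S : CStr Q L t N) {u w : ι → F} (h1 : polar Q u w = 0) (h2 : polar Q (L u) w = 0) :
    polar Q u (L w) = 0 := by
  rw [S.adj', h1, h2]; ring

/-- action of the unitary Eichler transformation -/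
theorem act_U (S : CStr Q L t N) {u w : ι → F} (hu : Q u = 0) (h1 : polar Q u w = 0)
    (p2 : polar Q u (L w) = 0) (p3 : Q (L u) = 0) (p4 : polar Q (L u) (-w) = 0) (x : ι → F) :
    act Q (eich Q u (L w) hu p2 * eich Q (L u) (-w) p3 p4) x
      = x + polar Q u x • L w - polar Q (L u) x • w + polar Q w x • L u - polar Q (L w) x • u
        - Q w • (polar Q (L u) x • L u - (t * polar Q (L u) x) • u + (N * polar Q u x) • u) := by
  rw [act_mul, act_eich Q (L u) (-w), act_eich Q u (L w)]
  have e1 : polar Q (L w) w = t * Q w := by rw [polar_comm, S.pol]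
  have e2 : polar Q (L w) (L u) = 0 := by rw [S.polar_LL, polar_comm, h1, mul_zero]
  simp only [polar_sub_right, polar_add_right, polar_smul_right, polar_neg_right, polar_neg_left,
    QuadraticMap.map_neg, smul_eq_mul, h1, S.polar_self_L hu, e1, e2, S.QL]
  module

/-- the unitary Eichler transformations commute with `L` -/
theorem act_U_L (S : CStr Q L t N) {u w : ι → F} (hu : Q u = 0) (h1 : polar Q u w = 0)
    (p2 : polar Q u (L w) = 0) (p3 : Q (L u) = 0) (p4 : polar Q (L u) (-w) = 0) (x : ι → F) :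
    act Q (eich Q u (L w) hu p2 * eich Q (L u) (-w) p3 p4) (L x)
      = L (act Q (eich Q u (L w) hu p2 * eich Q (L u) (-w) p3 p4) x) := by
  rw [S.act_U hu h1, S.act_U hu h1]
  simp only [map_add, map_sub, map_smul, S.sq, S.polar_LL, S.adj' u x, S.adj' w x]
  module

/-- the unitary transvections commute with `L` -/
theorem act_T_L (S : CStr Q L t N) {y : ι → F} (c : F) (hy : Q y = 0) (p2 : polar Q y (c • L y) = 0) (x : ι → F) :
    act Q (eich Q y (c • L y) hy p2) (L x) = L (act Q (eich Q y (c • L y) hy p2) x) := by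
  rw [act_eich, act_eich]
  simp only [map_add, map_sub, map_smul, S.sq, S.polar_LL, S.adj' y x, polar_smul_left, QuadraticMap.map_smul,
    S.QL, hy, smul_eq_mul]
  module

end CStr

/-- the vectors `v ⊥ x` all of whose multiples give Eichler transformations `E(x, c v)` in `M` -/
def admS (M : Subgroup (Cfsg.isometryGroup F ⇑Q)) (x : ι → F) : Submodule F (ι → F) where
  carrier := {b | polar Q x b = 0 ∧ ∀ c : F, EM M x (c • b)}
  add_mem' := by
    rintro a b ⟨ha0, ha⟩ ⟨hb0, hb⟩
    refine ⟨by rw [polar_add_right, ha0, hb0, add_zero], fun c => ?_⟩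
    rw [smul_add]
    exact EM_add (ha c) (hb c) (by rw [polar_smul_right, ha0, smul_zero])
  zero_mem' := ⟨by simp, fun c => by rw [smul_zero]; exact EM_zero _⟩
  smul_mem' := by
    rintro c a ⟨ha0, ha⟩
    refine ⟨by rw [polar_smul_right, ha0, smul_zero], fun c' => ?_⟩
    rw [smul_smul]
    exact ha _

theorem mem_admS {M : Subgroup (Cfsg.isometryGroup F ⇑Q)} {x v : ι → F} :
    v ∈ admS M x ↔ polar Q x v = 0 ∧ ∀ c : F, EM M x (c • v) := Iff.rfl

theorem admS_act {M : Subgroup (Cfsg.isometryGroup F ⇑Q)} {x v : ι → F} (hv : v ∈ admS M x)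
    {h : Cfsg.isometryGroup F ⇑Q} (hh : h ∈ M) : act Q h v ∈ admS M (act Q h x) := by
  refine ⟨by rw [polar_act]; exact hv.1, fun c => ?_⟩
  have := EM_act (hv.2 c) hh
  rwa [act_smul] at this

theorem admS_fix {M : Subgroup (Cfsg.isometryGroup F ⇑Q)} {x v : ι → F} (hv : v ∈ admS M x)
    {h : Cfsg.isometryGroup F ⇑Q} (hh : h ∈ M) (hx : act Q h x = x) : act Q h v ∈ admS M x := by
  have := admS_act hv hh
  rwa [hx] at this

theorem self_mem_admS (M : Subgroup (Cfsg.isometryGroup F ⇑Q)) {x : ι → F} (hx : Q x = 0) : x ∈ admS M x :=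
  ⟨by rw [polar_self, hx]; simp, fun c => EM_self x c⟩

theorem mem_ocentres_of_admS {M : Subgroup (Cfsg.isometryGroup F ⇑Q)} {x : ι → F} (hx : Q x = 0)
    (h : ∀ v, polar Q x v = 0 → v ∈ admS M x) : x ∈ ocentres Q M := by
  rw [mem_ocentres_iff]
  refine ⟨hx, fun v hu huv => ?_⟩
  have := (h v huv).2 1
  rw [one_smul] at this
  exact this hu huv

/-- membership in `M` of the unitary Eichler transformation attached to `u`, `w` -/
def UM (L : (ι → F) →ₗ[F] (ι → F)) (M : Subgroup (Cfsg.isometryGroup F ⇑Q)) (u w : ι → F) : Prop :=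
  ∀ (p1 : Q u = 0) (p2 : polar Q u (L w) = 0) (p3 : Q (L u) = 0) (p4 : polar Q (L u) (-w) = 0),
    eich Q u (L w) p1 p2 * eich Q (L u) (-w) p3 p4 ∈ M

end Cfsg.Agent.Lib.Helper29
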