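import Mathlib
import Cfsg.Agent.Lib.Helper29.OmCStr

/-!
Rational structures (forms over a subfield) on a quadratic space: basic geometry.
-/

set_option autoImplicit false
set_option linter.unusedSectionVars false

namespace Cfsg.Agent.Lib.Helper29

open Matrix QuadraticMap Module Cfsg.Agent.Lib.Helper15

variable {ι : Type} [Fintype ι] {F : Type*} [Field F] {Q : QuadraticForm F (ι → F)}
  {F₀ : Subfield F} {Q₀ : QuadraticForm F₀ (ι → F₀)} {e : (ι → F₀) → (ι → F)}

/-- every vector perpendicular to the singular vector `u` is a sum of two singular vectors perpendicular to `u` -/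
theorem sing_decomp [Finite F] (hQ : (polarBilin Q).Nondegenerate) (hn : 5 ≤ Fintype.card ι) {u t : ι → F}
    (hu : Q u = 0) (ht : polar Q u t = 0) :
    ∃ t₁ t₂, Q t₁ = 0 ∧ Q t₂ = 0 ∧ polar Q u t₁ = 0 ∧ polar Q u t₂ = 0 ∧ t = t₁ + t₂ := by
  by_cases hQt : Q t = 0
  · exact ⟨t, 0, hQt, by simp, ht, by simp, by simp⟩
  · have hnot : t ∉ Submodule.span F (Set.range ![u]) := by
      intro hmem
      have : Set.range ![u] = {u} := by simp
      rw [this] at hmem
      obtain ⟨c, rfl⟩ := Submodule.mem_span_singleton.mp hmem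
      apply hQt
      rw [QuadraticMap.map_smul, hu, smul_zero]
    obtain ⟨z, hz, hzu, hzt⟩ := exists_singular_perp_fam hQ ![u] t hnot (by omega)
    have hzu' : polar Q u z = 0 := hzu 0
    refine ⟨t - (Q t / polar Q t z) • z, (Q t / polar Q t z) • z, ?_, ?_, ?_, ?_, by abel⟩
    · rw [sub_eq_add_neg, ← neg_smul, QuadraticMap.map_add Q, QuadraticMap.map_smul, hz, polar_smul_right,
        smul_eq_mul, smul_eq_mul]
      field_simp
      ring
    · rw [QuadraticMap.map_smul, hz, smul_zero]
    · rw [polar_sub_right, polar_smul_right, ht, hzu']; simp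
    · rw [polar_smul_right, hzu', smul_zero]

/-- `e` embeds the `F₀`-quadratic space `Q₀` as a rational structure of `Q`. -/
structure RatS (Q : QuadraticForm F (ι → F)) (Q₀ : QuadraticForm F₀ (ι → F₀)) (e : (ι → F₀) → (ι → F)) :
    Prop where
  e_add : ∀ x y, e (x + y) = e x + e y
  e_smul : ∀ (c : F₀) x, e (c • x) = (c : F) • e x
  Q_e : ∀ x, Q (e x) = (Q₀ x : F)
  span : Submodule.span F (Set.range e) = ⊤
  nd : (polarBilin Q).Nondegenerate
  nd₀ : (polarBilin Q₀).Nondegenerate

namespace RatS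

variable (S : RatS Q Q₀ e)
include S

theorem e_zero : e 0 = 0 := by
  have := S.e_smul 0 0
  simpa using this

theorem e_neg (x : ι → F₀) : e (-x) = - e x := by
  have := S.e_smul (-1) x
  simpa using this

theorem e_sub (x y : ι → F₀) : e (x - y) = e x - e y := by
  rw [sub_eq_add_neg, S.e_add, S.e_neg, sub_eq_add_neg]

theorem polar_e (x y : ι → F₀) : polar Q (e x) (e y) = ((polar Q₀ x y : F₀) : F) := by
  unfold polar
  rw [← S.e_add, S.Q_e, S.Q_e, S.Q_e]
  push_cast
  rfl

theorem polar_e_mem (x y : ι → F₀) : polar Q (e x) (e y) ∈ F₀ := by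
  rw [S.polar_e]; exact (polar Q₀ x y).2

theorem polar_e_zero {x y : ι → F₀} (h : polar Q₀ x y = 0) : polar Q (e x) (e y) = 0 := by
  rw [S.polar_e, h]; rfl

theorem polar_e_one {x y : ι → F₀} (h : polar Q₀ x y = 1) : polar Q (e x) (e y) = 1 := by
  rw [S.polar_e, h]; rfl

theorem Q_e_zero {x : ι → F₀} (h : Q₀ x = 0) : Q (e x) = 0 := by
  rw [S.Q_e, h]; rfl

theorem polar_eq_zero_of {v : ι → F} (h : ∀ x, polar Q v (e x) = 0) (w : ι → F) : polar Q v w = 0 := by
  have hw : w ∈ Submodule.span F (Set.range e) := by rw [S.span]; trivial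
  induction hw using Submodule.span_induction with
  | mem x hx => obtain ⟨i, rfl⟩ := hx; exact h i
  | zero => simp
  | add x y _ _ hx hy => rw [polar_add_right, hx, hy, add_zero]
  | smul c x _ hx => rw [polar_smul_right, hx, smul_zero]

theorem eq_zero_of_perp {v : ι → F} (h : ∀ x, polar Q v (e x) = 0) : v = 0 :=
  S.nd.1 v (S.polar_eq_zero_of h)

theorem eq_zero_of_e {x : ι → F₀} (h : e x = 0) : x = 0 := by
  apply S.nd₀.1 x
  intro y
  have h1 := S.polar_e x y
  rw [h] at h1
  simp only [polar_zero_left] at h1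
  exact_mod_cast h1.symm

theorem e_ne_zero {x : ι → F₀} (h : x ≠ 0) : e x ≠ 0 := fun h0 => h (S.eq_zero_of_e h0)

theorem e_inj {x y : ι → F₀} (h : e x = e y) : x = y := by
  have : e (x - y) = 0 := by rw [S.e_sub, h, sub_self]
  exact sub_eq_zero.mp (S.eq_zero_of_e this)

/-- a vector pairing rationally with all rational vectors is rational -/
theorem rep {v : ι → F} (h : ∀ t, polar Q v (e t) ∈ F₀) : ∃ x, e x = v := by
  let φ : (ι → F₀) →ₗ[F₀] F₀ :=
    { toFun := fun t => ⟨polar Q v (e t), h t⟩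
      map_add' := fun a b => by
        apply Subtype.ext
        simp only [S.e_add, polar_add_right]
        rfl
      map_smul' := fun c a => by
        apply Subtype.ext
        simp only [S.e_smul, polar_smul_right]
        rfl }
  let x := (LinearMap.BilinForm.toDual (polarBilin Q₀) S.nd₀).symm φ
  have hx : ∀ t, polar Q₀ x t = φ t := by
    intro t
    have := LinearMap.BilinForm.apply_toDual_symm_apply (B := polarBilin Q₀) (hB := S.nd₀) φ t
    exact this
  refine ⟨x, ?_⟩
  have : e x - v = 0 := by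
    apply S.eq_zero_of_perp
    intro t
    rw [polar_sub_left, S.polar_e, hx t]
    simp [φ]
  exact sub_eq_zero.mp this

theorem notMem_span {k : ℕ} {xs : Fin k → (ι → F₀)} {x : ι → F₀} (h : x ∉ Submodule.span F₀ (Set.range xs)) :
    e x ∉ Submodule.span F (Set.range (fun i => e (xs i))) := by
  obtain ⟨p, hp, hp1⟩ := exists_dual_fam S.nd₀ xs x h
  intro hmem
  have := perp_span_range (Q := Q) (r := fun i => e (xs i)) (z := e p) (fun i => S.polar_e_zero (hp i)) _ hmem
  rw [S.polar_e_one hp1] at this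
  exact one_ne_zero this

theorem notMem_span' {k : ℕ} {xs : Fin k → (ι → F₀)} {x : ι → F₀}
    (h : e x ∉ Submodule.span F (Set.range (fun i => e (xs i)))) : x ∉ Submodule.span F₀ (Set.range xs) := by
  intro hx
  apply h
  clear h
  induction hx using Submodule.span_induction with
  | mem x hx => obtain ⟨i, rfl⟩ := hx; exact Submodule.subset_span ⟨i, rfl⟩
  | zero => rw [S.e_zero]; exact Submodule.zero_mem _
  | add x y _ _ hx hy => rw [S.e_add]; exact Submodule.add_mem _ hx hy
  | smul c x _ hx => rw [S.e_smul]; exact Submodule.smul_mem _ _ hx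

theorem dual {k : ℕ} (xs : Fin k → (ι → F₀)) (x : ι → F₀)
    (h : e x ∉ Submodule.span F (Set.range (fun i => e (xs i)))) :
    ∃ p, (∀ i, polar Q₀ (xs i) p = 0) ∧ polar Q₀ x p = 1 :=
  exists_dual_fam S.nd₀ xs x (S.notMem_span' h)

theorem sing [Finite F] {k : ℕ} (xs : Fin k → (ι → F₀)) (x : ι → F₀)
    (h : e x ∉ Submodule.span F (Set.range (fun i => e (xs i)))) (hdim : 2 * k + 3 ≤ Fintype.card ι) :
    ∃ z, Q₀ z = 0 ∧ (∀ i, polar Q₀ (xs i) z = 0) ∧ polar Q₀ x z = 1 := by
  obtain ⟨z, h1, h2, h3⟩ := exists_singular_perp_fam S.nd₀ xs x (S.notMem_span' h) hdim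
  refine ⟨(polar Q₀ x z)⁻¹ • z, ?_, fun i => ?_, ?_⟩
  · rw [QuadraticMap.map_smul, h1, smul_zero]
  · rw [polar_smul_right, h2 i, smul_zero]
  · rw [polar_smul_right, smul_eq_mul, inv_mul_cancel₀ h3]

theorem sing_notMem [Finite F] {k j : ℕ} (xs : Fin k → (ι → F₀)) (ys : Fin j → (ι → F₀))
    (hdim : j + k + 3 ≤ Fintype.card ι) :
    ∃ z, Q₀ z = 0 ∧ (∀ i, polar Q₀ (xs i) z = 0) ∧ e z ∉ Submodule.span F (Set.range (fun i => e (ys i))) := by
  have hfr : finrank F₀ (Submodule.span F₀ (Set.range ys)) ≤ j := finrank_span_range_le ys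
  obtain ⟨z, -, hz, hk, hzA⟩ := exists_singular_ker_notMem Q₀ ⊤ (Submodule.span F₀ (Set.range ys))
    (fun i => polarBilin Q₀ (xs i)) (by rw [finrank_top, finrank_fintype_fun_eq_card]; omega)
  exact ⟨z, hz, hk, S.notMem_span hzA⟩

/-- separation by rational vectors -/
theorem sep : ∀ (k : ℕ) (xs : Fin k → (ι → F₀)) (v : ι → F),
    v ∉ Submodule.span F (Set.range (fun i => e (xs i))) →
    ∃ x, (∀ i, polar Q₀ (xs i) x = 0) ∧ polar Q v (e x) ≠ 0 := by
  intro k
  induction k with
  | zero =>
    intro xs v hv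
    by_contra hcon
    push Not at hcon
    apply hv
    rw [S.eq_zero_of_perp (fun x => hcon x (fun i => i.elim0))]
    exact Submodule.zero_mem _
  | succ k ih =>
    intro xs v hv
    set xs' : Fin k → (ι → F₀) := fun i => xs i.succ with hxs'
    have hle : Submodule.span F (Set.range (fun i => e (xs' i))) ≤
        Submodule.span F (Set.range (fun i => e (xs i))) := by
      apply Submodule.span_mono
      rintro _ ⟨i, rfl⟩
      exact ⟨i.succ, rfl⟩
    by_cases h0 : e (xs 0) ∈ Submodule.span F (Set.range (fun i => e (xs' i)))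
    · obtain ⟨x, hx, hvx⟩ := ih xs' v (fun h => hv (hle h))
      refine ⟨x, fun i => ?_, hvx⟩
      refine Fin.cases ?_ (fun i => hx i) i
      have h1 := perp_span_range (Q := Q) (r := fun i => e (xs' i)) (z := e x)
        (fun i => S.polar_e_zero (hx i)) _ h0
      rw [S.polar_e] at h1
      exact_mod_cast h1
    · obtain ⟨f, hf, hf1⟩ := S.dual xs' (xs 0) h0
      have hv' : v - polar Q v (e f) • e (xs 0) ∉ Submodule.span F (Set.range (fun i => e (xs' i))) := by
        intro h
        apply hv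
        have h2 := Submodule.add_mem _ (hle h) (Submodule.smul_mem _ (polar Q v (e f))
          (Submodule.subset_span (s := Set.range (fun i => e (xs i))) ⟨0, rfl⟩))
        simpa using h2
      obtain ⟨x, hx, hvx⟩ := ih xs' _ hv'
      refine ⟨x - polar Q₀ (xs 0) x • f, fun i => ?_, ?_⟩
      · refine Fin.cases ?_ (fun i => ?_) i
        · rw [polar_sub_right, polar_smul_right, hf1]; simp
        · have h1 : polar Q₀ (xs i.succ) x = 0 := hx i
          have h2 : polar Q₀ (xs i.succ) f = 0 := hf i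
          rw [polar_sub_right, polar_smul_right, h1, h2]; simp
      · rw [S.e_sub, S.e_smul, polar_sub_right, polar_smul_right]
        rw [polar_sub_left, polar_smul_left, S.polar_e (xs 0) x] at hvx
        intro h
        apply hvx
        rw [smul_eq_mul] at h ⊢
        linear_combination h

/-- a scalar carrying a non-zero rational vector to a rational vector is rational -/
theorem coeff_mem {c : F} {x y : ι → F₀} (hy : y ≠ 0) (h : c • e x = e y) : c ∈ F₀ := by
  obtain ⟨p, hp⟩ : ∃ p, polar Q₀ y p ≠ 0 := by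
    by_contra hcon
    push Not at hcon
    exact hy (S.nd₀.1 y hcon)
  have h1 : c * polar Q (e x) (e p) = polar Q (e y) (e p) := by
    rw [← h, polar_smul_left, smul_eq_mul]
  rw [S.polar_e, S.polar_e] at h1
  have h2 : ((polar Q₀ x p : F₀) : F) ≠ 0 := by
    intro h0
    rw [h0, mul_zero] at h1
    apply hp
    exact_mod_cast h1.symm
  have h3 : c = ((polar Q₀ y p : F₀) : F) / ((polar Q₀ x p : F₀) : F) := by
    field_simp
    exact h1
  rw [h3]
  exact F₀.div_mem (polar Q₀ y p).2 (polar Q₀ x p).2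

end RatS

end Cfsg.Agent.Lib.Helper29
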