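import Mathlib
import Cfsg.Prelude.Def_GeometricClasses
import Cfsg.Agent.Lib.Helper29.Transv
import Cfsg.Agent.Lib.Helper18.SLGen

/-!
A subgroup of GL containing all transvections contains SL.
-/

set_option autoImplicit false

namespace Cfsg.Agent.Lib.Helper29

open Matrix Module

variable {ι : Type} [Fintype ι] [DecidableEq ι] {F : Type*} [Field F]

theorem specialLinear_le_of_tv [Nontrivial ι] (M : Subgroup (GL ι F))
    (hM : ∀ (f : Dual F (ι → F)) (v : ι → F) (h : f v = 0), tv f v h ∈ M) :
    Cfsg.Geo.specialLinear ι F ≤ M := by
  intro g hg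
  rw [mem_specialLinear_iff] at hg
  have key : ∀ A : Matrix.SpecialLinearGroup ι F, Matrix.SpecialLinearGroup.toGL A ∈ M := by
    intro A
    refine Cfsg.Agent.Lib.Helper18.SL_transvection_induction
      (fun A => Matrix.SpecialLinearGroup.toGL A ∈ M) ?_ ?_ A
    · intro i j hij c
      have : Matrix.SpecialLinearGroup.toGL (Matrix.SpecialLinearGroup.transvection hij c)
          = tv (c • LinearMap.proj j) (Pi.single i 1) (by simp [hij]) := by
        apply gl_ext; intro x
        rw [tv_mulVec]
        show (Matrix.SpecialLinearGroup.transvection hij c).1 *ᵥ x = _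
        rw [Matrix.SpecialLinearGroup.transvection_coe, Matrix.add_mulVec, Matrix.one_mulVec]
        congr 1
        ext k
        simp [Matrix.mulVec, dotProduct, Matrix.single_apply, Pi.single_apply]
        by_cases hk : i = k
        · simp [hk]
        · simp [hk, Ne.symm hk]
      rw [this]; exact hM _ _ _
    · intro A B hA hB
      rw [map_mul]
      exact M.mul_mem hA hB
  have : g = Matrix.SpecialLinearGroup.toGL ⟨g, hg⟩ := Units.ext rfl
  rw [this]
  exact key _

end Cfsg.Agent.Lib.Helper29
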