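import Mathlib
import Cfsg.Agent.Lib.Helper29.OmRat1
import Cfsg.Agent.Lib.Helper29.SLtv

/-!
Overgroups in `SL` of `Ω(Q)` containing a transvection with singular centre (odd characteristic).
-/

set_option autoImplicit false
set_option linter.unusedSectionVars false
set_option linter.unusedSimpArgs false

namespace Cfsg.Agent.Lib.Helper29

open Matrix QuadraticMap Module Cfsg.Agent.Lib.Helper15

variable {ι : Type} [Fintype ι] [DecidableEq ι] {F : Type*} [Field F] {Q : QuadraticForm F (ι → F)}
  {M : Subgroup (GL ι F)}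

/-- All transvections with centre `x` lie in `M`. -/
def FullT (M : Subgroup (GL ι F)) (x : ι → F) : Prop :=
  ∀ (φ : Dual F (ι → F)) (h : φ x = 0), tv φ x h ∈ M

theorem FullT_conj {k : GL ι F} (hk : k ∈ M) {x : ι → F}
    (hx : FullT M x) : FullT M ((k : Matrix ι ι F) *ᵥ x) := by
  intro φ h
  have h' : (φ ∘ₗ Matrix.toLin' (k : Matrix ι ι F)) x = 0 := by
    simpa [Matrix.toLin'_apply] using h
  have e : tv φ ((k : Matrix ι ι F) *ᵥ x) h = k * tv _ x h' * k⁻¹ := by
    apply gl_ext; intro y
    rw [gl_mul_mulVec, gl_mul_mulVec, tv_mulVec, tv_mulVec, Matrix.mulVec_add, gl_mulVec_inv,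
      Matrix.mulVec_smul]
    simp [Matrix.toLin'_apply, gl_mulVec_inv]
  rw [e]; exact M.mul_mem (M.mul_mem hk (hx _ h')) (M.inv_mem hk)

theorem FullT_smul {x : ι → F} (hx : FullT M x) (c : F) : FullT M (c • x) := by
  intro φ h
  have h' : (c • φ) x = 0 := by simpa using h
  rw [tv_smul_left φ x c h h']
  exact hx _ h'

theorem FullT_add {x z : ι → F} (hx : FullT M x) (hz : FullT M z) (l : F) : FullT M (x + l • z) := by
  by_cases hxz : x ∈ Submodule.span F {z}
  · obtain ⟨μ, hμ⟩ := Submodule.mem_span_singleton.mp hxz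
    have : x + l • z = (μ + l) • z := by rw [← hμ]; module
    rw [this]; exact FullT_smul hz _
  · obtain ⟨φ, hφ0, hφ1⟩ := exists_dual_eq_one _ hxz
    have h0 : (l • φ) z = 0 := by
      simp [hφ0 z (Submodule.mem_span_singleton_self z)]
    have := FullT_conj (hz (l • φ) h0) hx
    rw [tv_mulVec] at this
    simpa [hφ1] using this

/-- the transvection with centre `w` and functional `f` (if defined) lies in `M` -/
def TF (M : Subgroup (GL ι F)) (w : ι → F) (f : Dual F (ι → F)) : Prop := ∀ h : f w = 0, tv f w h ∈ M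

theorem TF_add {w : ι → F} {f g : Dual F (ι → F)} (h1 : TF M w f) (h2 : TF M w g) (hf : f w = 0) :
    TF M w (f + g) := by
  intro h
  have hg : g w = 0 := by
    rw [LinearMap.add_apply, hf, zero_add] at h; exact h
  have : tv (f + g) w h = tv f w hf * tv g w hg := by
    apply gl_ext; intro y
    rw [gl_mul_mulVec, tv_mulVec, tv_mulVec, tv_mulVec, map_add, map_smul, hf]
    simp only [LinearMap.add_apply, smul_eq_mul, mul_zero, add_zero]
    module
  rw [this]
  exact M.mul_mem (h1 hf) (h2 hg)

theorem TF_neg {w : ι → F} {f : Dual F (ι → F)} (h1 : TF M w f) : TF M w (-f) := by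
  intro h
  have hf : f w = 0 := by
    rw [LinearMap.neg_apply, neg_eq_zero] at h; exact h
  have : tv (-f) w h = (tv f w hf)⁻¹ := by
    rw [tv_inv]
    apply gl_ext; intro y
    rw [tv_mulVec, tv_mulVec]
    simp
  rw [this]
  exact M.inv_mem (h1 hf)

theorem TF_sub {w : ι → F} {f g : Dual F (ι → F)} (h1 : TF M w f) (h2 : TF M w g) (hf : f w = 0) :
    TF M w (f - g) := by
  rw [sub_eq_add_neg]
  exact TF_add h1 (TF_neg h2) hf

theorem TF_zero (w : ι → F) : TF M w 0 := by
  intro h
  have : tv (0 : Dual F (ι → F)) w h = 1 := by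
    apply gl_ext; intro y
    rw [tv_mulVec]; simp
  rw [this]; exact M.one_mem

theorem TF_zero_left (f : Dual F (ι → F)) : TF M 0 f := by
  intro h
  have : tv f (0 : ι → F) h = 1 := by
    apply gl_ext; intro y
    rw [tv_mulVec]; simp
  rw [this]; exact M.one_mem

theorem TF_conj {k : GL ι F} (hk : k ∈ M) {w : ι → F} {f f' : Dual F (ι → F)}
    (hf' : ∀ y, f' ((k : Matrix ι ι F) *ᵥ y) = f y) (h1 : TF M w f) : TF M ((k : Matrix ι ι F) *ᵥ w) f' := by
  intro h
  have hf : f w = 0 := by rw [← hf']; exact h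
  have : tv f' ((k : Matrix ι ι F) *ᵥ w) h = k * tv f w hf * k⁻¹ := by
    rw [eq_mul_inv_iff_mul_eq]
    apply gl_ext; intro y
    rw [gl_mul_mulVec, gl_mul_mulVec, tv_mulVec, tv_mulVec, hf', Matrix.mulVec_add, Matrix.mulVec_smul]
  rw [this]
  exact M.mul_mem (M.mul_mem hk (h1 hf)) (M.inv_mem hk)

theorem TF_congr {w w' : ι → F} {f f' : Dual F (ι → F)} (h1 : TF M w f) (e1 : w = w') (e2 : f = f') :
    TF M w' f' := by
  subst e1; subst e2; exact h1

theorem TF_smul {w : ι → F} {f : Dual F (ι → F)} {c : F} (h1 : TF M (c • w) f) : TF M w (c • f) := by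
  intro h
  have h' : f (c • w) = 0 := by simpa using h
  rw [← tv_smul_left f w c h' h]
  exact h1 h'

section main

variable [Fintype F] (hQ : (polarBilin Q).Nondegenerate) (hn : 13 ≤ Fintype.card ι) (h2 : (2 : F) ≠ 0)
  (hΩ : ∀ g ∈ Cfsg.Omega F ⇑Q, ((g : Cfsg.isometryGroup F ⇑Q) : GL ι F) ∈ M)

include hQ hn hΩ

theorem eich_memM (u v : ι → F) (hu : Q u = 0) (huv : polar Q u v = 0) :
    ((eich Q u v hu huv : Cfsg.isometryGroup F ⇑Q) : GL ι F) ∈ M :=
  hΩ _ (eich_mem_Omega Q hQ (by omega) _ _ _ _)

include h2 in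
theorem TF_self_of {w : ι → F} (hw : Q w = 0) (hw0 : w ≠ 0) {f : Dual F (ι → F)} (hfw : f w = 0) (hf : f ≠ 0)
    (hT : TF M w f) : ∀ c : F, TF M w (c • polarBilin Q w) := by
  by_cases hcase : ∃ x, polar Q w x = 0 ∧ f x ≠ 0
  · obtain ⟨x, hwx, hfx⟩ := hcase
    intro c
    have hwx' : polar Q w ((-c / f x) • x) = 0 := by rw [polar_smul_right, hwx, smul_zero]
    have k1 := TF_conj (eich_memM hQ hn hΩ w ((-c / f x) • x) hw hwx') (w := w) (f := f)
      (f' := f + c • polarBilin Q w) (by
        intro y
        have e1 := act_eich Q w ((-c / f x) • x) hw hwx' y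
        have e2 : ((eich Q w ((-c / f x) • x) hw hwx' : Cfsg.isometryGroup F ⇑Q) : GL ι F).1 *ᵥ y
            = y + polar Q w y • ((-c / f x) • x) - (polar Q ((-c / f x) • x) y
              + Q ((-c / f x) • x) * polar Q w y) • w := e1
        rw [e2]
        simp only [LinearMap.add_apply, LinearMap.smul_apply, map_add, map_sub, map_smul, hfw, smul_eq_mul,
          mul_zero, sub_zero, polarBilin_apply_apply, polar_add_right, polar_sub_right, polar_smul_right,
          hwx, polar_self, hw]
        field_simp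
        ring) hT
    have e3 : ((eich Q w ((-c / f x) • x) hw hwx' : Cfsg.isometryGroup F ⇑Q) : GL ι F).1 *ᵥ w = w := by
      have e1 := act_eich Q w ((-c / f x) • x) hw hwx' w
      have e2 : ((eich Q w ((-c / f x) • x) hw hwx' : Cfsg.isometryGroup F ⇑Q) : GL ι F).1 *ᵥ w
            = w + polar Q w w • ((-c / f x) • x) - (polar Q ((-c / f x) • x) w
              + Q ((-c / f x) • x) * polar Q w w) • w := e1
      rw [e2, polar_self, hw, polar_comm Q _ w, hwx']
      simp
    rw [e3] at k1
    have k2 := TF_sub k1 hT (by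
      simp only [LinearMap.add_apply, LinearMap.smul_apply, hfw, polarBilin_apply_apply, polar_self, hw]
      simp)
    exact TF_congr k2 rfl (by abel)
  · push Not at hcase
    obtain ⟨d, -, hd⟩ := exists_dual_fam hQ (Fin.elim0 : Fin 0 → (ι → F)) w (by
      have : Set.range (Fin.elim0 : Fin 0 → (ι → F)) = ∅ := Set.range_eq_empty _
      rw [this, Submodule.span_empty, Submodule.mem_bot]
      exact hw0)
    have hfe : f = f d • polarBilin Q w := by
      apply LinearMap.ext
      intro y
      have h1 := hcase (y - polar Q w y • d) (by rw [polar_sub_right, polar_smul_right, hd]; simp)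
      rw [map_sub, map_smul, sub_eq_zero] at h1
      rw [h1]
      simp [mul_comm]
    have hc₀ : f d ≠ 0 := by
      intro h0
      apply hf
      rw [hfe, h0, zero_smul]
    set c₀ := f d with hc₀def
    have hsq : ∀ l : F, TF M w ((c₀ * (l * l)) • polarBilin Q w) := by
      intro l
      by_cases hl : l = 0
      · rw [hl]; simp only [mul_zero, zero_smul]; exact TF_zero w
      obtain ⟨h, hh, hhw⟩ := exists_Omega_act_eq Q hQ (by omega) w (l • w) hw
        (by rw [QuadraticMap.map_smul, hw, smul_zero]) hw0 (smul_ne_zero hl hw0)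
      have k1 := TF_conj (hΩ h hh) (w := w) (f := f) (f' := (c₀ * l) • polarBilin Q w) (by
        intro y
        have e1 : polar Q (l • w) (act Q h y) = polar Q w y := by rw [← hhw, polar_act]
        rw [polar_smul_left, smul_eq_mul] at e1
        rw [hfe]
        simp only [LinearMap.smul_apply, polarBilin_apply_apply, smul_eq_mul]
        rw [← e1]
        ring) hT
      have e2 : ((h : Cfsg.isometryGroup F ⇑Q) : GL ι F).1 *ᵥ w = l • w := hhw
      rw [e2] at k1
      refine TF_congr (TF_smul k1) rfl ?_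
      rw [smul_smul]
      congr 1
      ring
    intro c
    have k := TF_sub (hsq ((c / c₀ + 1) / 2)) (hsq ((c / c₀ - 1) / 2)) (by
      simp only [LinearMap.smul_apply, polarBilin_apply_apply, polar_self, hw]; simp)
    refine TF_congr k rfl ?_
    apply LinearMap.ext
    intro y
    simp only [LinearMap.sub_apply, LinearMap.smul_apply, smul_eq_mul]
    field_simp
    ring

include h2 in
theorem fullT_all {w : ι → F} (hw : Q w = 0) (hw0 : w ≠ 0) {f : Dual F (ι → F)} (hfw : f w = 0) (hf : f ≠ 0)
    (hT : TF M w f) : ∀ x, FullT M x := by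
  have s1 := TF_self_of hQ hn h2 hΩ hw hw0 hfw hf hT
  have s2 : ∀ u, Q u = 0 → ∀ c : F, TF M u (c • polarBilin Q u) := by
    intro u hu c
    by_cases hu0 : u = 0
    · rw [hu0]; exact TF_zero_left _
    obtain ⟨h, hh, hhw⟩ := exists_Omega_act_eq Q hQ (by omega) w u hw hu hw0 hu0
    have k1 := TF_conj (hΩ h hh) (w := w) (f := c • polarBilin Q w) (f' := c • polarBilin Q u) (by
      intro y
      have e1 : polar Q u (act Q h y) = polar Q w y := by rw [← hhw, polar_act]
      simp only [LinearMap.smul_apply, polarBilin_apply_apply, smul_eq_mul]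
      rw [← e1]) (s1 c)
    have e2 : ((h : Cfsg.isometryGroup F ⇑Q) : GL ι F).1 *ᵥ w = u := hhw
    rwa [e2] at k1
  have s3 : ∀ u u', Q u = 0 → Q u' = 0 → polar Q u u' = 0 → TF M u (polarBilin Q u') := by
    intro u u' hu hu' huu' h
    set c : F := -(1 / 2) with hc
    have hs : Q (u + u') = 0 := by rw [QuadraticMap.map_add Q, hu, hu', huu']; simp
    have p1 : (c • polarBilin Q u) u = 0 := by
      simp only [LinearMap.smul_apply, polarBilin_apply_apply, polar_self, hu]; simp
    have p2 : (c • polarBilin Q u') u' = 0 := by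
      simp only [LinearMap.smul_apply, polarBilin_apply_apply, polar_self, hu']; simp
    have p3 : (c • polarBilin Q (u + u')) (u + u') = 0 := by
      simp only [LinearMap.smul_apply, polarBilin_apply_apply, polar_self, hs]; simp
    have p4 : polar Q u (c • u') = 0 := by rw [polar_smul_right, huu', smul_zero]
    have key : tv (polarBilin Q u') u h = tv _ u p1 * tv _ u' p2
        * ((eich Q u (c • u') hu p4 : Cfsg.isometryGroup F ⇑Q) : GL ι F) * (tv _ (u + u') p3)⁻¹ := by
      rw [eq_mul_inv_iff_mul_eq]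
      apply gl_ext; intro y
      have e1 := act_eich Q u (c • u') hu p4 y
      have e2 : ((eich Q u (c • u') hu p4 : Cfsg.isometryGroup F ⇑Q) : GL ι F).1 *ᵥ y
            = y + polar Q u y • (c • u') - (polar Q (c • u') y + Q (c • u') * polar Q u y) • u := e1
      rw [gl_mul_mulVec, gl_mul_mulVec, gl_mul_mulVec, e2, tv_mulVec, tv_mulVec, tv_mulVec, tv_mulVec]
      simp only [LinearMap.smul_apply, polarBilin_apply_apply, polar_add_right, polar_sub_right,
        polar_smul_right, polar_smul_left, polar_add_left, polar_self, hu, hu', huu', polar_comm Q u' u,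
        QuadraticMap.map_smul, smul_eq_mul, mul_zero, zero_mul, add_zero, sub_zero, nsmul_eq_mul, zero_add]
      have hc2 : 2 * c = -1 := by rw [hc]; field_simp
      have hc1 : (1 : F) = -(2 * c) := by rw [hc2]; ring
      have : y + (c * (polar Q u y + polar Q u' y)) • (u + u') + polar Q u' y • u
          = y + (c * (polar Q u y + polar Q u' y)) • (u + u') + ((-(2 * c)) * polar Q u' y) • u := by
        rw [← hc1, one_mul]
      rw [this]
      module
    rw [key]
    exact M.mul_mem (M.mul_mem (M.mul_mem (s2 u hu c p1) (s2 u' hu' c p2)) (eich_memM hQ hn hΩ _ _ _ _))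
      (M.inv_mem (s2 _ hs c p3))
  have s4 : ∀ u, Q u = 0 → FullT M u := by
    intro u hu φ hφ
    set b := (LinearMap.BilinForm.toDual (polarBilin Q) hQ).symm φ with hb
    have hbφ : ∀ t, polar Q b t = φ t := by
      intro t
      exact LinearMap.BilinForm.apply_toDual_symm_apply (B := polarBilin Q) (hB := hQ) φ t
    obtain ⟨t₁, t₂, q1, q2, q3, q4, q5⟩ := sing_decomp hQ (by omega) hu (t := b)
      (by rw [polar_comm, hbφ, hφ])
    have e : φ = polarBilin Q t₁ + polarBilin Q t₂ := by
      apply LinearMap.ext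
      intro t
      rw [← hbφ, q5]
      simp [polar_add_left]
    have k := TF_add (s3 u t₁ hu q1 q3) (s3 u t₂ hu q2 q4) (by
      rw [polarBilin_apply_apply, polar_comm]; exact q3)
    rw [← e] at k
    exact k hφ
  let W : Submodule F (ι → F) :=
    { carrier := {x | FullT M x}
      add_mem' := by
        intro a b ha hb
        have := FullT_add ha hb 1
        rwa [one_smul] at this
      zero_mem' := s4 0 (by simp)
      smul_mem' := fun c x hx => FullT_smul hx c }
  have hW : W = ⊤ := eq_top_of_singular_mem Q hQ (by omega) W s4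
  intro x
  have : x ∈ W := by rw [hW]; trivial
  exact this

end main

end Cfsg.Agent.Lib.Helper29
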