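import Mathlib
import Cfsg.Agent.Lib.Helper29.OinSL1

/-!
The similarity group of a non-degenerate quadratic form meets `SL` in a maximal subgroup (odd characteristic).
-/

set_option autoImplicit false
set_option linter.unusedSectionVars false
set_option linter.unusedSimpArgs false

namespace Cfsg.Agent.Lib.Helper29

open Matrix QuadraticMap Module Cfsg.Agent.Lib.Helper15

variable {ι : Type} [Fintype ι] [DecidableEq ι] {F : Type*} [Field F] {Q : QuadraticForm F (ι → F)}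
  {M : Subgroup (GL ι F)}

theorem eich_mulVec (u v : ι → F) (hu : Q u = 0) (huv : polar Q u v = 0) (x : ι → F) :
    ((eich Q u v hu huv : Cfsg.isometryGroup F ⇑Q) : GL ι F).1 *ᵥ x
      = x + polar Q u x • v - (polar Q v x + Q v * polar Q u x) • u := act_eich Q u v hu huv x

theorem mem_quadSim_of [Fintype F] (hQ : (polarBilin Q).Nondegenerate) (hn : 13 ≤ Fintype.card ι)
    (h2 : (2 : F) ≠ 0) (g : GL ι F)
    (h : ∀ (u v : ι → F) (hu : Q u = 0) (huv : polar Q u v = 0) (x : ι → F),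
      Q ((g * ((eich Q u v hu huv : Cfsg.isometryGroup F ⇑Q) : GL ι F) * g⁻¹ : GL ι F).1 *ᵥ x) = Q x) :
    g ∈ Cfsg.Geo.quadSimilarityGroup ⇑Q := by
  set Q' : QuadraticForm F (ι → F) := Q.comp (Matrix.toLin' (g : Matrix ι ι F)) with hQ'
  have hQ'a : ∀ x, Q' x = Q (g.1 *ᵥ x) := fun x => by
    rw [hQ', QuadraticMap.comp_apply, Matrix.toLin'_apply]
  have hE : ∀ (u v : ι → F) (hu : Q u = 0) (huv : polar Q u v = 0) (x : ι → F),
      Q' (((eich Q u v hu huv : Cfsg.isometryGroup F ⇑Q) : GL ι F).1 *ᵥ x) = Q' x := by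
    intro u v hu huv x
    have h1 := h u v hu huv (g.1 *ᵥ x)
    rw [gl_mul_mulVec, gl_mul_mulVec, gl_inv_mulVec] at h1
    rw [hQ'a, hQ'a, h1]
  have c1 : ∀ u₀ x, Q u₀ = 0 → polar Q u₀ x = 0 → x ∉ Submodule.span F (Set.range ![u₀]) →
      Q' u₀ = 0 ∧ polar Q' x u₀ = 0 := by
    intro u₀ x hu₀ hx hnot
    obtain ⟨v₀, a1, a2⟩ := exists_dual_fam hQ ![u₀] x hnot
    have a10 : polar Q u₀ v₀ = 0 := a1 0
    have key : ∀ l : F, l * l * Q' u₀ - l * polar Q' x u₀ = 0 := by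
      intro l
      have h1 := hE u₀ (l • v₀) hu₀ (by rw [polar_smul_right, a10, smul_zero]) x
      rw [eich_mulVec, hx, polar_smul_left, polar_comm Q v₀ x, a2] at h1
      simp only [zero_smul, add_zero, mul_zero, smul_eq_mul, mul_one] at h1
      rw [sub_eq_add_neg, ← neg_smul, QuadraticMap.map_add Q', QuadraticMap.map_smul, polar_smul_right,
        smul_eq_mul, smul_eq_mul] at h1
      linear_combination h1
    have k1 := key 1
    have k2 := key (-1)
    have hs : Q' u₀ = 0 := by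
      have : 2 * Q' u₀ = 0 := by linear_combination k1 + k2
      exact (mul_eq_zero.mp this).resolve_left h2
    refine ⟨hs, ?_⟩
    rw [hs] at k1
    linear_combination -k1
  have c2 : ∀ u₀, Q u₀ = 0 → Q' u₀ = 0 := by
    intro u₀ hu₀
    obtain ⟨x, -, hx, hxn⟩ := exists_ker_notMem_om ⊤ (Submodule.span F (Set.range ![u₀]))
      ![polarBilin Q u₀] (by
        have := finrank_span_range_le ![u₀]
        rw [finrank_top, finrank_fintype_fun_eq_card]; omega)
    exact (c1 u₀ x hu₀ (hx 0) hxn).1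
  have c3 : ∀ u₀ x, Q u₀ = 0 → polar Q u₀ x = 0 → polar Q' u₀ x = 0 := by
    intro u₀ x hu₀ hx
    by_cases hnot : x ∈ Submodule.span F (Set.range ![u₀])
    · have : Set.range ![u₀] = {u₀} := by simp
      rw [this] at hnot
      obtain ⟨c, rfl⟩ := Submodule.mem_span_singleton.mp hnot
      rw [polar_smul_right, polar_self, c2 u₀ hu₀]; simp
    · rw [polar_comm]; exact (c1 u₀ x hu₀ hx hnot).2
  let T : Module.End F (ι → F) :=
    (LinearMap.BilinForm.toDual (polarBilin Q) hQ).symm.toLinearMap ∘ₗ (polarBilin Q')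
  have hT : ∀ y v, polar Q (T y) v = polar Q' y v := by
    intro y v
    exact LinearMap.BilinForm.apply_toDual_symm_apply (B := polarBilin Q) (hB := hQ) (polarBilin Q' y) v
  obtain ⟨c, hc⟩ := scalar_of_fix_singular Q hQ (by omega) T (by
    intro u hu
    by_contra hcon
    have hnot : T u ∉ Submodule.span F {u} := by
      intro hmem
      obtain ⟨c, hc⟩ := Submodule.mem_span_singleton.mp hmem
      exact hcon ⟨c, hc.symm⟩
    obtain ⟨y, hy1, hy2⟩ := exists_perp_not_perp' Q hQ _ (T u) hnot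
    apply hy2
    rw [polar_comm, hT]
    exact c3 u y hu (hy1 u (Submodule.mem_span_singleton_self u)))
  have hQc : ∀ y, Q' y = c * Q y := by
    intro y
    have h1 := hT y y
    rw [hc, polar_smul_left, polar_self, polar_self] at h1
    simp only [nsmul_eq_mul, Nat.cast_ofNat, smul_eq_mul] at h1
    have : 2 * (Q' y - c * Q y) = 0 := by linear_combination -h1
    exact sub_eq_zero.mp ((mul_eq_zero.mp this).resolve_left h2)
  have hc0 : c ≠ 0 := by
    rintro rfl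
    obtain ⟨y, -, hy⟩ := exists_nonsingular_fam hQ (Fin.elim0 : Fin 0 → (ι → F)) (by omega)
    apply hy
    have h1 := hQc ((g⁻¹ : GL ι F).1 *ᵥ y)
    rw [hQ'a, gl_mulVec_inv, zero_mul] at h1
    exact h1
  exact ⟨Units.mk0 c hc0, fun v => by rw [← hQ'a, hQc]; rfl⟩

theorem exists_TF_of [Fintype F] (hQ : (polarBilin Q).Nondegenerate) (hn : 13 ≤ Fintype.card ι)
    (h2 : (2 : F) ≠ 0) (hΩ : ∀ g ∈ Cfsg.Omega F ⇑Q, ((g : Cfsg.isometryGroup F ⇑Q) : GL ι F) ∈ M)
    {k : GL ι F} (hk : k ∈ M) {u' v' : ι → F} {φ ψ : Dual F (ι → F)}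
    (hkx : ∀ x, k.1 *ᵥ x = x + φ x • v' + ψ x • u') (hnot : ¬ ∀ x, Q (k.1 *ᵥ x) = Q x) :
    ∃ (w : ι → F) (f : Dual F (ι → F)), Q w = 0 ∧ w ≠ 0 ∧ f w = 0 ∧ f ≠ 0 ∧ TF M w f := by
  by_contra hcon
  push Not at hcon
  have key : ∀ w, Q w = 0 → w ≠ 0 → φ w = 0 → ψ w = 0 → polar Q u' w = 0 → polar Q v' w = 0 →
      ∀ x, polar Q w x = 0 → (Q (k.1 *ᵥ x) = Q x ∧ ∀ y, polar Q (k.1 *ᵥ x) (k.1 *ᵥ y) = polar Q x y) := by
    intro w hw hw0 h1 h2' h3 h4 x hwx
    have hkw : k.1 *ᵥ w = w := by rw [hkx, h1, h2']; simp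
    have hkiw : (k⁻¹ : GL ι F).1 *ᵥ w = w := by
      have := gl_inv_mulVec k w
      rwa [hkw] at this
    have hpw : ∀ y, polar Q w (k.1 *ᵥ y) = polar Q w y := by
      intro y
      rw [hkx, polar_add_right, polar_add_right, polar_smul_right, polar_smul_right, polar_comm Q w v', h4,
        polar_comm Q w u', h3]
      simp
    have hwkx : polar Q w (k.1 *ᵥ x) = 0 := by rw [hpw, hwx]
    set χ : Dual F (ι → F) := polarBilin Q (k.1 *ᵥ x)
      - (polarBilin Q x) ∘ₗ Matrix.toLin' ((k⁻¹ : GL ι F) : Matrix ι ι F)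
      + (Q (k.1 *ᵥ x) - Q x) • polarBilin Q w with hχ
    have hχa : ∀ y, χ y = polar Q (k.1 *ᵥ x) y - polar Q x ((k⁻¹ : GL ι F).1 *ᵥ y)
        + (Q (k.1 *ᵥ x) - Q x) * polar Q w y := by
      intro y
      simp [hχ, Matrix.toLin'_apply]
    have hχw : χ w = 0 := by
      rw [hχa, hkiw, polar_comm Q _ w, hwkx, polar_comm Q x w, hwx, polar_self, hw]; simp
    have hTF : TF M w χ := by
      intro h
      have e : tv χ w h = (((eich Q w (k.1 *ᵥ x) hw hwkx : Cfsg.isometryGroup F ⇑Q) : GL ι F))⁻¹ * k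
          * ((eich Q w x hw hwx : Cfsg.isometryGroup F ⇑Q) : GL ι F) * k⁻¹ := by
        rw [eq_mul_inv_iff_mul_eq, mul_assoc, eq_inv_mul_iff_mul_eq, ← mul_assoc]
        apply gl_ext
        intro y
        rw [gl_mul_mulVec, gl_mul_mulVec, gl_mul_mulVec, tv_mulVec, eich_mulVec, eich_mulVec, hχa,
          gl_inv_mulVec, hpw]
        simp only [polar_add_right, polar_smul_right, polar_self, hw, hpw, Matrix.mulVec_add,
          Matrix.mulVec_sub, Matrix.mulVec_smul, hkw, polar_comm Q _ w, hwkx, hwx, smul_eq_mul, mul_zero, add_zero,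
          nsmul_eq_mul]
        module
      rw [e]
      exact M.mul_mem (M.mul_mem (M.mul_mem (M.inv_mem (eich_memM hQ hn hΩ _ _ _ _)) hk)
        (eich_memM hQ hn hΩ _ _ _ _)) (M.inv_mem hk)
    have hχ0 : χ = 0 := by
      by_contra hne
      exact hcon w χ hw hw0 hχw hne hTF
    have hall : ∀ y, polar Q (k.1 *ᵥ x) (k.1 *ᵥ y) - polar Q x y + (Q (k.1 *ᵥ x) - Q x) * polar Q w y = 0 := by
      intro y
      have h5 := hχa (k.1 *ᵥ y)
      rw [hχ0, gl_inv_mulVec, hpw] at h5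
      exact h5.symm
    have hQx : Q (k.1 *ᵥ x) = Q x := by
      have h5 := hall x
      rw [polar_self, polar_self, hwx] at h5
      simp only [nsmul_eq_mul, Nat.cast_ofNat, mul_zero, add_zero] at h5
      have : 2 * (Q (k.1 *ᵥ x) - Q x) = 0 := by linear_combination h5
      exact sub_eq_zero.mp ((mul_eq_zero.mp this).resolve_left h2)
    refine ⟨hQx, fun y => ?_⟩
    have h5 := hall y
    rw [hQx, sub_self, zero_mul, add_zero] at h5
    exact sub_eq_zero.mp h5
  obtain ⟨w₁, -, a0, a1, a2⟩ := exists_singular_ker_notMem Q ⊤ ⊥ ![φ, ψ, polarBilin Q u', polarBilin Q v'] (by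
    rw [finrank_top, finrank_fintype_fun_eq_card, finrank_bot]; omega)
  have hw₁0 : w₁ ≠ 0 := fun h => a2 (by rw [h]; exact Submodule.zero_mem _)
  obtain ⟨w₂, -, b0, b1, b2⟩ := exists_singular_ker_notMem Q ⊤ (Submodule.span F (Set.range ![w₁]))
    ![φ, ψ, polarBilin Q u', polarBilin Q v'] (by
      have := finrank_span_range_le ![w₁]
      rw [finrank_top, finrank_fintype_fun_eq_card]; omega)
  have hw₂0 : w₂ ≠ 0 := fun h => b2 (by rw [h]; exact Submodule.zero_mem _)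
  obtain ⟨d, d1, d2⟩ := exists_dual_fam hQ ![w₁] w₂ b2
  have d10 : polar Q w₁ d = 0 := d1 0
  have K1 := key w₁ a0 hw₁0 (a1 0) (a1 1) (a1 2) (a1 3)
  have K2 := key w₂ b0 hw₂0 (b1 0) (b1 1) (b1 2) (b1 3)
  apply hnot
  intro v
  have hx₁ : polar Q w₁ (polar Q w₂ v • d) = 0 := by rw [polar_smul_right, d10, smul_zero]
  have hx₂ : polar Q w₂ (v - polar Q w₂ v • d) = 0 := by rw [polar_sub_right, polar_smul_right, d2]; simp
  have hv : v = polar Q w₂ v • d + (v - polar Q w₂ v • d) := by abel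
  rw [hv, Matrix.mulVec_add, QuadraticMap.map_add Q, QuadraticMap.map_add Q, (K1 _ hx₁).1, (K2 _ hx₂).1,
    (K1 _ hx₁).2]

theorem omega_mem_SL (g : Cfsg.isometryGroup F ⇑Q) (hg : g ∈ Cfsg.Omega F ⇑Q) :
    (g : GL ι F) ∈ Cfsg.Geo.specialLinear ι F := by
  have h1 := Abelianization.commutator_subset_ker
    ((Matrix.GeneralLinearGroup.det : GL ι F →* Fˣ).comp (Cfsg.isometryGroup F ⇑Q).subtype) hg
  exact h1

theorem quadSim_isMaximalIn [Fintype F] (hQ : (polarBilin Q).Nondegenerate) (hn : 13 ≤ Fintype.card ι)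
    (h2 : (2 : F) ≠ 0) :
    Cfsg.Geo.IsMaximalIn (Cfsg.Geo.specialLinear ι F)
      (Cfsg.Geo.quadSimilarityGroup ⇑Q ⊓ Cfsg.Geo.specialLinear ι F) := by
  have hΩH : ∀ g ∈ Cfsg.Omega F ⇑Q, ((g : Cfsg.isometryGroup F ⇑Q) : GL ι F) ∈
      Cfsg.Geo.quadSimilarityGroup ⇑Q ⊓ Cfsg.Geo.specialLinear ι F := by
    intro g hg
    exact ⟨⟨1, fun v => by rw [Units.val_one, one_mul]; exact Q_act g v⟩, omega_mem_SL g hg⟩
  have : Nontrivial ι := Fintype.one_lt_card_iff_nontrivial.mp (by omega)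
  refine ⟨lt_of_le_of_ne inf_le_right ?_, ?_⟩
  · intro heq
    obtain ⟨u, -, hu, -, hu0⟩ := exists_singular_ker_notMem Q ⊤ ⊥ (Fin.elim0 : Fin 0 → Dual F (ι → F)) (by
      rw [finrank_top, finrank_fintype_fun_eq_card, finrank_bot]; omega)
    have hu0' : u ≠ 0 := fun h => hu0 (by rw [h]; exact Submodule.zero_mem _)
    obtain ⟨x, hx, -, hux⟩ := exists_singular_perp_fam hQ (Fin.elim0 : Fin 0 → (ι → F)) u (by
      have : Set.range (Fin.elim0 : Fin 0 → (ι → F)) = ∅ := Set.range_eq_empty _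
      rw [this, Submodule.span_empty, Submodule.mem_bot]
      exact hu0') (by omega)
    have huu : (polarBilin Q u) u = 0 := by rw [polarBilin_apply_apply, polar_self, hu]; simp
    have h1 : tv (polarBilin Q u) u huu ∈ Cfsg.Geo.quadSimilarityGroup ⇑Q ⊓ Cfsg.Geo.specialLinear ι F := by
      rw [heq]; exact tv_mem_specialLinear _ _ _
    obtain ⟨c, hc⟩ := h1.1
    have h3 := hc x
    rw [tv_mulVec, hx, mul_zero, QuadraticMap.map_add Q, hx, QuadraticMap.map_smul, hu, polar_smul_right,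
      polarBilin_apply_apply, polar_comm Q x u] at h3
    simp only [smul_eq_mul, mul_zero, add_zero, zero_add] at h3
    exact hux ((mul_self_eq_zero).mp h3)
  · intro M hHM hMK
    by_cases hMH : M ≤ Cfsg.Geo.quadSimilarityGroup ⇑Q ⊓ Cfsg.Geo.specialLinear ι F
    · exact Or.inl (le_antisymm hMH hHM)
    · right
      apply le_antisymm hMK
      obtain ⟨g, hgM, hgH⟩ := SetLike.not_le_iff_exists.1 hMH
      have hΩ : ∀ g ∈ Cfsg.Omega F ⇑Q, ((g : Cfsg.isometryGroup F ⇑Q) : GL ι F) ∈ M :=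
        fun g hg => hHM (hΩH g hg)
      have hgS : g ∉ Cfsg.Geo.quadSimilarityGroup ⇑Q := fun h => hgH ⟨h, hMK hgM⟩
      obtain ⟨u, v, hu, huv, hnot⟩ : ∃ (u v : ι → F) (hu : Q u = 0) (huv : polar Q u v = 0), ¬ ∀ x : ι → F,
          Q ((g * ((eich Q u v hu huv : Cfsg.isometryGroup F ⇑Q) : GL ι F) * g⁻¹ : GL ι F).1 *ᵥ x) = Q x := by
        by_contra hcon
        push Not at hcon
        exact hgS (mem_quadSim_of hQ hn h2 g hcon)
      obtain ⟨w, f, q1, q2, q3, q4, q5⟩ := exists_TF_of hQ hn h2 hΩ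
        (k := g * ((eich Q u v hu huv : Cfsg.isometryGroup F ⇑Q) : GL ι F) * g⁻¹)
        (M.mul_mem (M.mul_mem hgM (eich_memM hQ hn hΩ _ _ _ _)) (M.inv_mem hgM))
        (u' := g.1 *ᵥ u) (v' := g.1 *ᵥ v)
        (φ := (polarBilin Q u) ∘ₗ Matrix.toLin' ((g⁻¹ : GL ι F) : Matrix ι ι F))
        (ψ := -((polarBilin Q v) ∘ₗ Matrix.toLin' ((g⁻¹ : GL ι F) : Matrix ι ι F)
          + Q v • (polarBilin Q u) ∘ₗ Matrix.toLin' ((g⁻¹ : GL ι F) : Matrix ι ι F)))
        (by
          intro x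
          rw [gl_mul_mulVec, gl_mul_mulVec, eich_mulVec, Matrix.mulVec_sub, Matrix.mulVec_add,
            Matrix.mulVec_smul, Matrix.mulVec_smul, gl_mulVec_inv]
          simp only [LinearMap.comp_apply, Matrix.toLin'_apply, polarBilin_apply_apply, LinearMap.neg_apply,
            LinearMap.add_apply, LinearMap.smul_apply, smul_eq_mul]
          module) hnot
      exact specialLinear_le_of_tv M (fun φ x h => fullT_all hQ hn h2 hΩ q1 q2 q3 q4 q5 x φ h)

end Cfsg.Agent.Lib.Helper29
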