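import Mathlib
import Cfsg.Agent.Lib.Helper29.OmPoint

/-!
Pairs of complementary totally singular subspaces `V = W ⊕ W'` and overgroups of the stabiliser in `Ω(Q)`.
-/

set_option autoImplicit false

namespace Cfsg.Agent.Lib.Helper29

open Matrix QuadraticMap Module Cfsg.Agent.Lib.Helper15

variable {ι : Type} [Fintype ι] [DecidableEq ι] {F : Type*} [Field F] {Q : QuadraticForm F (ι → F)}

omit [Fintype ι] [DecidableEq ι] in
theorem notMem_span_pair_swap {a c u : ι → F} (hnot : c ∉ Submodule.span F {a})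
    (hunot : u ∉ Submodule.span F {a, c}) : c ∉ Submodule.span F {a, u} := by
  intro h
  obtain ⟨α, β, hαβ⟩ := Submodule.mem_span_pair.1 h
  by_cases hβ : β = 0
  · apply hnot
    rw [Submodule.mem_span_singleton]
    exact ⟨α, by rw [← hαβ, hβ]; simp⟩
  · apply hunot
    rw [Submodule.mem_span_pair]
    refine ⟨-(β⁻¹ * α), β⁻¹, ?_⟩
    rw [← hαβ, smul_add, smul_smul, smul_smul, inv_mul_cancel₀ hβ, one_smul, neg_smul]
    abel

/-- a decomposition into two totally singular subspaces -/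
structure OTS (Q : QuadraticForm F (ι → F)) (W W' : Submodule F (ι → F)) : Prop where
  ts : ∀ w ∈ W, Q w = 0
  ts' : ∀ w ∈ W', Q w = 0
  sup : ∀ x, ∃ a ∈ W, ∃ b ∈ W', x = a + b

namespace OTS

variable {W W' : Submodule F (ι → F)}

omit [Fintype ι] [DecidableEq ι] in
theorem symm (P : OTS Q W W') : OTS Q W' W :=
  ⟨P.ts', P.ts, fun x => by obtain ⟨a, ha, b, hb, rfl⟩ := P.sup x; exact ⟨b, hb, a, ha, add_comm _ _⟩⟩

omit [Fintype ι] [DecidableEq ι] in
theorem mem_of_perp (P : OTS Q W W') (hQ : (polarBilin Q).Nondegenerate) {y : ι → F}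
    (hy : ∀ w ∈ W, polar Q w y = 0) : y ∈ W := by
  obtain ⟨a, ha, b, hb, rfl⟩ := P.sup y
  have hb0 : b = 0 := by
    apply hQ.1 b
    intro z
    obtain ⟨a', ha', b', hb', rfl⟩ := P.sup z
    show polar Q b (a' + b') = 0
    rw [polar_add_right, polar_ts P.ts' hb hb', add_zero]
    have := hy a' ha'
    rw [polar_add_right, polar_ts P.ts ha' ha, zero_add] at this
    rw [polar_comm]; exact this
  rw [hb0, add_zero]; exact ha

omit [Fintype ι] [DecidableEq ι] in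
theorem disj (P : OTS Q W W') (hQ : (polarBilin Q).Nondegenerate) {x : ι → F} (h1 : x ∈ W) (h2 : x ∈ W') :
    x = 0 := by
  apply hQ.1 x
  intro z
  obtain ⟨a, ha, b, hb, rfl⟩ := P.sup z
  show polar Q x (a + b) = 0
  rw [polar_add_right, polar_ts P.ts h1 ha, polar_ts P.ts' h2 hb, add_zero]

omit [DecidableEq ι] in
theorem exists_dual (P : OTS Q W W') (hQ : (polarBilin Q).Nondegenerate) (S : Submodule F (ι → F))
    (hS : S ≤ W) {c : ι → F} (hc : c ∈ W) (hnot : c ∉ S) :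
    ∃ v ∈ W', (∀ s ∈ S, polar Q s v = 0) ∧ polar Q v c = 1 := by
  have h1 : c ∉ W' ⊔ S := by
    intro h
    obtain ⟨w', hw', s, hs, e⟩ := Submodule.mem_sup.1 h
    have h0 : w' = 0 := P.disj hQ (by
      have : w' = c - s := by rw [← e]; abel
      rw [this]; exact W.sub_mem hc (hS hs)) hw'
    apply hnot; rw [← e, h0, zero_add]; exact hs
  obtain ⟨y, hy1, hy2⟩ := exists_perp_not_perp' Q hQ _ c h1
  refine ⟨(polar Q y c)⁻¹ • y,
    W'.smul_mem _ (P.symm.mem_of_perp hQ (fun w' hw' => hy1 w' (Submodule.mem_sup_left hw'))), ?_, ?_⟩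
  · intro s hs; rw [polar_smul_right, hy1 s (Submodule.mem_sup_right hs), smul_zero]
  · rw [polar_smul_left, smul_eq_mul, inv_mul_cancel₀ hy2]

section group

variable {M : Subgroup (Cfsg.isometryGroup F ⇑Q)}

/-- the root elements of the Levi factor -/
theorem EM_levi [Finite F] (P : OTS Q W W') (hQ : (polarBilin Q).Nondegenerate) (hn : 5 ≤ Fintype.card ι)
    (hM : ∀ g ∈ Cfsg.Omega F ⇑Q, (∀ w ∈ W, act Q g w ∈ W) → (∀ w ∈ W', act Q g w ∈ W') → g ∈ M)
    {a a' : ι → F} (ha : a ∈ W) (ha' : a' ∈ W') : EM M a a' := by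
  intro hQa haa'
  apply hM _ (eich_mem_Omega Q hQ hn _ _ _ _)
  · intro w hw
    rw [act_eich, polar_ts P.ts ha hw, zero_smul, add_zero]
    exact W.sub_mem hw (W.smul_mem _ ha)
  · intro w hw
    rw [act_eich, polar_ts P.ts' ha' hw, P.ts' a' ha']
    simp only [zero_mul, add_zero, zero_smul, sub_zero]
    exact W'.add_mem hw (W'.smul_mem _ ha')

theorem EM_symm' {u v : ι → F} (h : ∀ c : F, EM M u (c • v)) (hu : Q u = 0) (huv : polar Q u v = 0) (c : F) :
    EM M v (c • u) := by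
  intro hv hvu
  have h1 : polar Q u ((-c) • v) = 0 := by rw [polar_smul_right, huv, smul_zero]
  have : eich Q v (c • u) hv hvu = eich Q u ((-c) • v) hu h1 := by
    apply iso_ext
    intro x
    rw [act_eich, act_eich, QuadraticMap.map_smul, QuadraticMap.map_smul, hu, hv, polar_smul_left, polar_smul_left]
    simp only [smul_eq_mul, mul_zero, zero_mul, add_zero, smul_smul]
    module
  rw [this]
  exact h _ hu h1

/-- step 1 of Lemma A -/
theorem EM_fill [Finite F] (P : OTS Q W W') (hQ : (polarBilin Q).Nondegenerate) (hn : 5 ≤ Fintype.card ι)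
    (hM : ∀ g ∈ Cfsg.Omega F ⇑Q, (∀ w ∈ W, act Q g w ∈ W) → (∀ w ∈ W', act Q g w ∈ W') → g ∈ M)
    {a b : ι → F} (ha : a ∈ W) (hb : b ∈ W) (hnot : b ∉ Submodule.span F {a})
    (hE : ∀ c : F, EM M a (c • b)) {e : ι → F} (he : e ∈ W) (c : F) : EM M a (c • e) := by
  by_cases hbe : b ∈ Submodule.span F {a, e}
  · obtain ⟨α, β, hαβ⟩ := Submodule.mem_span_pair.1 hbe
    have hβ : β ≠ 0 := by
      rintro rfl
      apply hnot
      rw [Submodule.mem_span_singleton]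
      exact ⟨α, by rw [← hαβ]; simp⟩
    have e1 : c • e = (c * β⁻¹) • b - (c * β⁻¹ * α) • a := by
      rw [← hαβ, smul_add, smul_smul, smul_smul, mul_assoc c β⁻¹ β, inv_mul_cancel₀ hβ, mul_one]
      abel
    rw [e1]
    exact EM_sub (hE _) (EM_self _ _) (by rw [polar_smul_right, polar_ts P.ts ha hb, smul_zero])
  · obtain ⟨e', he', h1, h2⟩ := P.exists_dual hQ (Submodule.span F {a, e}) (by
      rw [Submodule.span_le]
      rintro x (rfl | rfl)
      · exact ha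
      · exact he) hb hbe
    have hae' : polar Q a e' = 0 := h1 a (Submodule.subset_span (by simp))
    have hee' : polar Q e e' = 0 := h1 e (Submodule.subset_span (by simp))
    have ht := P.EM_levi hQ hn hM he he' (P.ts e he) hee'
    have h3 := EM_act (hE (-c)) ht
    have f1 : act Q (eich Q e e' (P.ts e he) hee') a = a := by
      rw [act_eich, polar_ts P.ts he ha, polar_comm Q e' a, hae']; simp
    have f2 : act Q (eich Q e e' (P.ts e he) hee') ((-c) • b) = (-c) • b + c • e := by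
      rw [act_smul, act_eich, polar_ts P.ts he hb, h2]
      simp only [zero_smul, add_zero, mul_zero, one_smul, smul_sub, neg_smul]
      abel
    rw [f1, f2] at h3
    have h4 := EM_sub h3 (hE (-c)) (by
      rw [polar_add_right, polar_smul_right, polar_smul_right, polar_ts P.ts ha hb, polar_ts P.ts ha he]; simp)
    rwa [add_sub_cancel_left] at h4

/-- Lemma A: a non-trivial Siegel transformation (with its multiples) inside `W` forces `M ≥ Ω`. -/
theorem omega_le_of_siegel [Fintype F] (P : OTS Q W W') (hQ : (polarBilin Q).Nondegenerate)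
    (hn : 5 ≤ Fintype.card ι)
    (hM : ∀ g ∈ Cfsg.Omega F ⇑Q, (∀ w ∈ W, act Q g w ∈ W) → (∀ w ∈ W', act Q g w ∈ W') → g ∈ M)
    {s : Cfsg.isometryGroup F ⇑Q} (hs : s ∈ M) (hsW : ∀ w ∈ W, act Q s w ∈ W')
    {a b : ι → F} (ha : a ∈ W) (ha0 : a ≠ 0) (hb : b ∈ W) (hnot : b ∉ Submodule.span F {a})
    (hE : ∀ c : F, EM M a (c • b)) : Cfsg.Omega F ⇑Q ≤ M := by
  have h1 : ∀ e ∈ W, ∀ c : F, EM M a (c • e) := fun e he c => P.EM_fill hQ hn hM ha hb hnot hE he c
  have h2 : ∀ e ∈ W, ∀ e₂ ∈ W, EM M e e₂ := by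
    intro e he e₂ he₂
    by_cases hea : e ∈ Submodule.span F {a}
    · obtain ⟨γ, rfl⟩ := Submodule.mem_span_singleton.1 hea
      exact EM_smul_left γ (h1 e₂ he₂ γ) (polar_ts P.ts ha he₂) (P.ts a ha)
    · have hae : a ∉ Submodule.span F {e} := not_mem_span_symm ha0 hea
      have h3 : ∀ c : F, EM M e (c • a) := EM_symm' (h1 e he) (P.ts a ha) (polar_ts P.ts ha he)
      have := P.EM_fill hQ hn hM he ha hae h3 he₂ 1
      rwa [one_smul] at this
  have hC : ∀ e ∈ W, e ∈ ocentres Q M := by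
    intro e he
    rw [mem_ocentres_iff]
    refine ⟨P.ts e he, fun v => ?_⟩
    obtain ⟨w, hw, w', hw', rfl⟩ := P.sup v
    exact EM_add (h2 e he w hw) (P.EM_levi hQ hn hM he hw') (polar_ts P.ts he hw)
  have hsa : act Q s a ≠ 0 := by
    intro h
    apply ha0
    have := act_inv_act s a
    rw [h] at this
    rw [← this]
    simp [act]
  obtain ⟨w, hw, -, hw1⟩ := P.symm.exists_dual hQ ⊥ bot_le (hsW a ha) (by simpa using hsa)
  apply omega_le_of_opp hQ hn (hC w hw) (ocentres_act (hC a ha) hs)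
  rw [hw1]
  exact one_ne_zero

theorem finrank_comap_GL_le (g : GL ι F) (S : Submodule F (ι → F)) :
    finrank F (S.comap (Matrix.mulVecLin (g : Matrix ι ι F))) ≤ finrank F S := by
  rw [← finrank_map_GL (S.comap (Matrix.mulVecLin (g : Matrix ι ι F))) g]
  apply Submodule.finrank_mono
  rintro _ ⟨t, ht, rfl⟩
  exact ht

/-- B1: an element of `M` mapping `W` into `U` maps `W'` into `U'`. -/
theorem B1 {U U' : Submodule F (ι → F)} (P₂ : OTS Q U U')
    (h3 : 3 ≤ finrank F W)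
    (hL : ∀ a ∈ W, ∀ a' ∈ W', EM M a a') (hL₂ : ∀ a ∈ U, ∀ a' ∈ U', EM M a a')
    (hnq : ∀ a ∈ U, a ≠ 0 → ∀ b ∈ U, (∀ c : F, EM M a (c • b)) → b ∈ Submodule.span F {a})
    {g : Cfsg.isometryGroup F ⇑Q} (hg : g ∈ M) (hgW : ∀ w ∈ W, act Q g w ∈ U) :
    ∀ w' ∈ W', act Q g w' ∈ U' := by
  intro a' ha'
  obtain ⟨b, hb, b', hb', hbb⟩ := P₂.sup (act Q g a')
  by_cases hb0 : b = 0
  · rw [hbb, hb0, zero_add]; exact hb'
  exfalso
  set T := (Submodule.span F {b}).comap (Matrix.mulVecLin ((g : GL ι F) : Matrix ι ι F)) with hT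
  have hfT : finrank F T ≤ 1 := by
    refine le_trans (finrank_comap_GL_le _ _) ?_
    rw [finrank_span_singleton hb0]
  obtain ⟨a, ha, hk, haT⟩ := exists_ker_notMem_om W T (k := 1) ![polarBilin Q a'] (by omega)
  have haa' : polar Q a a' = 0 := by rw [polar_comm]; exact hk 0
  have hga : act Q g a ∉ Submodule.span F {b} := haT
  have hga0 : act Q g a ≠ 0 := by
    intro h
    apply hga
    rw [h]
    exact Submodule.zero_mem _
  have hE : ∀ c : F, EM M (act Q g a) (c • b) := by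
    intro c
    have h1 := EM_act (hL a ha (c • a') (W'.smul_mem c ha')) hg
    rw [act_smul, hbb, smul_add] at h1
    have h2 := EM_sub h1 (hL₂ _ (hgW a ha) (c • b') (U'.smul_mem c hb')) (by
      rw [← smul_add, ← hbb, polar_smul_right, polar_act, haa', smul_zero])
    rwa [add_sub_cancel_right] at h2
  obtain ⟨γ, hγ⟩ := Submodule.mem_span_singleton.1 (hnq _ (hgW a ha) hga0 b hb hE)
  have hγ0 : γ ≠ 0 := by
    rintro rfl
    rw [zero_smul] at hγ
    exact hb0 hγ.symm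
  apply hga
  rw [Submodule.mem_span_singleton]
  exact ⟨γ⁻¹, by rw [← hγ, smul_smul, inv_mul_cancel₀ hγ0, one_smul]⟩

/-- D0 -/
theorem D0 (P : OTS Q W W')
    (hL : ∀ a ∈ W, ∀ a' ∈ W', EM M a a')
    (hnq : ∀ a ∈ W, a ≠ 0 → ∀ b ∈ W, (∀ c : F, EM M a (c • b)) → b ∈ Submodule.span F {a})
    {k : Cfsg.isometryGroup F ⇑Q} (hk : k ∈ M) {r r' : ι → F} (hr : r ∈ W) (hr' : r' ∈ W) (hr0 : r ≠ 0)
    (hrr' : r' ∉ Submodule.span F {r}) (hkr : act Q k r = r) (hkr' : act Q k r' = r')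
    {a' : ι → F} (ha' : a' ∈ W') (h1 : polar Q r a' = 0) (h2 : polar Q r' a' = 0) : act Q k a' ∈ W' := by
  obtain ⟨s₁, hs₁, s₁', hs₁', hss⟩ := P.sup (act Q k a')
  have key : ∀ ρ ∈ W, act Q k ρ = ρ → polar Q ρ a' = 0 → ∀ c : F, EM M ρ (c • s₁) := by
    intro ρ hρ hkρ hρa c
    have e1 := EM_act (hL ρ hρ (c • a') (W'.smul_mem c ha')) hk
    rw [act_smul, hss, smul_add, hkρ] at e1
    have e2 := EM_sub e1 (hL ρ hρ (c • s₁') (W'.smul_mem c hs₁')) (by
      rw [← smul_add, ← hss, polar_smul_right]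
      nth_rewrite 1 [← hkρ]
      rw [polar_act, hρa, smul_zero])
    rwa [add_sub_cancel_right] at e2
  have hr'0 : r' ≠ 0 := by
    rintro rfl
    exact hrr' (Submodule.zero_mem _)
  obtain ⟨α, hα⟩ := Submodule.mem_span_singleton.1 (hnq r hr hr0 s₁ hs₁ (key r hr hkr h1))
  obtain ⟨β, hβ⟩ := Submodule.mem_span_singleton.1 (hnq r' hr' hr'0 s₁ hs₁ (key r' hr' hkr' h2))
  have hβ0 : β = 0 := by
    by_contra hne
    apply hrr'
    rw [Submodule.mem_span_singleton]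
    exact ⟨β⁻¹ * α, by rw [mul_smul, hα, ← hβ, smul_smul, inv_mul_cancel₀ hne, one_smul]⟩
  rw [hss, ← hβ, hβ0, zero_smul, zero_add]
  exact hs₁'

/-- D: an element of `M` fixing three independent vectors of `W` stabilises `W'`. -/
theorem D3 (P : OTS Q W W') (hQ : (polarBilin Q).Nondegenerate)
    (hL : ∀ a ∈ W, ∀ a' ∈ W', EM M a a')
    (hnq : ∀ a ∈ W, a ≠ 0 → ∀ b ∈ W, (∀ c : F, EM M a (c • b)) → b ∈ Submodule.span F {a})
    {k : Cfsg.isometryGroup F ⇑Q} (hk : k ∈ M) {r₁ r₂ r₃ : ι → F} (hr₁ : r₁ ∈ W) (hr₂ : r₂ ∈ W) (hr₃ : r₃ ∈ W)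
    (h10 : r₁ ≠ 0) (h21 : r₂ ∉ Submodule.span F {r₁}) (h312 : r₃ ∉ Submodule.span F {r₁, r₂})
    (hk1 : act Q k r₁ = r₁) (hk2 : act Q k r₂ = r₂) (hk3 : act Q k r₃ = r₃) :
    ∀ a' ∈ W', act Q k a' ∈ W' := by
  have h20 : r₂ ≠ 0 := by
    rintro rfl
    exact h21 (Submodule.zero_mem _)
  have h213 : r₂ ∉ Submodule.span F {r₁, r₃} := notMem_span_pair_swap h21 h312
  have h12 : r₁ ∉ Submodule.span F {r₂} := not_mem_span_symm h10 h21
  have h321 : r₃ ∉ Submodule.span F {r₂, r₁} := by rwa [Set.pair_comm]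
  have h123 : r₁ ∉ Submodule.span F {r₂, r₃} := notMem_span_pair_swap h12 h321
  have h31 : r₃ ∉ Submodule.span F {r₁} := fun h => h312 (Submodule.span_mono (by simp) h)
  have h32 : r₃ ∉ Submodule.span F {r₂} := fun h => h312 (Submodule.span_mono (by simp) h)
  have hsub : ∀ x ∈ W, ∀ y ∈ W, Submodule.span F {x, y} ≤ W := by
    intro x hx y hy
    rw [Submodule.span_le]
    rintro z (rfl | rfl)
    · exact hx
    · exact hy
  obtain ⟨t₂, ht₂, ht₂a, ht₂b⟩ := P.exists_dual hQ _ (hsub r₁ hr₁ r₃ hr₃) hr₂ h213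
  obtain ⟨t₁, ht₁, ht₁a, ht₁b⟩ := P.exists_dual hQ _ (hsub r₂ hr₂ r₃ hr₃) hr₁ h123
  have step1 : ∀ a' ∈ W', polar Q r₁ a' = 0 → act Q k a' ∈ W' := by
    intro a' ha' h1
    have e : a' = (a' - polar Q r₂ a' • t₂) + polar Q r₂ a' • t₂ := by abel
    rw [e, act_add, act_smul]
    refine W'.add_mem ?_ (W'.smul_mem _ ?_)
    · apply P.D0 hL hnq hk hr₁ hr₂ h10 h21 hk1 hk2 (W'.sub_mem ha' (W'.smul_mem _ ht₂))
      · rw [polar_sub_right, polar_smul_right, h1, ht₂a r₁ (Submodule.subset_span (by simp))]; simp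
      · rw [polar_sub_right, polar_smul_right, polar_comm Q r₂ t₂, ht₂b]; simp
    · exact P.D0 hL hnq hk hr₁ hr₃ h10 h31 hk1 hk3 ht₂ (ht₂a r₁ (Submodule.subset_span (by simp)))
        (ht₂a r₃ (Submodule.subset_span (by simp)))
  intro a' ha'
  have e : a' = (a' - polar Q r₁ a' • t₁) + polar Q r₁ a' • t₁ := by abel
  rw [e, act_add, act_smul]
  refine W'.add_mem ?_ (W'.smul_mem _ ?_)
  · apply step1 _ (W'.sub_mem ha' (W'.smul_mem _ ht₁))
    rw [polar_sub_right, polar_smul_right, polar_comm Q r₁ t₁, ht₁b]; simp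
  · exact P.D0 hL hnq hk hr₂ hr₃ h20 h32 hk2 hk3 ht₁ (ht₁a r₂ (Submodule.subset_span (by simp)))
      (ht₁a r₃ (Submodule.subset_span (by simp)))

/-- C: an element mapping `W` neither into `W` nor into `W'` yields a conjugate root element moving `W`. -/
theorem exists_moved (P : OTS Q W W') (hQ : (polarBilin Q).Nondegenerate) (h5 : 5 ≤ finrank F W)
    {g : Cfsg.isometryGroup F ⇑Q} {w₀ w₁ : ι → F} (hw₀ : w₀ ∈ W) (hgw₀ : act Q g w₀ ∉ W)
    (hw₁ : w₁ ∈ W) (hgw₁ : act Q g w₁ ∉ W') :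
    ∃ (a : ι → F) (ha : a ∈ W) (a' : ι → F) (_ : a' ∈ W') (haa' : polar Q a a' = 0) (w : ι → F) (_ : w ∈ W),
      act Q (g⁻¹ * eich Q a a' (P.ts a ha) haa' * g) w ∉ W := by
  by_contra hcon
  push Not at hcon
  obtain ⟨x, hx, x', hx', hp⟩ := P.sup (act Q g w₁)
  have hx0 : x ≠ 0 := by
    rintro rfl
    apply hgw₁
    rw [hp, zero_add]; exact hx'
  obtain ⟨y, hy, y', hy', hp₂⟩ := P.sup (act Q g w₀)
  have hy'0 : y' ≠ 0 := by
    rintro rfl
    apply hgw₀
    rw [hp₂, add_zero]; exact hy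
  obtain ⟨a', ha', -, ha'x⟩ := P.exists_dual hQ ⊥ bot_le hx (by simpa using hx0)
  obtain ⟨b, hb, -, hby'⟩ := P.symm.exists_dual hQ ⊥ bot_le hy' (by simpa using hy'0)
  have hi : ∀ a ∈ W, polar Q a a' = 0 → polar Q a x' = 0 → act Q g⁻¹ a ∈ W := by
    intro a ha haa' hax'
    have h1 := hcon a ha a' ha' haa' w₁ hw₁
    rw [act_mul, act_mul, act_eich, hp, polar_add_right, polar_add_right, polar_ts P.ts ha hx, hax', ha'x,
      polar_ts P.ts' ha' hx'] at h1
    simp only [add_zero, zero_smul, mul_zero, one_smul] at h1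
    rw [← hp, sub_eq_add_neg, act_add, act_inv_act] at h1
    have h2 := (W.add_mem_iff_right hw₁).1 h1
    have h3 : act Q g⁻¹ (-a) = - act Q g⁻¹ a := by simp [act, Matrix.mulVec_neg]
    rw [h3] at h2
    exact (W.neg_mem_iff).1 h2
  have hii : ∀ b' ∈ W', polar Q b b' = 0 → polar Q y b' = 0 → act Q g⁻¹ b' ∈ W := by
    intro b' hb' hbb' hyb'
    have h1 := hcon b hb b' hb' hbb' w₀ hw₀
    rw [act_mul, act_mul, act_eich, hp₂, polar_add_right, polar_add_right, polar_ts P.ts hb hy, hby',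
      polar_comm Q b' y, hyb', polar_ts P.ts' hb' hy', P.ts' b' hb'] at h1
    simp only [add_zero, zero_add, zero_smul, mul_one, one_smul, sub_zero] at h1
    rw [← hp₂, act_add, act_inv_act] at h1
    exact (W.add_mem_iff_right hw₀).1 h1
  obtain ⟨a, ha, hk, hanot⟩ := exists_ker_notMem_om W (Submodule.span F {b, y}) (k := 2)
    ![polarBilin Q a', polarBilin Q x'] (by
      have := finrank_span_pair_le b y
      omega)
  have k1 : polar Q a' a = 0 := hk 0
  have k2 : polar Q x' a = 0 := hk 1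
  obtain ⟨b', hb', hb'1, hb'2⟩ := P.exists_dual hQ (Submodule.span F {b, y}) (by
    rw [Submodule.span_le]
    rintro z (rfl | rfl)
    · exact hb
    · exact hy) ha hanot
  have m1 := hi a ha (by rw [polar_comm]; exact k1) (by rw [polar_comm]; exact k2)
  have m2 := hii b' hb' (hb'1 b (Submodule.subset_span (by simp))) (hb'1 y (Submodule.subset_span (by simp)))
  have m3 := polar_ts P.ts m2 m1
  rw [polar_act, hb'2] at m3
  exact one_ne_zero m3

/-- main theorem on overgroups of the stabiliser of a pair of totally singular subspaces -/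
theorem main [Fintype F] (P : OTS Q W W') (hQ : (polarBilin Q).Nondegenerate)
    (hn : 5 ≤ Fintype.card ι) (h5 : 5 ≤ finrank F W) (h5' : 5 ≤ finrank F W')
    (hM : ∀ g ∈ Cfsg.Omega F ⇑Q, (∀ w ∈ W, act Q g w ∈ W) → (∀ w ∈ W', act Q g w ∈ W') → g ∈ M)
    {s : Cfsg.isometryGroup F ⇑Q} (hs : s ∈ M) (hsW : ∀ w ∈ W, act Q s w ∈ W')
    (hsW' : ∀ w ∈ W', act Q s w ∈ W) (hΩ : ¬ Cfsg.Omega F ⇑Q ≤ M)
    {g : Cfsg.isometryGroup F ⇑Q} (hg : g ∈ M) :
    ((∀ w ∈ W, act Q g w ∈ W) ∧ (∀ w ∈ W', act Q g w ∈ W')) ∨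
    ((∀ w ∈ W, act Q g w ∈ W') ∧ (∀ w ∈ W', act Q g w ∈ W)) := by
  have hM' : ∀ g ∈ Cfsg.Omega F ⇑Q, (∀ w ∈ W', act Q g w ∈ W') → (∀ w ∈ W, act Q g w ∈ W) → g ∈ M :=
    fun g hg h1 h2 => hM g hg h2 h1
  have hL : ∀ a ∈ W, ∀ a' ∈ W', EM M a a' := fun a ha a' ha' => P.EM_levi hQ hn hM ha ha'
  have hL' : ∀ a ∈ W', ∀ a' ∈ W, EM M a a' := fun a ha a' ha' => P.symm.EM_levi hQ hn hM' ha ha'
  have hnq : ∀ a ∈ W, a ≠ 0 → ∀ b ∈ W, (∀ c : F, EM M a (c • b)) → b ∈ Submodule.span F {a} := by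
    intro a ha ha0 b hb hE
    by_contra hnot
    exact hΩ (P.omega_le_of_siegel hQ hn hM hs hsW ha ha0 hb hnot hE)
  have hnq' : ∀ a ∈ W', a ≠ 0 → ∀ b ∈ W', (∀ c : F, EM M a (c • b)) → b ∈ Submodule.span F {a} := by
    intro a ha ha0 b hb hE
    by_contra hnot
    exact hΩ (P.symm.omega_le_of_siegel hQ hn hM' hs hsW' ha ha0 hb hnot hE)
  by_cases c0 : ∀ w ∈ W, act Q g w ∈ W
  · exact Or.inl ⟨c0, B1 P (by omega) hL hL hnq hg c0⟩
  by_cases c1 : ∀ w ∈ W, act Q g w ∈ W'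
  · exact Or.inr ⟨c1, B1 P.symm (by omega) hL hL' hnq' hg c1⟩
  exfalso
  push Not at c0 c1
  obtain ⟨w₀, hw₀, hgw₀⟩ := c0
  obtain ⟨w₁, hw₁, hgw₁⟩ := c1
  obtain ⟨a, ha, a', ha', haa', w, hw, hkw⟩ := P.exists_moved hQ h5 hw₀ hgw₀ hw₁ hgw₁
  set k := g⁻¹ * eich Q a a' (P.ts a ha) haa' * g with hk
  have hkM : k ∈ M := M.mul_mem (M.mul_mem (M.inv_mem hg) (hL a ha a' ha' _ _)) hg
  have hfix : ∀ r : ι → F, polar Q (act Q g⁻¹ a) r = 0 → polar Q (act Q g⁻¹ a') r = 0 → act Q k r = r := by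
    intro r h1 h2
    have e1 : polar Q a (act Q g r) = 0 := by rw [← polar_act g⁻¹, act_inv_act, h1]
    have e2 : polar Q a' (act Q g r) = 0 := by rw [← polar_act g⁻¹, act_inv_act, h2]
    rw [hk, act_mul, act_mul, act_eich, e1, e2]
    simp only [zero_smul, add_zero, mul_zero, sub_zero]
    exact act_inv_act g r
  obtain ⟨r₁, hr₁, hk₁, h10⟩ := exists_ker_notMem_om W ⊥ (k := 2)
    ![polarBilin Q (act Q g⁻¹ a), polarBilin Q (act Q g⁻¹ a')] (by simp; omega)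
  have h10' : r₁ ≠ 0 := by simpa using h10
  obtain ⟨r₂, hr₂, hk₂, h21⟩ := exists_ker_notMem_om W (Submodule.span F {r₁}) (k := 2)
    ![polarBilin Q (act Q g⁻¹ a), polarBilin Q (act Q g⁻¹ a')] (by
      rw [finrank_span_singleton h10']; omega)
  obtain ⟨r₃, hr₃, hk₃, h312⟩ := exists_ker_notMem_om W (Submodule.span F {r₁, r₂}) (k := 2)
    ![polarBilin Q (act Q g⁻¹ a), polarBilin Q (act Q g⁻¹ a')] (by
      have := finrank_span_pair_le r₁ r₂
      omega)
  have hkW' := P.D3 hQ hL hnq hkM hr₁ hr₂ hr₃ h10' h21 h312 (hfix r₁ (hk₁ 0) (hk₁ 1)) (hfix r₂ (hk₂ 0) (hk₂ 1))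
    (hfix r₃ (hk₃ 0) (hk₃ 1))
  exact hkw (B1 P.symm (by omega) hL' hL' hnq' hkM hkW' w hw)

end group

end OTS

end Cfsg.Agent.Lib.Helper29
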