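import Mathlib
import Cfsg.Agent.Lib.Helper29.OmCStr
import Cfsg.Agent.Lib.Helper29.OmTS

/-!
Overgroups in `Ω(Q)` of the unitary group attached to a complex structure.
-/

set_option autoImplicit false

namespace Cfsg.Agent.Lib.Helper29

open Matrix QuadraticMap Module Cfsg.Agent.Lib.Helper15

variable {ι : Type} [Fintype ι] [DecidableEq ι] {F : Type*} [Field F] {Q : QuadraticForm F (ι → F)}

namespace CStr

variable {L : (ι → F) →ₗ[F] (ι → F)} {t N : F} {M : Subgroup (Cfsg.isometryGroup F ⇑Q)}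

/-- Lemma S -/
theorem lemS (S : CStr Q L t N) (hQ : (polarBilin Q).Nondegenerate) (hn : 9 ≤ Fintype.card ι)
    (hT : ∀ (y : ι → F) (c : F), EM M y (c • L y))
    (hU : ∀ u w : ι → F, polar Q u w = 0 → polar Q (L u) w = 0 → UM L M u w)
    {x z u : ι → F} (hx0 : x ≠ 0) (hz : z ∈ admS M x) (hu : Q u = 0) (hxu : polar Q x u = 0)
    (hLxu : polar Q (L x) u = 0) (hab : polar Q u z ≠ 0 ∨ polar Q (L u) z ≠ 0)
    {w : ι → F} (hxw : polar Q x w = 0) (hLxw : polar Q (L x) w = 0) (huw : polar Q u w = 0)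
    (hLuw : polar Q (L u) w = 0) : w ∈ admS M x := by
  set B := admS M x with hB
  set a := polar Q u z with ha
  set b := polar Q (L u) z with hb
  have hux : polar Q u x = 0 := by rw [polar_comm]; exact hxu
  have hLux : polar Q (L u) x = 0 := by rw [S.adj, hux, polar_comm, hLxu]; ring
  set ρ₀ := b • L u - (t * b) • u + (N * a) • u with hρ₀
  -- the basic elements
  have key : ∀ w : ι → F, polar Q x w = 0 → polar Q (L x) w = 0 → polar Q u w = 0 → polar Q (L u) w = 0 →
      a • L w - b • w + polar Q w z • L u - polar Q (L w) z • u - Q w • ρ₀ ∈ B := by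
    intro w h1 h2 h3 h4
    have p2 := S.polar_L_of_perp h3 h4
    have p3 := S.Q_L_eq_zero hu
    have p4 : polar Q (L u) (-w) = 0 := by rw [polar_neg_right, h4, neg_zero]
    have hmem := hU u w h3 h4 hu p2 p3 p4
    have hwx : polar Q w x = 0 := by rw [polar_comm]; exact h1
    have hLwx : polar Q (L w) x = 0 := by rw [S.adj, hwx, polar_comm, h2]; ring
    have hfix : act Q (eich Q u (L w) hu p2 * eich Q (L u) (-w) p3 p4) x = x := by
      rw [S.act_U hu h3, hux, hLux, hwx, hLwx]
      simp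
    have h5 := B.sub_mem (admS_fix hz hmem hfix) hz
    rw [S.act_U hu h3] at h5
    convert h5 using 1
    rw [hρ₀]
    abel
  have hτ : a • L u - b • u ∈ B := by
    have p2 : polar Q u ((1 : F) • L u) = 0 := by rw [one_smul]; exact S.polar_self_L hu
    have hmem := hT u 1 hu p2
    have hfix : act Q (eich Q u ((1 : F) • L u) hu p2) x = x := by
      rw [act_eich, hux, one_smul, hLux]; simp
    have h5 := B.sub_mem (admS_fix hz hmem hfix) hz
    rw [act_eich, one_smul, S.Q_L_eq_zero hu] at h5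
    convert h5 using 1
    simp only [zero_mul, add_zero]
    abel
  obtain ⟨w₁, w₂, k1, k2, k3⟩ := exists_polar_ne_zero_fam hQ ![x, L x, u, L u] (by omega)
  have hρ : ρ₀ ∈ B := by
    have a0 : polar Q x w₁ = 0 := k1 0
    have a1 : polar Q (L x) w₁ = 0 := k1 1
    have a2 : polar Q u w₁ = 0 := k1 2
    have a3 : polar Q (L u) w₁ = 0 := k1 3
    have b0 : polar Q x w₂ = 0 := k2 0
    have b1 : polar Q (L x) w₂ = 0 := k2 1
    have b2 : polar Q u w₂ = 0 := k2 2
    have b3 : polar Q (L u) w₂ = 0 := k2 3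
    have e1 := key w₁ a0 a1 a2 a3
    have e2 := key w₂ b0 b1 b2 b3
    have e3 := key (w₁ + w₂) (by rw [polar_add_right, a0, b0, add_zero])
      (by rw [polar_add_right, a1, b1, add_zero]) (by rw [polar_add_right, a2, b2, add_zero])
      (by rw [polar_add_right, a3, b3, add_zero])
    have e4 := B.sub_mem (B.add_mem e1 e2) e3
    have e5 : a • L w₁ - b • w₁ + polar Q w₁ z • L u - polar Q (L w₁) z • u - Q w₁ • ρ₀
        + (a • L w₂ - b • w₂ + polar Q w₂ z • L u - polar Q (L w₂) z • u - Q w₂ • ρ₀)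
        - (a • L (w₁ + w₂) - b • (w₁ + w₂) + polar Q (w₁ + w₂) z • L u - polar Q (L (w₁ + w₂)) z • u
          - Q (w₁ + w₂) • ρ₀) = polar Q w₁ w₂ • ρ₀ := by
      rw [map_add, polar_add_left, polar_add_left, QuadraticMap.map_add Q]
      module
    rw [e5] at e4
    have := B.smul_mem (polar Q w₁ w₂)⁻¹ e4
    rwa [smul_smul, inv_mul_cancel₀ k3, one_smul] at this
  have hab' : -b ≠ 0 ∨ a ≠ 0 := by
    rcases hab with h | h
    · exact Or.inr h
    · exact Or.inl (neg_ne_zero.2 h)
  have huB : u ∈ B := by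
    apply S.mem_of_comb hx0 B hab'
    · convert hτ using 1
      module
    · have := B.sub_mem (B.smul_mem t hτ) hρ
      convert this using 1
      rw [S.sq, hρ₀]
      module
  have hLuB : L u ∈ B := by
    by_cases ha0 : a = 0
    · have hb0 : b ≠ 0 := by
        rcases hab with h | h
        · exact absurd ha0 h
        · exact h
      have := B.smul_mem b⁻¹ (B.add_mem hρ (B.smul_mem (t * b - N * a) huB))
      convert this using 1
      rw [hρ₀]
      have : b⁻¹ • (b • L u - (t * b) • u + (N * a) • u + (t * b - N * a) • u) = (b⁻¹ * b) • L u := by module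
      rw [this, inv_mul_cancel₀ hb0, one_smul]
    · have := B.smul_mem a⁻¹ (B.add_mem hτ (B.smul_mem b huB))
      convert this using 1
      have : a⁻¹ • (a • L u - b • u + b • u) = (a⁻¹ * a) • L u := by module
      rw [this, inv_mul_cancel₀ ha0, one_smul]
  have hg : ∀ w : ι → F, polar Q x w = 0 → polar Q (L x) w = 0 → polar Q u w = 0 → polar Q (L u) w = 0 →
      (-b) • w + a • L w ∈ B := by
    intro w h1 h2 h3 h4
    have := B.add_mem (B.add_mem (B.sub_mem (key w h1 h2 h3 h4) (B.smul_mem (polar Q w z) hLuB))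
      (B.smul_mem (polar Q (L w) z) huB)) (B.smul_mem (Q w) hρ)
    convert this using 1
    module
  apply S.mem_of_comb hx0 B hab' (hg w hxw hLxw huw hLuw)
  apply hg (L w)
  · rw [S.adj', hxw, hLxw]; ring
  · rw [S.polar_LL, hxw, mul_zero]
  · rw [S.adj', huw, hLuw]; ring
  · rw [S.polar_LL, huw, mul_zero]

/-- irreducibility: one extra admissible vector outside `K x` forces all of `(K x)^⊥` to be admissible -/
theorem lirr [Finite F] (S : CStr Q L t N) (hQ : (polarBilin Q).Nondegenerate) (hn : 11 ≤ Fintype.card ι)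
    (hT : ∀ (y : ι → F) (c : F), EM M y (c • L y))
    (hU : ∀ u w : ι → F, polar Q u w = 0 → polar Q (L u) w = 0 → UM L M u w)
    {x z : ι → F} (hx0 : x ≠ 0) (hz : z ∈ admS M x) (hznot : z ∉ Submodule.span F (Set.range ![x, L x]))
    {v : ι → F} (hxv : polar Q x v = 0) (hLxv : polar Q (L x) v = 0) : v ∈ admS M x := by
  obtain ⟨u₁, hu₁, hk₁, hzu₁⟩ := exists_singular_perp_fam hQ ![x, L x] z hznot (by omega)
  have a0 : polar Q x u₁ = 0 := hk₁ 0
  have a1 : polar Q (L x) u₁ = 0 := hk₁ 1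
  have hfr := finrank_span_range_le ![x, L x, u₁, L u₁]
  obtain ⟨u', -, hu', hk', hu'not⟩ := exists_singular_ker_notMem Q ⊤
    (Submodule.span F (Set.range ![x, L x, u₁, L u₁])) (k := 4)
    ![polarBilin Q x, polarBilin Q (L x), polarBilin Q v, polarBilin Q (L v)] (by
      rw [finrank_top, finrank_fintype_fun_eq_card]; omega)
  have b0 : polar Q x u' = 0 := hk' 0
  have b1 : polar Q (L x) u' = 0 := hk' 1
  have b2 : polar Q v u' = 0 := hk' 2
  have b3 : polar Q (L v) u' = 0 := hk' 3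
  obtain ⟨z', hz'1, hz'2⟩ := exists_perp_not_perp' Q hQ _ u' hu'not
  have c0 : polar Q x z' = 0 := hz'1 _ (Submodule.subset_span ⟨0, rfl⟩)
  have c1 : polar Q (L x) z' = 0 := hz'1 _ (Submodule.subset_span ⟨1, rfl⟩)
  have c2 : polar Q u₁ z' = 0 := hz'1 _ (Submodule.subset_span ⟨2, rfl⟩)
  have c3 : polar Q (L u₁) z' = 0 := hz'1 _ (Submodule.subset_span ⟨3, rfl⟩)
  have hz' : z' ∈ admS M x := S.lemS hQ (by omega) hT hU hx0 hz hu₁ a0 a1
    (Or.inl (by rw [polar_comm]; exact hzu₁)) c0 c1 c2 c3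
  refine S.lemS hQ (by omega) hT hU hx0 hz' hu' b0 b1 (Or.inl (by rw [polar_comm]; exact hz'2)) hxv hLxv
    (by rw [polar_comm]; exact b2) ?_
  rw [S.adj, polar_comm Q u' v, b2, polar_comm Q u' (L v), b3]; ring

omit [Fintype ι] [DecidableEq ι] [Field F] in
theorem range_pair (a b : ι → F) : Set.range ![a, b] = {a, b} := by
  ext x
  simp only [Set.mem_range, Set.mem_insert_iff, Set.mem_singleton_iff]
  constructor
  · rintro ⟨i, rfl⟩
    fin_cases i
    · left; rfl
    · right; rfl
  · rintro (rfl | rfl)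
    · exact ⟨0, rfl⟩
    · exact ⟨1, rfl⟩

/-- two different complex structures at a singular vector make it a centre -/
theorem mem_ocentres_of_two [Finite F] {L' : (ι → F) →ₗ[F] (ι → F)} (S : CStr Q L t N) (S' : CStr Q L' t N)
    (hQ : (polarBilin Q).Nondegenerate) (hn : 11 ≤ Fintype.card ι)
    (hT : ∀ (y : ι → F) (c : F), EM M y (c • L y))
    (hU : ∀ u w : ι → F, polar Q u w = 0 → polar Q (L u) w = 0 → UM L M u w)
    (hT' : ∀ (y : ι → F) (c : F), EM M y (c • L' y))
    (hU' : ∀ u w : ι → F, polar Q u w = 0 → polar Q (L' u) w = 0 → UM L' M u w)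
    {u : ι → F} (hu : Q u = 0) (hu0 : u ≠ 0) (hbad : L' u ∉ Submodule.span F (Set.range ![u, L u])) :
    u ∈ ocentres Q M := by
  have h1 : L' u ∈ admS M u := ⟨S'.polar_self_L hu, fun c => hT' u c⟩
  have h2 : L u ∈ admS M u := ⟨S.polar_self_L hu, fun c => hT u c⟩
  have hbad' : L u ∉ Submodule.span F (Set.range ![u, L' u]) := by
    rw [range_pair] at hbad ⊢
    exact notMem_span_pair_swap (S.irr u hu0) hbad
  obtain ⟨p, hp1, hp2⟩ := exists_dual_fam hQ ![u, L' u] (L u) hbad'
  have a0 : polar Q u p = 0 := hp1 0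
  have a1 : polar Q (L' u) p = 0 := hp1 1
  apply mem_ocentres_of_admS hu
  intro v huv
  have e : v = (v - polar Q (L u) v • p) + polar Q (L u) v • p := by abel
  rw [e]
  refine (admS M u).add_mem ?_ ((admS M u).smul_mem _ ?_)
  · apply S.lirr hQ hn hT hU hu0 h1 hbad
    · rw [polar_sub_right, polar_smul_right, huv, a0]; simp
    · rw [polar_sub_right, polar_smul_right, hp2]; simp
  · exact S'.lirr hQ hn hT' hU' hu0 h2 hbad' a0 a1

/-- a centre forces `M ≥ Ω` -/
theorem omega_le_of_centre [Fintype F] (S : CStr Q L t N) (hQ : (polarBilin Q).Nondegenerate)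
    (hn : 5 ≤ Fintype.card ι)
    (hU : ∀ u w : ι → F, polar Q u w = 0 → polar Q (L u) w = 0 → UM L M u w)
    {u : ι → F} (hu0 : u ≠ 0) (hC : u ∈ ocentres Q M) : Cfsg.Omega F ⇑Q ≤ M := by
  have hu := hC.1
  obtain ⟨y, hy, huy⟩ := exists_hyp_partner Q (nd_of_nondegenerate hQ) u hu0 hu
  obtain ⟨w, hw1, hw2⟩ := exists_nonsingular_fam hQ ![y, L y] (by omega)
  have a0 : polar Q y w = 0 := hw1 0
  have a1 : polar Q (L y) w = 0 := hw1 1
  have p2 := S.polar_L_of_perp a0 a1
  have p3 := S.Q_L_eq_zero hy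
  have p4 : polar Q (L y) (-w) = 0 := by rw [polar_neg_right, a1, neg_zero]
  have hmem := hU y w a0 a1 hy p2 p3 p4
  apply omega_le_of_opp hQ hn hC (ocentres_act hC hmem)
  rw [S.act_U hy a0]
  simp only [polar_sub_right, polar_add_right, polar_smul_right, polar_self, hu, smul_eq_mul]
  have hyu : polar Q y u = 1 := by rw [polar_comm]; exact huy
  rw [polar_comm Q u (L w), polar_comm Q u w, polar_comm Q u (L y), huy, hyu]
  set b := polar Q (L y) u
  have e : (2 : ℕ) • (0 : F) + 1 * polar Q (L w) u - b * polar Q w u + polar Q w u * b - polar Q (L w) u * 1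
      - Q w * (b * b - t * b * 1 + N * 1 * 1) = - (Q w * (b ^ 2 + t * b * (-1) + N * (-1) ^ 2)) := by
    simp only [smul_zero]
    ring
  rw [e, neg_ne_zero]
  exact mul_ne_zero hw2 (S.norm_ne_zero hu0 (Or.inr (by simp)))

/-- the conjugate of `L` by an isometry -/
noncomputable def conjL (L : (ι → F) →ₗ[F] (ι → F)) (g : Cfsg.isometryGroup F ⇑Q) : (ι → F) →ₗ[F] (ι → F) :=
  Matrix.mulVecLin (((g⁻¹ : Cfsg.isometryGroup F ⇑Q) : GL ι F) : Matrix ι ι F) ∘ₗ L ∘ₗ
    Matrix.mulVecLin ((g : GL ι F) : Matrix ι ι F)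

theorem conjL_apply (L : (ι → F) →ₗ[F] (ι → F)) (g : Cfsg.isometryGroup F ⇑Q) (x : ι → F) :
    conjL L g x = act Q g⁻¹ (L (act Q g x)) := rfl

theorem act_ne_zero (g : Cfsg.isometryGroup F ⇑Q) {x : ι → F} (hx : x ≠ 0) : act Q g x ≠ 0 := by
  intro h
  apply hx
  have := act_inv_act g x
  rw [h] at this
  rw [← this]
  simp [act]

theorem conj (S : CStr Q L t N) (g : Cfsg.isometryGroup F ⇑Q) : CStr Q (conjL L g) t N where
  sq := by
    intro x
    rw [conjL_apply, conjL_apply, act_act_inv, S.sq, sub_eq_add_neg, ← neg_smul, act_add, act_smul, act_smul,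
      act_inv_act, neg_smul, ← sub_eq_add_neg]
  adj := by
    intro x y
    rw [conjL_apply, conjL_apply, ← polar_act g, act_act_inv, S.adj, polar_act,
      ← polar_act g x (act Q g⁻¹ (L (act Q g y))), act_act_inv]
  QL := by
    intro x
    rw [conjL_apply, Q_act, S.QL, Q_act]
  pol := by
    intro x
    rw [conjL_apply, ← polar_act g, act_act_inv, S.pol, Q_act]
  irr := by
    intro x hx h
    obtain ⟨c, hc⟩ := Submodule.mem_span_singleton.1 h
    apply S.irr (act Q g x) (act_ne_zero g hx)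
    rw [Submodule.mem_span_singleton]
    refine ⟨c, ?_⟩
    rw [conjL_apply] at hc
    rw [← act_smul, hc, act_act_inv]

theorem conj_hT (hT : ∀ (y : ι → F) (c : F), EM M y (c • L y)) {g : Cfsg.isometryGroup F ⇑Q} (hg : g ∈ M)
    (y : ι → F) (c : F) : EM M y (c • conjL L g y) := by
  have h1 := EM_act (hT (act Q g y) c) (M.inv_mem hg)
  rw [act_inv_act, act_smul] at h1
  exact h1

theorem conj_hU (hU : ∀ u w : ι → F, polar Q u w = 0 → polar Q (L u) w = 0 → UM L M u w)
    {g : Cfsg.isometryGroup F ⇑Q} (hg : g ∈ M) (u w : ι → F) (h1 : polar Q u w = 0)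
    (h2 : polar Q (conjL L g u) w = 0) : UM (conjL L g) M u w := by
  intro p1 p2 p3 p4
  have q1 : Q (act Q g u) = 0 := by rw [Q_act, p1]
  have q2 : polar Q (act Q g u) (L (act Q g w)) = 0 := by
    rw [conjL_apply, ← polar_act g, act_act_inv] at p2
    exact p2
  have q3 : Q (L (act Q g u)) = 0 := by
    rw [conjL_apply, Q_act] at p3
    exact p3
  have q4 : polar Q (L (act Q g u)) (-(act Q g w)) = 0 := by
    rw [conjL_apply, ← polar_act g, act_act_inv] at h2
    rw [polar_neg_right, h2, neg_zero]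
  have h3 := hU (act Q g u) (act Q g w) (by rw [polar_act, h1]) (by
    rw [conjL_apply, ← polar_act g, act_act_inv] at h2
    exact h2) q1 q2 q3 q4
  have h4 := M.mul_mem (M.mul_mem (M.inv_mem hg) h3) hg
  have e1 := conj_eich Q g⁻¹ (act Q g u) (L (act Q g w)) q1 q2
  have e2 := conj_eich Q g⁻¹ (L (act Q g u)) (-(act Q g w)) q3 q4
  rw [inv_inv] at e1 e2
  have e3 : g⁻¹ * (eich Q (act Q g u) (L (act Q g w)) q1 q2 * eich Q (L (act Q g u)) (-(act Q g w)) q3 q4) * g
      = (g⁻¹ * eich Q (act Q g u) (L (act Q g w)) q1 q2 * g)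
        * (g⁻¹ * eich Q (L (act Q g u)) (-(act Q g w)) q3 q4 * g) := by group
  rw [e3, e1, e2] at h4
  have f1 : act Q g⁻¹ (-(act Q g w)) = -w := by
    have : act Q g⁻¹ (-(act Q g w)) = - act Q g⁻¹ (act Q g w) := by simp [act, Matrix.mulVec_neg]
    rw [this, act_inv_act]
  rwa [eich_congr Q (act_inv_act g u) (rfl : act Q g⁻¹ (L (act Q g w)) = conjL L g w) _ _ p1 p2,
    eich_congr Q (rfl : act Q g⁻¹ (L (act Q g u)) = conjL L g u) f1 _ _ p3 p4] at h4

omit [DecidableEq ι] in
/-- a linear map stabilising `K u` for every singular `u` lies in `K` -/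
theorem exists_coeff [Finite F] (S : CStr Q L t N) (hQ : (polarBilin Q).Nondegenerate) (hn : 9 ≤ Fintype.card ι)
    (T : (ι → F) →ₗ[F] (ι → F)) (h : ∀ u, Q u = 0 → T u ∈ Submodule.span F (Set.range ![u, L u])) :
    ∃ α β : F, ∀ x, T x = α • x + β • L x := by
  have hco : ∀ u, Q u = 0 → ∃ α β : F, T u = α • u + β • L u := by
    intro u hu
    have := h u hu
    rw [range_pair] at this
    obtain ⟨α, β, hαβ⟩ := Submodule.mem_span_pair.1 this
    exact ⟨α, β, hαβ.symm⟩
  have step : ∀ (u u' : ι → F) (α β α' β' : F), Q u = 0 → Q u' = 0 → u ≠ 0 → polar Q u u' = 0 →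
      u' ∉ Submodule.span F {u, L u} → T u = α • u + β • L u → T u' = α' • u' + β' • L u' →
      α = α' ∧ β = β' := by
    intro u u' α β α' β' hu hu' hu0 huu' hnot h1 h2
    obtain ⟨α'', β'', h3⟩ := hco (u + u') (by rw [QuadraticMap.map_add Q, hu, hu', huu']; ring)
    rw [map_add, map_add, h1, h2] at h3
    have h4 : (α'' - α') • u' + (β'' - β') • L u' = (α - α'') • u + (β - β'') • L u := by
      have : (α'' - α') • u' + (β'' - β') • L u' - ((α - α'') • u + (β - β'') • L u)
          = (α'' • (u + u') + β'' • (L u + L u')) - (α • u + β • L u + (α' • u' + β' • L u')) := by module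
      rw [← sub_eq_zero, this, h3, sub_self]
    have hu_mem : u ∈ Submodule.span F {u, L u} := Submodule.subset_span (by simp)
    have hLu_mem : L u ∈ Submodule.span F {u, L u} := Submodule.subset_span (by simp)
    have hz : α'' - α' = 0 ∧ β'' - β' = 0 := by
      by_contra hcon
      have hab : α'' - α' ≠ 0 ∨ β'' - β' ≠ 0 := by
        by_contra hc
        push Not at hc
        exact hcon hc
      apply hnot
      apply S.mem_of_comb hu0 _ hab
      · rw [h4]
        exact Submodule.add_mem _ (Submodule.smul_mem _ _ hu_mem) (Submodule.smul_mem _ _ hLu_mem)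
      · have : (α'' - α') • L u' + (β'' - β') • L (L u') = L ((α'' - α') • u' + (β'' - β') • L u') := by
          rw [map_add, map_smul, map_smul]
        rw [this, h4, map_add, map_smul, map_smul, S.sq]
        exact Submodule.add_mem _ (Submodule.smul_mem _ _ hLu_mem) (Submodule.smul_mem _ _
          (Submodule.sub_mem _ (Submodule.smul_mem _ _ hLu_mem) (Submodule.smul_mem _ _ hu_mem)))
    rw [hz.1, hz.2, zero_smul, zero_smul, add_zero] at h4
    have hβ : β - β'' = 0 := by
      by_contra hne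
      apply S.irr u hu0
      rw [Submodule.mem_span_singleton]
      refine ⟨-((β - β'')⁻¹ * (α - α'')), ?_⟩
      have h5 : (β - β'') • L u = -((α - α'') • u) := eq_neg_of_add_eq_zero_right h4.symm
      have h6 : L u = (β - β'')⁻¹ • ((β - β'') • L u) := by rw [smul_smul, inv_mul_cancel₀ hne, one_smul]
      rw [h6, h5, smul_neg, smul_smul, neg_smul]
    rw [hβ, zero_smul, add_zero] at h4
    have hα : α - α'' = 0 := by
      by_contra hne
      exact hu0 ((smul_eq_zero.1 h4.symm).resolve_left hne)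
    constructor
    · linear_combination hα + hz.1
    · linear_combination hβ + hz.2
  obtain ⟨u₀, -, hu₀, -, hu₀0⟩ := exists_singular_ker_notMem Q ⊤ ⊥ (k := 0) (fun i => i.elim0) (by
    rw [finrank_top, finrank_fintype_fun_eq_card]; simp; omega)
  have hu₀0' : u₀ ≠ 0 := by simpa using hu₀0
  obtain ⟨α₀, β₀, h₀⟩ := hco u₀ hu₀
  refine ⟨α₀, β₀, ?_⟩
  have hsing : ∀ u, Q u = 0 → T u = α₀ • u + β₀ • L u := by
    intro u hu
    by_cases hu0 : u = 0
    · rw [hu0]; simp
    obtain ⟨α, β, h1⟩ := hco u hu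
    have hfr := finrank_span_range_le ![u₀, L u₀, u, L u]
    obtain ⟨w, -, hw, hk, hwnot⟩ := exists_singular_ker_notMem Q ⊤
      (Submodule.span F (Set.range ![u₀, L u₀, u, L u])) (k := 2) ![polarBilin Q u₀, polarBilin Q u] (by
        rw [finrank_top, finrank_fintype_fun_eq_card]; omega)
    have a0 : polar Q u₀ w = 0 := hk 0
    have a1 : polar Q u w = 0 := hk 1
    obtain ⟨αw, βw, hw1⟩ := hco w hw
    have n1 : w ∉ Submodule.span F {u₀, L u₀} := by
      intro hmem
      apply hwnot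
      refine Submodule.span_mono ?_ hmem
      rintro x (rfl | rfl)
      · exact ⟨0, rfl⟩
      · exact ⟨1, rfl⟩
    have n2 : w ∉ Submodule.span F {u, L u} := by
      intro hmem
      apply hwnot
      refine Submodule.span_mono ?_ hmem
      rintro x (rfl | rfl)
      · exact ⟨2, rfl⟩
      · exact ⟨3, rfl⟩
    obtain ⟨e1, e2⟩ := step u₀ w α₀ β₀ αw βw hu₀ hw hu₀0' a0 n1 h₀ hw1
    obtain ⟨e3, e4⟩ := step u w α β αw βw hu hw hu0 a1 n2 h1 hw1
    rw [h1, e3, e4, e1, e2]
  have htop := eq_top_of_singular_mem Q hQ (by omega)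
    (LinearMap.ker (T - (α₀ • LinearMap.id + β₀ • L))) (by
      intro u hu
      rw [LinearMap.mem_ker, LinearMap.sub_apply, hsing u hu]
      simp)
  intro x
  have hx : x ∈ LinearMap.ker (T - (α₀ • LinearMap.id + β₀ • L)) := by rw [htop]; trivial
  rw [LinearMap.mem_ker, LinearMap.sub_apply, sub_eq_zero] at hx
  rw [hx]
  simp

/-- main theorem: an element of `M` not normalising `K` forces `M ≥ Ω`. -/
theorem omega_le [Fintype F] (S : CStr Q L t N) (hQ : (polarBilin Q).Nondegenerate) (hn : 11 ≤ Fintype.card ι)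
    (hT : ∀ (y : ι → F) (c : F), EM M y (c • L y))
    (hU : ∀ u w : ι → F, polar Q u w = 0 → polar Q (L u) w = 0 → UM L M u w)
    {g : Cfsg.isometryGroup F ⇑Q} (hg : g ∈ M)
    (hnot : ¬ ∃ α β : F, ∀ x, act Q g⁻¹ (L (act Q g x)) = α • x + β • L x) : Cfsg.Omega F ⇑Q ≤ M := by
  have hex : ∃ u, Q u = 0 ∧ conjL L g u ∉ Submodule.span F (Set.range ![u, L u]) := by
    by_contra hcon
    push Not at hcon
    exact hnot (S.exists_coeff hQ (by omega) (conjL L g) hcon)
  obtain ⟨u, hu, hbad⟩ := hex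
  have hu0 : u ≠ 0 := by
    rintro rfl
    apply hbad
    rw [(conjL L g).map_zero]
    exact Submodule.zero_mem _
  have hC := S.mem_ocentres_of_two (S.conj g) hQ hn hT hU (conj_hT hT hg) (conj_hU hU hg) hu hu0 hbad
  exact S.omega_le_of_centre hQ (by omega) hU hu0 hC

end CStr

end Cfsg.Agent.Lib.Helper29
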