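import Mathlib
import Cfsg.Agent.Lib.Helper29.OmCStr2

/-!
From a quadratic field subalgebra of the matrix algebra to a complex structure; normaliser membership.
-/

set_option autoImplicit false

namespace Cfsg.Agent.Lib.Helper29

open Matrix QuadraticMap Module Cfsg.Agent.Lib.Helper15

variable {ι : Type} [Fintype ι] [DecidableEq ι] {F : Type*} [Field F]

/-- a generator of a quadratic field subalgebra -/
theorem exists_gen [Nonempty ι] (K : Subalgebra F (Matrix ι ι F)) (hK : Cfsg.Geo.IsFieldSubalgebra 2 K) :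
    ∃ lam ∈ K, (∀ c : F, lam ≠ c • (1 : Matrix ι ι F)) ∧ ∀ k ∈ K, ∃ a b : F, k = a • (1 : Matrix ι ι F) + b • lam := by
  have h1 : ¬ K ≤ ⊥ := by
    intro hle
    have h2 : finrank F K ≤ finrank F (⊥ : Subalgebra F (Matrix ι ι F)) :=
      Submodule.finrank_mono (show K.toSubmodule ≤ (⊥ : Subalgebra F (Matrix ι ι F)).toSubmodule from hle)
    rw [hK.finrank_eq, Subalgebra.finrank_bot] at h2
    omega
  obtain ⟨lam, hlamK, hlam⟩ := SetLike.not_le_iff_exists.1 h1
  have hlam' : ∀ c : F, lam ≠ c • (1 : Matrix ι ι F) := by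
    intro c hc
    apply hlam
    rw [Algebra.mem_bot]
    exact ⟨c, by rw [hc, Algebra.algebraMap_eq_smul_one]⟩
  refine ⟨lam, hlamK, hlam', ?_⟩
  have hli : LinearIndependent F ![(1 : Matrix ι ι F), lam] := by
    rw [LinearIndependent.pair_iff]
    intro s t hst
    have ht : t = 0 := by
      by_contra hne
      apply hlam' (-(t⁻¹ * s))
      have h2 : t • lam = -(s • (1 : Matrix ι ι F)) := eq_neg_of_add_eq_zero_right hst
      have h3 : lam = t⁻¹ • (t • lam) := by rw [smul_smul, inv_mul_cancel₀ hne, one_smul]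
      rw [h3, h2, smul_neg, smul_smul, neg_smul]
    refine ⟨?_, ht⟩
    rw [ht, zero_smul, add_zero] at hst
    exact (smul_eq_zero.1 hst).resolve_right one_ne_zero
  have hfr : finrank F (Submodule.span F (Set.range ![(1 : Matrix ι ι F), lam])) = 2 := by
    rw [finrank_span_eq_card hli]; simp
  have hle : Submodule.span F (Set.range ![(1 : Matrix ι ι F), lam]) ≤ K.toSubmodule := by
    rw [Submodule.span_le]
    rintro _ ⟨i, rfl⟩
    fin_cases i
    · exact K.one_mem
    · exact hlamK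
  have heq := Submodule.eq_of_le_of_finrank_le hle (by
    rw [hfr]
    exact le_of_eq hK.finrank_eq)
  intro k hk
  have hk' : k ∈ Submodule.span F (Set.range ![(1 : Matrix ι ι F), lam]) := by rw [heq]; exact hk
  have hr : Set.range ![(1 : Matrix ι ι F), lam] = {1, lam} := by
    ext x
    simp only [Set.mem_range, Set.mem_insert_iff, Set.mem_singleton_iff]
    constructor
    · rintro ⟨i, rfl⟩
      fin_cases i
      · left; rfl
      · right; rfl
    · rintro (rfl | rfl)
      · exact ⟨0, rfl⟩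
      · exact ⟨1, rfl⟩
  rw [hr] at hk'
  obtain ⟨a, b, hab⟩ := Submodule.mem_span_pair.1 hk'
  exact ⟨a, b, hab.symm⟩

theorem field_eq_zero_or {K : Subalgebra F (Matrix ι ι F)} {r : ℕ} (hK : Cfsg.Geo.IsFieldSubalgebra r K)
    {x y : Matrix ι ι F} (hx : x ∈ K) (hxy : x * y = 0) : x = 0 ∨ y = 0 := by
  by_cases hx0 : x = 0
  · exact Or.inl hx0
  · right
    obtain ⟨z, hz, hxz⟩ := hK.inv x hx hx0
    have : z * x = 1 := by rw [← hK.comm x hx z hz]; exact hxz
    calc y = (z * x) * y := by rw [this, one_mul]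
      _ = z * (x * y) := by rw [mul_assoc]
      _ = 0 := by rw [hxy, mul_zero]

theorem field_mulVec_eq_zero {K : Subalgebra F (Matrix ι ι F)} {r : ℕ} (hK : Cfsg.Geo.IsFieldSubalgebra r K)
    {x : Matrix ι ι F} (hx : x ∈ K) (hx0 : x ≠ 0) {v : ι → F} (h : x *ᵥ v = 0) : v = 0 := by
  obtain ⟨z, hz, hxz⟩ := hK.inv x hx hx0
  have : z * x = 1 := by rw [← hK.comm x hx z hz]; exact hxz
  calc v = (z * x) *ᵥ v := by rw [this, one_mulVec]
    _ = z *ᵥ (x *ᵥ v) := by rw [mulVec_mulVec]
    _ = 0 := by rw [h, mulVec_zero]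

variable {Q : QuadraticForm F (ι → F)}

theorem exists_cstr [Nonempty ι] (hQ : (polarBilin Q).Nondegenerate) (K : Subalgebra F (Matrix ι ι F))
    (hK : Cfsg.Geo.IsFieldSubalgebra 2 K) (hac : Cfsg.Geo.IsAdjointClosedFor (polar Q) K)
    (hnsa : ¬ Cfsg.Geo.IsSelfAdjointFor (polar Q) K)
    (hsc : ∀ k ∈ K, ∃ c : F, ∀ v : ι → F, Q (k *ᵥ v) = c * Q v) :
    ∃ (lam : Matrix ι ι F) (t N : F), lam ∈ K ∧ (∀ c : F, lam ≠ c • (1 : Matrix ι ι F)) ∧
      (∀ k ∈ K, ∃ a b : F, k = a • (1 : Matrix ι ι F) + b • lam) ∧ CStr Q (Matrix.mulVecLin lam) t N := by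
  obtain ⟨lam, hlamK, hlam, hspan⟩ := exists_gen K hK
  obtain ⟨a₀, t, hsq⟩ := hspan (lam * lam) (K.mul_mem hlamK hlamK)
  set N := -a₀ with hN
  have hsq' : lam * lam = t • lam - N • (1 : Matrix ι ι F) := by
    rw [hsq, hN, neg_smul]; abel
  obtain ⟨mu, hmuK, hmu⟩ := hac lam hlamK
  -- a pair of non-perpendicular vectors
  obtain ⟨i₀⟩ : Nonempty ι := inferInstance
  have hx₀ : (Pi.single i₀ 1 : ι → F) ≠ 0 := by
    intro h
    have := congrFun h i₀
    simp at this
  obtain ⟨y₀, hxy₀⟩ : ∃ y₀, polar Q (Pi.single i₀ 1 : ι → F) y₀ ≠ 0 := by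
    by_contra hcon
    push Not at hcon
    exact hx₀ (hQ.1 _ hcon)
  set x₀ : ι → F := Pi.single i₀ 1
  have hmupoly : mu * mu - t • mu + N • (1 : Matrix ι ι F) = 0 := by
    apply Matrix.ext_of_mulVec_single
    intro i
    rw [zero_mulVec]
    set v : ι → F := Pi.single i 1
    apply hQ.2
    intro u
    show polar Q u ((mu * mu - t • mu + N • (1 : Matrix ι ι F)) *ᵥ v) = 0
    rw [add_mulVec, sub_mulVec, smul_mulVec, smul_mulVec, one_mulVec, ← mulVec_mulVec, polar_add_right,
      polar_sub_right, polar_smul_right, polar_smul_right, ← hmu, ← hmu, ← hmu, mulVec_mulVec, hsq', sub_mulVec,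
      smul_mulVec, smul_mulVec, one_mulVec, polar_sub_left, polar_smul_left, polar_smul_left]
    ring
  have hfac : (mu - lam) * (mu - (t • (1 : Matrix ι ι F) - lam)) = 0 := by
    have hc : lam * mu = mu * lam := hK.comm lam hlamK mu hmuK
    have : (mu - lam) * (mu - (t • (1 : Matrix ι ι F) - lam))
        = mu * mu - t • mu + (t • lam - lam * lam) + (mu * lam - lam * mu) := by
      simp only [sub_mul, mul_sub, mul_smul_comm, mul_one, smul_sub]
      abel
    rw [this, hc, sub_self, add_zero, hsq', ← hmupoly]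
    abel
  have hmu' : mu = t • (1 : Matrix ι ι F) - lam := by
    rcases field_eq_zero_or hK (K.sub_mem hmuK hlamK) hfac with h | h
    · exfalso
      apply hnsa
      have hml : mu = lam := sub_eq_zero.1 h
      intro k hk u v
      obtain ⟨a, b, rfl⟩ := hspan k hk
      rw [add_mulVec, add_mulVec, smul_mulVec, smul_mulVec, smul_mulVec, smul_mulVec, one_mulVec, one_mulVec,
        polar_add_left, polar_add_right, polar_smul_left, polar_smul_left, polar_smul_right, polar_smul_right,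
        hmu, hml]
    · exact sub_eq_zero.1 h
  have hadj : ∀ x y : ι → F, polar Q (lam *ᵥ x) y = t * polar Q x y - polar Q x (lam *ᵥ y) := by
    intro x y
    rw [hmu, hmu', sub_mulVec, smul_mulVec, one_mulVec, polar_sub_right, polar_smul_right, smul_eq_mul]
  have hsqv : ∀ x : ι → F, lam *ᵥ (lam *ᵥ x) = t • (lam *ᵥ x) - N • x := by
    intro x
    rw [mulVec_mulVec, hsq', sub_mulVec, smul_mulVec, smul_mulVec, one_mulVec]
  have hLL : ∀ x y : ι → F, polar Q (lam *ᵥ x) (lam *ᵥ y) = N * polar Q x y := by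
    intro x y
    rw [hadj, hsqv, polar_sub_right, polar_smul_right, polar_smul_right]
    simp only [smul_eq_mul]
    ring
  obtain ⟨c, hc⟩ := hsc lam hlamK
  have hcN : c = N := by
    have h1 : polar Q (lam *ᵥ x₀) (lam *ᵥ y₀) = c * polar Q x₀ y₀ := by
      unfold polar
      rw [← mulVec_add, hc, hc, hc]; ring
    rw [hLL] at h1
    exact (mul_right_cancel₀ hxy₀ h1).symm
  obtain ⟨c', hc'⟩ := hsc (1 + lam) (K.add_mem K.one_mem hlamK)
  have hpol0 : ∀ v : ι → F, polar Q v (lam *ᵥ v) = (c' - 1 - N) * Q v := by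
    intro v
    have := hc' v
    rw [add_mulVec, one_mulVec] at this
    unfold polar
    rw [this, hc, hcN]; ring
  have htt : c' - 1 - N = t := by
    have h1 := hpol0 (x₀ + y₀)
    rw [mulVec_add, polar_add_left, polar_add_right, polar_add_right, hpol0, hpol0, QuadraticMap.map_add Q,
      polar_comm Q y₀ (lam *ᵥ x₀), hadj] at h1
    have h2 : t * polar Q x₀ y₀ = (c' - 1 - N) * polar Q x₀ y₀ := by linear_combination h1
    exact (mul_right_cancel₀ hxy₀ h2).symm
  refine ⟨lam, t, N, hlamK, hlam, hspan, ?_⟩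
  exact
    { sq := hsqv
      adj := hadj
      QL := fun x => by
        show Q (lam *ᵥ x) = _
        rw [hc, hcN]
      pol := fun x => by
        show polar Q x (lam *ᵥ x) = _
        rw [hpol0, htt]
      irr := by
        intro x hx h
        obtain ⟨d, hd⟩ := Submodule.mem_span_singleton.1 h
        have hd' : d • x = lam *ᵥ x := hd
        apply hx
        apply field_mulVec_eq_zero hK (K.sub_mem hlamK (K.smul_mem K.one_mem d)) (sub_ne_zero.2 (hlam d))
        rw [sub_mulVec, smul_mulVec, one_mulVec, hd', sub_self] }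

omit Q in
/-- an invertible matrix commuting with the generator normalises `K` -/
theorem mem_normalizer_of_commute (K : Subalgebra F (Matrix ι ι F)) {lam : Matrix ι ι F}
    (hspan : ∀ k ∈ K, ∃ a b : F, k = a • (1 : Matrix ι ι F) + b • lam) (h : GL ι F)
    (hc : ∀ x : ι → F, (h : Matrix ι ι F) *ᵥ (lam *ᵥ x) = lam *ᵥ ((h : Matrix ι ι F) *ᵥ x)) :
    h ∈ Cfsg.Geo.subalgebraNormalizer K := by
  have hcm : (h : Matrix ι ι F) * lam = lam * (h : Matrix ι ι F) := by
    apply Matrix.ext_of_mulVec_single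
    intro i
    rw [← mulVec_mulVec, ← mulVec_mulVec, hc]
  have hk : ∀ k ∈ K, (h : Matrix ι ι F) * k = k * (h : Matrix ι ι F) := by
    intro k hk
    obtain ⟨a, b, rfl⟩ := hspan k hk
    rw [mul_add, add_mul, mul_smul_comm, mul_smul_comm, smul_mul_assoc, smul_mul_assoc, hcm, mul_one, one_mul]
  have hinv : (h : Matrix ι ι F) * ((h⁻¹ : GL ι F) : Matrix ι ι F) = 1 := by
    rw [← Units.val_mul, mul_inv_cancel]; rfl
  have hinv' : ((h⁻¹ : GL ι F) : Matrix ι ι F) * (h : Matrix ι ι F) = 1 := by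
    rw [← Units.val_mul, inv_mul_cancel]; rfl
  intro k
  constructor
  · intro hkK
    rw [hk k hkK, mul_assoc, hinv, mul_one]
    exact hkK
  · intro hkK
    have h1 := hk _ hkK
    have h2 : k = (h : Matrix ι ι F) * k * ((h⁻¹ : GL ι F) : Matrix ι ι F) := by
      have h3 : (h : Matrix ι ι F) * k * ((h⁻¹ : GL ι F) : Matrix ι ι F) * (h : Matrix ι ι F)
          = (h : Matrix ι ι F) * k := by rw [mul_assoc, hinv', mul_one]
      rw [h3] at h1
      calc k = ((h⁻¹ : GL ι F) : Matrix ι ι F) * ((h : Matrix ι ι F) * k) := by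
            rw [← mul_assoc, hinv', one_mul]
        _ = ((h⁻¹ : GL ι F) : Matrix ι ι F) * ((h : Matrix ι ι F) *
              ((h : Matrix ι ι F) * k * ((h⁻¹ : GL ι F) : Matrix ι ι F))) := by rw [h1]
        _ = _ := by rw [← mul_assoc, hinv', one_mul]
    rw [h2]
    exact hkK

omit Q in
/-- an invertible matrix conjugating the generator into `K` normalises `K` -/
theorem mem_normalizer_of_conj (K : Subalgebra F (Matrix ι ι F)) {lam : Matrix ι ι F} (hlamK : lam ∈ K)
    (hlam : ∀ c : F, lam ≠ c • (1 : Matrix ι ι F))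
    (hspan : ∀ k ∈ K, ∃ a b : F, k = a • (1 : Matrix ι ι F) + b • lam) (g : GL ι F) (α β : F)
    (hc : ∀ x : ι → F, ((g⁻¹ : GL ι F) : Matrix ι ι F) *ᵥ (lam *ᵥ ((g : Matrix ι ι F) *ᵥ x))
      = α • x + β • (lam *ᵥ x)) :
    g ∈ Cfsg.Geo.subalgebraNormalizer K := by
  have hinv : (g : Matrix ι ι F) * ((g⁻¹ : GL ι F) : Matrix ι ι F) = 1 := by
    rw [← Units.val_mul, mul_inv_cancel]; rfl
  have hinv' : ((g⁻¹ : GL ι F) : Matrix ι ι F) * (g : Matrix ι ι F) = 1 := by
    rw [← Units.val_mul, inv_mul_cancel]; rfl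
  have hcm : ((g⁻¹ : GL ι F) : Matrix ι ι F) * lam * (g : Matrix ι ι F) = α • (1 : Matrix ι ι F) + β • lam := by
    apply Matrix.ext_of_mulVec_single
    intro i
    rw [← mulVec_mulVec, ← mulVec_mulVec, hc, add_mulVec, smul_mulVec, smul_mulVec, one_mulVec]
  have h1 : lam = α • (1 : Matrix ι ι F) + β • ((g : Matrix ι ι F) * lam * ((g⁻¹ : GL ι F) : Matrix ι ι F)) := by
    calc lam = (g : Matrix ι ι F) * (((g⁻¹ : GL ι F) : Matrix ι ι F) * lam * (g : Matrix ι ι F))
          * ((g⁻¹ : GL ι F) : Matrix ι ι F) := by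
          rw [mul_assoc ((g⁻¹ : GL ι F) : Matrix ι ι F), ← mul_assoc (g : Matrix ι ι F), hinv, one_mul, mul_assoc,
            hinv, mul_one]
      _ = _ := by
          rw [hcm, mul_add, add_mul, mul_smul_comm, mul_smul_comm, smul_mul_assoc, smul_mul_assoc, mul_one, hinv]
  have hβ : β ≠ 0 := by
    rintro rfl
    rw [zero_smul, add_zero] at h1
    exact hlam α h1
  have h2 : (g : Matrix ι ι F) * lam * ((g⁻¹ : GL ι F) : Matrix ι ι F)
      = β⁻¹ • (lam - α • (1 : Matrix ι ι F)) := by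
    have : lam - α • (1 : Matrix ι ι F) = β • ((g : Matrix ι ι F) * lam * ((g⁻¹ : GL ι F) : Matrix ι ι F)) := by
      nth_rewrite 1 [h1]
      abel
    rw [this, smul_smul, inv_mul_cancel₀ hβ, one_smul]
  intro k
  constructor
  · intro hkK
    obtain ⟨a, b, rfl⟩ := hspan k hkK
    rw [mul_add, add_mul, mul_smul_comm, mul_smul_comm, smul_mul_assoc, smul_mul_assoc, mul_one, hinv, h2]
    exact K.add_mem (K.smul_mem K.one_mem _) (K.smul_mem (K.smul_mem (K.sub_mem hlamK (K.smul_mem K.one_mem _)) _) _)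
  · intro hkK
    obtain ⟨a, b, hab⟩ := hspan _ hkK
    have h3 : k = ((g⁻¹ : GL ι F) : Matrix ι ι F) * ((g : Matrix ι ι F) * k * ((g⁻¹ : GL ι F) : Matrix ι ι F))
        * (g : Matrix ι ι F) := by
      rw [mul_assoc (g : Matrix ι ι F), ← mul_assoc ((g⁻¹ : GL ι F) : Matrix ι ι F), hinv', one_mul, mul_assoc,
        hinv', mul_one]
    rw [h3, hab, mul_add, add_mul, mul_smul_comm, mul_smul_comm, smul_mul_assoc, smul_mul_assoc, mul_one, hinv',
      hcm]
    exact K.add_mem (K.smul_mem K.one_mem _) (K.smul_mem (K.add_mem (K.smul_mem K.one_mem _)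
      (K.smul_mem hlamK _)) _)

/-- `Ω` does not normalise `K` -/
theorem exists_omega_not_normalizer [Fintype F] (hQ : (polarBilin Q).Nondegenerate) (hn : 5 ≤ Fintype.card ι)
    (K : Subalgebra F (Matrix ι ι F)) {lam : Matrix ι ι F} {t N : F} (hlamK : lam ∈ K)
    (hspan : ∀ k ∈ K, ∃ a b : F, k = a • (1 : Matrix ι ι F) + b • lam)
    (S : CStr Q (Matrix.mulVecLin lam) t N) :
    ∃ g ∈ Cfsg.Omega F ⇑Q, ((g : Cfsg.isometryGroup F ⇑Q) : GL ι F) ∉ Cfsg.Geo.subalgebraNormalizer K := by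
  set L := Matrix.mulVecLin lam with hL
  obtain ⟨u, -, hu, -, hu0⟩ := exists_singular_ker_notMem Q ⊤ ⊥ (k := 0) (fun i => i.elim0) (by
    rw [finrank_top, finrank_fintype_fun_eq_card]; simp; omega)
  have hu0' : u ≠ 0 := by simpa using hu0
  obtain ⟨v, huv, hvLu⟩ := exists_perp_not_perp Q hQ (L u) u (S.irr u hu0')
  refine ⟨eich Q u v hu huv, eich_mem_Omega Q hQ hn _ _ _ _, fun hmem => ?_⟩
  set g := eich Q u v hu huv with hg
  obtain ⟨a, b, hab⟩ := hspan _ ((hmem lam).1 hlamK)
  have hconj : ∀ x : ι → F, act Q g x = x → act Q g (L x) = a • x + b • L x := by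
    intro x hx
    have hx' : act Q g⁻¹ x = x := by
      nth_rewrite 1 [← hx]
      exact act_inv_act g x
    have h1 := congrArg (fun A : Matrix ι ι F => A *ᵥ x) hab
    simp only [add_mulVec, smul_mulVec, one_mulVec, ← mulVec_mulVec] at h1
    have h2 : (((g : GL ι F)⁻¹ : GL ι F) : Matrix ι ι F) *ᵥ x = x := hx'
    rw [h2] at h1
    exact h1
  have hgu : act Q g u = u := by
    rw [hg, act_eich, polar_self, hu, polar_comm Q v u, huv]; simp
  have h1 := hconj u hgu
  rw [hg, act_eich, S.polar_self_L hu] at h1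
  simp only [zero_smul, add_zero, mul_zero] at h1
  obtain ⟨p, -, hk, hp0⟩ := exists_ker_notMem_om ⊤ ⊥ (k := 4)
    ![polarBilin Q u, polarBilin Q (L u), polarBilin Q v, polarBilin Q (L v)] (by
      rw [finrank_top, finrank_fintype_fun_eq_card]; simp; omega)
  have hp0' : p ≠ 0 := by simpa using hp0
  have a0 : polar Q u p = 0 := hk 0
  have a1 : polar Q (L u) p = 0 := hk 1
  have a2 : polar Q v p = 0 := hk 2
  have a3 : polar Q (L v) p = 0 := hk 3
  have hgp : act Q g p = p := by
    rw [hg, act_eich, a0, a2]; simp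
  have h2 := hconj p hgp
  rw [hg, act_eich, S.adj' u p, S.adj' v p, a0, a1, a2, a3] at h2
  simp only [mul_zero, sub_zero, zero_smul, add_zero] at h2
  -- from `u`: b = 1, a = - polar v (L u)
  have h3 : (a + polar Q v (L u)) • u + (b - 1) • L u = 0 := by
    have : (a + polar Q v (L u)) • u + (b - 1) • L u = (a • u + b • L u) - (L u - polar Q v (L u) • u) := by
      module
    rw [this, h1, sub_self]
  have key : ∀ d e : F, d • u + e • L u = 0 → d = 0 ∧ e = 0 := by
    intro d e hde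
    have he : e = 0 := by
      by_contra hne
      apply S.irr u hu0'
      rw [Submodule.mem_span_singleton]
      refine ⟨-(e⁻¹ * d), ?_⟩
      have h5 : e • L u = -(d • u) := eq_neg_of_add_eq_zero_right hde
      have h6 : L u = e⁻¹ • (e • L u) := by rw [smul_smul, inv_mul_cancel₀ hne, one_smul]
      rw [h6, h5, smul_neg, smul_smul, neg_smul]
    rw [he, zero_smul, add_zero] at hde
    exact ⟨(smul_eq_zero.1 hde).resolve_right hu0', he⟩
  obtain ⟨ha, hb⟩ := key _ _ h3
  have hb1 : b = 1 := sub_eq_zero.1 hb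
  rw [hb1, one_smul] at h2
  have h4 : a • p = 0 := by
    have : a • p = (a • p + L p) - L p := by abel
    rw [this, ← h2, sub_self]
  have ha0 : a = 0 := (smul_eq_zero.1 h4).resolve_right hp0'
  rw [ha0, zero_add] at ha
  exact hvLu ha

end Cfsg.Agent.Lib.Helper29
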