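import Mathlib
import Cfsg.Agent.Lib.Helper29.OmOPair
import Cfsg.Agent.Lib.Helper29.OmGeom

/-!
Orthogonal pairs `V = W ⊥ W'` with `W` large and `W'` arbitrary: overgroups of the stabiliser in `Ω`.
-/

set_option autoImplicit false

namespace Cfsg.Agent.Lib.Helper29

open Matrix QuadraticMap Module Cfsg.Agent.Lib.Helper15

variable {ι : Type} [Fintype ι] [DecidableEq ι] {F : Type*} [Field F] {Q : QuadraticForm F (ι → F)}

omit [Fintype ι] [DecidableEq ι] in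
theorem finrank_span_singleton_le' (a : ι → F) : finrank F (Submodule.span F {a}) ≤ 1 := by
  classical
  have := finrank_span_finset_le_card (R := F) ({a} : Finset (ι → F))
  have h4 : ((({a} : Finset (ι → F)) : Set (ι → F))) = {a} := by simp
  rw [h4] at this
  unfold Set.finrank at this
  simpa using this

/-- irreducibility of `W'` under the elements of `M` fixing a vector of `W` -/
def OIrr (Q : QuadraticForm F (ι → F)) (M : Subgroup (Cfsg.isometryGroup F ⇑Q)) (W W' : Submodule F (ι → F)) :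
    Prop :=
  ∀ u₀ ∈ W, ∀ A : Submodule F (ι → F), (∀ h ∈ M, act Q h u₀ = u₀ → ∀ a ∈ A, act Q h a ∈ A) →
    ∀ d ∈ W', d ∈ A → d ≠ 0 → W' ≤ A

namespace OPair

variable {W W' : Submodule F (ι → F)} {M : Subgroup (Cfsg.isometryGroup F ⇑Q)}

theorem oirr_of_three [Finite F] (P : OPair Q W W') (hQ : (polarBilin Q).Nondegenerate)
    (hn : 5 ≤ Fintype.card ι)
    (hM : ∀ g ∈ Cfsg.Omega F ⇑Q, (∀ w ∈ W, act Q g w ∈ W) → (∀ w ∈ W', act Q g w ∈ W') → g ∈ M)
    (h3' : 3 ≤ finrank F W') : OIrr Q M W W' := by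
  have hM' : ∀ g ∈ Cfsg.Omega F ⇑Q, (∀ w ∈ W', act Q g w ∈ W') → (∀ w ∈ W, act Q g w ∈ W) → g ∈ M :=
    fun g hg h1 h2 => hM g hg h2 h1
  intro u₀ hu₀ A hA d hd hdA hd0
  apply P.symm.irr hQ h3' A hd hdA hd0
  intro u hu v hv hQu huv a ha
  have hh := P.symm.EM_of_mem hQ hn hM' hu hv hQu huv
  apply hA _ hh _ a ha
  rw [act_eich, polar_comm Q u u₀, P.perp u₀ hu₀ u hu, polar_comm Q v u₀, P.perp u₀ hu₀ v hv]
  simp

theorem oirr_of_one (h1 : finrank F W' = 1) : OIrr Q M W W' := by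
  intro u₀ _ A _ d hd hdA hd0 w hw
  have hd0' : (⟨d, hd⟩ : W') ≠ 0 := fun h => hd0 (congrArg Subtype.val h)
  obtain ⟨c, hc⟩ := (finrank_eq_one_iff_of_nonzero' (⟨d, hd⟩ : W') hd0').1 h1 ⟨w, hw⟩
  have hc' : c • d = w := congrArg Subtype.val hc
  rw [← hc']
  exact A.smul_mem _ hdA

/-- `W ∩ u₀^⊥` represents every value -/
theorem exists_value [Finite F] (P : OPair Q W W') (hQ : (polarBilin Q).Nondegenerate)
    (h5 : 5 ≤ finrank F W) (u₀ : ι → F) (hu₀ : u₀ ∈ W) (c : F) :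
    ∃ w ∈ W, polar Q u₀ w = 0 ∧ Q w = c := by
  have hfr : finrank F (Submodule.span F {u₀}) ≤ 1 := finrank_span_singleton_le' u₀
  obtain ⟨s, hs, hQs, hk, hsnot⟩ := exists_singular_ker_notMem Q W (Submodule.span F {u₀}) (k := 1)
    ![polarBilin Q u₀] (by omega)
  have k0 : polar Q u₀ s = 0 := hk 0
  obtain ⟨t, ht, ht1, ht2⟩ := P.exists_dual hQ (Submodule.span F {u₀}) (by
    rw [Submodule.span_le]
    rintro x rfl
    exact hu₀) hs hsnot
  have hu₀t : polar Q u₀ t = 0 := ht1 u₀ (Submodule.mem_span_singleton_self u₀)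
  refine ⟨(c - Q t) • s + t, W.add_mem (W.smul_mem _ hs) ht, ?_, ?_⟩
  · rw [polar_add_right, polar_smul_right, k0, hu₀t]; simp
  · rw [QuadraticMap.map_add Q, QuadraticMap.map_smul, hQs, polar_smul_left, polar_comm Q s t, ht2]
    simp

/-- an Eichler transformation `E(u,z)`, `u ∈ W`, `z ∉ W`, (with its multiples) forces `M ≥ Ω` -/
theorem omega_le_of_extra' [Fintype F] (P : OPair Q W W') (hQ : (polarBilin Q).Nondegenerate)
    (hn : 5 ≤ Fintype.card ι) (h3 : 3 ≤ finrank F W)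
    (hM : ∀ g ∈ Cfsg.Omega F ⇑Q, (∀ w ∈ W, act Q g w ∈ W) → (∀ w ∈ W', act Q g w ∈ W') → g ∈ M)
    (hirr : OIrr Q M W W')
    {u₀ z : ι → F} (hu₀ : u₀ ∈ W) (hu₀0 : u₀ ≠ 0) (hQu₀ : Q u₀ = 0) (hu₀z : polar Q u₀ z = 0) (hz : z ∉ W)
    (hE : ∀ c : F, EM M u₀ (c • z)) : Cfsg.Omega F ⇑Q ≤ M := by
  obtain ⟨c₀, hc₀, d, hd, rfl⟩ := P.sup z
  have hd0 : d ≠ 0 := by
    rintro rfl
    apply hz
    rw [add_zero]; exact hc₀
  have hu₀c₀ : polar Q u₀ c₀ = 0 := by
    rw [polar_add_right, P.perp u₀ hu₀ d hd, add_zero] at hu₀z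
    exact hu₀z
  let A : Submodule F (ι → F) :=
    { carrier := {b | polar Q u₀ b = 0 ∧ ∀ c : F, EM M u₀ (c • b)}
      add_mem' := by
        rintro a b ⟨ha0, ha⟩ ⟨hb0, hb⟩
        refine ⟨by rw [polar_add_right, ha0, hb0, add_zero], fun c => ?_⟩
        rw [smul_add]
        exact EM_add (ha c) (hb c) (by rw [polar_smul_right, ha0, smul_zero])
      zero_mem' := ⟨by simp, fun c => by rw [smul_zero]; exact EM_zero _⟩
      smul_mem' := by
        rintro c a ⟨ha0, ha⟩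
        refine ⟨by rw [polar_smul_right, ha0, smul_zero], fun c' => ?_⟩
        rw [smul_smul]
        exact ha _ }
  have hdA : d ∈ A := by
    refine ⟨P.perp u₀ hu₀ d hd, fun c => ?_⟩
    have h1 := EM_sub (hE c) (P.EM_of_mem hQ hn hM hu₀ (W.smul_mem c hc₀))
      (by rw [polar_smul_right, hu₀z, smul_zero])
    refine EM_congr h1 rfl ?_
    rw [smul_add, add_sub_cancel_left]
  have hW'A : W' ≤ A := by
    apply hirr u₀ hu₀ A _ d hd hdA hd0
    intro h hh hfix a ha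
    refine ⟨?_, fun c => ?_⟩
    · rw [← hfix, polar_act]; exact ha.1
    · have := EM_act (ha.2 c) hh
      rw [hfix, act_smul] at this
      exact this
  apply P.omega_le_of_centre hQ hn h3 hM hu₀ hu₀0
  rw [mem_ocentres_iff]
  refine ⟨hQu₀, fun v => ?_⟩
  intro hu huv
  obtain ⟨a, ha, b, hb, rfl⟩ := P.sup v
  have h1 := (hW'A hb).2 1
  rw [one_smul] at h1
  have hu₀a : polar Q u₀ a = 0 := by
    rw [polar_add_right, P.perp u₀ hu₀ b hb, add_zero] at huv
    exact huv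
  exact EM_add (P.EM_of_mem hQ hn hM hu₀ ha) h1 hu₀a hu huv

theorem omega_le_of_comp_aux [Fintype F] (P : OPair Q W W') (hQ : (polarBilin Q).Nondegenerate)
    (hn : 5 ≤ Fintype.card ι) (h3 : 3 ≤ finrank F W)
    (hM : ∀ g ∈ Cfsg.Omega F ⇑Q, (∀ w ∈ W, act Q g w ∈ W) → (∀ w ∈ W', act Q g w ∈ W') → g ∈ M)
    (hirr : OIrr Q M W W')
    {a b c₁ d₁ u v : ι → F} (ha : a ∈ W) (hb : b ∈ W') (hd₁ : d₁ ∈ W') (hb0 : b ≠ 0)
    (hx : Q (a + b) = 0) (hxy : polar Q (a + b) (c₁ + d₁) = 0) (hE : EM M (a + b) (c₁ + d₁))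
    (hu : u ∈ W) (hu0 : u ≠ 0) (hQu : Q u = 0) (k1 : polar Q a u = 0) (k2 : polar Q c₁ u = 0)
    (hv : v ∈ W) (hav : polar Q a v = 0) (huv : polar Q u v = 0) (hv2 : polar Q v c₁ = 1) :
    Cfsg.Omega F ⇑Q ≤ M := by
  have hxu : polar Q (a + b) u = 0 := by
    rw [polar_add_left, k1, polar_comm Q b u, P.perp u hu b hb, add_zero]
  have hyu : polar Q (c₁ + d₁) u = 0 := by
    rw [polar_add_left, k2, polar_comm Q d₁ u, P.perp u hu d₁ hd₁, add_zero]
  have hxv : polar Q (a + b) v = 0 := by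
    rw [polar_add_left, hav, polar_comm Q b v, P.perp v hv b hb, add_zero]
  have hyv : polar Q (c₁ + d₁) v = 1 := by
    rw [polar_add_left, polar_comm Q c₁ v, hv2, polar_comm Q d₁ v, P.perp v hv d₁ hd₁, add_zero]
  apply P.omega_le_of_extra' hQ hn h3 hM hirr hu hu0 hQu (z := a + b) (by rw [polar_comm]; exact hxu)
  · intro h
    apply hb0
    apply P.disj hQ _ hb
    have : b = (a + b) - a := by abel
    rw [this]
    exact W.sub_mem h ha
  · intro c
    have h1 := EM_comm hE (P.EM_of_mem hQ hn hM hu (W.smul_mem (-c) hv)) hx hxy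
      (by rw [polar_smul_right, huv, smul_zero]) hxu hyu
    refine EM_congr h1 rfl ?_
    rw [polar_smul_right, polar_smul_right, hxv, hyv]
    simp
    exact add_comm _ _

/-- the `W`-component of `y` is a multiple of that of `x` whenever `E(x,y) ∈ M` and `x ∉ W` -/
theorem omega_le_of_comp' [Fintype F] (P : OPair Q W W') (hQ : (polarBilin Q).Nondegenerate)
    (hn : 5 ≤ Fintype.card ι) (h7 : 7 ≤ finrank F W)
    (hM : ∀ g ∈ Cfsg.Omega F ⇑Q, (∀ w ∈ W, act Q g w ∈ W) → (∀ w ∈ W', act Q g w ∈ W') → g ∈ M)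
    (hirr : OIrr Q M W W')
    {a b c₁ d₁ : ι → F} (ha : a ∈ W) (hb : b ∈ W') (hc₁ : c₁ ∈ W) (hd₁ : d₁ ∈ W') (hb0 : b ≠ 0)
    (hx : Q (a + b) = 0) (hxy : polar Q (a + b) (c₁ + d₁) = 0) (hE : EM M (a + b) (c₁ + d₁))
    (hnot : c₁ ∉ Submodule.span F {a}) : Cfsg.Omega F ⇑Q ≤ M := by
  have hfr : finrank F (Submodule.span F {a, c₁}) ≤ 2 := finrank_span_pair_le a c₁
  obtain ⟨u, hu, hQu, hk, hunot⟩ := exists_singular_ker_notMem Q W (Submodule.span F {a, c₁}) (k := 2)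
    ![polarBilin Q a, polarBilin Q c₁] (by omega)
  have k1 : polar Q a u = 0 := hk 0
  have k2 : polar Q c₁ u = 0 := hk 1
  have hu0 : u ≠ 0 := by
    rintro rfl
    exact hunot (Submodule.zero_mem _)
  have hc₁not : c₁ ∉ Submodule.span F {a, u} := by
    intro h
    obtain ⟨α, β, hαβ⟩ := Submodule.mem_span_pair.1 h
    by_cases hβ : β = 0
    · apply hnot
      rw [Submodule.mem_span_singleton]
      exact ⟨α, by rw [← hαβ, hβ]; simp⟩
    · apply hunot
      rw [Submodule.mem_span_pair]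
      refine ⟨-(β⁻¹ * α), β⁻¹, ?_⟩
      rw [← hαβ, smul_add, smul_smul, smul_smul, inv_mul_cancel₀ hβ, one_smul, neg_smul]
      abel
  obtain ⟨v, hv, hv1, hv2⟩ := P.exists_dual hQ (Submodule.span F {a, u}) (by
    rw [Submodule.span_le]
    rintro x (rfl | rfl)
    · exact ha
    · exact hu) hc₁ hc₁not
  have hav : polar Q a v = 0 := hv1 a (Submodule.subset_span (by simp))
  have huv : polar Q u v = 0 := hv1 u (Submodule.subset_span (by simp))
  exact P.omega_le_of_comp_aux hQ hn (by omega) hM hirr ha hb hd₁ hb0 hx hxy hE hu hu0 hQu k1 k2 hv hav huv hv2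

end OPair

end Cfsg.Agent.Lib.Helper29
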