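import Mathlib
import Cfsg.Agent.Lib.Helper29.OmNd1

/-!
Orthogonal pairs `V = W ⊥ W'` with `W` large: the plane case and the main theorem.
-/

set_option autoImplicit false

namespace Cfsg.Agent.Lib.Helper29

open Matrix QuadraticMap Module Cfsg.Agent.Lib.Helper15

variable {ι : Type} [Fintype ι] [DecidableEq ι] {F : Type*} [Field F] {Q : QuadraticForm F (ι → F)}

namespace OPair

variable {W W' : Submodule F (ι → F)} {M : Subgroup (Cfsg.isometryGroup F ⇑Q)}

omit [DecidableEq ι] in
/-- in a non-degenerate plane (not a hyperbolic plane over a field with at most three elements) every non-zero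
vector `d` has a non-singular non-perpendicular non-proportional companion -/
theorem exists_companion [Fintype F] (P : OPair Q W W') (hQ : (polarBilin Q).Nondegenerate)
    (h2 : finrank F W' = 2) (hex : (∃ e ∈ W', e ≠ 0 ∧ Q e = 0) → 4 ≤ Fintype.card F)
    {d : ι → F} (hd : d ∈ W') (hd0 : d ≠ 0) :
    ∃ w ∈ W', Q w ≠ 0 ∧ polar Q w d ≠ 0 ∧ w ∉ Submodule.span F {d} := by
  classical
  by_cases hs : ∃ e ∈ W', e ≠ 0 ∧ Q e = 0
  · have hq := hex hs
    obtain ⟨e, he, he0, hQe⟩ := hs
    obtain ⟨t, ht, hte⟩ := P.symm.exists_dual₀ hQ he he0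
    obtain ⟨f, hf, hQf, hef⟩ : ∃ f ∈ W', Q f = 0 ∧ polar Q e f = 1 := by
      refine ⟨t - Q t • e, W'.sub_mem ht (W'.smul_mem _ he), ?_, ?_⟩
      · rw [sub_eq_add_neg, ← neg_smul, QuadraticMap.map_add Q, QuadraticMap.map_smul, hQe, polar_smul_right, hte]
        simp
      · rw [polar_sub_right, polar_smul_right, polar_self, hQe, polar_comm Q e t, hte]; simp
    have hfe : polar Q f e = 1 := by rw [polar_comm]; exact hef
    have hee : polar Q e e = 0 := by rw [polar_self, hQe, smul_zero]
    have hff : polar Q f f = 0 := by rw [polar_self, hQf, smul_zero]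
    set α := polar Q f d with hα
    set β := polar Q e d with hβ
    have hαβ : α ≠ 0 ∨ β ≠ 0 := by
      by_contra hcon
      push Not at hcon
      -- `d` is perpendicular to `e`, `f`; the three vectors would be independent
      have hli : LinearIndependent F ![e, f, d] := by
        rw [Fintype.linearIndependent_iff]
        intro c hc
        rw [Fin.sum_univ_three] at hc
        change c 0 • e + c 1 • f + c 2 • d = 0 at hc
        have h1 := congrArg (fun z => polar Q f z) hc
        have h3 := congrArg (fun z => polar Q e z) hc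
        simp only [polar_add_right, polar_smul_right, hfe, hff, hee, hef, ← hα, ← hβ, hcon.1, hcon.2, smul_eq_mul,
          mul_one, mul_zero, add_zero, zero_add, polar_zero_right] at h1 h3
        rw [h1, h3, zero_smul, zero_smul, zero_add, zero_add] at hc
        have h4 : c 2 = 0 := (smul_eq_zero.1 hc).resolve_right hd0
        intro i
        fin_cases i
        · exact h1
        · exact h3
        · exact h4
      have hle : Submodule.span F (Set.range ![e, f, d]) ≤ W' := by
        rw [Submodule.span_le]
        rintro _ ⟨i, rfl⟩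
        fin_cases i
        · exact he
        · exact hf
        · exact hd
      have h5 := Submodule.finrank_mono hle
      rw [finrank_span_eq_card hli, Fintype.card_fin] at h5
      omega
    obtain ⟨y, hy0, hy1, hy2⟩ : ∃ y : F, y ≠ 0 ∧ β + y * α ≠ 0 ∧ y * α ≠ β := by
      by_cases hα0 : α = 0
      · have hβ0 : β ≠ 0 := hαβ.resolve_left (not_not.2 hα0)
        exact ⟨1, one_ne_zero, by rw [hα0]; simpa using hβ0, by rw [hα0]; simpa using hβ0.symm⟩
      · have hcard : ({0, -β / α, β / α} : Finset F).card < (Finset.univ : Finset F).card := by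
          rw [Finset.card_univ]
          exact lt_of_le_of_lt Finset.card_le_three (by omega)
        obtain ⟨y, -, hy⟩ := Finset.exists_mem_notMem_of_card_lt_card hcard
        simp only [Finset.mem_insert, Finset.mem_singleton, not_or] at hy
        refine ⟨y, hy.1, ?_, ?_⟩
        · intro h
          apply hy.2.1
          field_simp
          linear_combination h
        · intro h
          apply hy.2.2
          field_simp
          exact h
    refine ⟨e + y • f, W'.add_mem he (W'.smul_mem _ hf), ?_, ?_, ?_⟩
    · rw [QuadraticMap.map_add Q, QuadraticMap.map_smul, hQe, hQf, polar_smul_right, hef]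
      simpa using hy0
    · rw [polar_add_left, polar_smul_left, ← hα, ← hβ]
      exact hy1
    · intro h
      obtain ⟨c, hc⟩ := Submodule.mem_span_singleton.1 h
      have h1 := congrArg (fun z => polar Q f z) hc
      have h3 := congrArg (fun z => polar Q e z) hc
      simp only [polar_add_right, polar_smul_right, hfe, hff, hee, hef, ← hα, ← hβ, smul_eq_mul,
        mul_one, mul_zero, add_zero, zero_add] at h1 h3
      apply hy2
      rw [← h3]
      linear_combination β * h1
  · push Not at hs
    have hns : ∀ w ∈ W', w ≠ 0 → Q w ≠ 0 := fun w hw hw0 h => hs w hw hw0 h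
    obtain ⟨x, hx, hxd⟩ := P.symm.exists_dual₀ hQ hd hd0
    have hfr := finrank_span_singleton_le' d
    obtain ⟨t, ht, -, htnot⟩ := exists_ker_notMem_om W' (Submodule.span F {d}) (k := 0) (fun i => i.elim0)
      (by omega)
    have ht0 : t ≠ 0 := by
      rintro rfl
      exact htnot (Submodule.zero_mem _)
    by_cases hxs : x ∈ Submodule.span F {d}
    · by_cases htd : polar Q t d = 0
      · have hnot : x + t ∉ Submodule.span F {d} := fun h => htnot ((Submodule.add_mem_iff_right _ hxs).1 h)
        refine ⟨x + t, W'.add_mem hx ht, hns _ (W'.add_mem hx ht) ?_, ?_, hnot⟩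
        · intro h
          apply hnot
          rw [h]; exact Submodule.zero_mem _
        · rw [polar_add_left, hxd, htd]; simp
      · exact ⟨t, ht, hns t ht ht0, htd, htnot⟩
    · refine ⟨x, hx, hns x hx ?_, by rw [hxd]; exact one_ne_zero, hxs⟩
      rintro rfl
      simp at hxd

theorem oirr_of_two [Fintype F] (P : OPair Q W W') (hQ : (polarBilin Q).Nondegenerate)
    (hM : ∀ g ∈ Cfsg.Omega F ⇑Q, (∀ w ∈ W, act Q g w ∈ W) → (∀ w ∈ W', act Q g w ∈ W') → g ∈ M)
    (h5 : 5 ≤ finrank F W) (h2 : finrank F W' = 2)
    (hex : (∃ e ∈ W', e ≠ 0 ∧ Q e = 0) → 4 ≤ Fintype.card F) : OIrr Q M W W' := by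
  intro u₀ hu₀ A hA d hd hdA hd0
  obtain ⟨w', hw', hQw', hw'd, hw'not⟩ := P.exists_companion hQ h2 hex hd hd0
  obtain ⟨w, hw, hu₀w, hQw⟩ := P.exists_value hQ h5 u₀ hu₀ (Q w')
  have hQw0 : Q w ≠ 0 := by rw [hQw]; exact hQw'
  have hΩ := refl_mul_refl_mem Q hQ w' w hQw' hQw0 hQw.symm
  have hact : ∀ x, act Q (refl Q w' hQw' * refl Q w hQw0) x
      = x - ((Q w)⁻¹ * polar Q w x) • w - ((Q w')⁻¹ * polar Q w' x) • w' := by
    intro x
    rw [act_mul, act_refl, act_refl, polar_sub_right, polar_smul_right, polar_comm Q w' w, P.perp w hw w' hw']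
    simp
  have hh : refl Q w' hQw' * refl Q w hQw0 ∈ M := by
    apply hM _ hΩ
    · intro x hx
      rw [hact, polar_comm Q w' x, P.perp x hx w' hw']
      simp only [mul_zero, zero_smul, sub_zero]
      exact W.sub_mem hx (W.smul_mem _ hw)
    · intro x hx
      rw [hact, P.perp w hw x hx]
      simp only [mul_zero, zero_smul, sub_zero]
      exact W'.sub_mem hx (W'.smul_mem _ hw')
  have h1 := hA _ hh (by
    rw [hact, polar_comm Q w u₀, hu₀w, polar_comm Q w' u₀, P.perp u₀ hu₀ w' hw']
    simp) d hdA
  rw [hact, P.perp w hw d hd] at h1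
  simp only [mul_zero, zero_smul, sub_zero] at h1
  have h3 : ((Q w')⁻¹ * polar Q w' d) • w' ∈ A := by
    have := A.sub_mem hdA h1
    rwa [sub_sub_cancel] at this
  have hw'A : w' ∈ A := by
    have := A.smul_mem ((Q w')⁻¹ * polar Q w' d)⁻¹ h3
    rwa [smul_smul, inv_mul_cancel₀ (mul_ne_zero (inv_ne_zero hQw') hw'd), one_smul] at this
  have hlt : Submodule.span F {d} < Submodule.span F {d, w'} := by
    refine lt_of_le_of_ne (Submodule.span_mono (by simp)) ?_
    intro h
    apply hw'not
    rw [h]
    exact Submodule.subset_span (by simp)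
  have hf1 : finrank F (Submodule.span F {d}) = 1 := finrank_span_singleton hd0
  have hf2 := Submodule.finrank_lt_finrank_of_lt hlt
  have hle : Submodule.span F {d, w'} ≤ W' := by
    rw [Submodule.span_le]
    rintro x (rfl | rfl)
    · exact hd
    · exact hw'
  have heq : Submodule.span F {d, w'} = W' := Submodule.eq_of_le_of_finrank_le hle (by omega)
  rw [← heq, Submodule.span_le]
  rintro x (rfl | rfl)
  · exact hdA
  · exact hw'A

end OPair

end Cfsg.Agent.Lib.Helper29
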