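import Mathlib
import Cfsg.Agent.Lib.Helper29.OmNd2

/-!
Orthogonal pairs `V = W ⊥ W'` with `W` large: the main theorem.
-/

set_option autoImplicit false

namespace Cfsg.Agent.Lib.Helper29

open Matrix QuadraticMap Module Cfsg.Agent.Lib.Helper15

variable {ι : Type} [Fintype ι] [DecidableEq ι] {F : Type*} [Field F] {Q : QuadraticForm F (ι → F)}

namespace OPair

variable {W W' : Submodule F (ι → F)} {M : Subgroup (Cfsg.isometryGroup F ⇑Q)}

/-- main theorem: an element of `M` mapping `W` neither into `W` nor into `W'` forces `M ≥ Ω` -/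
theorem omega_le' [Fintype F] (P : OPair Q W W') (hQ : (polarBilin Q).Nondegenerate)
    (hn : 5 ≤ Fintype.card ι) (h7 : 7 ≤ finrank F W)
    (hM : ∀ g ∈ Cfsg.Omega F ⇑Q, (∀ w ∈ W, act Q g w ∈ W) → (∀ w ∈ W', act Q g w ∈ W') → g ∈ M)
    (hirr : OIrr Q M W W')
    {g : Cfsg.isometryGroup F ⇑Q} (hg : g ∈ M) {w₀ w₁ : ι → F} (hw₀ : w₀ ∈ W) (hgw₀ : act Q g w₀ ∉ W)
    (hw₁ : w₁ ∈ W) (hgw₁ : act Q g w₁ ∉ W') : Cfsg.Omega F ⇑Q ≤ M := by
  have hM' : ∀ g ∈ Cfsg.Omega F ⇑Q, (∀ w ∈ W', act Q g w ∈ W') → (∀ w ∈ W, act Q g w ∈ W) → g ∈ M :=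
    fun g hg h1 h2 => hM g hg h2 h1
  have hex : ∀ (S : Submodule F (ι → F)) (w : ι → F), w ∈ W → act Q g w ∉ S →
      ∃ u ∈ W, Q u = 0 ∧ act Q g u ∉ S := by
    intro S w hw hgw
    by_contra hcon
    push Not at hcon
    have := P.le_of_singular hQ (by omega) (S.comap (Matrix.mulVecLin ((g : GL ι F) : Matrix ι ι F)))
      (fun u hu hQu => hcon u hu hQu)
    exact hgw (this hw)
  obtain ⟨ua, hua, hQua, hgua⟩ := hex W w₀ hw₀ hgw₀
  obtain ⟨ub, hub, hQub, hgub⟩ := hex W' w₁ hw₁ hgw₁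
  obtain ⟨u₁, hu₁, hQu₁, hg1, hg2⟩ : ∃ u₁ ∈ W, Q u₁ = 0 ∧ act Q g u₁ ∉ W ∧ act Q g u₁ ∉ W' := by
    by_cases c1 : act Q g ua ∈ W'
    · by_cases c2 : act Q g ub ∈ W
      · have hperp : polar Q ua ub = 0 := by
          rw [← polar_act g, polar_comm]
          exact P.perp _ c2 _ c1
        refine ⟨ua + ub, W.add_mem hua hub, by rw [QuadraticMap.map_add Q, hQua, hQub, hperp]; ring, ?_, ?_⟩
        · intro h
          rw [act_add] at h
          exact hgua ((W.add_mem_iff_left c2).1 h)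
        · intro h
          rw [act_add] at h
          exact hgub ((W'.add_mem_iff_right c1).1 h)
      · exact ⟨ub, hub, hQub, c2, hgub⟩
    · exact ⟨ua, hua, hQua, hgua, c1⟩
  obtain ⟨a, ha, b, hb, hab⟩ := P.sup (act Q g u₁)
  have ha0 : a ≠ 0 := by
    rintro rfl
    apply hg2
    rw [hab, zero_add]; exact hb
  have hb0 : b ≠ 0 := by
    rintro rfl
    apply hg1
    rw [hab, add_zero]; exact ha
  have hx : Q (a + b) = 0 := by rw [← hab, Q_act, hQu₁]
  by_contra hcon
  have hEM : ∀ w ∈ W, EM M (a + b) (act Q g w) := by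
    intro w hw
    rw [← hab]
    exact EM_act (P.EM_of_mem hQ hn hM hu₁ hw) hg
  have hpol : ∀ w, polar Q u₁ w = 0 → polar Q (a + b) (act Q g w) = 0 := by
    intro w hw
    rw [← hab, polar_act, hw]
  have hY : ∀ w ∈ W, polar Q u₁ w = 0 → ∃ α : F, ∃ d₁ ∈ W', act Q g w = α • a + d₁ := by
    intro w hw hu₁w
    obtain ⟨c₁, hc₁, d₁, hd₁, hcd⟩ := P.sup (act Q g w)
    have m1 : c₁ ∈ Submodule.span F {a} := by
      by_contra hnot
      exact hcon (P.omega_le_of_comp' hQ hn h7 hM hirr ha hb hc₁ hd₁ hb0 hx (by rw [← hcd]; exact hpol w hu₁w)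
        (by rw [← hcd]; exact hEM w hw) hnot)
    obtain ⟨α, rfl⟩ := Submodule.mem_span_singleton.1 m1
    exact ⟨α, d₁, hd₁, hcd⟩
  have hcomap : ∀ S : Submodule F (ι → F),
      finrank F (S.comap (Matrix.mulVecLin ((g : GL ι F) : Matrix ι ι F))) ≤ finrank F S := by
    intro S
    have e1 : finrank F ((S.comap (Matrix.mulVecLin ((g : GL ι F) : Matrix ι ι F))).map
        (Matrix.mulVecLin ((g : GL ι F) : Matrix ι ι F)))
        = finrank F (S.comap (Matrix.mulVecLin ((g : GL ι F) : Matrix ι ι F))) := finrank_map_GL _ _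
    rw [← e1]
    refine Submodule.finrank_mono ?_
    rintro _ ⟨t, ht, rfl⟩
    exact ht
  by_cases hk : finrank F W' + 2 ≤ finrank F W
  · obtain ⟨w', hw', hbw'⟩ := P.symm.exists_dual₀ hQ hb hb0
    set Z₀ : Submodule F (ι → F) := Submodule.span F {a} ⊔ W' with hZ₀
    set Z₁ : Submodule F (ι → F) := Z₀ ⊓ LinearMap.ker (polarBilin Q (a + b)) with hZ₁
    have hlt : Z₁ < Z₀ := by
      refine lt_of_le_of_ne inf_le_left ?_
      intro h
      have h1 : w' ∈ Z₀ := Submodule.mem_sup_right hw'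
      rw [← h] at h1
      have h2 : polar Q (a + b) w' = 0 := h1.2
      rw [polar_add_left, P.perp a ha w' hw', zero_add, polar_comm, hbw'] at h2
      exact one_ne_zero h2
    have hfZ₀ : finrank F Z₀ ≤ 1 + finrank F W' :=
      (Submodule.finrank_add_le_finrank_add_finrank _ _).trans
        (Nat.add_le_add_right (finrank_span_singleton_le' a) _)
    have hfZ₁ := Submodule.finrank_lt_finrank_of_lt hlt
    have hfrT := hcomap Z₁
    obtain ⟨z, hz, hkz, hzT⟩ := exists_ker_notMem_om W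
      (Z₁.comap (Matrix.mulVecLin ((g : GL ι F) : Matrix ι ι F))) (k := 1) ![polarBilin Q u₁] (by omega)
    apply hzT
    obtain ⟨α, d₁, hd₁, e⟩ := hY z hz (hkz 0)
    refine ⟨?_, hpol z (hkz 0)⟩
    show act Q g z ∈ Z₀
    rw [e]
    exact Submodule.add_mem_sup (Submodule.smul_mem _ _ (Submodule.mem_span_singleton_self a)) hd₁
  · have hk6 : 6 ≤ finrank F W' := by omega
    obtain ⟨va, hva, hvaa⟩ := P.exists_dual₀ hQ ha ha0
    have hfrb := finrank_span_singleton_le' b
    obtain ⟨u, hu, hQu, hku, hunot⟩ := exists_singular_ker_notMem Q W' (Submodule.span F {b}) (k := 1)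
      ![polarBilin Q b] (by omega)
    have hbu : polar Q b u = 0 := hku 0
    have hu0 : u ≠ 0 := by
      rintro rfl
      exact hunot (Submodule.zero_mem _)
    have hfr2 := finrank_span_pair_le b u
    have hfrT := hcomap (Submodule.span F {b, u})
    obtain ⟨w, hw, hkw, hwnot⟩ := exists_ker_notMem_om W
      ((Submodule.span F {b, u}).comap (Matrix.mulVecLin ((g : GL ι F) : Matrix ι ι F))) (k := 3)
      ![polarBilin Q u₁, (polarBilin Q va) ∘ₗ (Matrix.mulVecLin ((g : GL ι F) : Matrix ι ι F)),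
        (polarBilin Q u) ∘ₗ (Matrix.mulVecLin ((g : GL ι F) : Matrix ι ι F))] (by omega)
    have f0 : polar Q u₁ w = 0 := hkw 0
    have f1 : polar Q va (act Q g w) = 0 := hkw 1
    have f2 : polar Q u (act Q g w) = 0 := hkw 2
    have hnot : act Q g w ∉ Submodule.span F {b, u} := hwnot
    obtain ⟨α, d₁, hd₁, e⟩ := hY w hw f0
    have hα : α = 0 := by
      rw [e, polar_add_right, polar_smul_right, hvaa, P.perp va hva d₁ hd₁] at f1
      simpa using f1
    rw [hα, zero_smul, zero_add] at e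
    rw [e] at f2 hnot
    have hE := hEM w hw
    have hp := hpol w f0
    rw [e] at hE hp
    obtain ⟨v, hv, hv1, hv2⟩ := P.symm.exists_dual hQ (Submodule.span F {b, u}) (by
      rw [Submodule.span_le]
      rintro x (rfl | rfl)
      · exact hb
      · exact hu) hd₁ hnot
    have hbv : polar Q b v = 0 := hv1 b (Submodule.subset_span (by simp))
    have huv : polar Q u v = 0 := hv1 u (Submodule.subset_span (by simp))
    apply hcon
    apply P.symm.omega_le_of_comp_aux hQ hn (by omega) hM' (P.symm.oirr_of_three hQ hn hM' (by omega))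
      (a := b) (b := a) (c₁ := d₁) (d₁ := 0) hb ha W.zero_mem ha0 (by rw [add_comm]; exact hx)
      (by rw [add_comm b a, add_zero]; exact hp) (by rw [add_comm b a, add_zero]; exact hE)
      hu hu0 hQu hbu (by rw [polar_comm]; exact f2) hv hbv huv hv2

end OPair

end Cfsg.Agent.Lib.Helper29
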