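import Mathlib
import Cfsg.Agent.Lib.Helper29.OmNd3
import Cfsg.Agent.Lib.Helper29.OmBridge

/-!
Maximality in `Ω` of the stabiliser of a non-degenerate subspace.
-/

set_option autoImplicit false

namespace Cfsg.Agent.Lib.Helper29

open Matrix QuadraticMap Module Cfsg.Agent.Lib.Helper15

variable {ι : Type} [Fintype ι] [DecidableEq ι] {F : Type*} [Field F] {Q : QuadraticForm F (ι → F)}

/-- the orthogonal complement -/
def operp (Q : QuadraticForm F (ι → F)) (W : Submodule F (ι → F)) : Submodule F (ι → F) where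
  carrier := {z | ∀ a ∈ W, polar Q a z = 0}
  add_mem' := by
    intro x y hx hy a ha
    rw [polar_add_right, hx a ha, hy a ha, add_zero]
  zero_mem' := by intro a _; simp
  smul_mem' := by
    intro c x hx a ha
    rw [polar_smul_right, hx a ha, smul_zero]

omit [DecidableEq ι] in
theorem exists_odecomp (W : Submodule F (ι → F)) (hW : Cfsg.Geo.IsNondegenerateOn (polar Q) W)
    (z : ι → F) : ∃ w ∈ W, z - w ∈ operp Q W := by
  let φ : W →ₗ[F] Dual F W := (Submodule.dualRestrict W) ∘ₗ (polarBilin Q) ∘ₗ W.subtype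
  have hinj : Function.Injective φ := by
    rw [← LinearMap.ker_eq_bot, LinearMap.ker_eq_bot']
    intro w hw
    by_contra hne
    have hne' : (w : ι → F) ≠ 0 := fun h => hne (Subtype.ext h)
    obtain ⟨-, ⟨x, hx, hxw⟩⟩ := hW w w.2 hne'
    apply hxw
    have : φ w ⟨x, hx⟩ = 0 := by rw [hw]; rfl
    exact this
  have hs : Function.Surjective φ :=
    (LinearMap.injective_iff_surjective_of_finrank_eq_finrank
      (Subspace.dual_finrank_eq).symm).mp hinj
  obtain ⟨w, hw⟩ := hs (Submodule.dualRestrict W (polarBilin Q z))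
  refine ⟨w, w.2, fun a ha => ?_⟩
  have h1 : φ w ⟨a, ha⟩ = Submodule.dualRestrict W (polarBilin Q z) ⟨a, ha⟩ := by rw [hw]
  have h2 : polar Q w a = polar Q z a := h1
  rw [polar_sub_right, polar_comm Q a z, polar_comm Q a w, h2, sub_self]

omit [DecidableEq ι] in
theorem opair_operp (W : Submodule F (ι → F)) (hW : Cfsg.Geo.IsNondegenerateOn (polar Q) W) :
    OPair Q W (operp Q W) where
  perp := fun w hw w' hw' => hw' w hw
  sup := fun x => by
    obtain ⟨w, hw, h⟩ := exists_odecomp W hW x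
    exact ⟨w, hw, x - w, h, by abel⟩

omit [DecidableEq ι] in
theorem OPair.finrank_add {A B : Submodule F (ι → F)} (P : OPair Q A B) (hQ : (polarBilin Q).Nondegenerate) :
    finrank F A + finrank F B = Fintype.card ι := by
  have h := Submodule.finrank_sup_add_finrank_inf_eq A B
  have h1 : A ⊔ B = ⊤ := by
    rw [eq_top_iff]
    intro z _
    obtain ⟨a, ha, b, hb, rfl⟩ := P.sup z
    exact Submodule.add_mem_sup ha hb
  have h2 : A ⊓ B = ⊥ := by
    rw [eq_bot_iff]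
    intro x hx
    rw [Submodule.mem_bot]
    exact P.disj hQ hx.1 hx.2
  rw [h1, h2, finrank_top, finrank_bot, add_zero, Module.finrank_fintype_fun_eq_card] at h
  exact h.symm

/-- an isometry mapping `A` into `A` maps `B` into `B` -/
theorem OPair.act_mem_of {A B : Submodule F (ι → F)} (P : OPair Q A B) (hQ : (polarBilin Q).Nondegenerate)
    (g : Cfsg.isometryGroup F ⇑Q) (c0 : ∀ w ∈ A, act Q g w ∈ A) : ∀ w ∈ B, act Q g w ∈ B := by
  intro w' hw'
  apply P.symm.mem_of_perp hQ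
  intro w hw
  have hmap := map_toLin_eq_of_forall (g : GL ι F) A A c0 rfl
  rw [← hmap] at hw
  obtain ⟨w₂, hw₂, rfl⟩ := hw
  have := polar_act g w₂ w'
  rw [P.perp w₂ hw₂ w' hw'] at this
  exact this

theorem OPair.stab_iff {A B : Submodule F (ι → F)} (P : OPair Q A B) (hQ : (polarBilin Q).Nondegenerate)
    (g : Cfsg.isometryGroup F ⇑Q) :
    (g : GL ι F) ∈ Cfsg.Geo.subspaceStabilizer A ↔ ((∀ w ∈ A, act Q g w ∈ A) ∧ (∀ w ∈ B, act Q g w ∈ B)) := by
  constructor
  · intro h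
    have h1 : ∀ w ∈ A, act Q g w ∈ A := fun w hw => ((mem_subspaceStabilizer A _).1 h w).1 hw
    exact ⟨h1, P.act_mem_of hQ g h1⟩
  · intro h
    exact mem_subspaceStabilizer_of_forall A _ h.1

theorem OPair.stab_iff' {A B : Submodule F (ι → F)} (P : OPair Q A B) (hQ : (polarBilin Q).Nondegenerate)
    (g : Cfsg.isometryGroup F ⇑Q) :
    (g : GL ι F) ∈ Cfsg.Geo.subspaceStabilizer B ↔ ((∀ w ∈ A, act Q g w ∈ A) ∧ (∀ w ∈ B, act Q g w ∈ B)) := by
  rw [P.symm.stab_iff hQ g, and_comm]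

/-- the general maximality statement -/
theorem OPair.isMaximalIn [Fintype F] {A B : Submodule F (ι → F)} (P : OPair Q A B)
    (hQ : (polarBilin Q).Nondegenerate) (hn : 5 ≤ Fintype.card ι) (h7 : 7 ≤ finrank F A) (hB0 : B ≠ ⊥)
    (hnm : ∀ g : Cfsg.isometryGroup F ⇑Q, ¬ ∀ w ∈ A, act Q g w ∈ B)
    (hex : finrank F B = 2 → (∃ e ∈ B, e ≠ 0 ∧ Q e = 0) → 4 ≤ Fintype.card F)
    (H : Subgroup (GL ι F))
    (hstab : ∀ g : Cfsg.isometryGroup F ⇑Q,
      (g : GL ι F) ∈ H ↔ ((∀ w ∈ A, act Q g w ∈ A) ∧ (∀ w ∈ B, act Q g w ∈ B))) :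
    Cfsg.Geo.IsMaximalIn (Cfsg.Geo.omegaGL ⇑Q) (H ⊓ Cfsg.Geo.omegaGL ⇑Q) := by
  apply isMaximalIn_omega_of
  · obtain ⟨u, hu, hQu, -, hu0⟩ := exists_singular_ker_notMem Q A ⊥ (k := 0) (fun i => i.elim0)
      (by simp; omega)
    have hu0' : u ≠ 0 := by simpa using hu0
    obtain ⟨z, hz, hz0⟩ := Submodule.exists_mem_ne_zero_of_ne_bot hB0
    obtain ⟨v, hv, hvu⟩ := P.exists_dual₀ hQ hu hu0'
    refine ⟨eich Q u z hQu (P.perp u hu z hz), eich_mem_Omega Q hQ hn _ _ _ _, fun hgH => ?_⟩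
    have h1 := ((hstab _).1 hgH).1 v hv
    rw [act_eich, polar_comm Q u v, hvu, one_smul, polar_comm Q z v, P.perp v hv z hz] at h1
    have h2 : z ∈ A := by
      have h3 := A.add_mem (A.sub_mem h1 hv) (A.smul_mem (0 + Q z * 1) hu)
      have e : v + z - (0 + Q z * 1) • u - v + (0 + Q z * 1) • u = z := by abel
      rwa [e] at h3
    exact hz0 (P.disj hQ h2 hz)
  · intro M hHM g hgM _ hgH
    have hM : ∀ g ∈ Cfsg.Omega F ⇑Q, (∀ w ∈ A, act Q g w ∈ A) → (∀ w ∈ B, act Q g w ∈ B) → g ∈ M :=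
      fun g hg h0 h1 => hHM g hg ((hstab g).2 ⟨h0, h1⟩)
    have c0 : ¬ ∀ w ∈ A, act Q g w ∈ A := fun c0 => hgH ((hstab g).2 ⟨c0, P.act_mem_of hQ g c0⟩)
    have c1 := hnm g
    push Not at c0 c1
    obtain ⟨w₀, hw₀, hgw₀⟩ := c0
    obtain ⟨w₁, hw₁, hgw₁⟩ := c1
    have hpos : 0 < finrank F B := by
      rw [Module.finrank_pos_iff_exists_ne_zero]
      obtain ⟨z, hz, hz0⟩ := Submodule.exists_mem_ne_zero_of_ne_bot hB0
      exact ⟨⟨z, hz⟩, fun h => hz0 (congrArg Subtype.val h)⟩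
    have hirr : OIrr Q M A B := by
      by_cases h1 : finrank F B = 1
      · exact OPair.oirr_of_one h1
      · by_cases h2 : finrank F B = 2
        · exact P.oirr_of_two hQ hM (by omega) h2 (hex h2)
        · exact P.oirr_of_three hQ hn hM (by omega)
    exact P.omega_le' hQ hn h7 hM hirr hgM hw₀ hgw₀ hw₁ hgw₁

/-- no isometry maps `A` into a smaller `B` -/
theorem not_forall_act_mem_of_lt {A B : Submodule F (ι → F)} (hlt : finrank F B < finrank F A)
    (g : Cfsg.isometryGroup F ⇑Q) : ¬ ∀ w ∈ A, act Q g w ∈ B := by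
  intro h
  have h1 : A.map (Matrix.mulVecLin ((g : GL ι F) : Matrix ι ι F)) ≤ B := by
    rintro _ ⟨w, hw, rfl⟩
    exact h w hw
  have h2 := Submodule.finrank_mono h1
  rw [finrank_map_GL] at h2
  omega

omit [DecidableEq ι] in
theorem OPair.nondegOn {A B : Submodule F (ι → F)} (P : OPair Q A B) (hQ : (polarBilin Q).Nondegenerate) :
    Cfsg.Geo.IsNondegenerateOn (polar Q) A := by
  intro w hw hw0
  obtain ⟨v, hv, hvw⟩ := P.exists_dual₀ hQ hw hw0
  exact ⟨⟨v, hv, by rw [hvw]; exact one_ne_zero⟩, ⟨v, hv, by rw [polar_comm, hvw]; exact one_ne_zero⟩⟩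

omit [Fintype ι] [DecidableEq ι] in
theorem isPlusTypeOn_of_plane {B : Submodule F (ι → F)} (h2 : finrank F B = 2) {e : ι → F} (he : e ∈ B)
    (he0 : e ≠ 0) (hQe : Q e = 0) : Cfsg.Geo.IsPlusTypeOn Q B := by
  refine ⟨Submodule.span F {e}, ?_, ?_, ?_⟩
  · rw [Submodule.span_le]
    rintro x rfl
    exact he
  · intro w hw
    obtain ⟨c, rfl⟩ := Submodule.mem_span_singleton.1 hw
    rw [QuadraticMap.map_smul, hQe, smul_zero]
  · rw [finrank_span_singleton he0, h2]

end Cfsg.Agent.Lib.Helper29
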