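import Mathlib
import Cfsg.Agent.Lib.Helper29.OmNd4

/-!
An even-dimensional non-degenerate quadratic space over a finite field which has an orthogonal isometric copy
admits an anti-isometry; consequently `W ⊥ gW` is of plus type.
-/

set_option autoImplicit false

namespace Cfsg.Agent.Lib.Helper29

open Matrix QuadraticMap Module Cfsg.Agent.Lib.Helper15

variable {ι : Type} [Fintype ι] [DecidableEq ι] {F : Type*} [Field F] {Q : QuadraticForm F (ι → F)}

theorem norm_mul_identity {a c τ α₀ β₀ α β : F} (ha : a ≠ 0)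
    (h : a * α₀ ^ 2 + c * β₀ ^ 2 + τ * α₀ * β₀ = -a) :
    a * (α * α₀ - β * β₀ * c / a) ^ 2 + c * (α * β₀ + β * α₀ + β * β₀ * τ / a) ^ 2
      + τ * (α * α₀ - β * β₀ * c / a) * (α * β₀ + β * α₀ + β * β₀ * τ / a)
      = -(a * α ^ 2 + c * β ^ 2 + τ * α * β) := by
  have e : a * (α * α₀ - β * β₀ * c / a) ^ 2 + c * (α * β₀ + β * α₀ + β * β₀ * τ / a) ^ 2
      + τ * (α * α₀ - β * β₀ * c / a) * (α * β₀ + β * α₀ + β * β₀ * τ / a)
      = (a * α₀ ^ 2 + c * β₀ ^ 2 + τ * α₀ * β₀) * (a * α ^ 2 + c * β ^ 2 + τ * α * β) / a := by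
    field_simp
    ring
  rw [e, h]
  field_simp

omit [Fintype ι] [DecidableEq ι] in
theorem Q_pair (x t : ι → F) (α β : F) :
    Q (α • x + β • t) = Q x * α ^ 2 + Q t * β ^ 2 + polar Q x t * α * β := by
  have : Q (α • x + β • t) = Q (α • x) + Q (β • t) + polar Q (α • x) (β • t) := by
    unfold polar; ring
  rw [this, QuadraticMap.map_smul, QuadraticMap.map_smul, polar_smul_left, polar_smul_right]
  simp only [smul_eq_mul]
  ring


/-- the anisotropic plane case -/
theorem exists_anti_plane [Finite F] (g : Cfsg.isometryGroup F ⇑Q) (W : Submodule F (ι → F))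
    (h2 : finrank F W = 2) (han : ∀ s ∈ W, Q s = 0 → s = 0)
    (hg : ∀ w ∈ W, ∀ w' ∈ W, polar Q w (act Q g w') = 0) :
    ∃ J : (ι → F) →ₗ[F] (ι → F), ∀ w ∈ W, J w ∈ W ∧ Q (J w) = - Q w := by
  let b : Basis (Fin 2) F W := Module.finBasisOfFinrankEq F W h2
  set x : ι → F := ((b 0 : W) : ι → F) with hx
  set t : ι → F := ((b 1 : W) : ι → F) with ht
  have hxW : x ∈ W := (b 0).2
  have htW : t ∈ W := (b 1).2
  have hind : ∀ α β : F, α • x + β • t = 0 → α = 0 ∧ β = 0 := by
    intro α β h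
    have h1 := Fintype.linearIndependent_iff.1 b.linearIndependent ![α, β] (by
      rw [Fin.sum_univ_two]
      apply Subtype.ext
      simpa using h)
    exact ⟨h1 0, h1 1⟩
  have hrep : ∀ w ∈ W, ∃ α β : F, w = α • x + β • t := by
    intro w hw
    refine ⟨b.repr ⟨w, hw⟩ 0, b.repr ⟨w, hw⟩ 1, ?_⟩
    have h1 := b.sum_repr ⟨w, hw⟩
    rw [Fin.sum_univ_two] at h1
    have h3 := congrArg Subtype.val h1
    simpa using h3.symm
  have hx0 : x ≠ 0 := by
    intro h
    have := hind 1 0 (by rw [h]; simp)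
    exact one_ne_zero this.1
  have ha : Q x ≠ 0 := fun h => hx0 (han x hxW h)
  -- a vector of norm `-a`
  let L : (Fin 3 → F) →ₗ[F] (ι → F) := Fintype.linearCombination F ![x, t, act Q g x]
  have hL : ∀ c, L c = (c 0 • x + c 1 • t) + c 2 • act Q g x := by
    intro c
    simp [L, Fintype.linearCombination_apply, Fin.sum_univ_three]
  obtain ⟨c, hc0, hQc⟩ := exists_isotropic (V := Fin 3 → F) (Q.comp L) (by simp)
  rw [QuadraticMap.comp_apply, hL] at hQc
  have hp : c 0 • x + c 1 • t ∈ W := W.add_mem (W.smul_mem _ hxW) (W.smul_mem _ htW)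
  have e1 : Q ((c 0 • x + c 1 • t) + c 2 • act Q g x) = Q (c 0 • x + c 1 • t) + c 2 ^ 2 * Q x := by
    have : Q ((c 0 • x + c 1 • t) + c 2 • act Q g x) = Q (c 0 • x + c 1 • t) + Q (c 2 • act Q g x)
        + polar Q (c 0 • x + c 1 • t) (c 2 • act Q g x) := by
      unfold polar; ring
    rw [this, polar_smul_right, hg _ hp _ hxW, QuadraticMap.map_smul, Q_act]
    simp only [smul_eq_mul]
    ring
  rw [e1] at hQc
  have hc2 : c 2 ≠ 0 := by
    intro h
    rw [h] at hQc
    have h3 := han _ hp (by simpa using hQc)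
    obtain ⟨h4, h5⟩ := hind _ _ h3
    apply hc0
    funext i
    fin_cases i
    · exact h4
    · exact h5
    · exact h
  rw [Q_pair] at hQc
  set a := Q x with haQ
  set cc := Q t with hcQ
  set τ := polar Q x t with hτ
  have hkey : a * (c 0 / c 2) ^ 2 + cc * (c 1 / c 2) ^ 2 + τ * (c 0 / c 2) * (c 1 / c 2) = -a := by
    field_simp
    linear_combination hQc
  set α₀ := c 0 / c 2
  set β₀ := c 1 / c 2
  -- the map
  let J₀ : W →ₗ[F] (ι → F) := b.constr F ![α₀ • x + β₀ • t, (-(β₀ * cc / a)) • x + (α₀ + β₀ * τ / a) • t]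
  obtain ⟨J, hJ⟩ := LinearMap.exists_extend J₀
  have hJx : J x = α₀ • x + β₀ • t := by
    have h1 : J x = J₀ (b 0) := by rw [← hJ]; rfl
    rw [h1, Basis.constr_basis]
    rfl
  have hJt : J t = (-(β₀ * cc / a)) • x + (α₀ + β₀ * τ / a) • t := by
    have h1 : J t = J₀ (b 1) := by rw [← hJ]; rfl
    rw [h1, Basis.constr_basis]
    rfl
  refine ⟨J, fun w hw => ?_⟩
  obtain ⟨α, β, rfl⟩ := hrep w hw
  have e2 : J (α • x + β • t) = (α * α₀ - β * β₀ * cc / a) • x + (α * β₀ + β * α₀ + β * β₀ * τ / a) • t := by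
    rw [map_add, map_smul, map_smul, hJx, hJt]
    module
  rw [e2]
  refine ⟨W.add_mem (W.smul_mem _ hxW) (W.smul_mem _ htW), ?_⟩
  rw [Q_pair, Q_pair]
  exact norm_mul_identity ha hkey


omit [Fintype ι] [DecidableEq ι] in
/-- a hyperbolic partner inside `W` -/
theorem exists_hyp_partner {W : Submodule F (ι → F)} (hW : Cfsg.Geo.IsNondegenerateOn (polar Q) W)
    {s : ι → F} (hs : s ∈ W) (hs0 : s ≠ 0) (hQs : Q s = 0) :
    ∃ f ∈ W, Q f = 0 ∧ polar Q s f = 1 := by
  obtain ⟨-, f₀, hf₀, h0⟩ := hW s hs hs0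
  have hss : polar Q s s = 0 := by
    rw [polar_self, hQs, smul_zero]
  obtain ⟨f₁, hf₁W, h1⟩ : ∃ f₁ ∈ W, polar Q s f₁ = 1 :=
    ⟨(polar Q s f₀)⁻¹ • f₀, W.smul_mem _ hf₀, by
      rw [polar_smul_right, smul_eq_mul, inv_mul_cancel₀ h0]⟩
  refine ⟨f₁ - Q f₁ • s, W.sub_mem hf₁W (W.smul_mem _ hs), ?_, ?_⟩
  · have e3 : f₁ - Q f₁ • s = (1 : F) • f₁ + (- Q f₁) • s := by module
    rw [e3, Q_pair, hQs, polar_comm, h1]
    ring
  · rw [polar_sub_right, polar_smul_right, hss, h1]
    simp

/-- an anti-isometry of `W` -/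
theorem exists_anti [Finite F] (g : Cfsg.isometryGroup F ⇑Q) :
    ∀ k : ℕ, ∀ W : Submodule F (ι → F), finrank F W = 2 * k →
      Cfsg.Geo.IsNondegenerateOn (polar Q) W →
      (∀ w ∈ W, ∀ w' ∈ W, polar Q w (act Q g w') = 0) →
      ∃ J : (ι → F) →ₗ[F] (ι → F), ∀ w ∈ W, J w ∈ W ∧ Q (J w) = - Q w := by
  intro k
  induction k with
  | zero =>
    intro W h0 _ _
    refine ⟨0, fun w hw => ?_⟩
    have : W = ⊥ := Submodule.finrank_eq_zero.1 (by simpa using h0)
    rw [this, Submodule.mem_bot] at hw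
    subst hw
    simp
  | succ k ih =>
    intro W hk hW hg
    by_cases hs : ∃ s ∈ W, s ≠ 0 ∧ Q s = 0
    · obtain ⟨s, hsW, hs0, hQs⟩ := hs
      obtain ⟨f, hfW, hQf, hsf⟩ := exists_hyp_partner hW hsW hs0 hQs
      have hss : polar Q s s = 0 := by rw [polar_self, hQs, smul_zero]
      have hff : polar Q f f = 0 := by rw [polar_self, hQf, smul_zero]
      have hfs : polar Q f s = 1 := by rw [polar_comm, hsf]
      let ψ : W →ₗ[F] F × F :=
        LinearMap.prod ((polarBilin Q s) ∘ₗ W.subtype) ((polarBilin Q f) ∘ₗ W.subtype)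
      have hψ : ∀ w : W, ψ w = (polar Q s w, polar Q f w) := fun w => rfl
      have hsurj : Function.Surjective ψ := by
        rintro ⟨a, b⟩
        refine ⟨⟨a • f + b • s, W.add_mem (W.smul_mem _ hfW) (W.smul_mem _ hsW)⟩, ?_⟩
        rw [hψ]
        simp only [polar_add_right, polar_smul_right, hss, hff, hsf, hfs, smul_eq_mul]
        simp
      set W₁ : Submodule F (ι → F) := (LinearMap.ker ψ).map W.subtype with hW₁
      have hmem : ∀ w, w ∈ W₁ ↔ w ∈ W ∧ polar Q s w = 0 ∧ polar Q f w = 0 := by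
        intro w
        constructor
        · rintro ⟨y, hy, rfl⟩
          have h1 : ψ y = 0 := hy
          rw [hψ, Prod.mk_eq_zero] at h1
          exact ⟨y.2, h1.1, h1.2⟩
        · rintro ⟨hw, h1, h2⟩
          refine ⟨⟨w, hw⟩, ?_, rfl⟩
          change ψ ⟨w, hw⟩ = 0
          rw [hψ, Prod.mk_eq_zero]
          exact ⟨h1, h2⟩
      have hfr : finrank F W₁ = 2 * k := by
        have h1 := LinearMap.finrank_range_add_finrank_ker ψ
        rw [LinearMap.range_eq_top.2 hsurj, finrank_top, Module.finrank_prod, finrank_self] at h1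
        rw [hW₁, Submodule.finrank_map_subtype_eq]
        omega
      let π : (ι → F) →ₗ[F] (ι → F) :=
        LinearMap.id - (polarBilin Q f).smulRight s - (polarBilin Q s).smulRight f
      have hπ : ∀ w, π w = w - polar Q f w • s - polar Q s w • f := fun w => rfl
      have hπW : ∀ w ∈ W, π w ∈ W₁ := by
        intro w hw
        rw [hmem, hπ]
        refine ⟨W.sub_mem (W.sub_mem hw (W.smul_mem _ hsW)) (W.smul_mem _ hfW), ?_, ?_⟩
        · simp only [polar_sub_right, polar_smul_right, hss, hsf, smul_eq_mul]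
          ring
        · simp only [polar_sub_right, polar_smul_right, hff, hfs, smul_eq_mul]
          ring
      have hW₁nd : Cfsg.Geo.IsNondegenerateOn (polar Q) W₁ := by
        intro w hw hw0
        obtain ⟨hwW, h1, h2⟩ := (hmem w).1 hw
        obtain ⟨-, y, hy, hwy⟩ := hW w hwW hw0
        have h3 : polar Q w (π y) ≠ 0 := by
          rw [hπ]
          simp only [polar_sub_right, polar_smul_right, polar_comm Q w s, polar_comm Q w f, h1, h2,
            smul_eq_mul, mul_zero, sub_zero]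
          exact hwy
        exact ⟨⟨π y, hπW y hy, by rw [polar_comm]; exact h3⟩, ⟨π y, hπW y hy, h3⟩⟩
      obtain ⟨J₁, hJ₁⟩ := ih W₁ hfr hW₁nd
        (fun w hw w' hw' => hg w ((hmem w).1 hw).1 w' ((hmem w').1 hw').1)
      refine ⟨(polarBilin Q f).smulRight s - (polarBilin Q s).smulRight f + J₁ ∘ₗ π, fun w hw => ?_⟩
      have e : ((polarBilin Q f).smulRight s - (polarBilin Q s).smulRight f + J₁ ∘ₗ π) w
          = (polar Q f w • s + (- polar Q s w) • f) + J₁ (π w) := by
        simp only [LinearMap.add_apply, LinearMap.sub_apply, LinearMap.smulRight_apply,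
          LinearMap.comp_apply, polarBilin_apply_apply]
        module
      rw [e]
      obtain ⟨hy, hQy⟩ := hJ₁ (π w) (hπW w hw)
      obtain ⟨hyW, hy1, hy2⟩ := (hmem _).1 hy
      obtain ⟨hzW, hz1, hz2⟩ := (hmem _).1 (hπW w hw)
      refine ⟨W.add_mem (W.add_mem (W.smul_mem _ hsW) (W.smul_mem _ hfW)) hyW, ?_⟩
      have e1 : Q ((polar Q f w • s + (- polar Q s w) • f) + J₁ (π w))
          = Q (polar Q f w • s + (- polar Q s w) • f) + Q (J₁ (π w))
            + polar Q (polar Q f w • s + (- polar Q s w) • f) (J₁ (π w)) := by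
        unfold polar; ring
      have e2 : w = (polar Q f w • s + polar Q s w • f) + π w := by
        rw [hπ]; abel
      have e3 : Q ((polar Q f w • s + polar Q s w • f) + π w)
          = Q (polar Q f w • s + polar Q s w • f) + Q (π w)
            + polar Q (polar Q f w • s + polar Q s w • f) (π w) := by
        unfold polar; ring
      rw [e1, hQy, Q_pair, polar_add_left, polar_smul_left, polar_smul_left, hy1, hy2]
      conv_rhs => rw [e2, e3, Q_pair, polar_add_left, polar_smul_left, polar_smul_left, hz1, hz2]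
      rw [hQs, hQf, hsf]
      simp only [smul_eq_mul]
      ring
    · have han : ∀ s ∈ W, Q s = 0 → s = 0 := by
        intro s hsW hQs
        by_contra h0
        exact hs ⟨s, hsW, h0, hQs⟩
      have h2 : finrank F W = 2 := by
        by_contra hne
        obtain ⟨v, hv0, hQv⟩ := exists_isotropic (V := W) (Q.comp W.subtype) (by omega)
        exact hv0 (Subtype.ext (han v v.2 hQv))
      exact exists_anti_plane g W h2 han hg

/-- if an isometry maps the even-dimensional `W` into its perp and `2 dim W = n` then the space has plus type -/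
theorem isPlusTypeOn_top_of_swap [Finite F] (hQ : (polarBilin Q).Nondegenerate) {W : Submodule F (ι → F)}
    (hW : Cfsg.Geo.IsNondegenerateOn (polar Q) W) (hev : Even (finrank F W))
    (h2 : 2 * finrank F W = Fintype.card ι) (g : Cfsg.isometryGroup F ⇑Q)
    (hg : ∀ w ∈ W, act Q g w ∈ operp Q W) : Cfsg.Geo.IsPlusTypeOn Q ⊤ := by
  obtain ⟨k, hk⟩ := hev
  obtain ⟨J, hJ⟩ := exists_anti g k W (by omega) hW (fun w hw w' hw' => hg w' hw' w hw)
  let L : (ι → F) →ₗ[F] (ι → F) := LinearMap.id + (Matrix.mulVecLin ((g : GL ι F) : Matrix ι ι F)) ∘ₗ J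
  have hL : ∀ w, L w = w + act Q g (J w) := fun w => rfl
  have hinj : Function.Injective (L.domRestrict W) := by
    rw [← LinearMap.ker_eq_bot, LinearMap.ker_eq_bot']
    intro w hw
    have h1 : (w : ι → F) + act Q g (J w) = 0 := hw
    have h3 : (w : ι → F) ∈ operp Q W := by
      have : (w : ι → F) = - act Q g (J w) := eq_neg_of_add_eq_zero_left h1
      rw [this]
      exact (operp Q W).neg_mem (hg _ (hJ w w.2).1)
    exact Subtype.ext ((opair_operp W hW).disj hQ w.2 h3)
  refine ⟨LinearMap.range (L.domRestrict W), le_top, ?_, ?_⟩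
  · rintro _ ⟨w, rfl⟩
    change Q (L w) = 0
    rw [hL]
    have e1 : Q ((w : ι → F) + act Q g (J w)) = Q (w : ι → F) + Q (act Q g (J w))
        + polar Q (w : ι → F) (act Q g (J w)) := by
      unfold polar; ring
    rw [e1, Q_act, (hJ w w.2).2, hg _ (hJ w w.2).1 w w.2]
    ring
  · rw [LinearMap.finrank_range_of_inj hinj, finrank_top, Module.finrank_fintype_fun_eq_card, h2]

end Cfsg.Agent.Lib.Helper29
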