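import Mathlib
import Cfsg.Agent.Lib.Helper29.OmRat1

/-!
Rational structures: a non-rational Siegel transformation with rational centre generates `Ω` together with the
rational ones.
-/

set_option autoImplicit false
set_option linter.unusedSectionVars false

namespace Cfsg.Agent.Lib.Helper29

open Matrix QuadraticMap Module Cfsg.Agent.Lib.Helper15

variable {ι : Type} [Fintype ι] [DecidableEq ι] {F : Type*} [Field F] {Q : QuadraticForm F (ι → F)}
  {F₀ : Subfield F} {Q₀ : QuadraticForm F₀ (ι → F₀)} {e : (ι → F₀) → (ι → F)}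
  {M : Subgroup (Cfsg.isometryGroup F ⇑Q)}

theorem EM_smul_right {u v : ι → F} (c : F) (h1 : EM M (c • u) v) (huv : polar Q u v = 0) (hu : Q u = 0) :
    EM M u (c • v) := by
  intro hu' huv'
  have := h1 (by rw [QuadraticMap.map_smul, hu, smul_zero]) (by rw [polar_smul_left, huv, smul_zero])
  rwa [eich_smul_left Q u v c hu huv] at this

namespace RatS

variable (S : RatS Q Q₀ e)
include S

theorem dual0 {x : ι → F₀} (hx : x ≠ 0) : ∃ p, polar Q₀ x p = 1 := by
  obtain ⟨p, hp⟩ : ∃ p, polar Q₀ x p ≠ 0 := by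
    by_contra hcon
    push Not at hcon
    exact hx (S.nd₀.1 x hcon)
  exact ⟨(polar Q₀ x p)⁻¹ • p, by rw [polar_smul_right, smul_eq_mul, inv_mul_cancel₀ hp]⟩

theorem move1 (hrat : ∀ x y, EM M (e x) (e y)) {a : F} {u w w' y : ι → F₀}
    (hT : EM M (e u) (a • e w)) (hw' : Q₀ w' = 0) (h1 : polar Q₀ u w' = 0) (h2 : polar Q₀ w w' = 0)
    (h3 : polar Q₀ u y = 0) (h4 : polar Q₀ y w' = 0) (h5 : polar Q₀ w y = 1) (h6 : polar Q₀ u w = 0) :
    EM M (e u) (a • e w') := by
  have k := EM_comm (x := e w') (y := e y) (u := e u) (v := a • e w) (hrat w' y) hT (S.Q_e_zero hw')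
    (by rw [polar_comm]; exact S.polar_e_zero h4) (by rw [polar_smul_right, S.polar_e_zero h6, smul_zero])
    (by rw [polar_comm]; exact S.polar_e_zero h1) (by rw [polar_comm]; exact S.polar_e_zero h3)
  have e1 : polar Q (e w') (a • e w) = 0 := by
    rw [polar_smul_right, polar_comm, S.polar_e_zero h2, smul_zero]
  have e2 : polar Q (e y) (a • e w) = a := by
    rw [polar_smul_right, polar_comm, S.polar_e_one h5, smul_eq_mul, mul_one]
  rw [e1, e2] at k
  refine EM_congr (EM_neg k) rfl ?_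
  simp

theorem swap {a : F} {u w : ι → F₀} (hT : EM M (e u) (a • e w)) (hu : Q₀ u = 0) (hw : Q₀ w = 0)
    (huw : polar Q₀ u w = 0) : EM M (e w) (a • e u) := by
  have k1 := EM_symm hT (S.Q_e_zero hu)
  have k2 := EM_smul_right a k1 (by rw [polar_neg_right, polar_comm, S.polar_e_zero huw, neg_zero])
    (S.Q_e_zero hw)
  refine EM_congr (EM_neg k2) rfl ?_
  simp

theorem spread [Finite F] (hn : 13 ≤ Fintype.card ι) (hrat : ∀ x y, EM M (e x) (e y)) {a : F} {u w : ι → F₀}
    (hu : Q₀ u = 0) (hw : Q₀ w = 0) (huw : polar Q₀ u w = 0) (hu0 : u ≠ 0)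
    (hind : e w ∉ Submodule.span F (Set.range (fun i => e (![u] i)))) (hT : EM M (e u) (a • e w)) :
    ∀ u' w', Q₀ u' = 0 → Q₀ w' = 0 → polar Q₀ u' w' = 0 → EM M (e u') (a • e w') := by
  intro u' w' hu' hw' huw'
  obtain ⟨y₀, a1, a2⟩ := S.dual ![u] w hind
  have a1' : polar Q₀ u y₀ = 0 := a1 0
  obtain ⟨y₀', b1⟩ := S.dual0 hu0
  obtain ⟨x₁, c0, c1, c2⟩ := S.sing_notMem ![u, w, u', w', y₀, y₀'] ![u'] (by omega)
  have c10 : polar Q₀ u x₁ = 0 := c1 0
  have c11 : polar Q₀ w x₁ = 0 := c1 1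
  have c12 : polar Q₀ u' x₁ = 0 := c1 2
  have c13 : polar Q₀ w' x₁ = 0 := c1 3
  have c14 : polar Q₀ y₀ x₁ = 0 := c1 4
  have c15 : polar Q₀ y₀' x₁ = 0 := c1 5
  obtain ⟨y₁, d1, d2⟩ := S.dual ![u'] x₁ c2
  have d1' : polar Q₀ u' y₁ = 0 := d1 0
  obtain ⟨x₂, f0, f1, f2⟩ := S.sing_notMem ![u, u', w', x₁, y₁, y₀'] ![u', w'] (by omega)
  have f10 : polar Q₀ u x₂ = 0 := f1 0
  have f11 : polar Q₀ u' x₂ = 0 := f1 1
  have f12 : polar Q₀ w' x₂ = 0 := f1 2
  have f13 : polar Q₀ x₁ x₂ = 0 := f1 3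
  have f14 : polar Q₀ y₁ x₂ = 0 := f1 4
  have f15 : polar Q₀ y₀' x₂ = 0 := f1 5
  obtain ⟨y₂, g1, g2⟩ := S.dual ![u', w'] x₂ f2
  have g10 : polar Q₀ u' y₂ = 0 := g1 0
  have g11 : polar Q₀ w' y₂ = 0 := g1 1
  have m1 := S.move1 hrat hT c0 c10 c11 a1' c14 a2 huw
  have s1 := S.swap m1 hu c0 c10
  have m2 := S.move1 hrat s1 f0 f13 f10 (by rw [polar_comm]; exact c15) f15 b1 (by rw [polar_comm]; exact c10)
  have s2 := S.swap m2 c0 f0 f13
  have m3 := S.move1 hrat s2 hu' (by rw [polar_comm]; exact f11) (by rw [polar_comm]; exact c12)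
    (by rw [polar_comm]; exact f14) (by rw [polar_comm]; exact d1') d2 (by rw [polar_comm]; exact f13)
  have s3 := S.swap m3 f0 hu' (by rw [polar_comm]; exact f11)
  exact S.move1 hrat s3 hw' huw' (by rw [polar_comm]; exact f12) g10 (by rw [polar_comm]; exact g11) g2 f11

theorem full [Finite F] (hn : 13 ≤ Fintype.card ι) (hprime : (finrank F₀ F).Prime)
    (hrat : ∀ x y, EM M (e x) (e y)) {a : F} (ha : a ∉ F₀) {u w : ι → F₀}
    (hu : Q₀ u = 0) (hw : Q₀ w = 0) (huw : polar Q₀ u w = 0) (hu0 : u ≠ 0)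
    (hind : e w ∉ Submodule.span F (Set.range (fun i => e (![u] i)))) (hT : EM M (e u) (a • e w)) :
    ∀ (c : F) (u' w' : ι → F₀), Q₀ u' = 0 → Q₀ w' = 0 → polar Q₀ u' w' = 0 → EM M (e u') (c • e w') := by
  let R : Subalgebra F₀ F :=
    { carrier := {c | ∀ u' w', Q₀ u' = 0 → Q₀ w' = 0 → polar Q₀ u' w' = 0 → EM M (e u') (c • e w')}
      mul_mem' := by
        intro c d hc hd u' w' hu' hw' huw'
        obtain ⟨x', c0, c1, c2⟩ := S.sing_notMem ![u', w'] ![u', w'] (by omega)
        have c10 : polar Q₀ u' x' = 0 := c1 0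
        have c11 : polar Q₀ w' x' = 0 := c1 1
        obtain ⟨y', d0, d1, d2⟩ := S.sing ![u', w'] x' c2 (by omega)
        have d10 : polar Q₀ u' y' = 0 := d1 0
        have d11 : polar Q₀ w' y' = 0 := d1 1
        have k := EM_comm (x := e w') (y := d • e y') (u := e u') (v := c • e x') (hd w' y' hw' d0 d11)
          (hc u' x' hu' c0 c10) (S.Q_e_zero hw') (by rw [polar_smul_right, S.polar_e_zero d11, smul_zero])
          (by rw [polar_smul_right, S.polar_e_zero c10, smul_zero])
          (by rw [polar_comm]; exact S.polar_e_zero huw')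
          (by rw [polar_smul_left, polar_comm, S.polar_e_zero d10, smul_zero])
        have e1 : polar Q (e w') (c • e x') = 0 := by
          rw [polar_smul_right, S.polar_e_zero c11, smul_zero]
        have e2 : polar Q (d • e y') (c • e x') = c * d := by
          rw [polar_smul_right, polar_smul_left, polar_comm, S.polar_e_one d2]
          simp
        rw [e1, e2] at k
        refine EM_congr (EM_neg k) rfl ?_
        simp
      add_mem' := by
        intro c d hc hd u' w' hu' hw' huw'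
        rw [add_smul]
        exact EM_add (hc u' w' hu' hw' huw') (hd u' w' hu' hw' huw')
          (by rw [polar_smul_right, S.polar_e_zero huw', smul_zero])
      algebraMap_mem' := by
        intro r u' w' hu' hw' huw'
        have : (algebraMap F₀ F r) • e w' = e (r • w') := by rw [S.e_smul]; rfl
        rw [this]
        exact hrat _ _ }
  have haR : a ∈ R := S.spread hn hrat hu hw huw hu0 hind hT
  have hs := Subalgebra.isSimpleOrder_of_finrank_prime F₀ F hprime
  rcases hs.eq_bot_or_eq_top R with h | h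
  · exfalso
    rw [h, Algebra.mem_bot] at haR
    obtain ⟨r, hr⟩ := haR
    apply ha
    rw [← hr]
    exact r.2
  · intro c
    have : c ∈ R := by rw [h]; exact Algebra.mem_top
    exact this

theorem mem_ocentres_of_full [Finite F] (hn : 13 ≤ Fintype.card ι)
    (hfull : ∀ (c : F) (u' w' : ι → F₀), Q₀ u' = 0 → Q₀ w' = 0 → polar Q₀ u' w' = 0 → EM M (e u') (c • e w'))
    {u : ι → F₀} (hu : Q₀ u = 0) (hu0 : u ≠ 0) : e u ∈ ocentres Q M := by
  apply mem_ocentres_of_admS (S.Q_e_zero hu)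
  obtain ⟨f, hf⟩ := S.dual0 hu0
  have key : ∀ v, v - polar Q (e u) v • e f ∈ admS M (e u) := by
    intro v
    have hv : v ∈ Submodule.span F (Set.range e) := by rw [S.span]; trivial
    induction hv using Submodule.span_induction with
    | mem x hx =>
      obtain ⟨x, rfl⟩ := hx
      have e1 : e x - polar Q (e u) (e x) • e f = e (x - polar Q₀ u x • f) := by
        rw [S.e_sub, S.e_smul, S.polar_e]
      rw [e1]
      obtain ⟨t₁, t₂, p1, p2, p3, p4, p5⟩ := sing_decomp S.nd₀ (by omega) hu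
        (t := x - polar Q₀ u x • f) (by rw [polar_sub_right, polar_smul_right, hf]; simp)
      rw [p5, S.e_add]
      exact (admS M (e u)).add_mem ⟨S.polar_e_zero p3, fun c => hfull c u t₁ hu p1 p3⟩
        ⟨S.polar_e_zero p4, fun c => hfull c u t₂ hu p2 p4⟩
    | zero => simp
    | add x y _ _ hx hy =>
      have : x + y - polar Q (e u) (x + y) • e f
          = (x - polar Q (e u) x • e f) + (y - polar Q (e u) y • e f) := by
        rw [polar_add_right]; module
      rw [this]
      exact (admS M (e u)).add_mem hx hy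
    | smul c x _ hx =>
      have : c • x - polar Q (e u) (c • x) • e f = c • (x - polar Q (e u) x • e f) := by
        rw [polar_smul_right, smul_eq_mul]; module
      rw [this]
      exact (admS M (e u)).smul_mem _ hx
  intro v hv
  have := key v
  rwa [hv, zero_smul, sub_zero] at this

theorem notMem_span_empty {x : ι → F₀} (hx : x ≠ 0) (xs : Fin 0 → (ι → F₀)) :
    e x ∉ Submodule.span F (Set.range (fun i => e (xs i))) := by
  have : Set.range (fun i => e (xs i)) = ∅ := Set.range_eq_empty _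
  rw [this, Submodule.span_empty, Submodule.mem_bot]
  exact S.e_ne_zero hx

theorem omega_le_of_full [Fintype F] (hn : 13 ≤ Fintype.card ι)
    (hfull : ∀ (c : F) (u' w' : ι → F₀), Q₀ u' = 0 → Q₀ w' = 0 → polar Q₀ u' w' = 0 → EM M (e u') (c • e w'))
    {u : ι → F₀} (hu : Q₀ u = 0) (hu0 : u ≠ 0) : Cfsg.Omega F ⇑Q ≤ M := by
  obtain ⟨z, hz, -, huz⟩ := S.sing (k := 0) Fin.elim0 u (S.notMem_span_empty hu0 _) (by omega)
  have hz0 : z ≠ 0 := by
    rintro rfl
    simp at huz
  exact omega_le_of_opp S.nd (by omega) (S.mem_ocentres_of_full hn hfull hu hu0)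
    (S.mem_ocentres_of_full hn hfull hz hz0) (by rw [S.polar_e_one huz]; exact one_ne_zero)

/-- a vector perpendicular to `e u` pairing rationally with the rational singular vectors of `u^⊥` is rational
modulo `e u` -/
theorem rep_mod [Finite F] (hn : 13 ≤ Fintype.card ι) {u : ι → F₀} {v : ι → F} (hu : Q₀ u = 0) (hu0 : u ≠ 0)
    (h : ∀ z, Q₀ z = 0 → polar Q₀ u z = 0 → polar Q v (e z) ∈ F₀) : ∃ (x : ι → F₀) (c : F), v = e x + c • e u := by
  obtain ⟨f, hf⟩ := S.dual0 hu0
  have h1 : ∀ t, polar Q₀ u t = 0 → polar Q v (e t) ∈ F₀ := by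
    intro t ht
    obtain ⟨t₁, t₂, p1, p2, p3, p4, p5⟩ := sing_decomp S.nd₀ (by omega) hu ht
    rw [p5, S.e_add, polar_add_right]
    exact F₀.add_mem (h t₁ p1 p3) (h t₂ p2 p4)
  obtain ⟨x, hx⟩ := S.rep (v := v - polar Q v (e f) • e u) (by
    intro t
    have h2 := h1 (t - polar Q₀ u t • f) (by rw [polar_sub_right, polar_smul_right, hf]; simp)
    rw [S.e_sub, S.e_smul, polar_sub_right, polar_smul_right] at h2
    rw [polar_sub_left, polar_smul_left, S.polar_e]
    rw [smul_eq_mul] at h2 ⊢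
    rwa [mul_comm])
  exact ⟨x, polar Q v (e f), by rw [hx]; abel⟩

theorem omega_le_of_irr [Fintype F] (hn : 13 ≤ Fintype.card ι) (hprime : (finrank F₀ F).Prime)
    (hrat : ∀ x y, EM M (e x) (e y)) {u : ι → F₀} {v : ι → F} (hu : Q₀ u = 0) (hu0 : u ≠ 0)
    (huv : polar Q (e u) v = 0) (hT : EM M (e u) v) (hv : ¬ ∃ (x : ι → F₀) (c : F), v = e x + c • e u) :
    Cfsg.Omega F ⇑Q ≤ M := by
  obtain ⟨z, hz, huz, hvz⟩ : ∃ z, Q₀ z = 0 ∧ polar Q₀ u z = 0 ∧ polar Q v (e z) ∉ F₀ := by
    by_contra hcon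
    push Not at hcon
    exact hv (S.rep_mod hn hu hu0 hcon)
  obtain ⟨w, w0, w1, w2⟩ := S.sing_notMem ![u, z] ![u, z] (by omega)
  have w10 : polar Q₀ u w = 0 := w1 0
  have w11 : polar Q₀ z w = 0 := w1 1
  obtain ⟨z', z1, z2⟩ := S.dual ![u, z] w w2
  have z10 : polar Q₀ u z' = 0 := z1 0
  have z11 : polar Q₀ z z' = 0 := z1 1
  obtain ⟨w', x0, x1, x2⟩ := S.sing_notMem ![u, w, z, z'] ![u] (by omega)
  have x10 : polar Q₀ u w' = 0 := x1 0
  have x11 : polar Q₀ w w' = 0 := x1 1
  have x12 : polar Q₀ z w' = 0 := x1 2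
  have x13 : polar Q₀ z' w' = 0 := x1 3
  have kA := EM_comm (x := e w) (y := e z) (u := e u) (v := v) (hrat w z) hT (S.Q_e_zero w0)
    (by rw [polar_comm]; exact S.polar_e_zero w11) huv (by rw [polar_comm]; exact S.polar_e_zero w10)
    (by rw [polar_comm]; exact S.polar_e_zero huz)
  rw [S.Q_e_zero hz, zero_mul, add_zero] at kA
  set v' := polar Q (e w) v • e z - polar Q (e z) v • e w with hv'
  have kB := EM_comm (x := e w') (y := e z') (u := e u) (v := v') (hrat w' z') kA (S.Q_e_zero x0)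
    (by rw [polar_comm]; exact S.polar_e_zero x13)
    (by rw [hv', polar_sub_right, polar_smul_right, polar_smul_right, S.polar_e_zero huz, S.polar_e_zero w10]; simp)
    (by rw [polar_comm]; exact S.polar_e_zero x10) (by rw [polar_comm]; exact S.polar_e_zero z10)
  have e1 : polar Q (e w') v' = 0 := by
    rw [hv', polar_sub_right, polar_smul_right, polar_smul_right, polar_comm Q (e w') (e z),
      polar_comm Q (e w') (e w), S.polar_e_zero x12, S.polar_e_zero x11]; simp
  have e2 : polar Q (e z') v' = - polar Q (e z) v := by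
    rw [hv', polar_sub_right, polar_smul_right, polar_smul_right, polar_comm Q (e z') (e z),
      polar_comm Q (e z') (e w), S.polar_e_zero z11, S.polar_e_one z2]; simp
  rw [e1, e2] at kB
  have kC : EM M (e u) (polar Q (e z) v • e w') := EM_congr kB rfl (by simp)
  have ha : polar Q (e z) v ∉ F₀ := by rw [polar_comm]; exact hvz
  exact S.omega_le_of_full hn (S.full hn hprime hrat ha hu x0 x10 hu0 x2 kC) hu hu0

end RatS

end Cfsg.Agent.Lib.Helper29
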