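import Mathlib
import Cfsg.Agent.Lib.Helper29.OmRat2

/-!
Rational structures: totally singular lines carrying a Siegel transformation of `M` and perpendicular to a rational
singular vector are rational.
-/

set_option autoImplicit false
set_option linter.unusedSectionVars false

namespace Cfsg.Agent.Lib.Helper29

open Matrix QuadraticMap Module Cfsg.Agent.Lib.Helper15

variable {ι : Type} [Fintype ι] [DecidableEq ι] {F : Type*} [Field F] {Q : QuadraticForm F (ι → F)}
  {F₀ : Subfield F} {Q₀ : QuadraticForm F₀ (ι → F₀)} {e : (ι → F₀) → (ι → F)}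
  {M : Subgroup (Cfsg.isometryGroup F ⇑Q)}

theorem Q_comb {y z : ι → F} (hy : Q y = 0) (hz : Q z = 0) (hyz : polar Q y z = 0) (α β : F) :
    Q (α • y + β • z) = 0 := by
  rw [QuadraticMap.map_add Q, QuadraticMap.map_smul, QuadraticMap.map_smul, hy, hz, polar_smul_left,
    polar_smul_right, hyz]
  simp

theorem polar_comb {y z : ι → F} (hy : Q y = 0) (hz : Q z = 0) (hyz : polar Q y z = 0) (α β γ δ : F) :
    polar Q (α • y + β • z) (γ • y + δ • z) = 0 := by
  simp only [polar_add_left, polar_add_right, polar_smul_left, polar_smul_right, polar_self, hy, hz, hyz,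
    polar_comm Q z y]
  simp

/-- a Siegel transformation depends only on the bivector -/
theorem EM_basis {y z : ι → F} (h : EM M y z) (hy : Q y = 0) (hz : Q z = 0) (hyz : polar Q y z = 0)
    {α β γ δ : F} (hdet : α * δ - β * γ = 1) : EM M (α • y + β • z) (γ • y + δ • z) := by
  intro h1 h2
  have : eich Q (α • y + β • z) (γ • y + δ • z) h1 h2 = eich Q y z hy hyz := by
    apply iso_ext
    intro x
    rw [act_eich, act_eich, hz, Q_comb hy hz hyz]
    simp only [polar_add_left, polar_smul_left, smul_eq_mul, zero_mul, add_zero]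
    have e1 : x + (α * polar Q y x + β * polar Q z x) • (γ • y + δ • z)
        - (γ * polar Q y x + δ * polar Q z x) • (α • y + β • z)
        = x + ((α * δ - β * γ) * polar Q y x) • z - ((α * δ - β * γ) * polar Q z x) • y := by
      module
    rw [e1, hdet, one_mul, one_mul]
  rw [this]
  exact h hy hyz

namespace RatS

variable (S : RatS Q Q₀ e)
include S

theorem Q₀_zero_of {x : ι → F₀} (h : Q (e x) = 0) : Q₀ x = 0 := by
  rw [S.Q_e] at h
  exact_mod_cast h

theorem polar₀_zero_of {x y : ι → F₀} (h : polar Q (e x) (e y) = 0) : polar Q₀ x y = 0 := by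
  rw [S.polar_e] at h
  exact_mod_cast h

theorem range_one (u : ι → F₀) : Set.range (fun i => e (![u] i)) = {e u} := by
  rw [Set.range_unique]
  rfl

/-- the hypothesis that the Siegel transformations of `M` with rational centre are rational -/
def Star (_S : RatS Q Q₀ e) (M : Subgroup (Cfsg.isometryGroup F ⇑Q)) : Prop :=
  ∀ (u : ι → F₀) (v : ι → F), Q₀ u = 0 → u ≠ 0 → polar Q (e u) v = 0 → EM M (e u) v →
    ∃ (x : ι → F₀) (c : F), v = e x + c • e u

theorem line_rat [Finite F] (hn : 13 ≤ Fintype.card ι) (hrat : ∀ x y, EM M (e x) (e y)) (hstar : S.Star M)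
    {y z : ι → F} (hy : Q y = 0) (hz : Q z = 0) (hyz : polar Q y z = 0)
    (hind : ∀ α β : F, α • y + β • z = 0 → α = 0 ∧ β = 0) (hE : EM M y z)
    {u : ι → F₀} (hu : Q₀ u = 0) (hu0 : u ≠ 0) (huy : polar Q (e u) y = 0) (huz : polar Q (e u) z = 0) :
    ∃ (p₁ p₂ : ι → F₀) (α β γ δ : F), e p₁ = α • y + β • z ∧ e p₂ = γ • y + δ • z ∧ α * δ - β * γ ≠ 0 := by
  by_cases hcase : ∃ α β : F, e u = α • y + β • z
  · obtain ⟨α, β, hαβ⟩ := hcase
    obtain ⟨γ, δ, hdet⟩ : ∃ γ δ : F, α * δ - β * γ = 1 := by
      by_cases hα : α = 0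
      · have hβ : β ≠ 0 := by
          rintro rfl
          apply S.e_ne_zero hu0
          rw [hαβ, hα]; simp
        exact ⟨-β⁻¹, 0, by field_simp; ring⟩
      · exact ⟨0, α⁻¹, by field_simp; ring⟩
    have k := EM_basis hE hy hz hyz hdet
    rw [← hαβ] at k
    obtain ⟨x, c, hx⟩ := hstar u _ hu hu0 (by rw [hαβ]; exact polar_comb hy hz hyz _ _ _ _) k
    refine ⟨u, x, α, β, γ - c * α, δ - c * β, hαβ, ?_, ?_⟩
    · have : e x = γ • y + δ • z - c • e u := by rw [hx]; abel
      rw [this, hαβ]; module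
    · have : α * (δ - c * β) - β * (γ - c * α) = α * δ - β * γ := by ring
      rw [this, hdet]; exact one_ne_zero
  · push Not at hcase
    have hnot : ∀ α β : F, (α ≠ 0 ∨ β ≠ 0) →
        α • y + β • z ∉ Submodule.span F (Set.range (fun i => e (![u] i))) := by
      intro α β hαβ hmem
      rw [S.range_one] at hmem
      obtain ⟨c, hc⟩ := Submodule.mem_span_singleton.mp hmem
      have hc0 : c ≠ 0 := by
        rintro rfl
        rw [zero_smul] at hc
        obtain ⟨h1, h2⟩ := hind α β hc.symm
        rcases hαβ with h | h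
        · exact h h1
        · exact h h2
      apply hcase (c⁻¹ * α) (c⁻¹ * β)
      have : e u = c⁻¹ • (c • e u) := by rw [smul_smul, inv_mul_cancel₀ hc0, one_smul]
      rw [this, hc]; module
    -- the image of a rational vector
    have hN : ∀ (u' x : ι → F₀), Q₀ u' = 0 → u' ≠ 0 → polar Q (e u') y = 0 → polar Q (e u') z = 0 →
        polar Q₀ u' x = 0 → ∃ (r : ι → F₀) (c : F),
          polar Q y (e x) • z - polar Q z (e x) • y = e r + c • e u' := by
      intro u' x hu' hu'0 h1 h2 h3
      have k := EM_comm (x := y) (y := z) (u := e u') (v := e x) hE (hrat u' x) hy hyz (S.polar_e_zero h3)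
        (by rw [polar_comm]; exact h1) (by rw [polar_comm]; exact h2)
      rw [hz, zero_mul, add_zero] at k
      exact hstar u' _ hu' hu'0 (by
        rw [polar_sub_right, polar_smul_right, polar_smul_right, h1, h2]; simp) k
    obtain ⟨x₁, a1, a2⟩ := S.sep 1 ![u] y (by
      have := hnot 1 0 (Or.inl one_ne_zero)
      simpa using this)
    have a1' : polar Q₀ u x₁ = 0 := a1 0
    obtain ⟨x₂, b1, b2⟩ := S.sep 1 ![u] (polar Q y (e x₁) • z - polar Q z (e x₁) • y) (by
      have := hnot (- polar Q z (e x₁)) (polar Q y (e x₁)) (Or.inr a2)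
      have e1 : -polar Q z (e x₁) • y + polar Q y (e x₁) • z
          = polar Q y (e x₁) • z - polar Q z (e x₁) • y := by module
      rwa [e1] at this)
    have b1' : polar Q₀ u x₂ = 0 := b1 0
    set Y₁ := polar Q y (e x₁) with hY₁
    set Z₁ := polar Q z (e x₁) with hZ₁
    set Y₂ := polar Q y (e x₂) with hY₂
    set Z₂ := polar Q z (e x₂) with hZ₂
    have hD : Y₁ * Z₂ - Z₁ * Y₂ ≠ 0 := by
      rw [polar_sub_left, polar_smul_left, polar_smul_left, smul_eq_mul, smul_eq_mul] at b2
      exact b2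
    obtain ⟨r₁, c₁, hr₁⟩ := hN u x₁ hu hu0 huy huz a1'
    obtain ⟨r₂, c₂, hr₂⟩ := hN u x₂ hu hu0 huy huz b1'
    -- perpendicularity to the line
    have hsys : ∀ t : ι → F, polar Q (Y₁ • z - Z₁ • y) t = 0 → polar Q (Y₂ • z - Z₂ • y) t = 0 →
        polar Q y t = 0 ∧ polar Q z t = 0 := by
      intro t h1 h2
      rw [polar_sub_left, polar_smul_left, polar_smul_left, smul_eq_mul, smul_eq_mul] at h1 h2
      constructor
      · have : (Y₁ * Z₂ - Z₁ * Y₂) * polar Q y t = 0 := by linear_combination Y₂ * h1 - Y₁ * h2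
        exact (mul_eq_zero.mp this).resolve_left hD
      · have : (Y₁ * Z₂ - Z₁ * Y₂) * polar Q z t = 0 := by linear_combination Z₂ * h1 - Z₁ * h2
        exact (mul_eq_zero.mp this).resolve_left hD
    obtain ⟨u', d0, d1, d2⟩ := S.sing_notMem ![r₁, r₂, u] ![r₁, r₂, u] (by omega)
    have d10 : polar Q₀ r₁ u' = 0 := d1 0
    have d11 : polar Q₀ r₂ u' = 0 := d1 1
    have d12 : polar Q₀ u u' = 0 := d1 2
    have hu'0 : u' ≠ 0 := by
      rintro rfl
      apply d2
      rw [S.e_zero]; exact Submodule.zero_mem _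
    obtain ⟨f', f1, f2⟩ := S.dual ![r₁, r₂, u] u' d2
    have f10 : polar Q₀ r₁ f' = 0 := f1 0
    have f11 : polar Q₀ r₂ f' = 0 := f1 1
    have f12 : polar Q₀ u f' = 0 := f1 2
    obtain ⟨g1, g2⟩ := hsys (e u') (by
        rw [hr₁, polar_add_left, polar_smul_left, S.polar_e_zero d10, S.polar_e_zero d12]; simp) (by
        rw [hr₂, polar_add_left, polar_smul_left, S.polar_e_zero d11, S.polar_e_zero d12]; simp)
    obtain ⟨g3, g4⟩ := hsys (e f') (by
        rw [hr₁, polar_add_left, polar_smul_left, S.polar_e_zero f10, S.polar_e_zero f12]; simp) (by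
        rw [hr₂, polar_add_left, polar_smul_left, S.polar_e_zero f11, S.polar_e_zero f12]; simp)
    have hfin : ∀ (x r : ι → F₀) (c : F), polar Q₀ u x = 0 →
        polar Q y (e x) • z - polar Q z (e x) • y = e r + c • e u →
        ∃ p : ι → F₀, e p = polar Q y (e x) • z - polar Q z (e x) • y := by
      intro x r c hux hr
      obtain ⟨r', c', hr'⟩ := hN u' (x - polar Q₀ u' x • f') d0 hu'0 (by rw [polar_comm]; exact g1)
        (by rw [polar_comm]; exact g2) (by rw [polar_sub_right, polar_smul_right, f2]; simp)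
      have e1 : polar Q y (e (x - polar Q₀ u' x • f')) = polar Q y (e x) := by
        rw [S.e_sub, S.e_smul, polar_sub_right, polar_smul_right, g3]; simp
      have e2 : polar Q z (e (x - polar Q₀ u' x • f')) = polar Q z (e x) := by
        rw [S.e_sub, S.e_smul, polar_sub_right, polar_smul_right, g4]; simp
      rw [e1, e2] at hr'
      have hc' : c' ∈ F₀ := by
        have h1 : e (r - r') = c' • e u' - c • e u := by
          rw [S.e_sub]
          have : e r + c • e u = e r' + c' • e u' := by rw [← hr, ← hr']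
          linear_combination (exp := 1) this
        have h2 : polar Q (e (r - r')) (e f') = c' := by
          rw [h1, polar_sub_left, polar_smul_left, polar_smul_left, S.polar_e_one f2, S.polar_e_zero f12]
          simp
        rw [← h2]
        exact S.polar_e_mem _ _
      refine ⟨r' + (⟨c', hc'⟩ : F₀) • u', ?_⟩
      rw [S.e_add, S.e_smul, hr']
    obtain ⟨p₁, hp₁⟩ := hfin x₁ r₁ c₁ a1' hr₁
    obtain ⟨p₂, hp₂⟩ := hfin x₂ r₂ c₂ b1' hr₂
    refine ⟨p₁, p₂, -Z₁, Y₁, -Z₂, Y₂, ?_, ?_, ?_⟩
    · rw [hp₁]; module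
    · rw [hp₂]; module
    · intro h
      apply hD
      linear_combination h

end RatS

end Cfsg.Agent.Lib.Helper29
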