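import Mathlib
import Cfsg.Agent.Lib.Helper29.OmRat3

/-!
Rational structures: an element of `M` carrying one rational totally singular line to a line containing a rational
vector preserves the rational structure up to a scalar.
-/

set_option autoImplicit false
set_option linter.unusedSectionVars false

namespace Cfsg.Agent.Lib.Helper29

open Matrix QuadraticMap Module Cfsg.Agent.Lib.Helper15

variable {ι : Type} [Fintype ι] [DecidableEq ι] {F : Type*} [Field F] {Q : QuadraticForm F (ι → F)}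
  {F₀ : Subfield F} {Q₀ : QuadraticForm F₀ (ι → F₀)} {e : (ι → F₀) → (ι → F)}
  {M : Subgroup (Cfsg.isometryGroup F ⇑Q)}

theorem act_eq_zero {g : Cfsg.isometryGroup F ⇑Q} {x : ι → F} (h : act Q g x = 0) : x = 0 := by
  have := act_inv_act g x
  rw [h] at this
  rw [← this]
  simp [act]

namespace RatS

variable (S : RatS Q Q₀ e)
include S

theorem indep_of_dual {a b d d' : ι → F₀} (h1 : polar Q₀ a d = 1) (h2 : polar Q₀ b d = 0)
    (h3 : polar Q₀ a d' = 0) (h4 : polar Q₀ b d' = 1) (α β : F) (h : α • e a + β • e b = 0) :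
    α = 0 ∧ β = 0 := by
  constructor
  · have := congrArg (fun v => polar Q v (e d)) h
    simp only [polar_add_left, polar_smul_left, S.polar_e_one h1, S.polar_e_zero h2] at this
    simpa using this
  · have := congrArg (fun v => polar Q v (e d')) h
    simp only [polar_add_left, polar_smul_left, S.polar_e_zero h3, S.polar_e_one h4] at this
    simpa using this

theorem indep_act {g : Cfsg.isometryGroup F ⇑Q} {a b : ι → F}
    (h : ∀ α β : F, α • a + β • b = 0 → α = 0 ∧ β = 0) (α β : F)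
    (h0 : α • act Q g a + β • act Q g b = 0) : α = 0 ∧ β = 0 := by
  apply h
  apply act_eq_zero (g := g)
  rw [act_add, act_smul, act_smul, h0]

/-- one step of the propagation -/
theorem line_step [Finite F] (hn : 13 ≤ Fintype.card ι) (hrat : ∀ x y, EM M (e x) (e y)) (hstar : S.Star M)
    {g : Cfsg.isometryGroup F ⇑Q} (hg : g ∈ M) {a b p : ι → F₀} (ha : Q₀ a = 0) (hb : Q₀ b = 0)
    (hab : polar Q₀ a b = 0) (hp : p ≠ 0) {α β : F} (hpe : e p = α • act Q g (e a) + β • act Q g (e b))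
    {a' b' : ι → F₀} (ha' : Q₀ a' = 0) (hb' : Q₀ b' = 0) (hab' : polar Q₀ a' b' = 0)
    (hind : ∀ α β : F, α • e a' + β • e b' = 0 → α = 0 ∧ β = 0)
    (h1 : polar Q₀ a a' = 0) (h2 : polar Q₀ a b' = 0) (h3 : polar Q₀ b a' = 0) (h4 : polar Q₀ b b' = 0) :
    ∃ (p₁ p₂ : ι → F₀) (α β γ δ : F), e p₁ = α • act Q g (e a') + β • act Q g (e b') ∧
      e p₂ = γ • act Q g (e a') + δ • act Q g (e b') ∧ α * δ - β * γ ≠ 0 := by
  have hQp : Q₀ p = 0 := by
    apply S.Q₀_zero_of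
    rw [hpe]
    exact Q_comb (by rw [Q_act]; exact S.Q_e_zero ha) (by rw [Q_act]; exact S.Q_e_zero hb)
      (by rw [polar_act]; exact S.polar_e_zero hab) _ _
  refine S.line_rat hn hrat hstar (by rw [Q_act]; exact S.Q_e_zero ha') (by rw [Q_act]; exact S.Q_e_zero hb')
    (by rw [polar_act]; exact S.polar_e_zero hab') (S.indep_act hind) (EM_act (hrat a' b') hg) hQp hp ?_ ?_
  · rw [hpe, polar_add_left, polar_smul_left, polar_smul_left, polar_act, polar_act, S.polar_e_zero h1,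
      S.polar_e_zero h3]; simp
  · rw [hpe, polar_add_left, polar_smul_left, polar_smul_left, polar_act, polar_act, S.polar_e_zero h2,
      S.polar_e_zero h4]; simp

theorem all_lines [Finite F] (hn : 13 ≤ Fintype.card ι) (hrat : ∀ x y, EM M (e x) (e y)) (hstar : S.Star M)
    {g : Cfsg.isometryGroup F ⇑Q} (hg : g ∈ M) {a b p : ι → F₀} (ha : Q₀ a = 0) (hb : Q₀ b = 0)
    (hab : polar Q₀ a b = 0) (hp : p ≠ 0) {α β : F} (hpe : e p = α • act Q g (e a) + β • act Q g (e b))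
    {a' b' : ι → F₀} (ha' : Q₀ a' = 0) (hb' : Q₀ b' = 0) (hab' : polar Q₀ a' b' = 0)
    (hind : ∀ α β : F, α • e a' + β • e b' = 0 → α = 0 ∧ β = 0) :
    ∃ (p₁ p₂ : ι → F₀) (α β γ δ : F), e p₁ = α • act Q g (e a') + β • act Q g (e b') ∧
      e p₂ = γ • act Q g (e a') + δ • act Q g (e b') ∧ α * δ - β * γ ≠ 0 := by
  obtain ⟨a₂, c0, c1, c2⟩ := S.sing_notMem ![a, b, a', b'] (Fin.elim0 : Fin 0 → (ι → F₀)) (by omega)
  have c10 : polar Q₀ a a₂ = 0 := c1 0
  have c11 : polar Q₀ b a₂ = 0 := c1 1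
  have c12 : polar Q₀ a' a₂ = 0 := c1 2
  have c13 : polar Q₀ b' a₂ = 0 := c1 3
  have ha₂0 : a₂ ≠ 0 := by
    rintro rfl
    apply c2
    rw [S.e_zero]; exact Submodule.zero_mem _
  obtain ⟨d, hd⟩ := S.dual0 ha₂0
  obtain ⟨b₂, d0, d1, d2⟩ := S.sing_notMem ![a, b, a', b', a₂, d] ![a₂] (by omega)
  have d10 : polar Q₀ a b₂ = 0 := d1 0
  have d11 : polar Q₀ b b₂ = 0 := d1 1
  have d12 : polar Q₀ a' b₂ = 0 := d1 2
  have d13 : polar Q₀ b' b₂ = 0 := d1 3
  have d14 : polar Q₀ a₂ b₂ = 0 := d1 4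
  have d15 : polar Q₀ d b₂ = 0 := d1 5
  obtain ⟨d', f1, f2⟩ := S.dual ![a₂] b₂ d2
  have f10 : polar Q₀ a₂ d' = 0 := f1 0
  have hind₂ := S.indep_of_dual hd (by rw [polar_comm]; exact d15) f10 f2
  obtain ⟨p₁, p₂, α₁, β₁, γ₁, δ₁, k1, k2, k3⟩ := S.line_step hn hrat hstar hg ha hb hab hp hpe c0 d0 d14 hind₂
    c10 d10 c11 d11
  have hp₁ : p₁ ≠ 0 := by
    rintro rfl
    rw [S.e_zero] at k1
    obtain ⟨h1, h2⟩ := S.indep_act hind₂ _ _ k1.symm
    apply k3
    rw [h1, h2]; ring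
  exact S.line_step hn hrat hstar hg c0 d0 d14 hp₁ k1 ha' hb' hab' hind (by rw [polar_comm]; exact c12)
    (by rw [polar_comm]; exact c13) (by rw [polar_comm]; exact d12) (by rw [polar_comm]; exact d13)

/-- rational singular points go to rational points -/
theorem point_rat [Finite F] (hn : 13 ≤ Fintype.card ι) (hrat : ∀ x y, EM M (e x) (e y)) (hstar : S.Star M)
    {g : Cfsg.isometryGroup F ⇑Q} (hg : g ∈ M) {a b p : ι → F₀} (ha : Q₀ a = 0) (hb : Q₀ b = 0)
    (hab : polar Q₀ a b = 0) (hp : p ≠ 0) {α β : F} (hpe : e p = α • act Q g (e a) + β • act Q g (e b))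
    {u : ι → F₀} (hu : Q₀ u = 0) (hu0 : u ≠ 0) : ∃ (c : F) (r : ι → F₀), act Q g (e u) = c • e r := by
  obtain ⟨du, hdu⟩ := S.dual0 hu0
  obtain ⟨v₁, c0, c1, c2⟩ := S.sing_notMem ![u, du] ![u] (by omega)
  have c10 : polar Q₀ u v₁ = 0 := c1 0
  have c11 : polar Q₀ du v₁ = 0 := c1 1
  obtain ⟨d₀, f1, f2⟩ := S.dual ![u] v₁ c2
  have f10 : polar Q₀ u d₀ = 0 := f1 0
  obtain ⟨v₂, d0, d1, d2⟩ := S.sing_notMem ![u, du, v₁, d₀] ![u] (by omega)
  have d10 : polar Q₀ u v₂ = 0 := d1 0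
  have d11 : polar Q₀ du v₂ = 0 := d1 1
  have d12 : polar Q₀ v₁ v₂ = 0 := d1 2
  have d13 : polar Q₀ d₀ v₂ = 0 := d1 3
  obtain ⟨d₂, h1, h2⟩ := S.dual ![u] v₂ d2
  have h10 : polar Q₀ u d₂ = 0 := h1 0
  have hind₁ := S.indep_of_dual hdu (by rw [polar_comm]; exact c11) f10 f2
  have hind₂ := S.indep_of_dual hdu (by rw [polar_comm]; exact d11) h10 h2
  obtain ⟨p₁, p₂, α₁, β₁, γ₁, δ₁, k1, k2, k3⟩ := S.all_lines hn hrat hstar hg ha hb hab hp hpe hu c0 c10 hind₁
  obtain ⟨p₃, p₄, α₂, β₂, γ₂, δ₂, l1, l2, l3⟩ := S.all_lines hn hrat hstar hg ha hb hab hp hpe hu d0 d10 hind₂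
  set y := act Q g (e u) with hy
  set z₁ := act Q g (e v₁) with hz₁
  set z₂ := act Q g (e v₂) with hz₂
  have hyd : polar Q y (act Q g (e d₀)) = 0 := by rw [hy, polar_act]; exact S.polar_e_zero f10
  have hz₂d : polar Q z₂ (act Q g (e d₀)) = 0 := by
    rw [hz₂, polar_act, polar_comm]; exact S.polar_e_zero d13
  have hz₁d : polar Q z₁ (act Q g (e d₀)) = 1 := by rw [hz₁, polar_act]; exact S.polar_e_one f2
  obtain ⟨t, t1, t2⟩ := S.sep 2 ![p₃, p₄] z₁ (by
    intro hmem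
    have := perp_span_range (Q := Q) (r := fun i => e (![p₃, p₄] i)) (z := act Q g (e d₀)) (by
      intro i
      fin_cases i
      · show polar Q (e p₃) _ = 0
        rw [l1, polar_add_left, polar_smul_left, polar_smul_left, hyd, hz₂d]; simp
      · show polar Q (e p₄) _ = 0
        rw [l2, polar_add_left, polar_smul_left, polar_smul_left, hyd, hz₂d]; simp) _ hmem
    rw [hz₁d] at this
    exact one_ne_zero this)
  have t10 : polar Q₀ p₃ t = 0 := t1 0
  have t11 : polar Q₀ p₄ t = 0 := t1 1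
  have hyt : polar Q y (e t) = 0 := by
    have q1 := S.polar_e_zero t10
    have q2 := S.polar_e_zero t11
    rw [l1, polar_add_left, polar_smul_left, polar_smul_left, smul_eq_mul, smul_eq_mul] at q1
    rw [l2, polar_add_left, polar_smul_left, polar_smul_left, smul_eq_mul, smul_eq_mul] at q2
    have : (α₂ * δ₂ - β₂ * γ₂) * polar Q y (e t) = 0 := by linear_combination δ₂ * q1 - β₂ * q2
    exact (mul_eq_zero.mp this).resolve_left l3
  set m₁ : F₀ := polar Q₀ p₁ t with hm₁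
  set m₂ : F₀ := polar Q₀ p₂ t with hm₂
  have q1 : (m₁ : F) = β₁ * polar Q z₁ (e t) := by
    rw [hm₁, ← S.polar_e, k1, polar_add_left, polar_smul_left, polar_smul_left, hyt]; simp
  have q2 : (m₂ : F) = δ₁ * polar Q z₁ (e t) := by
    rw [hm₂, ← S.polar_e, k2, polar_add_left, polar_smul_left, polar_smul_left, hyt]; simp
  refine ⟨((α₁ * δ₁ - β₁ * γ₁) * polar Q z₁ (e t))⁻¹, m₂ • p₁ - m₁ • p₂, ?_⟩
  rw [S.e_sub, S.e_smul, S.e_smul, k1, k2, q1, q2]
  have e1 : (δ₁ * polar Q z₁ (e t)) • (α₁ • y + β₁ • z₁) - (β₁ * polar Q z₁ (e t)) • (γ₁ • y + δ₁ • z₁)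
      = ((α₁ * δ₁ - β₁ * γ₁) * polar Q z₁ (e t)) • y := by module
  rw [e1, smul_smul, inv_mul_cancel₀ (mul_ne_zero k3 t2), one_smul]

/-- two perpendicular rational singular vectors are scaled in the same way -/
theorem pair_scal {g : Cfsg.isometryGroup F ⇑Q} {u u' r r' r'' d₀ d₀' : ι → F₀} {c c' c'' : F}
    (h1 : polar Q₀ u d₀ = 1) (h2 : polar Q₀ u' d₀ = 0) (h3 : polar Q₀ u d₀' = 0) (h4 : polar Q₀ u' d₀' = 1)
    (hr : act Q g (e u) = c • e r) (hr' : act Q g (e u') = c' • e r')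
    (hr'' : act Q g (e (u + u')) = c'' • e r'') : ∃ r₂ : ι → F₀, act Q g (e u') = c • e r₂ := by
  have a1 : c * polar Q (e r) (act Q g (e d₀)) = 1 := by
    rw [← smul_eq_mul, ← polar_smul_left, ← hr, polar_act]; exact S.polar_e_one h1
  have a2 : c' * polar Q (e r') (act Q g (e d₀)) = 0 := by
    rw [← smul_eq_mul, ← polar_smul_left, ← hr', polar_act]; exact S.polar_e_zero h2
  have a3 : c * polar Q (e r) (act Q g (e d₀')) = 0 := by
    rw [← smul_eq_mul, ← polar_smul_left, ← hr, polar_act]; exact S.polar_e_zero h3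
  have a4 : c' * polar Q (e r') (act Q g (e d₀')) = 1 := by
    rw [← smul_eq_mul, ← polar_smul_left, ← hr', polar_act]; exact S.polar_e_one h4
  have hc : c ≠ 0 := by rintro rfl; simp at a1
  have hc' : c' ≠ 0 := by rintro rfl; simp at a4
  have b2 := (mul_eq_zero.mp a2).resolve_left hc'
  have b3 := (mul_eq_zero.mp a3).resolve_left hc
  obtain ⟨p, p1, p2⟩ := S.dual ![r'] r (by
    intro hmem
    have := perp_span_range (Q := Q) (r := fun i => e (![r'] i)) (z := act Q g (e d₀)) (by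
      intro i
      fin_cases i
      exact b2) _ hmem
    rw [this] at a1
    simp at a1)
  have p10 : polar Q₀ r' p = 0 := p1 0
  obtain ⟨p', p1', p2'⟩ := S.dual ![r] r' (by
    intro hmem
    have := perp_span_range (Q := Q) (r := fun i => e (![r] i)) (z := act Q g (e d₀')) (by
      intro i
      fin_cases i
      exact b3) _ hmem
    rw [this] at a4
    simp at a4)
  have p10' : polar Q₀ r p' = 0 := p1' 0
  have key : c • e r + c' • e r' = c'' • e r'' := by rw [← hr, ← hr', ← hr'', S.e_add, act_add]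
  have k1 : c = c'' * ((polar Q₀ r'' p : F₀) : F) := by
    have := congrArg (fun v => polar Q v (e p)) key
    simp only [polar_add_left, polar_smul_left, S.polar_e_one p2, S.polar_e_zero p10, S.polar_e r'' p] at this
    simpa using this
  have k2 : c' = c'' * ((polar Q₀ r'' p' : F₀) : F) := by
    have := congrArg (fun v => polar Q v (e p')) key
    simp only [polar_add_left, polar_smul_left, S.polar_e_one p2', S.polar_e_zero p10', S.polar_e r'' p'] at this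
    simpa using this
  have hne : ((polar Q₀ r'' p : F₀) : F) ≠ 0 := by
    intro h0
    rw [h0, mul_zero] at k1
    exact hc k1
  refine ⟨(polar Q₀ r'' p' / polar Q₀ r'' p) • r', ?_⟩
  rw [hr', S.e_smul, smul_smul]
  congr 1
  push_cast
  rw [k2, k1]
  field_simp

theorem rational_of_line [Finite F] (hn : 13 ≤ Fintype.card ι) (hrat : ∀ x y, EM M (e x) (e y))
    (hstar : S.Star M) {g : Cfsg.isometryGroup F ⇑Q} (hg : g ∈ M) {a b p : ι → F₀} (ha : Q₀ a = 0)
    (hb : Q₀ b = 0) (hab : polar Q₀ a b = 0) (hp : p ≠ 0) {α β : F}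
    (hpe : e p = α • act Q g (e a) + β • act Q g (e b)) :
    ∃ c : F, c ≠ 0 ∧ ∀ x, ∃ x', act Q g (e x) = c • e x' := by
  have hpt : ∀ u : ι → F₀, Q₀ u = 0 → ∃ (c : F) (r : ι → F₀), act Q g (e u) = c • e r := by
    intro u hu
    by_cases hu0 : u = 0
    · exact ⟨0, 0, by rw [hu0, S.e_zero]; simp [act]⟩
    · exact S.point_rat hn hrat hstar hg ha hb hab hp hpe hu hu0
  obtain ⟨u₀, c0, -, c2⟩ := S.sing_notMem (Fin.elim0 : Fin 0 → (ι → F₀)) (Fin.elim0 : Fin 0 → (ι → F₀)) (by omega)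
  have hu₀0 : u₀ ≠ 0 := by
    rintro rfl
    apply c2
    rw [S.e_zero]; exact Submodule.zero_mem _
  obtain ⟨c, r₀, hr₀⟩ := hpt u₀ c0
  have hc : c ≠ 0 := by
    rintro rfl
    rw [zero_smul] at hr₀
    exact S.e_ne_zero hu₀0 (act_eq_zero hr₀)
  have hsing : ∀ u : ι → F₀, Q₀ u = 0 → ∃ r : ι → F₀, act Q g (e u) = c • e r := by
    intro u hu
    by_cases hu0 : u = 0
    · exact ⟨0, by rw [hu0, S.e_zero]; simp [act]⟩
    obtain ⟨da, hda⟩ := S.dual0 hu₀0
    obtain ⟨db, hdb⟩ := S.dual0 hu0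
    obtain ⟨u₁, d0, d1, d2⟩ := S.sing_notMem ![u₀, u, da, db] ![u₀, u] (by omega)
    have d10 : polar Q₀ u₀ u₁ = 0 := d1 0
    have d11 : polar Q₀ u u₁ = 0 := d1 1
    have d12 : polar Q₀ da u₁ = 0 := d1 2
    have d13 : polar Q₀ db u₁ = 0 := d1 3
    obtain ⟨dc, f1, f2⟩ := S.dual ![u₀, u] u₁ d2
    have f10 : polar Q₀ u₀ dc = 0 := f1 0
    have f11 : polar Q₀ u dc = 0 := f1 1
    obtain ⟨c₁, r₁, hr₁⟩ := hpt u₁ d0
    obtain ⟨c₂, r₂, hr₂⟩ := hpt (u₀ + u₁) (by rw [QuadraticMap.map_add Q₀, c0, d0, d10]; simp)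
    obtain ⟨r₁', hr₁'⟩ := S.pair_scal hda (by rw [polar_comm]; exact d12) f10 f2 hr₀ hr₁ hr₂
    obtain ⟨c₃, r₃, hr₃⟩ := hpt u hu
    obtain ⟨c₄, r₄, hr₄⟩ := hpt (u₁ + u) (by
      rw [QuadraticMap.map_add Q₀, hu, d0, polar_comm, d11]; simp)
    exact S.pair_scal f2 f11 (by rw [polar_comm]; exact d13) hdb hr₁' hr₃ hr₄
  refine ⟨c, hc, fun x => ?_⟩
  obtain ⟨t₁, t₂, p1, p2, -, -, p5⟩ := sing_decomp S.nd₀ (by omega) (u := 0) (t := x) (by simp) (by simp)
  obtain ⟨r₁, hr₁⟩ := hsing t₁ p1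
  obtain ⟨r₂, hr₂⟩ := hsing t₂ p2
  exact ⟨r₁ + r₂, by rw [p5, S.e_add, act_add, hr₁, hr₂, S.e_add, smul_add]⟩

end RatS

end Cfsg.Agent.Lib.Helper29
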