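import Mathlib
import Cfsg.Agent.S0058

/-!
A finite group with a noncyclic abelian `p`-subgroup `E` such that `x a x⁻¹ ∈ E` with
`1 ≠ a ∈ E` forces `x ∈ E` is equal to `E` (Burnside transfer + generation by centralisers).
-/

set_option autoImplicit false

namespace Cfsg.Agent.Lib.Helper29

open Subgroup

theorem tame_top {G : Type*} [Group G] [Finite G] (p : ℕ) [Fact p.Prime] (E : Subgroup G)
    (hp : IsPGroup p E) [IsMulCommutative E] (hE : ¬ IsCyclic E)
    (hTI : ∀ x a : G, a ∈ E → a ≠ 1 → x * a * x⁻¹ ∈ E → x ∈ E) : E = ⊤ := by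
  have hEne : E ≠ ⊥ := by
    intro h
    apply hE
    rw [h]
    infer_instance
  obtain ⟨⟨a, ha⟩, ha1'⟩ := Subgroup.ne_bot_iff_exists_ne_one.mp hEne
  have ha1 : a ≠ 1 := fun h => ha1' (Subtype.ext h)
  obtain ⟨P, hEP⟩ := hp.exists_le_sylow
  have hPE : (P : Subgroup G) = E := by
    by_contra hne
    have hlt : E.subgroupOf P < ⊤ := by
      rw [lt_top_iff_ne_top]
      intro h
      rw [Subgroup.subgroupOf_eq_top] at h
      exact hne (le_antisymm h hEP)
    have : Group.IsNilpotent (P : Subgroup G) := P.2.isNilpotent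
    have hnc := Group.normalizerCondition_of_isNilpotent (G := (P : Subgroup G)) _ hlt
    obtain ⟨x, hx, hxE⟩ := SetLike.exists_of_lt hnc
    apply hxE
    rw [Subgroup.mem_subgroupOf]
    apply hTI x.1 a ha ha1
    have := (Subgroup.mem_normalizer_iff.mp hx ⟨a, hEP ha⟩).mp (by rw [Subgroup.mem_subgroupOf]; exact ha)
    rw [Subgroup.mem_subgroupOf] at this
    simpa using this
  have hN : normalizer (P : Set G) ≤ centralizer (P : Set G) := by
    intro x hx
    have hxE : x ∈ E := by
      apply hTI x a ha ha1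
      have := (Subgroup.mem_normalizer_iff.mp hx a).mp (hEP ha)
      rw [← hPE]; exact this
    rw [Subgroup.mem_centralizer_iff]
    intro y hy
    have hyE : y ∈ E := by rw [← hPE]; exact hy
    have := (IsMulCommutative.is_comm (M := E)).comm ⟨y, hyE⟩ ⟨x, hxE⟩
    exact congrArg Subtype.val this
  have hc := MonoidHom.ker_transferSylow_isComplement' P hN
  have hnd := MonoidHom.not_dvd_card_ker_transferSylow P hN
  set K := (MonoidHom.transferSylow P hN).ker with hK
  have hcop : (Nat.card E).Coprime (Nat.card K) := by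
    obtain ⟨k, hk⟩ := IsPGroup.iff_card.mp hp
    rw [hk]
    exact Nat.Coprime.pow_left _ ((Nat.Prime.coprime_iff_not_dvd Fact.out).mpr hnd)
  have hgen := Cfsg.Agent.S0058.result E K hE
    (by
      intro x _
      have : K.Normal := by rw [hK]; infer_instance
      rw [Subgroup.normalizer_eq_top]
      exact Subgroup.mem_top x) hcop
  have hKbot : K = ⊥ := by
    rw [← hgen, eq_bot_iff]
    apply iSup₂_le
    rintro b ⟨hb, hb1⟩ x hx
    obtain ⟨hxK, hxC⟩ := Subgroup.mem_inf.mp hx
    have hcomm : b * x = x * b := (Subgroup.mem_centralizer_iff.mp hxC) b rfl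
    have hxE : x ∈ E := by
      apply hTI x b hb hb1
      rw [← hcomm, mul_inv_cancel_right]
      exact hb
    have hdis := hc.disjoint
    rw [Subgroup.disjoint_def] at hdis
    rw [Subgroup.mem_bot]
    exact hdis hxK (hEP hxE)
  rw [hKbot, Subgroup.isComplement'_bot_left] at hc
  rw [← hPE, hc]

/-- Relative version, for subgroups `E ≤ L` of a group. -/
theorem tame {G : Type*} [Group G] [Finite G] (p : ℕ) [Fact p.Prime] (E L : Subgroup G)
    (hEL : E ≤ L)
    (hp : ∀ a ∈ E, a ^ p = 1) (hcomm : ∀ a ∈ E, ∀ b ∈ E, a * b = b * a)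
    (hE : ∃ a ∈ E, ∃ b ∈ E, a ≠ 1 ∧ b ∉ Subgroup.zpowers a)
    (hTI : ∀ x ∈ L, ∀ a ∈ E, a ≠ 1 → x * a * x⁻¹ ∈ E → x ∈ E) : L ≤ E := by
  have hpg : IsPGroup p (E.subgroupOf L) := by
    rintro ⟨⟨a, haL⟩, ha⟩
    refine ⟨1, ?_⟩
    rw [Subgroup.mem_subgroupOf] at ha
    apply Subtype.ext; apply Subtype.ext
    simpa using hp a ha
  have hc : IsMulCommutative (E.subgroupOf L) := by
    refine ⟨⟨?_⟩⟩
    rintro ⟨⟨a, haL⟩, ha⟩ ⟨⟨b, hbL⟩, hb⟩
    rw [Subgroup.mem_subgroupOf] at ha hb
    apply Subtype.ext; apply Subtype.ext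
    exact hcomm a ha b hb
  have hnc : ¬ IsCyclic (E.subgroupOf L) := by
    intro hcyc
    obtain ⟨a, ha, b, hb, ha1, hba⟩ := hE
    have hexp : Monoid.exponent (E.subgroupOf L) ∣ p := by
      apply Monoid.exponent_dvd_of_forall_pow_eq_one
      rintro ⟨⟨a, haL⟩, ha⟩
      rw [Subgroup.mem_subgroupOf] at ha
      apply Subtype.ext; apply Subtype.ext
      simpa using hp a ha
    rw [IsCyclic.exponent_eq_card] at hexp
    let a' : E.subgroupOf L := ⟨⟨a, hEL ha⟩, by rw [Subgroup.mem_subgroupOf]; exact ha⟩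
    let b' : E.subgroupOf L := ⟨⟨b, hEL hb⟩, by rw [Subgroup.mem_subgroupOf]; exact hb⟩
    have ha'1 : a' ≠ 1 := by
      intro h
      apply ha1
      exact congrArg (fun z : E.subgroupOf L => (z.1.1 : G)) h
    have hord : orderOf a' = p := by
      apply orderOf_eq_prime
      · apply Subtype.ext; apply Subtype.ext
        simpa using hp a ha
      · exact ha'1
    have hle : Nat.card (E.subgroupOf L) ≤ p := Nat.le_of_dvd (Fact.out : p.Prime).pos hexp
    have htop : Subgroup.zpowers a' = ⊤ := by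
      apply Subgroup.eq_top_of_le_card
      rw [Nat.card_zpowers, hord]
      exact hle
    have hb' : b' ∈ Subgroup.zpowers a' := by rw [htop]; exact Subgroup.mem_top _
    obtain ⟨k, hk⟩ := Subgroup.mem_zpowers_iff.mp hb'
    apply hba
    rw [Subgroup.mem_zpowers_iff]
    refine ⟨k, ?_⟩
    have := congrArg (fun z : E.subgroupOf L => (z.1.1 : G)) hk
    simpa using this
  have := tame_top p (E.subgroupOf L) hpg hnc (by
    rintro ⟨x, hx⟩ ⟨a, haL⟩ ha ha1 hxa
    rw [Subgroup.mem_subgroupOf] at ha hxa ⊢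
    refine hTI x hx a ha ?_ ?_
    · intro h; apply ha1; exact Subtype.ext h
    · simpa using hxa)
  rwa [Subgroup.subgroupOf_eq_top] at this

end Cfsg.Agent.Lib.Helper29
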