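import Mathlib
import Cfsg.Agent.Lib.Helper29.OmRat4
import Cfsg.Agent.Lib.Helper29.Tame

/-!
Rational structures: auxiliary results for the final step (residual subgroups, scalars, separating functionals).
-/

set_option autoImplicit false
set_option linter.unusedSectionVars false

namespace Cfsg.Agent.Lib.Helper29

open Matrix QuadraticMap Module Cfsg.Agent.Lib.Helper15

variable {ι : Type} [Fintype ι] [DecidableEq ι] {F : Type*} [Field F] {Q : QuadraticForm F (ι → F)}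
  {F₀ : Subfield F} {Q₀ : QuadraticForm F₀ (ι → F₀)} {e : (ι → F₀) → (ι → F)}
  {M : Subgroup (Cfsg.isometryGroup F ⇑Q)}

theorem act_sub' (g : Cfsg.isometryGroup F ⇑Q) (x y : ι → F) : act Q g (x - y) = act Q g x - act Q g y :=
  Matrix.mulVec_sub _ _ _

/-- the elements of `M` with residual space in `U` -/
def ores (M : Subgroup (Cfsg.isometryGroup F ⇑Q)) (U : Submodule F (ι → F)) :
    Subgroup (Cfsg.isometryGroup F ⇑Q) where
  carrier := {x | x ∈ M ∧ ∀ y, act Q x y - y ∈ U}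
  mul_mem' := by
    rintro a b ⟨ha, ha'⟩ ⟨hb, hb'⟩
    refine ⟨M.mul_mem ha hb, fun y => ?_⟩
    have : act Q (a * b) y - y = (act Q a (act Q b y) - act Q b y) + (act Q b y - y) := by
      rw [act_mul]; abel
    rw [this]
    exact U.add_mem (ha' _) (hb' _)
  one_mem' := ⟨M.one_mem, fun y => by rw [act_one, sub_self]; exact U.zero_mem⟩
  inv_mem' := by
    rintro a ⟨ha, ha'⟩
    refine ⟨M.inv_mem ha, fun y => ?_⟩
    have : act Q a⁻¹ y - y = -(act Q a (act Q a⁻¹ y) - act Q a⁻¹ y) := by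
      rw [act_act_inv]; abel
    rw [this]
    exact U.neg_mem (ha' _)

theorem act_pow_of_fix (a : Cfsg.isometryGroup F ⇑Q) (h : ∀ y, act Q a (act Q a y - y) = act Q a y - y)
    (k : ℕ) (y : ι → F) : act Q (a ^ k) y = y + (k : F) • (act Q a y - y) := by
  induction k generalizing y with
  | zero => simp [act_one]
  | succ k ih =>
    rw [pow_succ, act_mul, ih]
    have h1 := h y
    rw [act_sub'] at h1
    rw [h1]
    push_cast
    module

theorem act_zpowers_fix {a b : Cfsg.isometryGroup F ⇑Q} {x : ι → F} (ha : act Q a x = x)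
    (hb : b ∈ Subgroup.zpowers a) : act Q b x = x := by
  let St : Subgroup (Cfsg.isometryGroup F ⇑Q) :=
    { carrier := {h | act Q h x = x}
      mul_mem' := by
        intro g h hg hh
        show act Q (g * h) x = x
        rw [act_mul, hh, hg]
      one_mem' := act_one x
      inv_mem' := by
        intro g hg
        show act Q g⁻¹ x = x
        have := act_inv_act g x
        rwa [hg] at this }
  have : Subgroup.zpowers a ≤ St := by
    rw [Subgroup.zpowers_le]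
    exact ha
  exact this hb

/-- a scalar with rational square is rational unless the extension is quadratic -/
theorem mem_or_finrank_le (hprime : (finrank F₀ F).Prime) {c : F} (hc : c * c ∈ F₀) :
    c ∈ F₀ ∨ finrank F₀ F ≤ 2 := by
  let R : Subalgebra F₀ F :=
    { carrier := {x | ∃ a b : F, a ∈ F₀ ∧ b ∈ F₀ ∧ x = a + b * c}
      mul_mem' := by
        rintro _ _ ⟨a, b, ha, hb, rfl⟩ ⟨a', b', ha', hb', rfl⟩
        refine ⟨a * a' + b * b' * (c * c), a * b' + a' * b,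
          F₀.add_mem (F₀.mul_mem ha ha') (F₀.mul_mem (F₀.mul_mem hb hb') hc),
          F₀.add_mem (F₀.mul_mem ha hb') (F₀.mul_mem ha' hb), by ring⟩
      add_mem' := by
        rintro _ _ ⟨a, b, ha, hb, rfl⟩ ⟨a', b', ha', hb', rfl⟩
        exact ⟨a + a', b + b', F₀.add_mem ha ha', F₀.add_mem hb hb', by ring⟩
      algebraMap_mem' := by
        intro r
        exact ⟨r, 0, r.2, F₀.zero_mem, by simp; rfl⟩ }
  have hcR : c ∈ R := ⟨0, 1, F₀.zero_mem, F₀.one_mem, by ring⟩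
  have hs := Subalgebra.isSimpleOrder_of_finrank_prime F₀ F hprime
  rcases hs.eq_bot_or_eq_top R with h | h
  · left
    rw [h, Algebra.mem_bot] at hcR
    obtain ⟨r, hr⟩ := hcR
    rw [← hr]
    exact r.2
  · right
    have htop : Submodule.span F₀ (Set.range ![(1 : F), c]) = ⊤ := by
      rw [eq_top_iff]
      intro x _
      have hx : x ∈ R := by rw [h]; exact Algebra.mem_top
      obtain ⟨a, b, ha, hb, rfl⟩ := hx
      have h1 : (1 : F) ∈ Submodule.span F₀ (Set.range ![(1 : F), c]) := Submodule.subset_span ⟨0, rfl⟩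
      have h2 : c ∈ Submodule.span F₀ (Set.range ![(1 : F), c]) := Submodule.subset_span ⟨1, rfl⟩
      have h3 := Submodule.add_mem _ (Submodule.smul_mem _ (⟨a, ha⟩ : F₀) h1)
        (Submodule.smul_mem _ (⟨b, hb⟩ : F₀) h2)
      have e1 : (⟨a, ha⟩ : F₀) • (1 : F) + (⟨b, hb⟩ : F₀) • c = a + b * c := by
        simp [Subfield.smul_def]
      rwa [e1] at h3
    have h4 := finrank_range_le_card (R := F₀) ![(1 : F), c]
    unfold Set.finrank at h4
    rw [htop, finrank_top] at h4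
    simpa using h4

/-- an injective `F₀`-linear map from the rational vectors into an `F`-subspace bounds the dimension -/
theorem card_le_of_inj [Finite F] (U : Submodule F (ι → F)) (f : (ι → F₀) → (ι → F))
    (hadd : ∀ x y, f (x + y) = f x + f y) (hsmul : ∀ (c : F₀) x, f (c • x) = (c : F) • f x)
    (hinj : ∀ x, f x = 0 → x = 0) (hU : ∀ x, f x ∈ U) :
    Fintype.card ι ≤ finrank F₀ F * finrank F U := by
  let φ : (ι → F₀) →ₗ[F₀] U :=
    { toFun := fun x => ⟨f x, hU x⟩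
      map_add' := fun x y => Subtype.ext (hadd x y)
      map_smul' := fun c x => Subtype.ext (hsmul c x) }
  have hφ : Function.Injective φ := by
    rw [← LinearMap.ker_eq_bot, LinearMap.ker_eq_bot']
    intro x hx
    exact hinj x (congrArg Subtype.val hx)
  have h1 := LinearMap.finrank_le_finrank_of_injective hφ
  rw [finrank_fintype_fun_eq_card, ← Module.finrank_mul_finrank F₀ F U] at h1
  exact h1

namespace RatS

variable (S : RatS Q Q₀ e)
include S

theorem Phi_aux {l₁ l₂ : ι → F} {t₁ t₂ : ι → F₀} (h11 : polar Q l₁ (e t₁) = 1) (h12 : polar Q l₁ (e t₂) = 0)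
    (h21 : polar Q l₂ (e t₁) = 0) (h22 : polar Q l₂ (e t₂) = 1)
    (hno : ∀ (p : ι → F₀) (m₁ m₂ : F), e p = m₁ • l₁ + m₂ • l₂ → p = 0) :
    ∃ t₃ t₄ : ι → F₀, ∀ m₁ m₂ : F, m₁ ∈ F₀ → m₂ ∈ F₀ → polar Q (m₁ • l₁ + m₂ • l₂) (e t₃) ∈ F₀ →
      polar Q (m₁ • l₁ + m₂ • l₂) (e t₄) ∈ F₀ → m₁ = 0 ∧ m₂ = 0 := by
  -- a non-zero vector of the line is not rational
  have hirr : ∀ m₁ m₂ : F, (m₁ ≠ 0 ∨ m₂ ≠ 0) → ∃ t, polar Q (m₁ • l₁ + m₂ • l₂) (e t) ∉ F₀ := by
    intro m₁ m₂ hm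
    by_contra hcon
    push Not at hcon
    obtain ⟨p, hp⟩ := S.rep hcon
    have hp0 := hno p m₁ m₂ hp
    rw [hp0, S.e_zero] at hp
    have q1 := congrArg (fun v => polar Q v (e t₁)) hp
    have q2 := congrArg (fun v => polar Q v (e t₂)) hp
    simp only [polar_add_left, polar_smul_left, h11, h12, h21, h22, polar_zero_left, smul_eq_mul, mul_one,
      mul_zero, add_zero, zero_add] at q1 q2
    rcases hm with h | h
    · exact h q1.symm
    · exact h q2.symm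
  obtain ⟨t₃, ht₃⟩ := hirr 1 0 (Or.inl one_ne_zero)
  rw [one_smul, zero_smul, add_zero] at ht₃
  set μ₁ := polar Q l₁ (e t₃) with hμ₁
  set μ₂ := polar Q l₂ (e t₃) with hμ₂
  have hexp : ∀ (m₁ m₂ : F) (t : ι → F₀), polar Q (m₁ • l₁ + m₂ • l₂) (e t)
      = m₁ * polar Q l₁ (e t) + m₂ * polar Q l₂ (e t) := by
    intro m₁ m₂ t
    rw [polar_add_left, polar_smul_left, polar_smul_left, smul_eq_mul, smul_eq_mul]
  have hzero : ∀ k : F, k ∈ F₀ → k * μ₁ ∈ F₀ → k = 0 := by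
    intro k hk hkμ
    by_contra hk0
    apply ht₃
    have : μ₁ = k⁻¹ * (k * μ₁) := by field_simp
    rw [this]
    exact F₀.mul_mem (F₀.inv_mem hk) hkμ
  by_cases hK : ∃ s₁ s₂ : F, s₁ ∈ F₀ ∧ s₂ ∈ F₀ ∧ (s₁ ≠ 0 ∨ s₂ ≠ 0) ∧ s₁ * μ₁ + s₂ * μ₂ ∈ F₀
  · obtain ⟨s₁, s₂, hs₁, hs₂, hs, hsμ⟩ := hK
    have hs₂0 : s₂ ≠ 0 := by
      rintro rfl
      rw [zero_mul, add_zero] at hsμ
      have := hzero s₁ hs₁ hsμ
      rcases hs with h | h
      · exact h this
      · exact h rfl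
    obtain ⟨t₄, ht₄⟩ := hirr s₁ s₂ hs
    refine ⟨t₃, t₄, fun m₁ m₂ hm₁ hm₂ h3 h4 => ?_⟩
    rw [hexp] at h3
    have hk : m₁ - m₂ / s₂ * s₁ = 0 := by
      apply hzero _ (F₀.sub_mem hm₁ (F₀.mul_mem (F₀.div_mem hm₂ hs₂) hs₁))
      have : (m₁ - m₂ / s₂ * s₁) * μ₁ = (m₁ * μ₁ + m₂ * μ₂) - m₂ / s₂ * (s₁ * μ₁ + s₂ * μ₂) := by
        field_simp
        ring
      rw [this]
      exact F₀.sub_mem h3 (F₀.mul_mem (F₀.div_mem hm₂ hs₂) hsμ)
    have hm₁' : m₁ = m₂ / s₂ * s₁ := sub_eq_zero.mp hk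
    have hm₂' : m₂ = m₂ / s₂ * s₂ := by field_simp
    have hq : m₂ / s₂ = 0 := by
      by_contra hq0
      apply ht₄
      have e1 : m₁ • l₁ + m₂ • l₂ = (m₂ / s₂) • (s₁ • l₁ + s₂ • l₂) := by
        rw [smul_add, smul_smul, smul_smul, ← hm₁', ← hm₂']
      rw [e1, polar_smul_left, smul_eq_mul] at h4
      have : polar Q (s₁ • l₁ + s₂ • l₂) (e t₄)
          = (m₂ / s₂)⁻¹ * (m₂ / s₂ * polar Q (s₁ • l₁ + s₂ • l₂) (e t₄)) := by
        rw [inv_mul_cancel_left₀ hq0]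
      rw [this]
      exact F₀.mul_mem (F₀.inv_mem (F₀.div_mem hm₂ hs₂)) h4
    rw [hq, zero_mul] at hm₁' hm₂'
    exact ⟨hm₁', hm₂'⟩
  · push Not at hK
    refine ⟨t₃, t₃, fun m₁ m₂ hm₁ hm₂ h3 _ => ?_⟩
    rw [hexp] at h3
    by_contra hcon
    have hm : m₁ ≠ 0 ∨ m₂ ≠ 0 := by
      by_contra h
      push Not at h
      exact hcon h
    exact hK m₁ m₂ hm₁ hm₂ hm h3

theorem exists_Phi {y z : ι → F} (hind : ∀ α β : F, α • y + β • z = 0 → α = 0 ∧ β = 0)
    (hno : ∀ (p : ι → F₀) (α β : F), e p = α • y + β • z → p = 0) :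
    ∃ t : Fin 4 → (ι → F₀), ∀ α β : F, (∀ i, polar Q (α • y + β • z) (e (t i)) ∈ F₀) → α = 0 ∧ β = 0 := by
  have hne : ∀ α β : F, (α ≠ 0 ∨ β ≠ 0) →
      α • y + β • z ∉ Submodule.span F (Set.range (fun i => e ((Fin.elim0 : Fin 0 → (ι → F₀)) i))) := by
    intro α β h hmem
    have : Set.range (fun i => e ((Fin.elim0 : Fin 0 → (ι → F₀)) i)) = ∅ := Set.range_eq_empty _
    rw [this, Submodule.span_empty, Submodule.mem_bot] at hmem
    obtain ⟨h1, h2⟩ := hind _ _ hmem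
    rcases h with h | h
    · exact h h1
    · exact h h2
  obtain ⟨t₁, -, a2⟩ := S.sep 0 Fin.elim0 y (by
    have := hne 1 0 (Or.inl one_ne_zero)
    simpa using this)
  obtain ⟨t₂, -, b2⟩ := S.sep 0 Fin.elim0 (-polar Q z (e t₁) • y + polar Q y (e t₁) • z) (hne _ _ (Or.inr a2))
  set Y₁ := polar Q y (e t₁) with hY₁
  set Z₁ := polar Q z (e t₁) with hZ₁
  set Y₂ := polar Q y (e t₂) with hY₂
  set Z₂ := polar Q z (e t₂) with hZ₂
  have hD : Y₁ * Z₂ - Z₁ * Y₂ ≠ 0 := by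
    rw [polar_add_left, polar_smul_left, polar_smul_left, smul_eq_mul, smul_eq_mul] at b2
    intro h
    apply b2
    linear_combination h
  set D := Y₁ * Z₂ - Z₁ * Y₂ with hDdef
  set l₁ : ι → F := (Z₂ / D) • y + (-Y₂ / D) • z with hl₁
  set l₂ : ι → F := (-Z₁ / D) • y + (Y₁ / D) • z with hl₂
  have h11 : polar Q l₁ (e t₁) = 1 := by
    rw [hl₁, polar_add_left, polar_smul_left, polar_smul_left, smul_eq_mul, smul_eq_mul, ← hY₁, ← hZ₁]
    field_simp
    rw [hDdef]; ring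
  have h12 : polar Q l₁ (e t₂) = 0 := by
    rw [hl₁, polar_add_left, polar_smul_left, polar_smul_left, smul_eq_mul, smul_eq_mul, ← hY₂, ← hZ₂]
    field_simp
    ring
  have h21 : polar Q l₂ (e t₁) = 0 := by
    rw [hl₂, polar_add_left, polar_smul_left, polar_smul_left, smul_eq_mul, smul_eq_mul, ← hY₁, ← hZ₁]
    field_simp
    ring
  have h22 : polar Q l₂ (e t₂) = 1 := by
    rw [hl₂, polar_add_left, polar_smul_left, polar_smul_left, smul_eq_mul, smul_eq_mul, ← hY₂, ← hZ₂]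
    field_simp
    rw [hDdef]; ring
  obtain ⟨t₃, t₄, hΦ⟩ := S.Phi_aux h11 h12 h21 h22 (by
    intro p m₁ m₂ hp
    apply hno p (m₁ * (Z₂ / D) + m₂ * (-Z₁ / D)) (m₁ * (-Y₂ / D) + m₂ * (Y₁ / D))
    rw [hp, hl₁, hl₂]; module)
  refine ⟨![t₁, t₂, t₃, t₄], fun α β h => ?_⟩
  have k0 : polar Q (α • y + β • z) (e t₁) ∈ F₀ := h 0
  have k1 : polar Q (α • y + β • z) (e t₂) ∈ F₀ := h 1
  have k2 : polar Q (α • y + β • z) (e t₃) ∈ F₀ := h 2
  have k3 : polar Q (α • y + β • z) (e t₄) ∈ F₀ := h 3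
  have hrew : α • y + β • z = (α * Y₁ + β * Z₁) • l₁ + (α * Y₂ + β * Z₂) • l₂ := by
    have e1 : (α * Y₁ + β * Z₁) • l₁ + (α * Y₂ + β * Z₂) • l₂
        = (α * (D / D)) • y + (β * (D / D)) • z := by
      rw [hl₁, hl₂, hDdef]
      match_scalars <;> ring
    rw [e1, div_self hD, mul_one, mul_one]
  have m1 : polar Q (α • y + β • z) (e t₁) = α * Y₁ + β * Z₁ := by
    rw [polar_add_left, polar_smul_left, polar_smul_left, smul_eq_mul, smul_eq_mul]
  have m2 : polar Q (α • y + β • z) (e t₂) = α * Y₂ + β * Z₂ := by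
    rw [polar_add_left, polar_smul_left, polar_smul_left, smul_eq_mul, smul_eq_mul]
  rw [m1] at k0
  rw [m2] at k1
  rw [hrew] at k2 k3
  obtain ⟨q1, q2⟩ := hΦ _ _ k0 k1 k2 k3
  apply hind
  rw [hrew, q1, q2]; simp

end RatS

end Cfsg.Agent.Lib.Helper29
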