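import Mathlib
import Cfsg.Agent.Lib.Helper29.OmRat5

/-!
Rational structures: every element of a proper overgroup of the rational Siegel transformations preserves the rational
structure up to a scalar.
-/

set_option autoImplicit false
set_option linter.unusedSectionVars false

namespace Cfsg.Agent.Lib.Helper29

open Matrix QuadraticMap Module Cfsg.Agent.Lib.Helper15

variable {ι : Type} [Fintype ι] [DecidableEq ι] {F : Type*} [Field F] {Q : QuadraticForm F (ι → F)}
  {F₀ : Subfield F} {Q₀ : QuadraticForm F₀ (ι → F₀)} {e : (ι → F₀) → (ι → F)}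
  {M : Subgroup (Cfsg.isometryGroup F ⇑Q)}

namespace RatS

variable (S : RatS Q Q₀ e)
include S

set_option maxHeartbeats 1600000 in
theorem rational_of_mem [Fintype F] (hn : 13 ≤ Fintype.card ι) (hprime : (finrank F₀ F).Prime)
    (hrat : ∀ x y, EM M (e x) (e y)) (hstar : S.Star M) {g : Cfsg.isometryGroup F ⇑Q} (hg : g ∈ M) :
    ∃ c : F, c ≠ 0 ∧ ∀ x, ∃ x', act Q g (e x) = c • e x' := by
  obtain ⟨a₀, c0, -, c2⟩ := S.sing_notMem (Fin.elim0 : Fin 0 → (ι → F₀)) (Fin.elim0 : Fin 0 → (ι → F₀)) (by omega)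
  have ha₀0 : a₀ ≠ 0 := by
    rintro rfl
    apply c2
    rw [S.e_zero]; exact Submodule.zero_mem _
  obtain ⟨da, hda⟩ := S.dual0 ha₀0
  obtain ⟨b₀, d0, d1, d2⟩ := S.sing_notMem ![a₀, da] ![a₀] (by omega)
  have d10 : polar Q₀ a₀ b₀ = 0 := d1 0
  have d11 : polar Q₀ da b₀ = 0 := d1 1
  obtain ⟨db, f1, f2⟩ := S.dual ![a₀] b₀ d2
  have f10 : polar Q₀ a₀ db = 0 := f1 0
  have hind₀ := S.indep_of_dual hda (by rw [polar_comm]; exact d11) f10 f2
  set y := act Q g (e a₀) with hydef
  set z := act Q g (e b₀) with hzdef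
  have hy : Q y = 0 := by rw [hydef, Q_act]; exact S.Q_e_zero c0
  have hz : Q z = 0 := by rw [hzdef, Q_act]; exact S.Q_e_zero d0
  have hyz : polar Q y z = 0 := by rw [hydef, hzdef, polar_act]; exact S.polar_e_zero d10
  have hind : ∀ α β : F, α • y + β • z = 0 → α = 0 ∧ β = 0 := S.indep_act hind₀
  have hE : EM M y z := EM_act (hrat a₀ b₀) hg
  by_cases hrl : ∃ (p : ι → F₀) (α β : F), p ≠ 0 ∧ e p = α • y + β • z
  · obtain ⟨p, α, β, hp, hpe⟩ := hrl
    exact S.rational_of_line hn hrat hstar hg c0 d0 d10 hp hpe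
  exfalso
  push Not at hrl
  obtain ⟨t, hΦ⟩ := S.exists_Phi hind (fun p α β h => by_contra fun hp => hrl p α β hp h)
  -- the rational totally singular 3-space
  obtain ⟨a₁, q1, k1, k1'⟩ := S.sing_notMem ![t 0, t 1, t 2, t 3] (Fin.elim0 : Fin 0 → (ι → F₀)) (by omega)
  have ha₁0 : a₁ ≠ 0 := by
    rintro rfl
    apply k1'
    rw [S.e_zero]; exact Submodule.zero_mem _
  have hta₁ : ∀ i, polar Q₀ (t i) a₁ = 0 := by
    intro i; fin_cases i
    exacts [k1 0, k1 1, k1 2, k1 3]
  obtain ⟨a₂, q2, k2, k2'⟩ := S.sing_notMem ![t 0, t 1, t 2, t 3, a₁] ![a₁] (by omega)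
  have hta₂ : ∀ i, polar Q₀ (t i) a₂ = 0 := by
    intro i; fin_cases i
    exacts [k2 0, k2 1, k2 2, k2 3]
  have q12 : polar Q₀ a₁ a₂ = 0 := k2 4
  obtain ⟨d₂, l1, l2⟩ := S.dual ![a₁] a₂ k2'
  have l10 : polar Q₀ a₁ d₂ = 0 := l1 0
  obtain ⟨a₃, q3, k3, k3'⟩ := S.sing_notMem ![t 0, t 1, t 2, t 3, a₁, a₂, d₂] ![a₁, a₂] (by omega)
  have hta₃ : ∀ i, polar Q₀ (t i) a₃ = 0 := by
    intro i; fin_cases i
    exacts [k3 0, k3 1, k3 2, k3 3]
  have q13 : polar Q₀ a₁ a₃ = 0 := k3 4
  have q23 : polar Q₀ a₂ a₃ = 0 := k3 5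
  have l3 : polar Q₀ d₂ a₃ = 0 := k3 6
  obtain ⟨d₃, m1, m2⟩ := S.dual ![a₁, a₂] a₃ k3'
  have m10 : polar Q₀ a₁ d₃ = 0 := m1 0
  have m11 : polar Q₀ a₂ d₃ = 0 := m1 1
  set as : Fin 3 → (ι → F₀) := ![a₁, a₂, a₃] with has
  have hpol : ∀ i j, polar Q₀ (as i) (as j) = 0 := by
    intro i j
    fin_cases i <;> fin_cases j
    · show polar Q₀ a₁ a₁ = 0
      rw [polar_self, q1]; simp
    · exact q12
    · exact q13
    · show polar Q₀ a₂ a₁ = 0
      rw [polar_comm]; exact q12
    · show polar Q₀ a₂ a₂ = 0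
      rw [polar_self, q2]; simp
    · exact q23
    · show polar Q₀ a₃ a₁ = 0
      rw [polar_comm]; exact q13
    · show polar Q₀ a₃ a₂ = 0
      rw [polar_comm]; exact q23
    · show polar Q₀ a₃ a₃ = 0
      rw [polar_self, q3]; simp
  have hQas : ∀ i, Q₀ (as i) = 0 := by
    intro i; fin_cases i
    exacts [q1, q2, q3]
  have hast : ∀ j i, polar Q₀ (as j) (t i) = 0 := by
    intro j i
    rw [polar_comm]
    fin_cases j
    exacts [hta₁ i, hta₂ i, hta₃ i]
  set A : Submodule F (ι → F) := Submodule.span F (Set.range (fun i => e (as i))) with hA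
  set U : Submodule F (ι → F) := A ⊔ Submodule.span F {y, z} with hU
  have h1A : e a₁ ∈ A := Submodule.subset_span ⟨0, rfl⟩
  have h2A : e a₂ ∈ A := Submodule.subset_span ⟨1, rfl⟩
  have h3A : e a₃ ∈ A := Submodule.subset_span ⟨2, rfl⟩
  have hAA : ∀ v ∈ A, ∀ w ∈ A, polar Q v w = 0 := by
    intro v hv w hw
    have h1 : ∀ j, polar Q v (e (as j)) = 0 := fun j =>
      perp_span_range (Q := Q) (r := fun i => e (as i)) (z := e (as j)) (fun i => S.polar_e_zero (hpol i j)) v hv
    have h2 := perp_span_range (Q := Q) (r := fun i => e (as i)) (z := v)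
      (fun i => by rw [polar_comm]; exact h1 i) w hw
    rw [polar_comm]; exact h2
  have hAt : ∀ v ∈ A, ∀ i, polar Q v (e (t i)) = 0 := fun v hv i =>
    perp_span_range (Q := Q) (r := fun i => e (as i)) (z := e (t i)) (fun j => S.polar_e_zero (hast j i)) v hv
  have hQA : ∀ v ∈ A, Q v = 0 := by
    intro v hv
    induction hv using Submodule.span_induction with
    | mem x hx => obtain ⟨i, rfl⟩ := hx; exact S.Q_e_zero (hQas i)
    | zero => simp
    | add x y hx hy ihx ihy => rw [QuadraticMap.map_add Q, ihx, ihy, hAA x hx y hy]; simp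
    | smul c x _ ihx => rw [QuadraticMap.map_smul, ihx, smul_zero]
  have hAU : A ≤ U := le_sup_left
  have hEL : ores M A ≤ ores M U := by
    rintro x ⟨hx, hx'⟩
    exact ⟨hx, fun v => hAU (hx' v)⟩
  have fixA : ∀ a ∈ ores M A, ∀ u ∈ A, act Q a u = u := by
    intro a ha u hu
    have : act Q a u - u = 0 := by
      apply S.nd.1
      intro w
      show polar Q (act Q a u - u) w = 0
      have h1 := act_act_inv a w
      set w' := act Q a⁻¹ w with hw'
      rw [← h1, polar_sub_left, polar_act]
      have h2 := hAA u hu _ (ha.2 w')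
      rw [polar_sub_right] at h2
      linear_combination -h2
    exact sub_eq_zero.mp this
  obtain ⟨p, hpchar⟩ := CharP.exists F
  have hpp : Fact p.Prime := ⟨CharP.char_is_prime F p⟩
  have hmemE : ∀ (b c : ι → F₀) (h1 : Q (e b) = 0) (h2 : polar Q (e b) (e c) = 0), e b ∈ A → e c ∈ A →
      eich Q (e b) (e c) h1 h2 ∈ ores M A := by
    intro b c h1 h2 hb hc
    refine ⟨hrat b c h1 h2, fun v => ?_⟩
    rw [act_eich]
    have : v + polar Q (e b) v • e c - (polar Q (e c) v + Q (e c) * polar Q (e b) v) • e b - v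
        = polar Q (e b) v • e c - (polar Q (e c) v + Q (e c) * polar Q (e b) v) • e b := by abel
    rw [this]
    exact A.sub_mem (A.smul_mem _ hc) (A.smul_mem _ hb)
  have key : ores M U ≤ ores M A := by
    apply tame p _ _ hEL
    · intro a ha
      apply iso_ext
      intro v
      rw [act_pow_of_fix a (fun v => fixA a ha _ (ha.2 v)), CharP.cast_eq_zero F p, zero_smul, add_zero, act_one]
    · intro a ha b hb
      apply iso_ext
      intro v
      rw [act_mul, act_mul]
      have h1 := fixA a ha _ (hb.2 v)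
      have h2 := fixA b hb _ (ha.2 v)
      rw [act_sub'] at h1 h2
      have h3 : act Q a (act Q b v) = act Q b v - v + act Q a v := by rw [← h1]; abel
      have h4 : act Q b (act Q a v) = act Q a v - v + act Q b v := by rw [← h2]; abel
      rw [h3, h4]; abel
    · refine ⟨eich Q (e a₁) (e a₂) (S.Q_e_zero q1) (S.polar_e_zero q12), hmemE _ _ _ _ h1A h2A,
        eich Q (e a₁) (e a₃) (S.Q_e_zero q1) (S.polar_e_zero q13), hmemE _ _ _ _ h1A h3A, ?_, ?_⟩
      · intro h1
        have h2 := congrArg (fun k => act Q k (e d₂)) h1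
        simp only [act_one, act_eich, S.polar_e_zero l10, S.polar_e_one l2] at h2
        apply S.e_ne_zero ha₁0
        simpa using h2
      · intro hmem
        have h1 := act_zpowers_fix (x := e d₃) (by
          rw [act_eich, S.polar_e_zero m10, S.polar_e_zero m11]; simp) hmem
        rw [act_eich, S.polar_e_zero m10, S.polar_e_one m2] at h1
        apply S.e_ne_zero ha₁0
        simpa using h1
    · intro x hx a ha ha1 hxa
      -- `a` is rational
      obtain ⟨ca, hca0, hca⟩ := S.rational_of_line hn hrat hstar ha.1 (a := a₁) (b := a₂) q1 q2 q12 ha₁0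
        (α := 1) (β := 0) (by rw [fixA a ha _ h1A]; simp)
      have hcaF : ca ∈ F₀ := by
        obtain ⟨x', hx'⟩ := hca a₁
        rw [fixA a ha _ h1A] at hx'
        exact S.coeff_mem ha₁0 hx'.symm
      have haR : ∀ s, ∃ s', act Q a (e s) = e s' := fun s => by
        obtain ⟨s', hs'⟩ := hca s
        exact ⟨(⟨ca, hcaF⟩ : F₀) • s', by rw [hs', S.e_smul]⟩
      obtain ⟨s, hs⟩ : ∃ s, act Q a (e s) ≠ e s := by
        by_contra hcon
        push Not at hcon
        apply ha1
        apply iso_ext
        intro v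
        rw [act_one]
        have hv : v ∈ Submodule.span F (Set.range e) := by rw [S.span]; trivial
        induction hv using Submodule.span_induction with
        | mem x hx => obtain ⟨i, rfl⟩ := hx; exact hcon i
        | zero => simp [act]
        | add x y _ _ hx hy => rw [act_add, hx, hy]
        | smul c x _ hx => rw [act_smul, hx]
      obtain ⟨s', hs'⟩ := haR s
      have eπ₁ : e (s' - s) = act Q a (e s) - e s := by rw [S.e_sub, hs']
      have hπ₁0 : s' - s ≠ 0 := by
        intro h0
        apply hs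
        rw [hs', sub_eq_zero.mp h0]
      obtain ⟨w, hw⟩ := S.dual0 hπ₁0
      obtain ⟨w', hw'⟩ := haR w
      have eπ₂ : e (w' - w) = act Q a (e w) - e w := by rw [S.e_sub, hw']
      set π₁ := s' - s with hπ₁
      set π₂ := w' - w with hπ₂
      have skew : ∀ v v', polar Q (act Q a v - v) v' = - polar Q (act Q a v' - v') v := by
        intro v v'
        have h := hAA _ (ha.2 v) _ (ha.2 v')
        rw [polar_sub_left, polar_sub_right, polar_sub_right, polar_act] at h
        rw [polar_sub_left, polar_sub_left, polar_comm Q (act Q a v') v, polar_comm Q v' v]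
        linear_combination -h
      have alt : ∀ v, polar Q (act Q a v - v) v = 0 := by
        intro v
        have h := hQA _ (ha.2 v)
        rw [sub_eq_add_neg, QuadraticMap.map_add Q, QuadraticMap.map_neg, Q_act, polar_neg_right] at h
        rw [polar_sub_left, polar_self]
        simp only [nsmul_eq_mul, Nat.cast_ofNat]
        linear_combination -h
      have r2 : polar Q₀ π₂ w = 0 := S.polar₀_zero_of (by rw [eπ₂]; exact alt _)
      have r3 : polar Q₀ π₁ s = 0 := S.polar₀_zero_of (by rw [eπ₁]; exact alt _)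
      have r4 : polar Q₀ π₂ s = -1 := by
        have h1 : polar Q (e π₂) (e s) = -1 := by
          rw [eπ₂, skew, ← eπ₁, S.polar_e_one hw]
        rw [S.polar_e] at h1
        exact_mod_cast h1
      have hindπ := S.indep_of_dual (d := w) (d' := -s) hw r2 (by rw [polar_neg_right, r3, neg_zero])
        (by rw [polar_neg_right, r4, neg_neg])
      have Qπ₁ : Q₀ π₁ = 0 := S.Q₀_zero_of (by rw [eπ₁]; exact hQA _ (ha.2 _))
      have Qπ₂ : Q₀ π₂ = 0 := S.Q₀_zero_of (by rw [eπ₂]; exact hQA _ (ha.2 _))
      have polπ : polar Q₀ π₁ π₂ = 0 := S.polar₀_zero_of (by rw [eπ₁, eπ₂]; exact hAA _ (ha.2 _) _ (ha.2 _))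
      have hxπ : ∀ v, act Q x (act Q a v - v) ∈ A := by
        intro v
        have h := hxa.2 (act Q x v)
        rw [act_mul, act_mul, act_inv_act] at h
        rwa [← act_sub'] at h
      obtain ⟨p₁, p₂, α, β, γ, δ, n1, n2, n3⟩ := S.line_rat hn hrat hstar (y := act Q x (e π₁))
        (z := act Q x (e π₂)) (by rw [Q_act]; exact S.Q_e_zero Qπ₁) (by rw [Q_act]; exact S.Q_e_zero Qπ₂)
        (by rw [polar_act]; exact S.polar_e_zero polπ) (S.indep_act hindπ) (EM_act (hrat π₁ π₂) hx.1)
        (u := a₁) q1 ha₁0 (hAA _ h1A _ (by rw [eπ₁]; exact hxπ _)) (hAA _ h1A _ (by rw [eπ₂]; exact hxπ _))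
      have hp₁ : p₁ ≠ 0 := by
        rintro rfl
        rw [S.e_zero] at n1
        obtain ⟨h1, h2⟩ := S.indep_act hindπ _ _ n1.symm
        apply n3
        rw [h1, h2]; ring
      obtain ⟨c, hc0, hc⟩ := S.rational_of_line hn hrat hstar hx.1 Qπ₁ Qπ₂ polπ hp₁ n1
      have hcF : c ∈ F₀ := by
        obtain ⟨t₀, -, ht₀⟩ := exists_nonsingular_fam S.nd₀ (Fin.elim0 : Fin 0 → (ι → F₀)) (by omega)
        obtain ⟨t₀', ht₀'⟩ := hc t₀
        have h1 : Q (act Q x (e t₀)) = Q (e t₀) := Q_act _ _
        rw [ht₀', QuadraticMap.map_smul, S.Q_e, S.Q_e, smul_eq_mul] at h1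
        have hcc : c * c ∈ F₀ := by
          have hne : ((Q₀ t₀' : F₀) : F) ≠ 0 := by
            intro h0
            rw [h0, mul_zero] at h1
            apply ht₀
            exact_mod_cast h1.symm
          have : c * c = ((Q₀ t₀ : F₀) : F) / ((Q₀ t₀' : F₀) : F) := by
            field_simp
            linear_combination h1
          rw [this]
          exact F₀.div_mem (Q₀ t₀).2 (Q₀ t₀').2
        rcases mem_or_finrank_le hprime hcc with h | h
        · exact h
        · by_contra hcn
          have h2 := card_le_of_inj U (fun t => act Q x (e t) - e t)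
            (fun a b => by simp only [S.e_add, act_add]; abel)
            (fun c a => by simp only [S.e_smul, act_smul, smul_sub])
            (fun a h0 => by
              by_contra ha0
              obtain ⟨a', ha'⟩ := hc a
              apply hcn
              apply S.coeff_mem ha0 (x := a')
              rw [← ha']
              exact sub_eq_zero.mp h0)
            (fun a => hx.2 _)
          have h3 : finrank F U ≤ 5 := by
            have h4 : finrank F U ≤ finrank F A + finrank F (Submodule.span F {y, z}) :=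
              Submodule.finrank_add_le_finrank_add_finrank A (Submodule.span F {y, z})
            have h5 : finrank F A ≤ 3 := finrank_span_range_le _
            have h6 := finrank_span_pair_le y z
            omega
          have h7 : finrank F₀ F * finrank F U ≤ 2 * 5 := Nat.mul_le_mul h h3
          omega
      have hxR : ∀ s, ∃ s', act Q x (e s) = e s' := fun s => by
        obtain ⟨s', hs'⟩ := hc s
        exact ⟨(⟨c, hcF⟩ : F₀) • s', by rw [hs', S.e_smul]⟩
      refine ⟨hx.1, fun v => ?_⟩
      have hv : v ∈ Submodule.span F (Set.range e) := by rw [S.span]; trivial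
      induction hv using Submodule.span_induction with
      | mem v hv =>
        obtain ⟨s, rfl⟩ := hv
        obtain ⟨s', hs'⟩ := hxR s
        obtain ⟨a', ha', l, hl, hal⟩ := Submodule.mem_sup.mp (hx.2 (e s))
        obtain ⟨α, β, rfl⟩ := Submodule.mem_span_pair.mp hl
        obtain ⟨h1, h2⟩ := hΦ α β (fun i => by
          have : α • y + β • z = e (s' - s) - a' := by
            rw [S.e_sub, ← hs', ← hal]; abel
          rw [this, polar_sub_left, hAt a' ha' i, sub_zero]
          exact S.polar_e_mem _ _)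
        rw [← hal, h1, h2]
        simpa using ha'
      | zero => simp [act]
      | add a b _ _ ha hb =>
        have : act Q x (a + b) - (a + b) = (act Q x a - a) + (act Q x b - b) := by rw [act_add]; abel
        rw [this]
        exact A.add_mem ha hb
      | smul c a _ ha =>
        have : act Q x (c • a) - c • a = c • (act Q x a - a) := by rw [act_smul, smul_sub]
        rw [this]
        exact A.smul_mem _ ha
  have hmemL : eich Q y z hy hyz ∈ ores M U := by
    refine ⟨hE hy hyz, fun v => ?_⟩
    rw [act_eich]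
    have : v + polar Q y v • z - (polar Q z v + Q z * polar Q y v) • y - v
        = polar Q y v • z - (polar Q z v + Q z * polar Q y v) • y := by abel
    rw [this]
    apply (le_sup_right : Submodule.span F {y, z} ≤ U)
    exact Submodule.sub_mem _ (Submodule.smul_mem _ _ (Submodule.subset_span (by simp)))
      (Submodule.smul_mem _ _ (Submodule.subset_span (by simp)))
  obtain ⟨v, hv⟩ : ∃ v, polar Q y v ≠ 0 := by
    by_contra hcon
    push Not at hcon
    have hy0 : y = 0 := S.nd.1 y hcon
    have := (hind 1 0 (by rw [hy0]; simp)).1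
    exact one_ne_zero this
  have h2 := (key hmemL).2 v
  rw [act_eich, hz, zero_mul, add_zero] at h2
  have h3 : (-polar Q z v) • y + polar Q y v • z ∈ A := by
    have : (-polar Q z v) • y + polar Q y v • z = v + polar Q y v • z - polar Q z v • y - v := by module
    rw [this]; exact h2
  exact hv (hΦ _ _ (fun i => by rw [hAt _ h3 i]; exact F₀.zero_mem)).2

/-- the main theorem on rational structures -/
theorem omega_le [Fintype F] (hn : 13 ≤ Fintype.card ι) (hprime : (finrank F₀ F).Prime)
    (hrat : ∀ x y, EM M (e x) (e y)) {g : Cfsg.isometryGroup F ⇑Q} (hg : g ∈ M)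
    (hgn : ¬ ∃ c : F, c ≠ 0 ∧ ∀ x, ∃ x', act Q g (e x) = c • e x') : Cfsg.Omega F ⇑Q ≤ M := by
  by_contra hne
  apply hgn
  apply S.rational_of_mem hn hprime hrat _ hg
  intro u v hu hu0 huv hT
  by_contra hcon
  exact hne (S.omega_le_of_irr hn hprime hrat hu hu0 huv hT hcon)

end RatS

end Cfsg.Agent.Lib.Helper29
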