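import Mathlib
import Cfsg.Prelude.Def_GeometricClasses
import Cfsg.Agent.Lib.Helper29.Transv
import Cfsg.Agent.Lib.Helper29.Tame
import Cfsg.Agent.Lib.Helper18.SLGen

/-!
Maximality of the subfield subgroup `GL_n(F₀) · scalars ∩ SL_n(F)` in `SL_n(F)` for `[F : F₀]` prime.
-/

set_option autoImplicit false

namespace Cfsg.Agent.Lib.Helper29

open Matrix Module

variable {ι : Type} [Fintype ι] [DecidableEq ι] {F : Type*} [Field F]

/-- `GL(F₀)` times the scalars. -/
def ratGL (ι : Type) [Fintype ι] [DecidableEq ι] {F : Type*} [Field F] (F₀ : Subfield F) :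
    Subgroup (GL ι F) :=
  (Matrix.GeneralLinearGroup.map (F₀.subtype : F₀ →+* F)).range ⊔ Cfsg.Geo.scalars ι F

theorem mem_ratGL_iff (F₀ : Subfield F) (g : GL ι F) :
    g ∈ ratGL ι F₀ ↔ ∃ c : F, c ≠ 0 ∧ ∀ i j, c * (g : Matrix ι ι F) i j ∈ F₀ := by
  unfold ratGL
  rw [Subgroup.mem_sup_of_normal_right]
  constructor
  · rintro ⟨y, ⟨A, rfl⟩, z, hz, rfl⟩
    obtain ⟨d, hd⟩ := (Cfsg.Geo.mem_scalars_iff z).mp hz
    refine ⟨(d : F)⁻¹, inv_ne_zero d.ne_zero, fun i j => ?_⟩
    rw [Units.val_mul, hd, Matrix.mul_smul, mul_one, Matrix.smul_apply, smul_eq_mul,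
      inv_mul_cancel_left₀ d.ne_zero]
    exact (A.1 i j).2
  · rintro ⟨c, hc, h⟩
    let A₀ : Matrix ι ι F₀ := fun i j => ⟨c * (g : Matrix ι ι F) i j, h i j⟩
    have hmap : A₀.map (F₀.subtype : F₀ →+* F) = c • (g : Matrix ι ι F) := by
      ext i j; rfl
    have hdet : A₀.det ≠ 0 := by
      intro h0
      have h1 : (F₀.subtype : F₀ →+* F) A₀.det = (c • (g : Matrix ι ι F)).det := by
        rw [← hmap, RingHom.map_det]; rfl
      rw [h0, map_zero, Matrix.det_smul] at h1
      have h2 : (g : Matrix ι ι F).det ≠ 0 := by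
        have := (Matrix.isUnit_iff_isUnit_det _).mp g.isUnit
        exact this.ne_zero
      exact mul_ne_zero (pow_ne_zero _ hc) h2 h1.symm
    refine ⟨_, ⟨Matrix.GeneralLinearGroup.mkOfDetNeZero A₀ hdet, rfl⟩,
      Units.map (Matrix.scalar ι : F →+* Matrix ι ι F).toMonoidHom (Units.mk0 c hc)⁻¹,
      ⟨_, rfl⟩, ?_⟩
    apply Units.ext
    ext i j
    have h3 : ((Matrix.GeneralLinearGroup.map (F₀.subtype : F₀ →+* F)
        (Matrix.GeneralLinearGroup.mkOfDetNeZero A₀ hdet) : GL ι F) : Matrix ι ι F)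
        = c • (g : Matrix ι ι F) := hmap
    rw [Units.val_mul, h3]
    simp [Matrix.scalar_apply]
    field_simp

theorem gl_apply (g : GL ι F) (i m : ι) :
    ((g : Matrix ι ι F) *ᵥ Pi.single m 1) i = (g : Matrix ι ι F) i m := by
  simp

theorem tv_apply (f : Dual F (ι → F)) (v : ι → F) (h : f v = 0) (i m : ι) :
    (tv f v h : Matrix ι ι F) i m = (if i = m then 1 else 0) + f (Pi.single m 1) * v i := by
  rw [← gl_apply, tv_mulVec]
  simp [Pi.single_apply]

theorem tv_mem_ratGL (F₀ : Subfield F) (f : Dual F (ι → F)) (v : ι → F) (h : f v = 0)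
    (hf : ∀ k, f (Pi.single k 1) ∈ F₀) (hv : ∀ i, v i ∈ F₀) : tv f v h ∈ ratGL ι F₀ := by
  rw [mem_ratGL_iff]
  refine ⟨1, one_ne_zero, fun i m => ?_⟩
  rw [one_mul, tv_apply]
  refine F₀.add_mem ?_ (F₀.mul_mem (hf m) (hv i))
  split_ifs
  · exact F₀.one_mem
  · exact F₀.zero_mem

omit [Fintype ι] in
theorem single_mem (F₀ : Subfield F) (j i : ι) : (Pi.single j 1 : ι → F) i ∈ F₀ := by
  rw [Pi.single_apply]
  split_ifs
  · exact F₀.one_mem
  · exact F₀.zero_mem

/-- elementary transvections -/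
noncomputable def el (i l : ι) (h : i ≠ l) (c : F) : GL ι F :=
  tv (c • LinearMap.proj l) (Pi.single i 1) (by simp [h])

theorem el_mulVec (i l : ι) (h : i ≠ l) (c : F) (x : ι → F) :
    (el i l h c : Matrix ι ι F) *ᵥ x = x + (c * x l) • Pi.single i 1 := by
  rw [el, tv_mulVec]; rfl

theorem el_inv (i l : ι) (h : i ≠ l) (c : F) : (el i l h c)⁻¹ = el i l h (-c) := by
  rw [inv_eq_iff_mul_eq_one]
  apply gl_ext
  intro x
  rw [gl_mul_mulVec, el_mulVec, el_mulVec]
  ext t
  simp [Pi.single_apply, h.symm]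

theorem el_add (i l : ι) (h : i ≠ l) (c d : F) : el i l h (c + d) = el i l h c * el i l h d := by
  apply gl_ext
  intro x
  rw [gl_mul_mulVec, el_mulVec, el_mulVec, el_mulVec]
  ext t
  simp [Pi.single_apply, h.symm]
  split_ifs <;> ring

theorem el_comm (i l m : ι) (h1 : i ≠ l) (h2 : l ≠ m) (h3 : i ≠ m) (c d : F) :
    el i l h1 c * el l m h2 d * (el i l h1 c)⁻¹ * (el l m h2 d)⁻¹ = el i m h3 (c * d) := by
  rw [el_inv, el_inv]
  apply gl_ext
  intro x
  simp only [gl_mul_mulVec, el_mulVec]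
  ext t
  simp [Pi.single_apply, h1.symm, h2.symm, h3.symm]
  split_ifs <;> ring

theorem el_mem_specialLinear (i l : ι) (h : i ≠ l) (c : F) :
    el i l h c ∈ Cfsg.Geo.specialLinear ι F := tv_mem_specialLinear _ _ _

theorem el_mem_ratGL (F₀ : Subfield F) (i l : ι) (h : i ≠ l) (c : F) (hc : c ∈ F₀) :
    el i l h c ∈ ratGL ι F₀ := by
  apply tv_mem_ratGL
  · intro k
    simp only [LinearMap.smul_apply, LinearMap.proj_apply, smul_eq_mul]
    exact F₀.mul_mem hc (single_mem F₀ _ _)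
  · exact single_mem F₀ i

theorem specialLinear_le_of_el [Nontrivial ι] (M : Subgroup (GL ι F))
    (hM : ∀ (i l : ι) (h : i ≠ l) (c : F), el i l h c ∈ M) :
    Cfsg.Geo.specialLinear ι F ≤ M := by
  intro g hg
  rw [mem_specialLinear_iff] at hg
  have key : ∀ A : Matrix.SpecialLinearGroup ι F, Matrix.SpecialLinearGroup.toGL A ∈ M := by
    intro A
    refine Cfsg.Agent.Lib.Helper18.SL_transvection_induction
      (fun A => Matrix.SpecialLinearGroup.toGL A ∈ M) ?_ ?_ A
    · intro i j hij c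
      have : Matrix.SpecialLinearGroup.toGL (Matrix.SpecialLinearGroup.transvection hij c)
          = el i j hij c := by
        apply gl_ext; intro x
        rw [el, tv_mulVec]
        show (Matrix.SpecialLinearGroup.transvection hij c).1 *ᵥ x = _
        rw [Matrix.SpecialLinearGroup.transvection_coe, Matrix.add_mulVec, Matrix.one_mulVec]
        congr 1
        ext k
        simp [Matrix.mulVec, dotProduct, Matrix.single_apply, Pi.single_apply]
        by_cases hk : i = k
        · simp [hk]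
        · simp [hk, Ne.symm hk]
      rw [this]; exact hM _ _ _ _
    · intro A B hA hB
      rw [map_mul]
      exact M.mul_mem hA hB
  have : g = Matrix.SpecialLinearGroup.toGL ⟨g, hg⟩ := Units.ext rfl
  rw [this]
  exact key _

theorem exists_fresh (s : Finset ι) (h : s.card < Fintype.card ι) : ∃ l, l ∉ s := by
  by_contra hcon
  push Not at hcon
  have : s = Finset.univ := Finset.eq_univ_iff_forall.mpr hcon
  rw [this, Finset.card_univ] at h
  exact lt_irrefl _ h

theorem exists_fresh2 (h : 3 ≤ Fintype.card ι) (a b : ι) : ∃ l, l ≠ a ∧ l ≠ b := by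
  obtain ⟨l, hl⟩ := exists_fresh ({a, b} : Finset ι) (lt_of_le_of_lt Finset.card_le_two h)
  simp only [Finset.mem_insert, Finset.mem_singleton, not_or] at hl
  exact ⟨l, hl.1, hl.2⟩

theorem exists_fresh3 (h : 4 ≤ Fintype.card ι) (a b c : ι) : ∃ l, l ≠ a ∧ l ≠ b ∧ l ≠ c := by
  obtain ⟨l, hl⟩ := exists_fresh ({a, b, c} : Finset ι) (lt_of_le_of_lt Finset.card_le_three h)
  simp only [Finset.mem_insert, Finset.mem_singleton, not_or] at hl
  exact ⟨l, hl.1, hl.2.1, hl.2.2⟩

section main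

variable (F₀ : Subfield F) (M : Subgroup (GL ι F))

/-- spreading an elementary transvection -/
theorem el_spread (hι : 3 ≤ Fintype.card ι)
    (hM : ratGL ι F₀ ⊓ Cfsg.Geo.specialLinear ι F ≤ M)
    (j l : ι) (hjl : j ≠ l) (c : F) (hc : el j l hjl c ∈ M) :
    ∀ (i m : ι) (h : i ≠ m), el i m h c ∈ M := by
  have rat : ∀ (i m : ι) (h : i ≠ m), el i m h 1 ∈ M := fun i m h =>
    hM (Subgroup.mem_inf.mpr ⟨el_mem_ratGL F₀ i m h 1 F₀.one_mem, el_mem_specialLinear _ _ _ _⟩)
  have stepR : ∀ (i l m : ι) (h1 : i ≠ l) (h2 : l ≠ m) (h3 : i ≠ m) (c : F),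
      el i l h1 c ∈ M → el i m h3 c ∈ M := by
    intro i l m h1 h2 h3 c hc
    have := el_comm i l m h1 h2 h3 c 1
    rw [mul_one] at this
    rw [← this]
    exact M.mul_mem (M.mul_mem (M.mul_mem hc (rat _ _ _)) (M.inv_mem hc)) (M.inv_mem (rat _ _ _))
  have stepL : ∀ (i l m : ι) (h1 : i ≠ l) (h2 : l ≠ m) (h3 : i ≠ m) (c : F),
      el l m h2 c ∈ M → el i m h3 c ∈ M := by
    intro i l m h1 h2 h3 c hc
    have := el_comm i l m h1 h2 h3 1 c
    rw [one_mul] at this
    rw [← this]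
    exact M.mul_mem (M.mul_mem (M.mul_mem (rat _ _ _) hc) (M.inv_mem (rat _ _ _))) (M.inv_mem hc)
  have row : ∀ m (h : j ≠ m), el j m h c ∈ M := by
    intro m h
    by_cases hml : m = l
    · subst hml; exact hc
    · exact stepR j l m hjl (Ne.symm hml) h c hc
  intro i m h
  by_cases hij : i = j
  · subst hij; exact row m h
  · by_cases hmj : m = j
    · subst hmj
      obtain ⟨t, ht1, ht2⟩ := exists_fresh2 hι i m
      have h1 := row t (Ne.symm ht2)
      have h2 := stepL i m t h (Ne.symm ht2) (Ne.symm ht1) c h1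
      exact stepR i t m (Ne.symm ht1) ht2 h c h2
    · exact stepL i j m hij (Ne.symm hmj) h c (row m (Ne.symm hmj))

theorem sl_le_of_el (hι : 3 ≤ Fintype.card ι)
    (hprime : (Module.finrank F₀ F).Prime)
    (hM : ratGL ι F₀ ⊓ Cfsg.Geo.specialLinear ι F ≤ M)
    (j l : ι) (hjl : j ≠ l) (a : F) (ha : a ∉ F₀) (hmem : el j l hjl a ∈ M) :
    Cfsg.Geo.specialLinear ι F ≤ M := by
  let R : Subalgebra F₀ F :=
    { carrier := {c | ∀ (i m : ι) (h : i ≠ m), el i m h c ∈ M}
      mul_mem' := by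
        intro c d hc hd i m h
        obtain ⟨t, ht1, ht2⟩ := exists_fresh2 hι i m
        rw [← el_comm i t m (Ne.symm ht1) ht2 h c d]
        exact M.mul_mem (M.mul_mem (M.mul_mem (hc _ _ _) (hd _ _ _)) (M.inv_mem (hc _ _ _)))
          (M.inv_mem (hd _ _ _))
      add_mem' := by
        intro c d hc hd i m h
        rw [el_add]
        exact M.mul_mem (hc _ _ _) (hd _ _ _)
      algebraMap_mem' := by
        intro r i m h
        exact hM (Subgroup.mem_inf.mpr ⟨el_mem_ratGL F₀ i m h _ r.2, el_mem_specialLinear _ _ _ _⟩) }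
  have haR : a ∈ R := el_spread F₀ M hι hM j l hjl a hmem
  have hs := Subalgebra.isSimpleOrder_of_finrank_prime F₀ F hprime
  have hnt : Nontrivial ι := by
    rw [← Fintype.one_lt_card_iff_nontrivial]; omega
  rcases hs.eq_bot_or_eq_top R with h | h
  · exfalso
    rw [h, Algebra.mem_bot] at haR
    obtain ⟨r, hr⟩ := haR
    apply ha
    rw [← hr]
    exact r.2
  · apply specialLinear_le_of_el
    intro i m hne c
    have : c ∈ R := by rw [h]; exact Algebra.mem_top
    exact this i m hne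

/-- Lemma A -/
theorem sl_le_of_tv (hι : 3 ≤ Fintype.card ι)
    (hprime : (Module.finrank F₀ F).Prime)
    (hM : ratGL ι F₀ ⊓ Cfsg.Geo.specialLinear ι F ≤ M)
    (j : ι) (f : Dual F (ι → F)) (h : f (Pi.single j 1) = 0) (hmem : tv f (Pi.single j 1) h ∈ M)
    (k : ι) (hk : f (Pi.single k 1) ∉ F₀) :
    Cfsg.Geo.specialLinear ι F ≤ M := by
  have hkj : k ≠ j := by
    rintro rfl
    rw [h] at hk
    exact hk F₀.zero_mem
  obtain ⟨l, hlj, hlk⟩ := exists_fresh2 hι j k
  have rat : el k l (Ne.symm hlk) 1 ∈ M :=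
    hM (Subgroup.mem_inf.mpr ⟨el_mem_ratGL F₀ _ _ _ 1 F₀.one_mem, el_mem_specialLinear _ _ _ _⟩)
  apply sl_le_of_el F₀ M hι hprime hM j l (Ne.symm hlj) _ hk
  have : el j l (Ne.symm hlj) (f (Pi.single k 1)) =
      tv f (Pi.single j 1) h * el k l (Ne.symm hlk) 1 * (tv f (Pi.single j 1) h)⁻¹
        * (el k l (Ne.symm hlk) 1)⁻¹ := by
    rw [el_inv, tv_inv]
    apply gl_ext
    intro x
    simp only [gl_mul_mulVec, el_mulVec, tv_mulVec]
    simp only [map_add, map_smul, map_neg, h, smul_eq_mul]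
    ext t
    simp [Pi.single_apply, hlj, hlk]
    split_ifs <;> ring
  rw [this]
  exact M.mul_mem (M.mul_mem (M.mul_mem hmem rat) (M.inv_mem hmem)) (M.inv_mem rat)

/-- B1 -/
theorem mem_ratGL_of_fix
    (hM : ratGL ι F₀ ⊓ Cfsg.Geo.specialLinear ι F ≤ M) (hMS : M ≤ Cfsg.Geo.specialLinear ι F)
    (j : ι)
    (star : ∀ (f : Dual F (ι → F)) (h : f (Pi.single j 1) = 0), tv f (Pi.single j 1) h ∈ M →
      ∀ k, f (Pi.single k 1) ∈ F₀)
    (x : GL ι F) (hx : x ∈ M) (α : F)
    (hxα : (x : Matrix ι ι F) *ᵥ Pi.single j 1 = α • Pi.single j 1) :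
    x ∈ ratGL ι F₀ := by
  have hα : α ≠ 0 := by
    rintro rfl
    rw [zero_smul] at hxα
    have h1 := gl_inv_mulVec x (Pi.single j 1)
    rw [hxα, Matrix.mulVec_zero] at h1
    have h2 := congrFun h1 j
    simp at h2
  have hxinv : ((x⁻¹ : GL ι F) : Matrix ι ι F) *ᵥ Pi.single j 1 = α⁻¹ • Pi.single j 1 := by
    have h1 := gl_inv_mulVec x (Pi.single j 1)
    rw [hxα, Matrix.mulVec_smul] at h1
    calc ((x⁻¹ : GL ι F) : Matrix ι ι F) *ᵥ Pi.single j 1
        = α⁻¹ • (α • ((x⁻¹ : GL ι F) : Matrix ι ι F) *ᵥ Pi.single j 1) := by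
          rw [smul_smul, inv_mul_cancel₀ hα, one_smul]
      _ = α⁻¹ • Pi.single j 1 := by rw [h1]
  have step1 : ∀ i, i ≠ j → ∀ m, α⁻¹ * (x : Matrix ι ι F) i m ∈ F₀ := by
    intro i hij m
    have hT : el j i (Ne.symm hij) 1 ∈ M :=
      hM (Subgroup.mem_inf.mpr ⟨el_mem_ratGL F₀ _ _ _ 1 F₀.one_mem, el_mem_specialLinear _ _ _ _⟩)
    let f : Dual F (ι → F) := α⁻¹ • (LinearMap.proj i ∘ₗ Matrix.toLin' (x : Matrix ι ι F))
    have hf : f (Pi.single j 1) = 0 := by
      simp only [f, LinearMap.smul_apply, LinearMap.comp_apply, Matrix.toLin'_apply, hxα]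
      simp [hij]
    have heq : x⁻¹ * el j i (Ne.symm hij) 1 * x = tv f (Pi.single j 1) hf := by
      apply gl_ext; intro z
      rw [gl_mul_mulVec, gl_mul_mulVec, el_mulVec, tv_mulVec, Matrix.mulVec_add, gl_inv_mulVec,
        Matrix.mulVec_smul, hxinv]
      simp [f, smul_smul, mul_comm]
    have h1 := star f hf (heq ▸ M.mul_mem (M.mul_mem (M.inv_mem hx) hT) hx) m
    simpa [f, Matrix.toLin'_apply] using h1
  let c : Dual F (ι → F) :=
    α⁻¹ • (LinearMap.proj j ∘ₗ Matrix.toLin' (x : Matrix ι ι F)) - LinearMap.proj j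
  have hc : c (Pi.single j 1) = 0 := by
    simp only [c, LinearMap.sub_apply, LinearMap.smul_apply, LinearMap.comp_apply,
      Matrix.toLin'_apply, hxα]
    simp [hα]
  have hk : x * (tv c (Pi.single j 1) hc)⁻¹ ∈ ratGL ι F₀ := by
    rw [mem_ratGL_iff]
    refine ⟨α⁻¹, inv_ne_zero hα, fun i m => ?_⟩
    rw [← gl_apply, gl_mul_mulVec, tv_inv, tv_mulVec, Matrix.mulVec_add, Matrix.mulVec_smul,
      Matrix.mulVec_neg, hxα]
    by_cases hij : i = j
    · subst hij
      have : α⁻¹ * ((x : Matrix ι ι F) *ᵥ Pi.single m 1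
          + c (Pi.single m 1) • -(α • Pi.single i 1) : ι → F) i = (Pi.single m 1 : ι → F) i := by
        simp only [c, LinearMap.sub_apply, LinearMap.smul_apply, LinearMap.comp_apply,
          Matrix.toLin'_apply]
        simp
        field_simp
        ring
      rw [this]
      exact single_mem F₀ _ _
    · have : α⁻¹ * ((x : Matrix ι ι F) *ᵥ Pi.single m 1
          + c (Pi.single m 1) • -(α • Pi.single j 1) : ι → F) i = α⁻¹ * (x : Matrix ι ι F) i m := by
        simp [hij]
      rw [this]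
      exact step1 i hij m
  have hkM : x * (tv c (Pi.single j 1) hc)⁻¹ ∈ M := by
    apply hM
    refine Subgroup.mem_inf.mpr ⟨hk, ?_⟩
    exact Subgroup.mul_mem _ (hMS hx) (Subgroup.inv_mem _ (tv_mem_specialLinear _ _ _))
  have hTM : tv c (Pi.single j 1) hc ∈ M := by
    have : tv c (Pi.single j 1) hc = (x * (tv c (Pi.single j 1) hc)⁻¹)⁻¹ * x := by group
    rw [this]
    exact M.mul_mem (M.inv_mem hkM) hx
  have hTr : tv c (Pi.single j 1) hc ∈ ratGL ι F₀ :=
    tv_mem_ratGL F₀ _ _ _ (star c hc hTM) (single_mem F₀ j)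
  have : x = (x * (tv c (Pi.single j 1) hc)⁻¹) * tv c (Pi.single j 1) hc := by group
  rw [this]
  exact Subgroup.mul_mem _ hk hTr

/-- B2 -/
theorem exists_irrational_ratio
    (hM : ratGL ι F₀ ⊓ Cfsg.Geo.specialLinear ι F ≤ M) (hMS : M ≤ Cfsg.Geo.specialLinear ι F)
    (i₀ : ι)
    (star : ∀ (f : Dual F (ι → F)) (h : f (Pi.single i₀ 1) = 0), tv f (Pi.single i₀ 1) h ∈ M →
      ∀ k, f (Pi.single k 1) ∈ F₀)
    (g : GL ι F) (hg : g ∈ M) (hgr : g ∉ ratGL ι F₀) :
    ∃ i k, ((g : Matrix ι ι F) *ᵥ Pi.single i₀ 1) k ≠ 0 ∧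
      ((g : Matrix ι ι F) *ᵥ Pi.single i₀ 1) i / ((g : Matrix ι ι F) *ᵥ Pi.single i₀ 1) k ∉ F₀ := by
  by_contra hcon
  push Not at hcon
  set w : ι → F := (g : Matrix ι ι F) *ᵥ Pi.single i₀ 1 with hw
  have hw0 : ∃ k, w k ≠ 0 := by
    by_contra h
    push Not at h
    have h0 : w = 0 := funext h
    have h1 := gl_inv_mulVec g (Pi.single i₀ 1)
    rw [← hw, h0, Matrix.mulVec_zero] at h1
    have h2 := congrFun h1 i₀
    simp at h2
  obtain ⟨k, hk⟩ := hw0
  apply hgr
  by_cases hcase : ∃ m, m ≠ i₀ ∧ w m ≠ 0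
  · obtain ⟨m, hm, hwm⟩ := hcase
    let v₀ : ι → F := (w k)⁻¹ • w
    have hv₀ : ∀ i, v₀ i ∈ F₀ := fun i => by
      have h1 := hcon i k hk
      rw [div_eq_inv_mul] at h1
      exact h1
    have hv₀m : v₀ m ≠ 0 := mul_ne_zero (inv_ne_zero hk) hwm
    let b : Dual F (ι → F) := LinearMap.proj i₀ + ((1 - v₀ i₀) / v₀ m) • LinearMap.proj m
    have hb1 : b (Pi.single i₀ 1) = 1 := by simp [b, hm]
    have hb2 : b v₀ = 1 := by
      simp only [b, LinearMap.add_apply, LinearMap.smul_apply, LinearMap.proj_apply, smul_eq_mul]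
      field_simp
      ring
    have hb : b (v₀ - Pi.single i₀ 1) = 0 := by rw [map_sub, hb1, hb2, sub_self]
    have hhr : tv b (v₀ - Pi.single i₀ 1) hb ∈ ratGL ι F₀ := by
      apply tv_mem_ratGL
      · intro t
        simp only [b, LinearMap.add_apply, LinearMap.smul_apply, LinearMap.proj_apply, smul_eq_mul]
        exact F₀.add_mem (single_mem F₀ _ _) (F₀.mul_mem
          (F₀.div_mem (F₀.sub_mem F₀.one_mem (hv₀ _)) (hv₀ _)) (single_mem F₀ _ _))
      · intro t
        exact F₀.sub_mem (hv₀ t) (single_mem F₀ _ _)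
    have hhM : tv b (v₀ - Pi.single i₀ 1) hb ∈ M :=
      hM (Subgroup.mem_inf.mpr ⟨hhr, tv_mem_specialLinear _ _ _⟩)
    have hhe : (tv b (v₀ - Pi.single i₀ 1) hb : Matrix ι ι F) *ᵥ Pi.single i₀ 1 = v₀ := by
      rw [tv_mulVec, hb1, one_smul]; abel
    have hfix : (((tv b (v₀ - Pi.single i₀ 1) hb)⁻¹ * g : GL ι F) : Matrix ι ι F) *ᵥ Pi.single i₀ 1
        = (w k) • Pi.single i₀ 1 := by
      rw [gl_mul_mulVec, ← hw]
      have h1 : w = (w k) • v₀ := by
        simp only [v₀]
        rw [smul_smul, mul_inv_cancel₀ hk, one_smul]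
      have hinv := gl_inv_mulVec (tv b (v₀ - Pi.single i₀ 1) hb) (Pi.single i₀ 1)
      rw [hhe] at hinv
      have h5 := congrArg
        (fun z => (((tv b (v₀ - Pi.single i₀ 1) hb)⁻¹ : GL ι F) : Matrix ι ι F) *ᵥ z) h1
      rw [h5, Matrix.mulVec_smul, hinv]
    have h3 := mem_ratGL_of_fix F₀ M hM hMS i₀ star _ (M.mul_mem (M.inv_mem hhM) hg) _ hfix
    have h4 : g = tv b (v₀ - Pi.single i₀ 1) hb * ((tv b (v₀ - Pi.single i₀ 1) hb)⁻¹ * g) := by
      group
    rw [h4]
    exact Subgroup.mul_mem _ hhr h3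
  · push Not at hcase
    apply mem_ratGL_of_fix F₀ M hM hMS i₀ star g hg (w i₀)
    rw [← hw]
    ext t
    by_cases ht : t = i₀
    · subst ht; simp
    · rw [hcase t ht]; simp [ht]

/-- The subgroup of the elements `x` of `M` with `x y - y ∈ U` for all `y`. -/
def resid (M : Subgroup (GL ι F)) (U : Submodule F (ι → F)) : Subgroup (GL ι F) where
  carrier := {x | x ∈ M ∧ ∀ y, (x : Matrix ι ι F) *ᵥ y - y ∈ U}
  mul_mem' := by
    rintro a b ⟨ha, ha'⟩ ⟨hb, hb'⟩
    refine ⟨M.mul_mem ha hb, fun y => ?_⟩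
    rw [gl_mul_mulVec]
    have := U.add_mem (ha' ((b : Matrix ι ι F) *ᵥ y)) (hb' y)
    convert this using 1; abel
  one_mem' := ⟨M.one_mem, fun y => by simp⟩
  inv_mem' := by
    rintro a ⟨ha, ha'⟩
    refine ⟨M.inv_mem ha, fun y => ?_⟩
    have := U.neg_mem (ha' (((a⁻¹ : GL ι F) : Matrix ι ι F) *ᵥ y))
    rw [gl_mulVec_inv] at this
    convert this using 1; abel

theorem mem_resid (U : Submodule F (ι → F)) (x : GL ι F) :
    x ∈ resid M U ↔ x ∈ M ∧ ∀ y, (x : Matrix ι ι F) *ᵥ y - y ∈ U := Iff.rfl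

theorem exists_tv_of_resid (hMS : M ≤ Cfsg.Geo.specialLinear ι F) (j : ι) (x : GL ι F)
    (hx : x ∈ resid M (Submodule.span F {Pi.single j 1})) :
    ∃ (f : Dual F (ι → F)) (h : f (Pi.single j 1) = 0), x = tv f (Pi.single j 1) h := by
  obtain ⟨hxM, hx'⟩ := hx
  let f : Dual F (ι → F) := LinearMap.proj j ∘ₗ (Matrix.toLin' (x : Matrix ι ι F) - LinearMap.id)
  have hxf : ∀ y, (x : Matrix ι ι F) *ᵥ y = y + f y • Pi.single j 1 := by
    intro y
    obtain ⟨t, ht⟩ := Submodule.mem_span_singleton.mp (hx' y)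
    have h1 : f y = t := by
      simp only [f, LinearMap.comp_apply, LinearMap.sub_apply, Matrix.toLin'_apply,
        LinearMap.id_apply]
      rw [← ht]; simp
    rw [h1, ht]; abel
  have hdet : (x : Matrix ι ι F).det = 1 + f (Pi.single j 1) := by
    have h1 : (x : Matrix ι ι F) = LinearMap.toMatrix' (LinearMap.transvection f (Pi.single j 1)) := by
      apply Matrix.ext_of_mulVec_single
      intro i
      rw [hxf, LinearMap.toMatrix'_mulVec]
      rfl
    rw [h1, LinearMap.det_toMatrix', LinearMap.transvection.det]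
  have h0 : f (Pi.single j 1) = 0 := by
    have h1 := (mem_specialLinear_iff x).mp (hMS hxM)
    rw [hdet] at h1
    simpa using h1
  exact ⟨f, h0, gl_ext fun y => by rw [hxf, tv_mulVec]⟩

theorem tv_pow_mulVec (f : Dual F (ι → F)) (v : ι → F) (h : f v = 0) (k : ℕ) (x : ι → F) :
    ((tv f v h ^ k : GL ι F) : Matrix ι ι F) *ᵥ x = x + ((k : F) * f x) • v := by
  induction k generalizing x with
  | zero => simp
  | succ k ih =>
    rw [pow_succ, gl_mul_mulVec, tv_mulVec, ih, map_add, map_smul, h, smul_zero, add_zero]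
    push_cast
    module

/-- B3 -/
theorem mem_ratGL_of_star [Finite F] (hι : 5 ≤ Fintype.card ι)
    (hM : ratGL ι F₀ ⊓ Cfsg.Geo.specialLinear ι F ≤ M) (hMS : M ≤ Cfsg.Geo.specialLinear ι F)
    (star : ∀ (j : ι) (f : Dual F (ι → F)) (h : f (Pi.single j 1) = 0),
      tv f (Pi.single j 1) h ∈ M → ∀ k, f (Pi.single k 1) ∈ F₀)
    (g : GL ι F) (hg : g ∈ M) : g ∈ ratGL ι F₀ := by
  by_contra hgr
  have hne : Nonempty ι := by
    rw [← Fintype.card_pos_iff]; omega
  obtain ⟨i₀⟩ := hne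
  obtain ⟨l₀, hl₀, -⟩ := exists_fresh2 (by omega) i₀ i₀
  obtain ⟨i, k, hk, hik⟩ := exists_irrational_ratio F₀ M hM hMS i₀ (star i₀) g hg hgr
  set w : ι → F := (g : Matrix ι ι F) *ᵥ Pi.single i₀ 1 with hw
  obtain ⟨j, hji, hjk⟩ := exists_fresh2 (by omega) i k
  obtain ⟨p, hp⟩ := CharP.exists F
  have hpp : Fact p.Prime := ⟨CharP.char_is_prime F p⟩
  have rat : ∀ (i m : ι) (h : i ≠ m), el i m h 1 ∈ M := fun i m h =>
    hM (Subgroup.mem_inf.mpr ⟨el_mem_ratGL F₀ i m h 1 F₀.one_mem, el_mem_specialLinear _ _ _ _⟩)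
  have hEL : resid M (Submodule.span F {Pi.single j 1}) ≤
      resid M (Submodule.span F {Pi.single j 1, w}) := by
    rintro x ⟨hx, hx'⟩
    refine ⟨hx, fun y => ?_⟩
    exact Submodule.span_mono (by simp) (hx' y)
  have ratio : ∀ B c' : F, c' ≠ 0 → c' * (B * w i) ∈ F₀ → c' * (B * w k) ∈ F₀ → B = 0 := by
    intro B c' hc' h1 h2
    by_contra hB
    apply hik
    have : w i / w k = (c' * (B * w i)) / (c' * (B * w k)) := by
      field_simp
    rw [this]
    exact F₀.div_mem h1 h2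
  have key : resid M (Submodule.span F {Pi.single j 1, w}) ≤
      resid M (Submodule.span F {Pi.single j 1}) := by
    apply tame p _ _ hEL
    · intro a ha
      obtain ⟨f, h, rfl⟩ := exists_tv_of_resid M hMS j a ha
      apply gl_ext
      intro x
      rw [tv_pow_mulVec, CharP.cast_eq_zero F p]
      simp
    · intro a ha b hb
      obtain ⟨f, h, rfl⟩ := exists_tv_of_resid M hMS j a ha
      obtain ⟨f', h', rfl⟩ := exists_tv_of_resid M hMS j b hb
      apply gl_ext
      intro x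
      simp only [gl_mul_mulVec, tv_mulVec, map_add, map_smul, h, h', smul_zero, add_zero]
      abel
    · obtain ⟨l, hl, -⟩ := exists_fresh2 (by omega) j j
      obtain ⟨l', hl'j, hl'l⟩ := exists_fresh2 (by omega) j l
      have memE : ∀ (m : ι) (h : j ≠ m), el j m h 1 ∈ resid M (Submodule.span F {Pi.single j 1}) := by
        intro m h
        refine ⟨rat _ _ _, fun y => ?_⟩
        rw [el_mulVec, add_sub_cancel_left]
        exact Submodule.smul_mem _ _ (Submodule.subset_span rfl)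
      refine ⟨el j l (Ne.symm hl) 1, memE _ _, el j l' (Ne.symm hl'j) 1, memE _ _, ?_, ?_⟩
      · intro h1
        have h2 := congrArg (fun z : GL ι F => ((z : Matrix ι ι F) *ᵥ Pi.single l 1) j) h1
        simp only [el_mulVec] at h2
        simp [hl.symm] at h2
      · intro hmem
        obtain ⟨z, hz⟩ := Subgroup.mem_zpowers_iff.mp hmem
        have fixn : ∀ n : ℕ, ((el j l (Ne.symm hl) 1 ^ n : GL ι F) : Matrix ι ι F) *ᵥ
            Pi.single l' 1 = Pi.single l' 1 := by
          intro n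
          rw [el, tv_pow_mulVec]
          simp [hl'l.symm]
        have fixz : ((el j l (Ne.symm hl) 1 ^ z : GL ι F) : Matrix ι ι F) *ᵥ
            Pi.single l' 1 = Pi.single l' 1 := by
          cases z with
          | ofNat n => rw [Int.ofNat_eq_natCast, zpow_natCast]; exact fixn n
          | negSucc n =>
            rw [zpow_negSucc]
            have h3 := gl_inv_mulVec ((el j l (Ne.symm hl) 1 : GL ι F) ^ (n + 1))
              (Pi.single l' (1 : F))
            rwa [fixn] at h3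
        rw [hz, el_mulVec] at fixz
        have h2 := congrFun fixz j
        simp [hl'j.symm] at h2
    · intro x hx a ha ha1 hxa
      obtain ⟨f, h, rfl⟩ := exists_tv_of_resid M hMS j a ha
      have hf : ∃ z, f z ≠ 0 := by
        by_contra hcon
        push Not at hcon
        apply ha1
        apply gl_ext
        intro y
        rw [tv_mulVec, hcon]
        simp
      obtain ⟨z, hz⟩ := hf
      have h1 := hxa.2 ((x : Matrix ι ι F) *ᵥ z)
      rw [gl_mul_mulVec, gl_mul_mulVec, gl_inv_mulVec, tv_mulVec, Matrix.mulVec_add,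
        add_sub_cancel_left, Matrix.mulVec_smul] at h1
      have h2 : (x : Matrix ι ι F) *ᵥ Pi.single j 1 ∈ Submodule.span F {(Pi.single j 1 : ι → F)} := by
        have h3 := Submodule.smul_mem _ (f z)⁻¹ h1
        rwa [smul_smul, inv_mul_cancel₀ hz, one_smul] at h3
      obtain ⟨α, hα⟩ := Submodule.mem_span_singleton.mp h2
      have hxr := mem_ratGL_of_fix F₀ M hM hMS j (star j) x hx.1 α hα.symm
      obtain ⟨c, hc0, hc⟩ := (mem_ratGL_iff F₀ x).mp hxr
      have dec : ∀ m, ∃ A B : F, (x : Matrix ι ι F) *ᵥ Pi.single m 1 - Pi.single m 1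
          = A • Pi.single j 1 + B • w := fun m => by
        obtain ⟨A, B, h⟩ := Submodule.mem_span_pair.mp (hx.2 (Pi.single m 1))
        exact ⟨A, B, h.symm⟩
      have entry : ∀ (m : ι) (A B : F), (x : Matrix ι ι F) *ᵥ Pi.single m 1 - Pi.single m 1
          = A • Pi.single j 1 + B • w → ∀ t, t ≠ j →
          (x : Matrix ι ι F) t m = (Pi.single m 1 : ι → F) t + B * w t := by
        intro m A B h t ht
        have h3 := congrFun h t
        simp only [Pi.sub_apply, Pi.add_apply, Pi.smul_apply, smul_eq_mul, gl_apply,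
          Pi.single_eq_of_ne ht, mul_zero, zero_add] at h3
        linear_combination h3
      obtain ⟨l, hli, hlj, hlk⟩ := exists_fresh3 (by omega) i j k
      have hcF : c ∈ F₀ := by
        obtain ⟨A, B, hAB⟩ := dec l
        have hB : B = 0 := by
          apply ratio B c hc0
          · have h3 := hc i l
            rw [entry l A B hAB i (Ne.symm hji), Pi.single_eq_of_ne (Ne.symm hli), zero_add] at h3
            exact h3
          · have h3 := hc k l
            rw [entry l A B hAB k (Ne.symm hjk), Pi.single_eq_of_ne (Ne.symm hlk), zero_add] at h3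
            exact h3
        have h3 := hc l l
        rw [entry l A B hAB l hlj, hB] at h3
        simpa using h3
      have hxF : ∀ t m, (x : Matrix ι ι F) t m ∈ F₀ := by
        intro t m
        have h3 := F₀.mul_mem (F₀.inv_mem hcF) (hc t m)
        rwa [inv_mul_cancel_left₀ hc0] at h3
      have hBall : ∀ m, (x : Matrix ι ι F) *ᵥ Pi.single m 1 - Pi.single m 1 ∈
          Submodule.span F {(Pi.single j 1 : ι → F)} := by
        intro m
        obtain ⟨A, B, hAB⟩ := dec m
        have hB : B = 0 := by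
          apply ratio B 1 one_ne_zero
          · rw [one_mul]
            have h3 := entry m A B hAB i (Ne.symm hji)
            have h4 : B * w i = (x : Matrix ι ι F) i m - (Pi.single m 1 : ι → F) i := by
              rw [h3]; ring
            rw [h4]
            exact F₀.sub_mem (hxF _ _) (single_mem F₀ _ _)
          · rw [one_mul]
            have h3 := entry m A B hAB k (Ne.symm hjk)
            have h4 : B * w k = (x : Matrix ι ι F) k m - (Pi.single m 1 : ι → F) k := by
              rw [h3]; ring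
            rw [h4]
            exact F₀.sub_mem (hxF _ _) (single_mem F₀ _ _)
        rw [hAB, hB, zero_smul, add_zero]
        exact Submodule.smul_mem _ _ (Submodule.subset_span rfl)
      refine ⟨hx.1, fun y => ?_⟩
      let N : (ι → F) →ₗ[F] (ι → F) := Matrix.toLin' (x : Matrix ι ι F) - LinearMap.id
      have htop : (⊤ : Submodule F (ι → F)) ≤
          (Submodule.span F {(Pi.single j 1 : ι → F)}).comap N := by
        rw [← (Pi.basisFun F ι).span_eq, Submodule.span_le]
        rintro _ ⟨m, rfl⟩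
        have := hBall m
        simpa [N] using this
      have h5 := htop (Submodule.mem_top : y ∈ ⊤)
      simpa [N] using h5
  have hy : g * el i₀ l₀ (Ne.symm hl₀) 1 * g⁻¹ ∈ resid M (Submodule.span F {Pi.single j 1, w}) := by
    refine ⟨M.mul_mem (M.mul_mem hg (rat _ _ _)) (M.inv_mem hg), fun y => ?_⟩
    rw [gl_mul_mulVec, gl_mul_mulVec, el_mulVec, Matrix.mulVec_add, gl_mulVec_inv,
      add_sub_cancel_left, Matrix.mulVec_smul, ← hw]
    exact Submodule.smul_mem _ _ (Submodule.subset_span (by simp))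
  have h2 := (key hy).2 ((g : Matrix ι ι F) *ᵥ Pi.single l₀ 1)
  rw [gl_mul_mulVec, gl_mul_mulVec, gl_inv_mulVec, el_mulVec, Matrix.mulVec_add,
    add_sub_cancel_left, Matrix.mulVec_smul, ← hw] at h2
  simp only [Pi.single_eq_same, mul_one, one_smul] at h2
  obtain ⟨t, ht⟩ := Submodule.mem_span_singleton.mp h2
  apply hk
  rw [← ht]
  simp [hjk.symm]

theorem ratGL_isMaximalIn [Finite F] (hι : 5 ≤ Fintype.card ι)
    (hprime : (Module.finrank F₀ F).Prime) :
    Cfsg.Geo.IsMaximalIn (Cfsg.Geo.specialLinear ι F)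
      (ratGL ι F₀ ⊓ Cfsg.Geo.specialLinear ι F) := by
  refine ⟨lt_of_le_of_ne inf_le_right ?_, ?_⟩
  · intro heq
    have hs := Subalgebra.isSimpleOrder_of_finrank_prime F₀ F hprime
    have hex : ∃ a : F, a ∉ F₀ := by
      by_contra hcon
      push Not at hcon
      apply bot_ne_top (α := Subalgebra F₀ F)
      symm
      rw [eq_bot_iff]
      intro a _
      rw [Algebra.mem_bot]
      exact ⟨⟨a, hcon a⟩, rfl⟩
    obtain ⟨a, ha⟩ := hex
    have hne : Nonempty ι := by
      rw [← Fintype.card_pos_iff]; omega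
    obtain ⟨j⟩ := hne
    obtain ⟨l, hl, -⟩ := exists_fresh2 (by omega) j j
    obtain ⟨t, htj, htl⟩ := exists_fresh2 (by omega) j l
    have h1 : el j l (Ne.symm hl) a ∈ ratGL ι F₀ ⊓ Cfsg.Geo.specialLinear ι F := by
      rw [heq]; exact el_mem_specialLinear _ _ _ _
    obtain ⟨c, hc0, hc⟩ := (mem_ratGL_iff F₀ _).mp (Subgroup.mem_inf.mp h1).1
    have h2 := hc t t
    have h3 := hc j l
    rw [el, tv_apply] at h2 h3
    simp [htj, htl, hl.symm] at h2 h3
    apply ha
    have h4 := F₀.mul_mem (F₀.inv_mem h2) h3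
    rwa [inv_mul_cancel_left₀ hc0] at h4
  · intro M' hHM hMS
    by_cases hSL : Cfsg.Geo.specialLinear ι F ≤ M'
    · right; exact le_antisymm hMS hSL
    · left
      apply le_antisymm _ hHM
      intro g hg
      refine Subgroup.mem_inf.mpr ⟨mem_ratGL_of_star F₀ M' hι hHM hMS ?_ g hg, hMS hg⟩
      intro j f h hmem k
      by_contra hk
      exact hSL (sl_le_of_tv F₀ M' (by omega) hprime hHM j f h hmem k hk)

end main

end Cfsg.Agent.Lib.Helper29
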