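import Mathlib
import Cfsg.Agent.Lib.Helper29.OmRat6
import Cfsg.Agent.Lib.Helper29.OmBridge
import Cfsg.Agent.Lib.Helper29.SubfieldSL

/-!
Maximality of the subfield subgroups of `Ω(Q)`.
-/

set_option autoImplicit false
set_option linter.unusedSectionVars false

namespace Cfsg.Agent.Lib.Helper29

open Matrix QuadraticMap Module Cfsg.Agent.Lib.Helper15

variable {ι : Type} [Fintype ι] [DecidableEq ι] {F : Type*} [Field F] {Q : QuadraticForm F (ι → F)}
  {F₀ : Subfield F}

/-- the embedding of the rational vectors attached to `P` -/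
def ratEmb (F₀ : Subfield F) (P : GL ι F) (x : ι → F₀) : ι → F := (P : Matrix ι ι F) *ᵥ (fun i => (x i : F))

theorem ratEmb_add (P : GL ι F) (x y : ι → F₀) : ratEmb F₀ P (x + y) = ratEmb F₀ P x + ratEmb F₀ P y := by
  unfold ratEmb
  rw [← Matrix.mulVec_add]
  congr 1

theorem ratEmb_smul (P : GL ι F) (c : F₀) (x : ι → F₀) : ratEmb F₀ P (c • x) = (c : F) • ratEmb F₀ P x := by
  unfold ratEmb
  rw [← Matrix.mulVec_smul]
  congr 1

theorem ratEmb_eq_zero (P : GL ι F) {x : ι → F₀} (h : ratEmb F₀ P x = 0) : x = 0 := by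
  unfold ratEmb at h
  have h1 := congrArg (fun v => ((P⁻¹ : GL ι F) : Matrix ι ι F) *ᵥ v) h
  simp only [Matrix.mulVec_mulVec, ← Units.val_mul, inv_mul_cancel, Units.val_one, Matrix.one_mulVec,
    Matrix.mulVec_zero] at h1
  funext i
  have := congrFun h1 i
  apply Subtype.ext
  simpa using this

theorem span_ratEmb (P : GL ι F) : Submodule.span F (Set.range (ratEmb F₀ P)) = ⊤ := by
  rw [eq_top_iff]
  intro v _
  set w := ((P⁻¹ : GL ι F) : Matrix ι ι F) *ᵥ v with hw
  have h1 : v = (P : Matrix ι ι F) *ᵥ w := by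
    rw [hw, Matrix.mulVec_mulVec, ← Units.val_mul, mul_inv_cancel, Units.val_one, Matrix.one_mulVec]
  have h2 : w = ∑ i, w i • (Pi.single i 1 : ι → F) := by
    funext j
    simp [Finset.sum_apply, Pi.single_apply]
  have h3 : ∀ i, (P : Matrix ι ι F) *ᵥ (Pi.single i 1 : ι → F) = ratEmb F₀ P (Pi.single i 1) := by
    intro i
    unfold ratEmb
    congr 1
    funext j
    by_cases hij : j = i
    · subst hij; simp
    · simp [Pi.single_eq_of_ne hij]
  rw [h1, h2, Matrix.mulVec_sum]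
  apply Submodule.sum_mem
  intro i _
  rw [Matrix.mulVec_smul, h3]
  exact Submodule.smul_mem _ _ (Submodule.subset_span ⟨_, rfl⟩)

theorem polar_ratEmb_mem (P : GL ι F) (hP : ∀ x : ι → F₀, Q (ratEmb F₀ P x) ∈ F₀) (x y : ι → F₀) :
    polar Q (ratEmb F₀ P x) (ratEmb F₀ P y) ∈ F₀ := by
  unfold polar
  rw [← ratEmb_add]
  exact F₀.sub_mem (F₀.sub_mem (hP _) (hP _)) (hP _)

/-- the restriction of `Q` to the rational vectors -/
def ratQ (Q : QuadraticForm F (ι → F)) (P : GL ι F) (hP : ∀ x : ι → F₀, Q (ratEmb F₀ P x) ∈ F₀) :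
    QuadraticForm F₀ (ι → F₀) where
  toFun := fun x => ⟨Q (ratEmb F₀ P x), hP x⟩
  toFun_smul := fun a x => by
    apply Subtype.ext
    simp only [ratEmb_smul, QuadraticMap.map_smul]
    rfl
  exists_companion' := by
    refine ⟨LinearMap.mk₂ F₀ (fun x y => ⟨polar Q (ratEmb F₀ P x) (ratEmb F₀ P y), polar_ratEmb_mem P hP x y⟩)
      ?_ ?_ ?_ ?_, ?_⟩
    · intro a b c
      apply Subtype.ext
      simp only [ratEmb_add, polar_add_left]
      rfl
    · intro c a b
      apply Subtype.ext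
      simp only [ratEmb_smul, polar_smul_left]
      rfl
    · intro a b c
      apply Subtype.ext
      simp only [ratEmb_add, polar_add_right]
      rfl
    · intro c a b
      apply Subtype.ext
      simp only [ratEmb_smul, polar_smul_right]
      rfl
    · intro x y
      apply Subtype.ext
      simp only [LinearMap.mk₂_apply, ratEmb_add]
      show Q (ratEmb F₀ P x + ratEmb F₀ P y) = Q (ratEmb F₀ P x) + Q (ratEmb F₀ P y)
        + polar Q (ratEmb F₀ P x) (ratEmb F₀ P y)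
      unfold polar
      ring

theorem ratQ_apply (P : GL ι F) (hP : ∀ x : ι → F₀, Q (ratEmb F₀ P x) ∈ F₀) (x : ι → F₀) :
    ((ratQ Q P hP x : F₀) : F) = Q (ratEmb F₀ P x) := rfl

theorem ratS (hQ : (polarBilin Q).Nondegenerate) (P : GL ι F) (hP : ∀ x : ι → F₀, Q (ratEmb F₀ P x) ∈ F₀) :
    RatS Q (ratQ Q P hP) (ratEmb F₀ P) where
  e_add := ratEmb_add P
  e_smul := ratEmb_smul P
  Q_e := fun x => rfl
  span := span_ratEmb P
  nd := hQ
  nd₀ := by
    apply nondegenerate_of_left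
    intro x hx
    apply ratEmb_eq_zero P
    apply hQ.1
    intro w
    show polar Q (ratEmb F₀ P x) w = 0
    have hw : w ∈ Submodule.span F (Set.range (ratEmb F₀ P)) := by rw [span_ratEmb]; trivial
    induction hw using Submodule.span_induction with
    | mem v hv =>
      obtain ⟨y, rfl⟩ := hv
      have h1 := hx y
      have h2 : ((polar (ratQ Q P hP) x y : F₀) : F) = polar Q (ratEmb F₀ P x) (ratEmb F₀ P y) := by
        unfold polar
        push_cast
        rw [ratQ_apply, ratQ_apply, ratQ_apply, ratEmb_add]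
      rw [← h2, h1]; rfl
    | zero => simp
    | add a b _ _ ha hb => rw [polar_add_right, ha, hb, add_zero]
    | smul c a _ ha => rw [polar_smul_right, ha, smul_zero]

theorem mem_subfieldSubgroup_iff (P g : GL ι F) :
    g ∈ Cfsg.Geo.subfieldSubgroup F₀ P ↔ P⁻¹ * g * P ∈ ratGL ι F₀ := by
  unfold Cfsg.Geo.subfieldSubgroup
  rw [Subgroup.mem_map]
  constructor
  · rintro ⟨y, hy, rfl⟩
    have : P⁻¹ * ((MulAut.conj P).toMonoidHom y) * P = y := by
      show P⁻¹ * (P * y * P⁻¹) * P = y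
      group
    rw [this]; exact hy
  · intro h
    refine ⟨_, h, ?_⟩
    show P * (P⁻¹ * g * P) * P⁻¹ = g
    group

theorem mem_subfieldSubgroup_of_om (P g : GL ι F) {c : F} (hc : c ≠ 0)
    (h : ∀ x : ι → F₀, ∃ x', (g : Matrix ι ι F) *ᵥ ratEmb F₀ P x = c • ratEmb F₀ P x') :
    g ∈ Cfsg.Geo.subfieldSubgroup F₀ P := by
  rw [mem_subfieldSubgroup_iff, mem_ratGL_iff]
  refine ⟨c⁻¹, inv_ne_zero hc, fun i j => ?_⟩
  obtain ⟨x', hx'⟩ := h (Pi.single j 1)
  have h3 : (fun k => (((Pi.single j 1 : ι → F₀) k : F₀) : F)) = (Pi.single j 1 : ι → F) := by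
    funext k
    by_cases hij : k = j
    · subst hij; simp
    · simp [Pi.single_eq_of_ne hij]
  have h4 : ((P⁻¹ * g * P : GL ι F) : Matrix ι ι F) *ᵥ (Pi.single j 1 : ι → F) = c • (fun k => (x' k : F)) := by
    rw [Units.val_mul, Units.val_mul, ← Matrix.mulVec_mulVec, ← Matrix.mulVec_mulVec]
    have : (P : Matrix ι ι F) *ᵥ (Pi.single j 1 : ι → F) = ratEmb F₀ P (Pi.single j 1) := by
      unfold ratEmb; rw [h3]
    rw [this, hx']
    unfold ratEmb
    rw [Matrix.mulVec_smul, Matrix.mulVec_mulVec, ← Units.val_mul, inv_mul_cancel, Units.val_one,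
      Matrix.one_mulVec]
  have h5 := congrFun h4 i
  rw [gl_apply] at h5
  rw [h5]
  simp only [Pi.smul_apply, smul_eq_mul]
  rw [inv_mul_cancel_left₀ hc]
  exact (x' i).2

theorem of_mem_subfieldSubgroup_om (P g : GL ι F) (h : g ∈ Cfsg.Geo.subfieldSubgroup F₀ P) :
    ∃ c : F, c ≠ 0 ∧ ∀ x : ι → F₀, ∃ x', c • ((g : Matrix ι ι F) *ᵥ ratEmb F₀ P x) = ratEmb F₀ P x' := by
  rw [mem_subfieldSubgroup_iff, mem_ratGL_iff] at h
  obtain ⟨c, hc, h⟩ := h
  refine ⟨c, hc, fun x => ?_⟩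
  refine ⟨fun i => ⟨∑ j, c * ((P⁻¹ * g * P : GL ι F) : Matrix ι ι F) i j * (x j : F),
    F₀.sum_mem (fun j _ => F₀.mul_mem (h i j) (x j).2)⟩, ?_⟩
  unfold ratEmb
  have h1 : (fun i => ∑ j, c * ((P⁻¹ * g * P : GL ι F) : Matrix ι ι F) i j * (x j : F))
      = c • (((P⁻¹ * g * P : GL ι F) : Matrix ι ι F) *ᵥ (fun i => (x i : F))) := by
    funext i
    simp only [Pi.smul_apply, smul_eq_mul, Matrix.mulVec, dotProduct, Finset.mul_sum, mul_assoc]
  show _ = (P : Matrix ι ι F) *ᵥ (fun i => ∑ j, c * ((P⁻¹ * g * P : GL ι F) : Matrix ι ι F) i j * (x j : F))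
  rw [h1, Matrix.mulVec_smul, Matrix.mulVec_mulVec, Matrix.mulVec_mulVec, ← Units.val_mul, ← Units.val_mul]
  congr 3
  group

theorem exists_notMem_subfield (hprime : (finrank F₀ F).Prime) : ∃ a : F, a ∉ F₀ := by
  have hs := Subalgebra.isSimpleOrder_of_finrank_prime F₀ F hprime
  by_contra hcon
  push Not at hcon
  apply bot_ne_top (α := Subalgebra F₀ F)
  symm
  rw [eq_bot_iff]
  intro a _
  rw [Algebra.mem_bot]
  exact ⟨⟨a, hcon a⟩, rfl⟩

theorem subfield_isMaximalIn [Fintype F] (hQ : (polarBilin Q).Nondegenerate) (hn : 13 ≤ Fintype.card ι)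
    (hprime : (finrank F₀ F).Prime) (P : GL ι F) (hP : ∀ x : ι → F₀, Q (ratEmb F₀ P x) ∈ F₀) :
    Cfsg.Geo.IsMaximalIn (Cfsg.Geo.omegaGL ⇑Q) (Cfsg.Geo.subfieldSubgroup F₀ P ⊓ Cfsg.Geo.omegaGL ⇑Q) := by
  have S := ratS hQ P hP
  set e := ratEmb F₀ P with he
  set Q₀ := ratQ Q P hP with hQ₀
  apply isMaximalIn_omega_of
  · obtain ⟨a, ha⟩ := exists_notMem_subfield hprime
    obtain ⟨u, c0, -, c2⟩ := S.sing_notMem (Fin.elim0 : Fin 0 → (ι → F₀)) (Fin.elim0 : Fin 0 → (ι → F₀))
      (by omega)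
    have hu0 : u ≠ 0 := by
      rintro rfl
      apply c2
      rw [S.e_zero]; exact Submodule.zero_mem _
    obtain ⟨d, hd⟩ := S.dual0 hu0
    obtain ⟨w, d0, d1, d2⟩ := S.sing_notMem ![u, d] ![u] (by omega)
    have d10 : polar Q₀ u w = 0 := d1 0
    have d11 : polar Q₀ d w = 0 := d1 1
    have hw0 : w ≠ 0 := by
      rintro rfl
      apply d2
      rw [S.e_zero]; exact Submodule.zero_mem _
    have huw : polar Q (e u) (a • e w) = 0 := by rw [polar_smul_right, S.polar_e_zero d10, smul_zero]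
    refine ⟨eich Q (e u) (a • e w) (S.Q_e_zero c0) huw, eich_mem_Omega Q hQ (by omega) _ _ _ _, ?_⟩
    intro hmem
    obtain ⟨c, hc, h⟩ := of_mem_subfieldSubgroup_om P _ hmem
    have hcF : c ∈ F₀ := by
      obtain ⟨x', hx'⟩ := h u
      have h1 : act Q (eich Q (e u) (a • e w) (S.Q_e_zero c0) huw) (e u) = e u := by
        rw [act_eich, polar_self, S.Q_e_zero c0, polar_comm Q _ (e u), huw]; simp
      have h2 : c • e u = e x' := by
        have h5 : c • act Q (eich Q (e u) (a • e w) (S.Q_e_zero c0) huw) (e u) = e x' := hx'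
        rwa [h1] at h5
      apply S.coeff_mem _ h2
      rintro rfl
      rw [S.e_zero] at h2
      rcases smul_eq_zero.mp h2 with h3 | h3
      · exact hc h3
      · exact S.e_ne_zero hu0 h3
    obtain ⟨x', hx'⟩ := h d
    have h1 : act Q (eich Q (e u) (a • e w) (S.Q_e_zero c0) huw) (e d) = e d + a • e w := by
      rw [act_eich, S.polar_e_one hd, polar_smul_left, polar_comm Q (e w), S.polar_e_zero d11,
        QuadraticMap.map_smul, S.Q_e_zero d0]
      simp
    have h2 : c • (e d + a • e w) = e x' := by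
      have h5 : c • act Q (eich Q (e u) (a • e w) (S.Q_e_zero c0) huw) (e d) = e x' := hx'
      rwa [h1] at h5
    have h3 : (c * a) • e w = e (x' - (⟨c, hcF⟩ : F₀) • d) := by
      rw [S.e_sub, S.e_smul, ← h2]
      show _ = c • (e d + a • e w) - c • e d
      module
    have ha0 : a ≠ 0 := by
      rintro rfl
      exact ha F₀.zero_mem
    have h4 : c * a ∈ F₀ := by
      apply S.coeff_mem _ h3
      intro h0
      rw [h0, S.e_zero] at h3
      rcases smul_eq_zero.mp h3 with h5 | h5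
      · exact mul_ne_zero hc ha0 h5
      · exact S.e_ne_zero hw0 h5
    apply ha
    have : a = c⁻¹ * (c * a) := by rw [inv_mul_cancel_left₀ hc]
    rw [this]
    exact F₀.mul_mem (F₀.inv_mem hcF) h4
  · intro M hHM g hgM _ hgH
    apply S.omega_le hn hprime _ hgM
    · rintro ⟨c, hc, h⟩
      exact hgH (mem_subfieldSubgroup_of_om P _ hc h)
    · intro x y hx hxy
      apply hHM _ (eich_mem_Omega Q hQ (by omega) _ _ _ _)
      apply mem_subfieldSubgroup_of_om P _ one_ne_zero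
      intro s
      refine ⟨s + polar Q₀ x s • y - (polar Q₀ y s + Q₀ y * polar Q₀ x s) • x, ?_⟩
      have h1 := act_eich Q (e x) (e y) hx hxy (e s)
      show act Q (eich Q (e x) (e y) hx hxy) (e s)
        = (1 : F) • e (s + polar Q₀ x s • y - (polar Q₀ y s + Q₀ y * polar Q₀ x s) • x)
      rw [one_smul, S.e_sub, S.e_add, S.e_smul, S.e_smul]
      push_cast
      rw [← S.polar_e, ← S.polar_e, ← S.Q_e]
      exact h1

end Cfsg.Agent.Lib.Helper29
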