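import Mathlib
import Cfsg.Agent.Lib.Helper29.OmTS

/-!
An element of `Ω(Q)` interchanging two complementary totally singular subspaces of even dimension.
-/

set_option autoImplicit false

namespace Cfsg.Agent.Lib.Helper29

open Matrix QuadraticMap Module Cfsg.Agent.Lib.Helper15

variable {ι : Type} [Fintype ι] [DecidableEq ι] {F : Type*} [Field F] {Q : QuadraticForm F (ι → F)}

omit [Fintype ι] [DecidableEq ι] in
theorem polar_list_sum_eq_zero (v x : ι → F) (vs : List (ι → F)) (h : ∀ w ∈ vs, polar Q v w = 0) :
    polar Q v (vs.map (fun w => polar Q w x • w)).sum = 0 := by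
  induction vs with
  | nil => simp
  | cons w ws ih =>
    rw [List.map_cons, List.sum_cons, polar_add_right, polar_smul_right, h w List.mem_cons_self,
      ih (fun u hu => h u (List.mem_cons_of_mem _ hu))]
    simp

theorem act_prod_reflT [Fintype F] [DecidableEq F] (vs : List (ι → F)) (hvs : ∀ v ∈ vs, Q v = -1)
    (hp : vs.Pairwise (fun a b => polar Q a b = 0)) (x : ι → F) :
    act Q (vs.map (reflT Q)).prod x = x + (vs.map (fun v => polar Q v x • v)).sum := by
  induction vs with
  | nil => simp [act]
  | cons v vs ih =>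
    rw [List.pairwise_cons] at hp
    have hv : Q v = -1 := hvs v List.mem_cons_self
    have hv0 : Q v ≠ 0 := by rw [hv]; simp
    rw [List.map_cons, List.prod_cons, act_mul, ih (fun w hw => hvs w (List.mem_cons_of_mem _ hw)) hp.2,
      reflT_of Q v hv0, act_refl, hv, polar_add_right, polar_list_sum_eq_zero v x vs hp.1, add_zero,
      List.map_cons, List.sum_cons]
    have : ((-1 : F))⁻¹ = -1 := by norm_num
    rw [this]
    module

theorem prod_reflT_mem_Omega [Fintype F] [DecidableEq F] (hQ : (polarBilin Q).Nondegenerate) (c : F) (hc : c ≠ 0) :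
    ∀ (n : ℕ) (vs : List (ι → F)), vs.length = 2 * n → (∀ v ∈ vs, Q v = c) →
      (vs.map (reflT Q)).prod ∈ Cfsg.Omega F ⇑Q := by
  intro n
  induction n with
  | zero =>
    intro vs hl _
    have : vs = [] := List.length_eq_zero_iff.1 (by simpa using hl)
    rw [this]
    simp
  | succ n ih =>
    intro vs hl hvs
    match vs, hl, hvs with
    | a :: b :: rest, hl, hvs =>
      have ha : Q a = c := hvs a (by simp)
      have hb : Q b = c := hvs b (by simp)
      rw [List.map_cons, List.map_cons, List.prod_cons, List.prod_cons, ← mul_assoc,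
        reflT_of Q a (by rw [ha]; exact hc), reflT_of Q b (by rw [hb]; exact hc)]
      refine Subgroup.mul_mem _ (refl_mul_refl_mem Q hQ a b _ _ (by rw [ha, hb])) (ih rest ?_ ?_)
      · simp only [List.length_cons] at hl
        omega
      · intro v hv
        exact hvs v (by simp [hv])

namespace OTS

variable {W W' : Submodule F (ι → F)}

theorem exists_swap [Fintype F] (P : OTS Q W W') (hQ : (polarBilin Q).Nondegenerate)
    (heven : Even (finrank F W)) :
    ∃ s ∈ Cfsg.Omega F ⇑Q, (∀ w ∈ W, act Q s w ∈ W') ∧ (∀ w ∈ W', act Q s w ∈ W) := by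
  classical
  set k := finrank F W with hk
  let b : Basis (Fin k) F W := Module.finBasis F W
  let e : Fin k → (ι → F) := fun i => (b i : ι → F)
  have heW : ∀ i, e i ∈ W := fun i => (b i).2
  have hli : LinearIndependent F e := b.linearIndependent.map' W.subtype (Submodule.ker_subtype W)
  have hdual : ∀ j, ∃ f ∈ W', (∀ i, i ≠ j → polar Q (e i) f = 0) ∧ polar Q f (e j) = 1 := by
    intro j
    obtain ⟨f, hf, h1, h2⟩ := P.exists_dual hQ (Submodule.span F (e '' (Set.univ \ {j}))) (by
      rw [Submodule.span_le]
      rintro _ ⟨i, -, rfl⟩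
      exact heW i) (heW j) (linearIndependent_iff_notMem_span.1 hli j)
    refine ⟨f, hf, fun i hij => ?_, h2⟩
    exact h1 _ (Submodule.subset_span ⟨i, by simp [hij], rfl⟩)
  choose f hfW' hf1 hf2 using hdual
  have hef : ∀ i j, polar Q (e i) (f j) = if i = j then 1 else 0 := by
    intro i j
    by_cases hij : i = j
    · subst hij
      rw [polar_comm, hf2, if_pos rfl]
    · rw [hf1 j i hij, if_neg hij]
  have hrepr : ∀ w ∈ W, w = ∑ i, polar Q (f i) w • e i := by
    intro w hw
    have h1 : w = ∑ i, (b.repr ⟨w, hw⟩ i) • e i := by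
      have := congrArg Subtype.val (b.sum_repr ⟨w, hw⟩)
      simp only [Submodule.coe_sum, Submodule.coe_smul] at this
      exact this.symm
    have h2 : ∀ j, polar Q (f j) w = b.repr ⟨w, hw⟩ j := by
      intro j
      have : polar Q (f j) w = polarBilin Q (f j) w := rfl
      rw [this]
      nth_rewrite 1 [h1]
      rw [map_sum, Finset.sum_eq_single j]
      · rw [map_smul]
        show _ • polar Q (f j) (e j) = _
        rw [hf2]; simp
      · intro i _ hij
        rw [map_smul]
        show _ • polar Q (f j) (e i) = _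
        rw [polar_comm, hf1 j i hij, smul_zero]
      · simp
    simp_rw [h2]
    exact h1
  have hrepr' : ∀ w ∈ W', w = ∑ i, polar Q (e i) w • f i := by
    intro w hw
    have hz : w - ∑ i, polar Q (e i) w • f i ∈ W' :=
      W'.sub_mem hw (W'.sum_mem fun i _ => W'.smul_mem _ (hfW' i))
    have hperp : ∀ j, polar Q (e j) (w - ∑ i, polar Q (e i) w • f i) = 0 := by
      intro j
      rw [polar_sub_right]
      have : polar Q (e j) (∑ i, polar Q (e i) w • f i) = polarBilin Q (e j) (∑ i, polar Q (e i) w • f i) := rfl
      rw [this, map_sum, Finset.sum_eq_single j]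
      · rw [map_smul]
        show _ - _ • polar Q (e j) (f j) = _
        rw [hef, if_pos rfl]; simp
      · intro i _ hij
        rw [map_smul]
        show _ • polar Q (e j) (f i) = _
        rw [hef, if_neg (Ne.symm hij), smul_zero]
      · simp
    have hzW : w - ∑ i, polar Q (e i) w • f i ∈ W := by
      apply P.mem_of_perp hQ
      intro w₂ hw₂
      rw [hrepr w₂ hw₂]
      have : ∀ y, polar Q (∑ i, polar Q (f i) w₂ • e i) y = ∑ i, polar Q (f i) w₂ * polar Q (e i) y := by
        intro y
        have e1 : polar Q (∑ i, polar Q (f i) w₂ • e i) y = polarBilin Q y (∑ i, polar Q (f i) w₂ • e i) := by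
          rw [polar_comm]; rfl
        rw [e1, map_sum]
        apply Finset.sum_congr rfl
        intro i _
        rw [map_smul]
        show _ • polar Q y (e i) = _
        rw [polar_comm Q y (e i), smul_eq_mul]
      rw [this]
      apply Finset.sum_eq_zero
      intro i _
      rw [hperp i, mul_zero]
    exact sub_eq_zero.1 (P.disj hQ hzW hz)
  set vs : List (ι → F) := List.ofFn (fun i => e i - f i) with hvs
  have hQv : ∀ v ∈ vs, Q v = -1 := by
    intro v hv
    rw [hvs, List.mem_ofFn] at hv
    obtain ⟨i, rfl⟩ := hv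
    rw [sub_eq_add_neg, QuadraticMap.map_add Q, QuadraticMap.map_neg, P.ts _ (heW i), P.ts' _ (hfW' i),
      polar_neg_right, hef, if_pos rfl]
    ring
  have hpw : vs.Pairwise (fun a b => polar Q a b = 0) := by
    rw [hvs, List.pairwise_ofFn]
    intro i j hij
    have hne : i ≠ j := ne_of_lt hij
    rw [polar_sub_left, polar_sub_right, polar_sub_right, polar_ts P.ts (heW i) (heW j),
      polar_ts P.ts' (hfW' i) (hfW' j), hef, if_neg hne, polar_comm Q (f i) (e j), hef, if_neg (Ne.symm hne)]
    ring
  have hact : ∀ x, act Q (vs.map (reflT Q)).prod x = x + ∑ i, polar Q (e i - f i) x • (e i - f i) := by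
    intro x
    rw [act_prod_reflT vs hQv hpw, hvs, List.map_ofFn, List.sum_ofFn]
    rfl
  obtain ⟨n, hn⟩ := heven
  refine ⟨(vs.map (reflT Q)).prod, prod_reflT_mem_Omega hQ (-1) (by simp) n vs (by
    rw [hvs, List.length_ofFn]; omega) hQv, ?_, ?_⟩
  · intro w hw
    rw [hact]
    have e1 : w + ∑ i, polar Q (e i - f i) w • (e i - f i) = ∑ i, polar Q (f i) w • f i := by
      nth_rewrite 1 [hrepr w hw]
      rw [← Finset.sum_add_distrib]
      apply Finset.sum_congr rfl
      intro i _
      rw [polar_sub_left, polar_ts P.ts (heW i) hw]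
      module
    rw [e1]
    exact W'.sum_mem fun i _ => W'.smul_mem _ (hfW' i)
  · intro w hw
    rw [hact]
    have e1 : w + ∑ i, polar Q (e i - f i) w • (e i - f i) = ∑ i, polar Q (e i) w • e i := by
      nth_rewrite 1 [hrepr' w hw]
      rw [← Finset.sum_add_distrib]
      apply Finset.sum_congr rfl
      intro i _
      rw [polar_sub_left, polar_ts P.ts' (hfW' i) hw]
      module
    rw [e1]
    exact W.sum_mem fun i _ => W.smul_mem _ (heW i)

end OTS

end Cfsg.Agent.Lib.Helper29
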