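import Mathlib

/-!
An abstract "root subgroup" lemma: a family `X i l c` of elements of a group satisfying the
`A_n` Chevalley relations, a subgroup `M` containing the `X i l c` with `c` in a subfield `F₀` of
prime index and one `X j l a` with `a ∉ F₀`, contains all the `X i l c`.
-/

set_option autoImplicit false

namespace Cfsg.Agent.Lib.Helper29

theorem exists_ne_ne {ι : Type*} [Fintype ι] [DecidableEq ι] (h : 3 ≤ Fintype.card ι) (a b : ι) :
    ∃ l, l ≠ a ∧ l ≠ b := by
  by_contra hcon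
  push Not at hcon
  have : (Finset.univ : Finset ι) ⊆ {a, b} := by
    intro l _
    by_cases hl : l = a
    · simp [hl]
    · simp [hcon l hl]
  have h1 := Finset.card_le_card this
  rw [Finset.card_univ] at h1
  have h2 : ({a, b} : Finset ι).card ≤ 2 := Finset.card_le_two
  omega

variable {ι : Type*} [Fintype ι] [DecidableEq ι] {F : Type*} [Field F] {Γ : Type*} [Group Γ]

theorem root_spread (X : (i l : ι) → i ≠ l → F → Γ)
    (hcomm : ∀ (i l k : ι) (h1 : i ≠ l) (h2 : l ≠ k) (h3 : i ≠ k) (c d : F),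
      X i l h1 c * X l k h2 d * (X i l h1 c)⁻¹ * (X l k h2 d)⁻¹ = X i k h3 (c * d))
    (hι : 3 ≤ Fintype.card ι) (M : Subgroup Γ)
    (rat : ∀ (i l : ι) (h : i ≠ l), X i l h 1 ∈ M)
    (j l : ι) (hjl : j ≠ l) (c : F) (hc : X j l hjl c ∈ M) :
    ∀ (i k : ι) (h : i ≠ k), X i k h c ∈ M := by
  have stepR : ∀ (i l m : ι) (h1 : i ≠ l) (h2 : l ≠ m) (h3 : i ≠ m) (c : F),
      X i l h1 c ∈ M → X i m h3 c ∈ M := by
    intro i l m h1 h2 h3 c hc
    have := hcomm i l m h1 h2 h3 c 1
    rw [mul_one] at this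
    rw [← this]
    exact M.mul_mem (M.mul_mem (M.mul_mem hc (rat _ _ _)) (M.inv_mem hc)) (M.inv_mem (rat _ _ _))
  have stepL : ∀ (i l m : ι) (h1 : i ≠ l) (h2 : l ≠ m) (h3 : i ≠ m) (c : F),
      X l m h2 c ∈ M → X i m h3 c ∈ M := by
    intro i l m h1 h2 h3 c hc
    have := hcomm i l m h1 h2 h3 1 c
    rw [one_mul] at this
    rw [← this]
    exact M.mul_mem (M.mul_mem (M.mul_mem (rat _ _ _) hc) (M.inv_mem (rat _ _ _))) (M.inv_mem hc)
  have row : ∀ m (h : j ≠ m), X j m h c ∈ M := by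
    intro m h
    by_cases hml : m = l
    · subst hml; exact hc
    · exact stepR j l m hjl (Ne.symm hml) h c hc
  intro i m h
  by_cases hij : i = j
  · subst hij; exact row m h
  · by_cases hmj : m = j
    · subst hmj
      obtain ⟨t, ht1, ht2⟩ := exists_ne_ne hι i m
      have h1 := row t (Ne.symm ht2)
      have h2 := stepL i m t h (Ne.symm ht2) (Ne.symm ht1) c h1
      exact stepR i t m (Ne.symm ht1) ht2 h c h2
    · exact stepL i j m hij (Ne.symm hmj) h c (row m (Ne.symm hmj))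

theorem root_full (X : (i l : ι) → i ≠ l → F → Γ)
    (hadd : ∀ (i l : ι) (h : i ≠ l) (c d : F), X i l h (c + d) = X i l h c * X i l h d)
    (hcomm : ∀ (i l k : ι) (h1 : i ≠ l) (h2 : l ≠ k) (h3 : i ≠ k) (c d : F),
      X i l h1 c * X l k h2 d * (X i l h1 c)⁻¹ * (X l k h2 d)⁻¹ = X i k h3 (c * d))
    (hι : 3 ≤ Fintype.card ι) (F₀ : Subfield F) (hprime : (Module.finrank F₀ F).Prime)
    (M : Subgroup Γ)
    (rat : ∀ (i l : ι) (h : i ≠ l) (c : F), c ∈ F₀ → X i l h c ∈ M)
    (j l : ι) (hjl : j ≠ l) (a : F) (ha : a ∉ F₀) (hmem : X j l hjl a ∈ M) :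
    ∀ (i k : ι) (h : i ≠ k) (c : F), X i k h c ∈ M := by
  let R : Subalgebra F₀ F :=
    { carrier := {c | ∀ (i m : ι) (h : i ≠ m), X i m h c ∈ M}
      mul_mem' := by
        intro c d hc hd i m h
        obtain ⟨t, ht1, ht2⟩ := exists_ne_ne hι i m
        rw [← hcomm i t m (Ne.symm ht1) ht2 h c d]
        exact M.mul_mem (M.mul_mem (M.mul_mem (hc _ _ _) (hd _ _ _)) (M.inv_mem (hc _ _ _)))
          (M.inv_mem (hd _ _ _))
      add_mem' := by
        intro c d hc hd i m h
        rw [hadd]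
        exact M.mul_mem (hc _ _ _) (hd _ _ _)
      algebraMap_mem' := by
        intro r i m h
        exact rat i m h _ r.2 }
  have haR : a ∈ R := root_spread X hcomm hι M (fun i l h => rat i l h 1 F₀.one_mem) j l hjl a hmem
  have hs := Subalgebra.isSimpleOrder_of_finrank_prime F₀ F hprime
  rcases hs.eq_bot_or_eq_top R with h | h
  · exfalso
    rw [h, Algebra.mem_bot] at haR
    obtain ⟨r, hr⟩ := haR
    apply ha
    rw [← hr]
    exact r.2
  · intro i m hne c
    have : c ∈ R := by rw [h]; exact Algebra.mem_top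
    exact this i m hne

end Cfsg.Agent.Lib.Helper29
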