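import Mathlib
import Cfsg.Agent.Lib.Helper18.SLGen

/-!
Rank one unipotent elements of `SL_{n+3}(F)` in characteristic 2 are conjugates of elementary
transvections.
-/

set_option autoImplicit false

namespace Cfsg.Agent.Lib.Helper29

open Matrix

section general

variable {ι : Type*} [Fintype ι] [DecidableEq ι] {F : Type*} [Field F]

/-- the rank one unipotent element `1 + a bᵀ` -/
def XT (a b : ι → F) (h : b ⬝ᵥ a = 0) : Matrix.SpecialLinearGroup ι F :=
  ⟨1 + vecMulVec a b, by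
    rw [vecMulVec_eq (ι := Unit), det_one_add_replicateCol_mul_replicateRow, h, add_zero]⟩

theorem XT_coe (a b : ι → F) (h : b ⬝ᵥ a = 0) : (↑(XT a b h) : Matrix ι ι F) = 1 + vecMulVec a b := rfl

theorem one_add_vmv_mulVec (a b x : ι → F) : (1 + vecMulVec a b) *ᵥ x = x + (b ⬝ᵥ x) • a := by
  rw [add_mulVec, one_mulVec, vecMulVec_mulVec, op_smul_eq_smul]

theorem one_add_vmv_vecMul (a b y : ι → F) : y ᵥ* (1 + vecMulVec a b) = y + (y ⬝ᵥ a) • b := by
  rw [vecMul_add, vecMul_one, vecMul_vecMulVec]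

theorem XT_mulVec (a b : ι → F) (h : b ⬝ᵥ a = 0) (x : ι → F) :
    (↑(XT a b h) : Matrix ι ι F) *ᵥ x = x + (b ⬝ᵥ x) • a := one_add_vmv_mulVec a b x

theorem XT_vecMul (a b : ι → F) (h : b ⬝ᵥ a = 0) (y : ι → F) :
    y ᵥ* (↑(XT a b h) : Matrix ι ι F) = y + (y ⬝ᵥ a) • b := one_add_vmv_vecMul a b y

theorem sl_ext' {g h : Matrix.SpecialLinearGroup ι F} (H : ∀ x : ι → F, (↑g : Matrix ι ι F) *ᵥ x = (↑h : Matrix ι ι F) *ᵥ x) : g = h :=
  Subtype.ext (Matrix.ext_of_mulVec_single fun _ => H _)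

theorem sl_inv_mulVec (g : Matrix.SpecialLinearGroup ι F) (x : ι → F) : (↑(g⁻¹) : Matrix ι ι F) *ᵥ ((↑g : Matrix ι ι F) *ᵥ x) = x := by
  rw [mulVec_mulVec, ← Matrix.SpecialLinearGroup.coe_mul, inv_mul_cancel, Matrix.SpecialLinearGroup.coe_one,
    one_mulVec]

theorem sl_vecMul_inv (g : Matrix.SpecialLinearGroup ι F) (y : ι → F) : (y ᵥ* (↑(g⁻¹) : Matrix ι ι F)) ᵥ* (↑g : Matrix ι ι F) = y := by
  rw [vecMul_vecMul, ← Matrix.SpecialLinearGroup.coe_mul, inv_mul_cancel, Matrix.SpecialLinearGroup.coe_one,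
    vecMul_one]

theorem XT_mul_self [CharP F 2] (a b : ι → F) (h : b ⬝ᵥ a = 0) : XT a b h * XT a b h = 1 := by
  apply sl_ext'
  intro x
  rw [Matrix.SpecialLinearGroup.coe_mul, ← mulVec_mulVec, XT_mulVec, XT_mulVec, dotProduct_add,
    dotProduct_smul, h, smul_zero, add_zero, add_assoc, ← add_smul, CharTwo.add_self_eq_zero,
    zero_smul, add_zero, Matrix.SpecialLinearGroup.coe_one, one_mulVec]

theorem XT_mulVec_mulVec [CharP F 2] (a b : ι → F) (h : b ⬝ᵥ a = 0) (x : ι → F) :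
    (↑(XT a b h) : Matrix ι ι F) *ᵥ ((↑(XT a b h) : Matrix ι ι F) *ᵥ x) = x := by
  rw [mulVec_mulVec, ← Matrix.SpecialLinearGroup.coe_mul, XT_mul_self, Matrix.SpecialLinearGroup.coe_one,
    one_mulVec]

theorem XT_vecMul_vecMul [CharP F 2] (a b : ι → F) (h : b ⬝ᵥ a = 0) (y : ι → F) :
    (y ᵥ* (↑(XT a b h) : Matrix ι ι F)) ᵥ* (↑(XT a b h) : Matrix ι ι F) = y := by
  rw [vecMul_vecMul, ← Matrix.SpecialLinearGroup.coe_mul, XT_mul_self, Matrix.SpecialLinearGroup.coe_one,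
    vecMul_one]

end general

variable {F : Type*} [Field F] {n : ℕ}

theorem f01 (n : ℕ) : (0 : Fin (n + 3)) ≠ 1 := by
  simp [Fin.ext_iff]

/-- the conjugates of the elementary transvections -/
def TvSet (F : Type*) [Field F] (n : ℕ) : Set (Matrix.SpecialLinearGroup (Fin (n + 3)) F) :=
  {t | ∃ c : F, c ≠ 0 ∧ ∃ g : Matrix.SpecialLinearGroup (Fin (n + 3)) F,
    ((g⁻¹ * t * g : Matrix.SpecialLinearGroup (Fin (n + 3)) F) : Matrix (Fin (n + 3)) (Fin (n + 3)) F)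
      = Matrix.transvection 0 1 c}

theorem transvection_eq_vmv (i j : Fin (n + 3)) (c : F) :
    Matrix.transvection i j c = 1 + c • vecMulVec (Pi.single i 1) (Pi.single j 1) := by
  rw [Matrix.transvection, ← single_eq_single_vecMulVec_single, Matrix.smul_single, smul_eq_mul,
    mul_one]

/-- the pair `(u, φ)` can be moved to the standard pair -/
def Good (u φ : Fin (n + 3) → F) : Prop :=
  ∃ (g : Matrix.SpecialLinearGroup (Fin (n + 3)) F) (c d : F), c ≠ 0 ∧ d ≠ 0 ∧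
    (↑g : Matrix (Fin (n + 3)) (Fin (n + 3)) F) *ᵥ (Pi.single 0 1) = d • u ∧ φ ᵥ* (↑g : Matrix (Fin (n + 3)) (Fin (n + 3)) F) = c • Pi.single 1 1

theorem Good.mem {u φ : Fin (n + 3) → F} (hG : Good u φ) (t : Matrix.SpecialLinearGroup (Fin (n + 3)) F)
    (ht : (↑t : Matrix (Fin (n + 3)) (Fin (n + 3)) F) = 1 + vecMulVec u φ) : t ∈ TvSet F n := by
  obtain ⟨g, c, d, hc, hd, h1, h2⟩ := hG
  refine ⟨c / d, div_ne_zero hc hd, g, ?_⟩
  have h3 : t * g = g * Matrix.SpecialLinearGroup.transvection (f01 n) (c / d) := by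
    apply Subtype.ext
    rw [Matrix.SpecialLinearGroup.coe_mul, Matrix.SpecialLinearGroup.coe_mul,
      Matrix.SpecialLinearGroup.transvection_coe, ht, ← Matrix.transvection, transvection_eq_vmv, add_mul, one_mul, mul_add,
      mul_one, vecMulVec_mul, h2, Matrix.mul_smul, mul_vecMulVec, h1, smul_vecMulVec,
      vecMulVec_smul, smul_smul, div_mul_cancel₀ c hd]
  rw [mul_assoc, h3, inv_mul_cancel_left, Matrix.SpecialLinearGroup.transvection_coe, ← Matrix.transvection]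

theorem Good.map {u φ : Fin (n + 3) → F} (s : Matrix.SpecialLinearGroup (Fin (n + 3)) F)
    (hG : Good u (φ ᵥ* (↑s : Matrix (Fin (n + 3)) (Fin (n + 3)) F))) : Good ((↑s : Matrix (Fin (n + 3)) (Fin (n + 3)) F) *ᵥ u) φ := by
  obtain ⟨g, c, d, hc, hd, h1, h2⟩ := hG
  refine ⟨s * g, c, d, hc, hd, ?_, ?_⟩
  · rw [Matrix.SpecialLinearGroup.coe_mul, ← mulVec_mulVec, h1, mulVec_smul]
  · rw [Matrix.SpecialLinearGroup.coe_mul, ← vecMul_vecMul, h2]

theorem Good.of_smul {u φ : Fin (n + 3) → F} {a : F} (ha : a ≠ 0) (hG : Good (a • u) φ) :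
    Good u φ := by
  obtain ⟨g, c, d, hc, hd, h1, h2⟩ := hG
  exact ⟨g, c, d * a, hc, mul_ne_zero hd ha, by rw [h1, smul_smul], h2⟩

theorem good_base [CharP F 2] (ψ : Fin (n + 3) → F) (h0 : ψ 0 = 0) (h1 : ψ 1 ≠ 0) :
    Good (Pi.single 0 1) ψ := by
  have h : ((ψ 1)⁻¹ • ψ - Pi.single 1 1) ⬝ᵥ (Pi.single 1 1 : Fin (n + 3) → F) = 0 := by
    rw [dotProduct_single, mul_one, Pi.sub_apply, Pi.smul_apply, smul_eq_mul, inv_mul_cancel₀ h1,
      Pi.single_eq_same, sub_self]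
  refine ⟨XT _ _ h, ψ 1, 1, h1, one_ne_zero, ?_, ?_⟩
  · rw [XT_mulVec, dotProduct_single, mul_one, Pi.sub_apply, Pi.smul_apply, h0, smul_zero,
      Pi.single_eq_of_ne (f01 n), sub_zero, zero_smul, add_zero, one_smul]
  · rw [XT_vecMul, dotProduct_single, mul_one, smul_sub, smul_smul, mul_inv_cancel₀ h1, one_smul]
    ext j
    simp only [Pi.add_apply, Pi.sub_apply, Pi.smul_apply, smul_eq_mul]
    have e1 := CharTwo.add_self_eq_zero (ψ j)
    have e2 := CharTwo.add_self_eq_zero (ψ 1 * (Pi.single 1 1 : Fin (n + 3) → F) j)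
    linear_combination e1 - e2

theorem good_e0 [CharP F 2] (ψ : Fin (n + 3) → F) (h0 : ψ 0 = 0) (hψ : ψ ≠ 0) :
    Good (Pi.single 0 1) ψ := by
  by_cases h1 : ψ 1 = 0
  · obtain ⟨k, hk⟩ := Function.ne_iff.1 hψ
    have hk' : ψ k ≠ 0 := hk
    have hk1 : k ≠ 1 := fun h => hk' (h ▸ h1)
    have h : (Pi.single 1 1 : Fin (n + 3) → F) ⬝ᵥ (Pi.single k 1) = 0 := by
      rw [dotProduct_single, mul_one, Pi.single_eq_of_ne hk1]
    have h2 := Good.map (u := Pi.single 0 1) (φ := ψ) (XT _ _ h) (by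
      apply good_base
      · rw [XT_vecMul, Pi.add_apply, Pi.smul_apply, h0, Pi.single_eq_of_ne (f01 n), smul_zero,
          add_zero]
      · rw [XT_vecMul, Pi.add_apply, Pi.smul_apply, h1, Pi.single_eq_same, dotProduct_single,
          mul_one, zero_add, smul_eq_mul, mul_one]
        exact hk')
    rw [XT_mulVec, dotProduct_single, mul_one, Pi.single_eq_of_ne (f01 n), zero_smul,
      add_zero] at h2
    exact h2
  · exact good_base ψ h0 h1

theorem good_of_ne [CharP F 2] (u φ : Fin (n + 3) → F) (h0 : u 0 ≠ 0) (hφ : φ ≠ 0)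
    (h : φ ⬝ᵥ u = 0) : Good u φ := by
  have hs : (Pi.single 0 1 : Fin (n + 3) → F) ⬝ᵥ ((u 0)⁻¹ • u - Pi.single 0 1) = 0 := by
    rw [single_dotProduct, one_mul, Pi.sub_apply, Pi.smul_apply, smul_eq_mul, inv_mul_cancel₀ h0,
      Pi.single_eq_same, sub_self]
  have h2 := Good.map (u := Pi.single 0 1) (φ := φ) (XT _ _ hs) (by
    apply good_e0
    · rw [XT_vecMul, Pi.add_apply, Pi.smul_apply, Pi.single_eq_same, dotProduct_sub,
        dotProduct_smul, h, smul_zero, dotProduct_single, mul_one, zero_sub, smul_eq_mul, mul_one,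
        add_neg_cancel]
    · intro h3
      apply hφ
      rw [← XT_vecMul_vecMul _ _ hs φ, h3, zero_vecMul])
  rw [XT_mulVec, dotProduct_single, mul_one, Pi.single_eq_same, one_smul, add_sub_cancel] at h2
  exact h2.of_smul (inv_ne_zero h0)

theorem good_all [CharP F 2] (u φ : Fin (n + 3) → F) (hu : u ≠ 0) (hφ : φ ≠ 0)
    (h : φ ⬝ᵥ u = 0) : Good u φ := by
  by_cases h0 : u 0 = 0
  · obtain ⟨k, hk⟩ := Function.ne_iff.1 hu
    have hk' : u k ≠ 0 := hk
    have hk0 : k ≠ 0 := fun h => hk' (h ▸ h0)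
    have hs : (Pi.single k 1 : Fin (n + 3) → F) ⬝ᵥ (Pi.single 0 1) = 0 := by
      rw [dotProduct_single, mul_one, Pi.single_eq_of_ne hk0.symm]
    have h2 := Good.map (u := (↑(XT _ _ hs) : Matrix (Fin (n + 3)) (Fin (n + 3)) F) *ᵥ u) (φ := φ) (XT _ _ hs) (by
      apply good_of_ne
      · rw [XT_mulVec, Pi.add_apply, Pi.smul_apply, h0, Pi.single_eq_same, single_dotProduct,
          one_mul, zero_add, smul_eq_mul, mul_one]
        exact hk'
      · intro h3
        apply hφ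
        rw [← XT_vecMul_vecMul _ _ hs φ, h3, zero_vecMul]
      · rw [← dotProduct_mulVec, XT_mulVec_mulVec, h])
    rw [XT_mulVec_mulVec] at h2
    exact h2
  · exact good_of_ne u φ h0 hφ h

theorem mem_TvSet_of [CharP F 2] (t : Matrix.SpecialLinearGroup (Fin (n + 3)) F) (u φ : Fin (n + 3) → F)
    (hu : u ≠ 0) (hφ : φ ≠ 0) (h : φ ⬝ᵥ u = 0) (ht : (↑t : Matrix (Fin (n + 3)) (Fin (n + 3)) F) = 1 + vecMulVec u φ) : t ∈ TvSet F n :=
  (good_all u φ hu hφ h).mem t ht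

theorem exists_of_mem_TvSet {t : Matrix.SpecialLinearGroup (Fin (n + 3)) F} (ht : t ∈ TvSet F n) :
    ∃ u φ : Fin (n + 3) → F, u ≠ 0 ∧ φ ≠ 0 ∧ φ ⬝ᵥ u = 0 ∧ (↑t : Matrix (Fin (n + 3)) (Fin (n + 3)) F) = 1 + vecMulVec u φ := by
  obtain ⟨c, hc, g, hg⟩ := ht
  have h1 : g⁻¹ * t * g = Matrix.SpecialLinearGroup.transvection (f01 n) c := by
    apply Subtype.ext
    rw [hg, Matrix.SpecialLinearGroup.transvection_coe, ← Matrix.transvection]
  have h2 : t = g * Matrix.SpecialLinearGroup.transvection (f01 n) c * g⁻¹ := by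
    rw [← h1]; group
  refine ⟨c • ((↑g : Matrix (Fin (n + 3)) (Fin (n + 3)) F) *ᵥ Pi.single 0 1), Pi.single 1 1 ᵥ* (↑(g⁻¹) : Matrix (Fin (n + 3)) (Fin (n + 3)) F), ?_, ?_, ?_, ?_⟩
  · intro h3
    have h4 : (↑g : Matrix (Fin (n + 3)) (Fin (n + 3)) F) *ᵥ (Pi.single 0 1 : Fin (n + 3) → F) = 0 := by
      rcases smul_eq_zero.1 h3 with h | h
      · exact absurd h hc
      · exact h
    have h5 := sl_inv_mulVec g (Pi.single 0 1 : Fin (n + 3) → F)
    rw [h4, mulVec_zero] at h5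
    have h6 := congrFun h5 0
    simp at h6
  · intro h3
    have h5 := sl_vecMul_inv g (Pi.single 1 1 : Fin (n + 3) → F)
    rw [h3, zero_vecMul] at h5
    have h6 := congrFun h5 1
    simp at h6
  · rw [dotProduct_smul, ← dotProduct_mulVec, sl_inv_mulVec, dotProduct_single, mul_one,
      Pi.single_eq_of_ne (f01 n), smul_zero]
  · rw [h2, Matrix.SpecialLinearGroup.coe_mul, Matrix.SpecialLinearGroup.coe_mul,
      Matrix.SpecialLinearGroup.transvection_coe, ← Matrix.transvection, transvection_eq_vmv, mul_add, mul_one, add_mul,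
      ← Matrix.SpecialLinearGroup.coe_mul, mul_inv_cancel, Matrix.SpecialLinearGroup.coe_one, Matrix.mul_smul,
      Matrix.smul_mul, mul_vecMulVec, vecMulVec_mul, smul_vecMulVec]

end Cfsg.Agent.Lib.Helper29
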