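import Mathlib
import Cfsg.Agent.Lib.Helper29.RootInv1

/-!
Products of two transvections of `SL_{n+3}(F)` in characteristic 2.
-/

set_option autoImplicit false

namespace Cfsg.Agent.Lib.Helper29

open Matrix

section general

variable {ι : Type*} [Fintype ι] [DecidableEq ι] {F : Type*} [Field F]

theorem XT_ne_one {a b : ι → F} (h : b ⬝ᵥ a = 0) (ha : a ≠ 0) (hb : b ≠ 0) : XT a b h ≠ 1 := by
  intro h1
  have h2 := congrArg (fun m : Matrix.SpecialLinearGroup ι F => (↑m : Matrix ι ι F)) h1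
  simp only [XT_coe, Matrix.SpecialLinearGroup.coe_one] at h2
  have h3 : vecMulVec a b = 0 := by
    have := add_left_cancel (h2.trans (add_zero 1).symm)
    exact this
  rcases vecMulVec_eq_zero.1 h3 with h | h
  · exact ha h
  · exact hb h

theorem XT_mul_mulVec (u φ v ψ : ι → F) (hu : φ ⬝ᵥ u = 0) (hv : ψ ⬝ᵥ v = 0) (x : ι → F) :
    (↑(XT u φ hu * XT v ψ hv) : Matrix ι ι F) *ᵥ x =
      x + (ψ ⬝ᵥ x) • v + ((φ ⬝ᵥ x) + (ψ ⬝ᵥ x) * (φ ⬝ᵥ v)) • u := by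
  rw [Matrix.SpecialLinearGroup.coe_mul, ← mulVec_mulVec, XT_mulVec, XT_mulVec, dotProduct_add,
    dotProduct_smul, smul_eq_mul]

theorem XT_comm (u φ v ψ : ι → F) (hu : φ ⬝ᵥ u = 0) (hv : ψ ⬝ᵥ v = 0) (h1 : φ ⬝ᵥ v = 0)
    (h2 : ψ ⬝ᵥ u = 0) : XT u φ hu * XT v ψ hv = XT v ψ hv * XT u φ hu := by
  apply sl_ext'
  intro x
  rw [XT_mul_mulVec, XT_mul_mulVec, h1, h2, mul_zero, mul_zero, add_zero, add_zero,
    add_right_comm]

theorem XT_sq_of [CharP F 2] (u φ v ψ : ι → F) (hu : φ ⬝ᵥ u = 0) (hv : ψ ⬝ᵥ v = 0)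
    (h1 : φ ⬝ᵥ v = 0) :
    (XT u φ hu * XT v ψ hv) * (XT u φ hu * XT v ψ hv) =
      XT ((ψ ⬝ᵥ u) • v) φ (by rw [dotProduct_smul, h1, smul_zero]) := by
  apply sl_ext'
  intro x
  rw [Matrix.SpecialLinearGroup.coe_mul, ← mulVec_mulVec, XT_mul_mulVec u φ v ψ hu hv x,
    XT_mul_mulVec, XT_mulVec]
  simp only [dotProduct_add, dotProduct_smul, smul_eq_mul, h1, hu, hv, mul_zero, add_zero]
  ext j
  simp only [Pi.add_apply, Pi.smul_apply, smul_eq_mul]
  have two : (2 : F) = 0 := CharTwo.two_eq_zero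
  linear_combination ((ψ ⬝ᵥ x) * v j + (φ ⬝ᵥ x) * u j) * two

theorem pow_mulVec_fix (g : Matrix.SpecialLinearGroup ι F) (w : ι → F)
    (h : (↑g : Matrix ι ι F) *ᵥ w = w) (k : ℕ) : (↑(g ^ k) : Matrix ι ι F) *ᵥ w = w := by
  induction k with
  | zero => rw [pow_zero, Matrix.SpecialLinearGroup.coe_one, one_mulVec]
  | succ k ih => rw [pow_succ, Matrix.SpecialLinearGroup.coe_mul, ← mulVec_mulVec, h, ih]

theorem fix_center [CharP F 2] (z : Matrix.SpecialLinearGroup ι F) (hz2 : z * z = 1)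
    (u φ : ι → F) (hu : φ ⬝ᵥ u = 0) (hu0 : u ≠ 0) (y : ι → F) (hy : φ ⬝ᵥ y ≠ 0)
    (hc : XT u φ hu * z = z * XT u φ hu) : (↑z : Matrix ι ι F) *ᵥ u = u := by
  have h1 := congrArg (fun m : Matrix.SpecialLinearGroup ι F => (↑m : Matrix ι ι F) *ᵥ y) hc
  simp only [Matrix.SpecialLinearGroup.coe_mul, ← mulVec_mulVec, XT_mulVec, mulVec_add,
    mulVec_smul] at h1
  have h2 := add_left_cancel h1
  set μ : F := (φ ⬝ᵥ ((↑z : Matrix ι ι F) *ᵥ y)) / (φ ⬝ᵥ y) with hμ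
  have h3 : (↑z : Matrix ι ι F) *ᵥ u = μ • u := by
    rw [hμ, div_eq_inv_mul, ← smul_smul, h2, smul_smul, inv_mul_cancel₀ hy, one_smul]
  have h4 : (↑z : Matrix ι ι F) *ᵥ ((↑z : Matrix ι ι F) *ᵥ u) = u := by
    rw [mulVec_mulVec, ← Matrix.SpecialLinearGroup.coe_mul, hz2, Matrix.SpecialLinearGroup.coe_one,
      one_mulVec]
  rw [h3, mulVec_smul, h3, smul_smul] at h4
  have h5 : (μ * μ - 1) • u = 0 := by rw [sub_smul, h4, one_smul, sub_self]
  have h6 : μ * μ - 1 = 0 := by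
    rcases smul_eq_zero.1 h5 with h | h
    · exact h
    · exact absurd h hu0
  have two : (2 : F) = 0 := CharTwo.two_eq_zero
  have h7 : (μ - 1) * (μ - 1) = 0 := by linear_combination h6 - (μ - 1) * two
  have h8 : μ - 1 = 0 := by
    rcases mul_eq_zero.1 h7 with h | h <;> exact h
  rw [h3, sub_eq_zero.1 h8, one_smul]

theorem XT_odd [CharP F 2] [Finite (Matrix.SpecialLinearGroup ι F)] (u φ v ψ : ι → F)
    (hu : φ ⬝ᵥ u = 0) (hv : ψ ⬝ᵥ v = 0)
    (hu0 : u ≠ 0) (hv0 : v ≠ 0) (h1 : φ ⬝ᵥ v ≠ 0) (h2 : ψ ⬝ᵥ u ≠ 0) :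
    Odd (orderOf (XT u φ hu * XT v ψ hv)) := by
  set a := XT u φ hu with ha
  set b := XT v ψ hv with hb
  have haa : a * a = 1 := XT_mul_self u φ hu
  have hbb : b * b = 1 := XT_mul_self v ψ hv
  by_contra hodd
  rw [Nat.not_odd_iff_even] at hodd
  obtain ⟨k, hk⟩ := hodd
  have hpos : 0 < orderOf (a * b) := orderOf_pos _
  set z := (a * b) ^ k with hz
  have hz1 : z ≠ 1 := pow_ne_one_of_lt_orderOf (by omega) (by omega)
  have hz2 : z * z = 1 := by rw [hz, ← pow_add, ← hk, pow_orderOf_eq_one]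
  have hzi : z⁻¹ = z := inv_eq_of_mul_eq_one_left hz2
  have hai : a⁻¹ = a := inv_eq_of_mul_eq_one_left haa
  have hbi : b⁻¹ = b := inv_eq_of_mul_eq_one_left hbb
  have hca : a * z = z * a := by
    have e1 : a * z * a⁻¹ = z := by
      rw [hz, ← conj_pow]
      have e2 : a * (a * b) * a⁻¹ = (a * b)⁻¹ := by
        rw [_root_.mul_inv_rev, hai, hbi, ← mul_assoc, haa, one_mul]
      rw [e2, inv_pow, ← hz, hzi]
    calc a * z = a * z * a⁻¹ * a := by group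
      _ = z * a := by rw [e1]
  have hcb : b * z = z * b := by
    have e1 : b * z * b⁻¹ = z := by
      rw [hz, ← conj_pow]
      have e2 : b * (a * b) * b⁻¹ = (a * b)⁻¹ := by
        rw [_root_.mul_inv_rev, hai, hbi, mul_assoc, mul_assoc, hbb, mul_one]
      rw [e2, inv_pow, ← hz, hzi]
    calc b * z = b * z * b⁻¹ * b := by group
      _ = z * b := by rw [e1]
  have hzu := fix_center z hz2 u φ hu hu0 v h1 hca
  have hzv := fix_center z hz2 v ψ hv hv0 u h2 hcb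
  apply hz1
  apply sl_ext'
  intro x
  rw [Matrix.SpecialLinearGroup.coe_one, one_mulVec]
  set α : F := (ψ ⬝ᵥ x) / (ψ ⬝ᵥ u) with hα
  set β : F := (φ ⬝ᵥ x) / (φ ⬝ᵥ v) with hβ
  set w : ι → F := x - α • u - β • v with hw
  have hw1 : φ ⬝ᵥ w = 0 := by
    rw [hw, dotProduct_sub, dotProduct_sub, dotProduct_smul, dotProduct_smul, hu, smul_zero,
      sub_zero, smul_eq_mul, hβ, div_mul_cancel₀ _ h1, sub_self]
  have hw2 : ψ ⬝ᵥ w = 0 := by
    rw [hw, dotProduct_sub, dotProduct_sub, dotProduct_smul, dotProduct_smul, hv, smul_zero,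
      sub_zero, smul_eq_mul, hα, div_mul_cancel₀ _ h2, sub_self]
  have hgw : (↑(a * b) : Matrix ι ι F) *ᵥ w = w := by
    rw [ha, hb, XT_mul_mulVec, hw1, hw2, zero_smul, zero_mul, add_zero, add_zero, zero_smul,
      add_zero]
  have hzw : (↑z : Matrix ι ι F) *ᵥ w = w := pow_mulVec_fix _ w hgw k
  have hx : x = w + α • u + β • v := by rw [hw]; abel
  rw [hx, mulVec_add, mulVec_add, mulVec_smul, mulVec_smul, hzw, hzu, hzv]

theorem XT_braid [CharP F 2] (u φ v ψ : ι → F) (hu : φ ⬝ᵥ u = 0) (hv : ψ ⬝ᵥ v = 0)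
    (h1 : φ ⬝ᵥ v = 1) (h2 : ψ ⬝ᵥ u = 1) :
    XT u φ hu * XT v ψ hv * XT u φ hu = XT v ψ hv * XT u φ hu * XT v ψ hv := by
  apply sl_ext'
  intro x
  rw [Matrix.SpecialLinearGroup.coe_mul, ← mulVec_mulVec, XT_mul_mulVec, XT_mulVec,
    Matrix.SpecialLinearGroup.coe_mul, ← mulVec_mulVec, XT_mul_mulVec, XT_mulVec]
  simp only [dotProduct_add, dotProduct_smul, smul_eq_mul, h1, h2, hu, hv, mul_zero, add_zero,
    mul_one]
  ext j
  simp only [Pi.add_apply, Pi.smul_apply, smul_eq_mul]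
  have two : (2 : F) = 0 := CharTwo.two_eq_zero
  linear_combination ((φ ⬝ᵥ x) * u j - (ψ ⬝ᵥ x) * v j) * two

theorem cube_eq_one_of_braid {G : Type*} [Group G] {a b : G} (haa : a * a = 1) (hbb : b * b = 1)
    (h : a * b * a = b * a * b) : (a * b) ^ 3 = 1 := by
  calc (a * b) ^ 3 = (a * b * a) * (b * a * b) := by
        simp only [pow_succ, pow_zero, one_mul, mul_assoc]
    _ = (a * b * a) * (a * b * a) := by rw [h]
    _ = a * (b * (a * a) * b) * a := by simp only [mul_assoc]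
    _ = 1 := by rw [haa, mul_one, hbb, mul_one, haa]

end general

end Cfsg.Agent.Lib.Helper29
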