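import Mathlib
import Cfsg.Agent.Lib.Helper29.RootInv2

/-!
The transvections of `SL_{n+3}(F)`, `F` finite of characteristic 2, as a class of root involutions.
-/

set_option autoImplicit false

namespace Cfsg.Agent.Lib.Helper29

open Matrix

variable {F : Type*} [Field F] {n : ℕ}

theorem exists_XT_of_mem {t : Matrix.SpecialLinearGroup (Fin (n + 3)) F} (ht : t ∈ TvSet F n) :
    ∃ (u φ : Fin (n + 3) → F) (h : φ ⬝ᵥ u = 0), u ≠ 0 ∧ φ ≠ 0 ∧ t = XT u φ h := by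
  obtain ⟨u, φ, hu, hφ, h, ht⟩ := exists_of_mem_TvSet ht
  exact ⟨u, φ, h, hu, hφ, Subtype.ext ht⟩

theorem XT_mem [CharP F 2] (u φ : Fin (n + 3) → F) (h : φ ⬝ᵥ u = 0) (hu : u ≠ 0) (hφ : φ ≠ 0) :
    XT u φ h ∈ TvSet F n := mem_TvSet_of _ u φ hu hφ h rfl

theorem tv_order [CharP F 2] (d : Matrix.SpecialLinearGroup (Fin (n + 3)) F) (hd : d ∈ TvSet F n) :
    orderOf d = 2 := by
  obtain ⟨u, φ, h, hu, hφ, rfl⟩ := exists_XT_of_mem hd
  exact orderOf_eq_prime (by rw [pow_two, XT_mul_self]) (XT_ne_one h hu hφ)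

theorem tv_conj (d : Matrix.SpecialLinearGroup (Fin (n + 3)) F) (hd : d ∈ TvSet F n)
    (g : Matrix.SpecialLinearGroup (Fin (n + 3)) F) : g * d * g⁻¹ ∈ TvSet F n := by
  obtain ⟨c, hc, g₁, hg⟩ := hd
  refine ⟨c, hc, g * g₁, ?_⟩
  have : (g * g₁)⁻¹ * (g * d * g⁻¹) * (g * g₁) = g₁⁻¹ * d * g₁ := by group
  rw [this]
  exact hg

theorem elem_mem [CharP F 2] {i j : Fin (n + 3)} (hij : i ≠ j) {c : F} (hc : c ≠ 0) :
    Matrix.SpecialLinearGroup.transvection hij c ∈ TvSet F n := by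
  apply mem_TvSet_of _ (c • Pi.single i 1) (Pi.single j 1)
  · intro h
    have := congrFun h i
    simp at this
    exact hc this
  · intro h
    have := congrFun h j
    simp at this
  · rw [dotProduct_smul, dotProduct_single, mul_one, Pi.single_eq_of_ne hij, smul_zero]
  · rw [Matrix.SpecialLinearGroup.transvection_coe, ← Matrix.transvection, transvection_eq_vmv,
      smul_vecMulVec]

theorem tv_gen [CharP F 2] : Subgroup.closure (TvSet F n) = ⊤ := by
  rw [eq_top_iff]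
  intro A _
  refine Cfsg.Agent.Lib.Helper18.SL_transvection_induction
    (fun A => A ∈ Subgroup.closure (TvSet F n)) ?_ (fun _ _ => mul_mem) A
  intro i j hij c
  by_cases hc : c = 0
  · subst hc
    rw [Matrix.SpecialLinearGroup.transvection_coeff_zero]
    exact one_mem _
  · exact Subgroup.subset_closure (elem_mem hij hc)

theorem tv_nonempty [CharP F 2] : (TvSet F n).Nonempty :=
  ⟨_, elem_mem (f01 n) one_ne_zero⟩

theorem tv_pair_aux [CharP F 2] (u φ v ψ : Fin (n + 3) → F) (hu : φ ⬝ᵥ u = 0) (hv : ψ ⬝ᵥ v = 0)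
    (hφ : φ ≠ 0) (hv0 : v ≠ 0) (h1 : φ ⬝ᵥ v = 0) (h2 : ψ ⬝ᵥ u ≠ 0) :
    orderOf (XT u φ hu * XT v ψ hv) = 4 ∧ (XT u φ hu * XT v ψ hv) ^ 2 ∈ TvSet F n := by
  have hsq := XT_sq_of u φ v ψ hu hv h1
  have hw : (ψ ⬝ᵥ u) • v ≠ 0 := smul_ne_zero h2 hv0
  constructor
  · have := orderOf_eq_prime_pow (p := 2) (n := 1) (x := XT u φ hu * XT v ψ hv)
      (by
        rw [pow_one, pow_two, hsq]
        exact XT_ne_one _ hw hφ)
      (by
        have e : (2 : ℕ) ^ (1 + 1) = 2 + 2 := by norm_num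
        rw [e, pow_add, pow_two, hsq, XT_mul_self])
    rw [this]; norm_num
  · rw [pow_two, hsq]
    exact XT_mem _ _ _ hw hφ

theorem order_swap {G : Type*} [Group G] (a b : G) : orderOf (a * b) = orderOf (b * a) := by
  have h : a * b = MulAut.conj a (b * a) := by
    rw [MulAut.conj_apply]; group
  rw [h, MulEquiv.orderOf_eq]

theorem tv_pair [CharP F 2] [Finite F] (a : Matrix.SpecialLinearGroup (Fin (n + 3)) F)
    (ha : a ∈ TvSet F n) (b : Matrix.SpecialLinearGroup (Fin (n + 3)) F) (hb : b ∈ TvSet F n) :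
    a * b = b * a ∨ Odd (orderOf (a * b)) ∨ (orderOf (a * b) = 4 ∧ (a * b) ^ 2 ∈ TvSet F n) := by
  haveI : Finite (Matrix.SpecialLinearGroup (Fin (n + 3)) F) := Subtype.finite
  obtain ⟨u, φ, hu, hu0, hφ, rfl⟩ := exists_XT_of_mem ha
  obtain ⟨v, ψ, hv, hv0, hψ, rfl⟩ := exists_XT_of_mem hb
  by_cases h1 : φ ⬝ᵥ v = 0
  · by_cases h2 : ψ ⬝ᵥ u = 0
    · exact Or.inl (XT_comm u φ v ψ hu hv h1 h2)
    · exact Or.inr (Or.inr (tv_pair_aux u φ v ψ hu hv hφ hv0 h1 h2))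
  · by_cases h2 : ψ ⬝ᵥ u = 0
    · obtain ⟨e1, e2⟩ := tv_pair_aux v ψ u φ hv hu hψ hu0 h2 h1
      refine Or.inr (Or.inr ⟨by rw [order_swap, e1], ?_⟩)
      have e3 : (XT u φ hu * XT v ψ hv) ^ 2 =
          XT u φ hu * (XT v ψ hv * XT u φ hu) ^ 2 * (XT u φ hu)⁻¹ := by
        rw [← conj_pow]
        congr 1
        group
      rw [e3]
      exact tv_conj _ e2 _
    · exact Or.inr (Or.inl (XT_odd u φ v ψ hu hv hu0 hv0 h1 h2))

theorem tv_34 [CharP F 2] [Fintype F] (hF : Fintype.card F = 2)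
    (a : Matrix.SpecialLinearGroup (Fin (n + 3)) F)
    (ha : a ∈ TvSet F n) (b : Matrix.SpecialLinearGroup (Fin (n + 3)) F) (hb : b ∈ TvSet F n)
    (hodd : Odd (orderOf (a * b))) : orderOf (a * b) = 1 ∨ orderOf (a * b) = 3 := by
  have hone : ∀ x : F, x ≠ 0 → x = 1 := by
    intro x hx
    by_contra h1
    have h3 : 2 < Fintype.card F := Fintype.two_lt_card_iff.2 ⟨0, 1, x, zero_ne_one, hx.symm,
      fun h => h1 h.symm⟩
    omega
  obtain ⟨u, φ, hu, hu0, hφ, rfl⟩ := exists_XT_of_mem ha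
  obtain ⟨v, ψ, hv, hv0, hψ, rfl⟩ := exists_XT_of_mem hb
  by_cases h1 : φ ⬝ᵥ v = 0
  · by_cases h2 : ψ ⬝ᵥ u = 0
    · left
      have hc := XT_comm u φ v ψ hu hv h1 h2
      have e : (XT u φ hu * XT v ψ hv) ^ 2 = 1 := by
        rw [pow_two, mul_assoc, ← mul_assoc (XT v ψ hv), ← hc, mul_assoc, XT_mul_self, mul_one,
          XT_mul_self]
      have h3 := orderOf_dvd_of_pow_eq_one e
      rcases (Nat.dvd_prime Nat.prime_two).1 h3 with h | h
      · exact h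
      · rw [h] at hodd
        exact absurd hodd (by decide)
    · rw [(tv_pair_aux u φ v ψ hu hv hφ hv0 h1 h2).1] at hodd
      exact absurd hodd (by decide)
  · by_cases h2 : ψ ⬝ᵥ u = 0
    · rw [order_swap, (tv_pair_aux v ψ u φ hv hu hψ hu0 h2 h1).1] at hodd
      exact absurd hodd (by decide)
    · have e := cube_eq_one_of_braid (XT_mul_self u φ hu) (XT_mul_self v ψ hv)
        (XT_braid u φ v ψ hu hv (hone _ h1) (hone _ h2))
      exact (Nat.dvd_prime Nat.prime_three).1 (orderOf_dvd_of_pow_eq_one e)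

theorem elem_conj (c₁ c₂ : F) (h1 : c₁ ≠ 0) (h2 : c₂ ≠ 0) :
    ∃ d : Matrix.SpecialLinearGroup (Fin (n + 3)) F,
      Matrix.SpecialLinearGroup.transvection (f01 n) c₂ =
        d * Matrix.SpecialLinearGroup.transvection (f01 n) c₁ * d⁻¹ := by
  have h02 : (0 : Fin (n + 3)) ≠ ⟨2, by omega⟩ := by
    intro h
    have := congrArg Fin.val h
    simp at this
  have h12 : (1 : Fin (n + 3)) ≠ ⟨2, by omega⟩ := by
    intro h
    have := congrArg Fin.val h
    simp at this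
  have hl : c₂ / c₁ ≠ 0 := div_ne_zero h2 h1
  refine ⟨Matrix.SpecialLinearGroup.diag2n h02 (c₂ / c₁) hl, ?_⟩
  rw [eq_mul_inv_iff_mul_eq]
  apply Subtype.ext
  rw [Matrix.SpecialLinearGroup.coe_mul, Matrix.SpecialLinearGroup.coe_mul,
    Matrix.SpecialLinearGroup.transvection_coe, Matrix.SpecialLinearGroup.transvection_coe,
    Matrix.SpecialLinearGroup.diag2n_coe, add_mul, mul_add, one_mul, mul_one]
  congr 1
  ext i j
  rw [Matrix.mul_diagonal, Matrix.diagonal_mul, Matrix.single_apply, Matrix.single_apply]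
  by_cases hi : (0 : Fin (n + 3)) = i ∧ (1 : Fin (n + 3)) = j
  · obtain ⟨rfl, rfl⟩ := hi
    simp only [and_self, if_true, (f01 n).symm, h12, if_false]
    field_simp
  · rw [if_neg hi, if_neg hi, zero_mul, mul_zero]

theorem tv_class (a : Matrix.SpecialLinearGroup (Fin (n + 3)) F)
    (ha : a ∈ TvSet F n) (b : Matrix.SpecialLinearGroup (Fin (n + 3)) F) (hb : b ∈ TvSet F n) :
    ∃ g : Matrix.SpecialLinearGroup (Fin (n + 3)) F, b = g * a * g⁻¹ := by
  obtain ⟨c₁, h1, g₁, hg₁⟩ := ha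
  obtain ⟨c₂, h2, g₂, hg₂⟩ := hb
  have e1 : g₁⁻¹ * a * g₁ = Matrix.SpecialLinearGroup.transvection (f01 n) c₁ := by
    apply Subtype.ext
    rw [hg₁, Matrix.SpecialLinearGroup.transvection_coe, ← Matrix.transvection]
  have e2 : g₂⁻¹ * b * g₂ = Matrix.SpecialLinearGroup.transvection (f01 n) c₂ := by
    apply Subtype.ext
    rw [hg₂, Matrix.SpecialLinearGroup.transvection_coe, ← Matrix.transvection]
  obtain ⟨d, hd⟩ := elem_conj (n := n) c₁ c₂ h1 h2
  refine ⟨g₂ * d * g₁⁻¹, ?_⟩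
  have e3 : b = g₂ * (g₂⁻¹ * b * g₂) * g₂⁻¹ := by group
  rw [e3, e2, hd, ← e1]
  group

end Cfsg.Agent.Lib.Helper29
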