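import Mathlib
import Cfsg.Prelude.Def_GeometricClasses
import Cfsg.Agent.Lib.Helper29.SpTransv

/-!
Stabilisers of non-degenerate subspaces in `Cfsg.spGL m F`.
-/

set_option autoImplicit false

namespace Cfsg.Agent.Lib.Helper29

open Matrix Module
open Cfsg.Agent.H5Symp (form_add_left form_add_right form_smul_left form_smul_right form_neg_left
  form_neg_right form_sub_left form_sub_right form_zero_left form_zero_right form_swap form_self)

variable {m : ℕ} {F : Type*} [Field F]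

local notation "Vm" => (Fin m ⊕ Fin m → F)
local notation "B" => Cfsg.sympForm m F

/-- The orthogonal complement of a subspace for the symplectic form. -/
def perp (W : Submodule F Vm) : Submodule F Vm where
  carrier := {z | ∀ a ∈ W, B a z = 0}
  add_mem' := by
    intro x y hx hy a ha
    rw [form_add_right, hx a ha, hy a ha, add_zero]
  zero_mem' := by intro a _; exact form_zero_right a
  smul_mem' := by
    intro c x hx a ha
    rw [form_smul_right, hx a ha, mul_zero]

theorem mem_perp (W : Submodule F Vm) (z : Vm) : z ∈ perp W ↔ ∀ a ∈ W, B a z = 0 := Iff.rfl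

theorem exists_decomp (W : Submodule F Vm) (hW : Cfsg.Geo.IsNondegenerateOn (Cfsg.sympForm m F) W)
    (z : Vm) : ∃ w ∈ W, z - w ∈ perp W := by
  let φ : W →ₗ[F] Dual F W := (Submodule.dualRestrict W) ∘ₗ formMap ∘ₗ W.subtype
  have hinj : Function.Injective φ := by
    rw [← LinearMap.ker_eq_bot, LinearMap.ker_eq_bot']
    intro w hw
    by_contra hne
    have hne' : (w : Vm) ≠ 0 := fun h => hne (Subtype.ext h)
    obtain ⟨⟨x, hx, hxw⟩, -⟩ := hW w w.2 hne'
    apply hxw
    have : φ w ⟨x, hx⟩ = 0 := by rw [hw]; rfl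
    exact this
  have hs : Function.Surjective φ :=
    (LinearMap.injective_iff_surjective_of_finrank_eq_finrank
      (Subspace.dual_finrank_eq).symm).mp hinj
  obtain ⟨w, hw⟩ := hs (Submodule.dualRestrict W (formDual z))
  refine ⟨w, w.2, fun a ha => ?_⟩
  have h1 : φ w ⟨a, ha⟩ = Submodule.dualRestrict W (formDual z) ⟨a, ha⟩ := by rw [hw]
  have h2 : B a w = B a z := h1
  rw [form_sub_right, h2, sub_self]

theorem inf_perp_eq_bot (W : Submodule F Vm)
    (hW : Cfsg.Geo.IsNondegenerateOn (Cfsg.sympForm m F) W) : W ⊓ perp W = ⊥ := by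
  rw [eq_bot_iff]
  intro x hx
  rw [Submodule.mem_bot]
  by_contra hne
  obtain ⟨⟨y, hy, hyx⟩, -⟩ := hW x hx.1 hne
  exact hyx (hx.2 y hy)

theorem sup_perp_eq_top (W : Submodule F Vm)
    (hW : Cfsg.Geo.IsNondegenerateOn (Cfsg.sympForm m F) W) : W ⊔ perp W = ⊤ := by
  rw [eq_top_iff]
  intro z _
  obtain ⟨w, hw, hz⟩ := exists_decomp W hW z
  have : z = w + (z - w) := by abel
  rw [this]
  exact Submodule.add_mem_sup hw hz

theorem finrank_add_finrank_perp (W : Submodule F Vm)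
    (hW : Cfsg.Geo.IsNondegenerateOn (Cfsg.sympForm m F) W) :
    finrank F W + finrank F (perp W) = 2 * m := by
  have h := Submodule.finrank_sup_add_finrank_inf_eq W (perp W)
  rw [sup_perp_eq_top W hW, inf_perp_eq_bot W hW, finrank_top, finrank_bot, add_zero,
    Module.finrank_fintype_fun_eq_card] at h
  rw [← h]
  simp; ring

theorem perp_nondeg (W : Submodule F Vm)
    (hW : Cfsg.Geo.IsNondegenerateOn (Cfsg.sympForm m F) W) :
    ∀ u ∈ perp W, u ≠ 0 → ∃ z ∈ perp W, B u z ≠ 0 := by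
  intro u hu hu0
  obtain ⟨z, hz⟩ := exists_form_ne_zero hu0
  obtain ⟨w, hw, hzw⟩ := exists_decomp W hW z
  refine ⟨z - w, hzw, ?_⟩
  have : B u w = 0 := by rw [form_swap, hu w hw, neg_zero]
  rwa [form_sub_right, this, sub_zero]

/-- A subspace covered by two subspaces lies in one of them. -/
theorem le_or_le_of_forall_mem_or {V : Type*} [AddCommGroup V] [Module F V]
    (S W₁ W₂ : Submodule F V) (h : ∀ a ∈ S, a ∈ W₁ ∨ a ∈ W₂) : S ≤ W₁ ∨ S ≤ W₂ := by
  by_contra hcon
  push Not at hcon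
  obtain ⟨a, haS, ha⟩ := SetLike.not_le_iff_exists.mp hcon.1
  obtain ⟨b, hbS, hb⟩ := SetLike.not_le_iff_exists.mp hcon.2
  have ha2 : a ∈ W₂ := (h a haS).resolve_left ha
  have hb1 : b ∈ W₁ := (h b hbS).resolve_right hb
  rcases h (a + b) (S.add_mem haS hbS) with h1 | h2
  · exact ha ((W₁.add_mem_iff_left hb1).mp h1)
  · exact hb ((W₂.add_mem_iff_right ha2).mp h2)

/-- Moving the `S`-component of a centre. -/
theorem centres_move {M : Subgroup (GL (Fin m ⊕ Fin m) F)} (hM : M ≤ Cfsg.spGL m F)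
    (S : Submodule F Vm) (hS : ∀ u ∈ S, u ≠ 0 → ∃ z ∈ S, B u z ≠ 0)
    (hSM : ∀ s ∈ S, s ∈ centres M) {r : Vm} (hr : ∀ s ∈ S, B r s = 0)
    {s₀ : Vm} (hs₀ : s₀ ∈ S) (hs₀0 : s₀ ≠ 0) (h₀ : s₀ + r ∈ centres M)
    {s : Vm} (hs : s ∈ S) (hs0 : s ≠ 0) : s + r ∈ centres M := by
  have step : ∀ s₁ ∈ S, s₁ + r ∈ centres M → ∀ y ∈ S, B s₁ y ≠ 0 → (s₁ + y) + r ∈ centres M := by
    intro s₁ _ h₁ y hy hne
    have := centres_add hM h₁ (hSM y hy) (by rw [form_add_left, hr y hy, add_zero]; exact hne)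
    have e : s₁ + y + r = s₁ + r + y := by abel
    rw [e]; exact this
  obtain ⟨z, hz, hz1, hz2⟩ := exists_both_ne_zero S (formDual s₀) (formDual s)
    (by
      obtain ⟨y, hy, hne⟩ := hS s₀ hs₀ hs₀0
      exact ⟨y, hy, by rw [formDual_apply, form_swap]; exact neg_ne_zero.mpr hne⟩)
    (by
      obtain ⟨y, hy, hne⟩ := hS s hs hs0
      exact ⟨y, hy, by rw [formDual_apply, form_swap]; exact neg_ne_zero.mpr hne⟩)
  rw [formDual_apply] at hz1 hz2
  have h1 := step s₀ hs₀ h₀ (z - s₀) (S.sub_mem hz hs₀)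
    (by rw [form_sub_right, form_self, sub_zero, form_swap]; exact neg_ne_zero.mpr hz1)
  rw [add_sub_cancel] at h1
  have h2 := step z hz h1 (s - z) (S.sub_mem hs hz)
    (by rw [form_sub_right, form_self, sub_zero]; exact hz2)
  rwa [add_sub_cancel] at h2

/-- An overgroup in Sp of the stabiliser of a non-degenerate subspace `W` of dimension `< m`,
not stabilising `W`, contains all symplectic transvections. -/
theorem centres_eq_univ_of_nondegenerate (W : Submodule F Vm) (hW0 : W ≠ ⊥)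
    (hW : Cfsg.Geo.IsNondegenerateOn (Cfsg.sympForm m F) W) (hdim : finrank F W < m)
    {M : Subgroup (GL (Fin m ⊕ Fin m) F)} (hM : M ≤ Cfsg.spGL m F)
    (hP : Cfsg.Geo.subspaceStabilizer W ⊓ Cfsg.spGL m F ≤ M)
    {g : GL (Fin m ⊕ Fin m) F} (hg : g ∈ M) (hgW : g ∉ Cfsg.Geo.subspaceStabilizer W) :
    ∀ z : Vm, z ∈ centres M := by
  have hperp : ∀ z ∈ perp W, z ∈ centres M := by
    intro z hz c
    refine hP ⟨tv_mem_stab_of_le_ker W _ _ _ (fun a ha => ?_), stv_mem_spGL z c⟩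
    simp [hz a ha]
  have hWX : ∀ z ∈ W, z ∈ centres M := by
    intro z hz c
    exact hP ⟨tv_mem_stab_of_mem W _ _ _ hz, stv_mem_spGL z c⟩
  -- a mixed centre
  obtain ⟨x₀, hx₀X, hx₀W, hx₀P⟩ : ∃ x₀ ∈ centres M, x₀ ∉ W ∧ x₀ ∉ perp W := by
    by_contra hcon
    push Not at hcon
    have hcov : ∀ x ∈ centres M, x ∈ W ∨ x ∈ perp W := by
      intro x hx
      by_cases hxW : x ∈ W
      · exact Or.inl hxW
      · exact Or.inr (hcon x hx hxW)
    have h1 : glMap g W ≤ W ∨ glMap g W ≤ perp W := by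
      apply le_or_le_of_forall_mem_or
      intro a ha
      rw [mem_glMap] at ha
      have := hcov _ (centres_mulVec hM hg (hWX _ ha))
      rwa [gl_mulVec_inv] at this
    have h2 : glMap g (perp W) ≤ W ∨ glMap g (perp W) ≤ perp W := by
      apply le_or_le_of_forall_mem_or
      intro a ha
      rw [mem_glMap] at ha
      have := hcov _ (centres_mulVec hM hg (hperp _ ha))
      rwa [gl_mulVec_inv] at this
    have h1' : glMap g W ≤ perp W := by
      rcases h1 with h1 | h1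
      · exfalso
        apply hgW
        apply mem_subspaceStabilizer_of_le
        intro v hv
        exact h1 (mulVec_mem_glMap g W hv)
      · exact h1
    have h2' : glMap g (perp W) ≤ perp W := by
      rcases h2 with h2 | h2
      · exfalso
        have h3 := Submodule.finrank_mono h2
        rw [finrank_glMap] at h3
        have h4 := finrank_add_finrank_perp W hW
        omega
      · exact h2
    obtain ⟨w, hw, hw0⟩ := Submodule.exists_mem_ne_zero_of_ne_bot hW0
    obtain ⟨a, ha, hb⟩ := exists_decomp W hW (((g⁻¹ : GL (Fin m ⊕ Fin m) F) : Matrix _ _ F) *ᵥ w)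
    have h5 : w ∈ perp W := by
      have e : w = (g : Matrix _ _ F) *ᵥ a +
          (g : Matrix _ _ F) *ᵥ (((g⁻¹ : GL (Fin m ⊕ Fin m) F) : Matrix _ _ F) *ᵥ w - a) := by
        rw [← Matrix.mulVec_add, add_sub_cancel, gl_mulVec_inv]
      rw [e]
      exact (perp W).add_mem (h1' (mulVec_mem_glMap g W ha)) (h2' (mulVec_mem_glMap g _ hb))
    have h6 : w ∈ W ⊓ perp W := ⟨hw, h5⟩
    rw [inf_perp_eq_bot W hW] at h6
    exact hw0 h6
  obtain ⟨w₀, hw₀, hu₀⟩ := exists_decomp W hW x₀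
  set u₀ := x₀ - w₀ with hu₀def
  have hx₀ : x₀ = w₀ + u₀ := by rw [hu₀def]; abel
  have hw₀0 : w₀ ≠ 0 := by
    rintro rfl
    apply hx₀P
    rw [hx₀, zero_add]; exact hu₀
  have hu₀0 : u₀ ≠ 0 := by
    intro h
    apply hx₀W
    rw [hx₀, h, add_zero]; exact hw₀
  have hWnd : ∀ u ∈ W, u ≠ 0 → ∃ z ∈ W, B u z ≠ 0 := fun u hu hu0 => (hW u hu hu0).2
  intro z
  obtain ⟨w, hw, hu⟩ := exists_decomp W hW z
  have hz : z = w + (z - w) := by abel
  by_cases hw0 : w = 0
  · rw [hz, hw0, zero_add]; rw [hw0] at hu; exact hperp _ hu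
  by_cases hu0 : z - w = 0
  · rw [hz, hu0, add_zero]; exact hWX w hw
  have h1 : w + u₀ ∈ centres M :=
    centres_move hM W hWnd hWX (fun s hs => by rw [form_swap, hu₀ s hs, neg_zero]) hw₀ hw₀0
      (hx₀ ▸ hx₀X) hw hw0
  have h2 : (z - w) + w ∈ centres M :=
    centres_move hM (perp W) (perp_nondeg W hW) hperp (fun s hs => hs w hw) hu₀ hu₀0
      (by rw [add_comm]; exact h1) hu hu0
  rwa [sub_add_cancel] at h2

/-- The stabiliser in Sp of a non-zero non-degenerate subspace of dimension `< m` is maximal. -/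
theorem sp_stab_isMaximalIn_of_nondegenerate (W : Submodule F Vm) (hW0 : W ≠ ⊥)
    (hW : Cfsg.Geo.IsNondegenerateOn (Cfsg.sympForm m F) W) (hdim : finrank F W < m) :
    Cfsg.Geo.IsMaximalIn (Cfsg.spGL m F) (Cfsg.Geo.subspaceStabilizer W ⊓ Cfsg.spGL m F) := by
  refine ⟨lt_of_le_of_ne inf_le_right ?_, ?_⟩
  · intro heq
    obtain ⟨w, hw, hw0⟩ := Submodule.exists_mem_ne_zero_of_ne_bot hW0
    obtain ⟨⟨a, ha, haw⟩, -⟩ := hW w hw hw0
    have hp0 : perp W ≠ ⊥ := by
      intro h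
      have h4 := finrank_add_finrank_perp W hW
      rw [h, finrank_bot] at h4
      omega
    obtain ⟨u, hu, hu0⟩ := Submodule.exists_mem_ne_zero_of_ne_bot hp0
    have h1 : stv (w + u) 1 ∈ Cfsg.spGL m F := stv_mem_spGL _ 1
    rw [← heq] at h1
    have h2 := ((mem_subspaceStabilizer_iff W _).mp h1.1 a).mp ha
    rw [stv_mulVec, one_mul, form_add_right, hu a ha, add_zero] at h2
    have h3 := (W.add_mem_iff_right ha).mp h2
    have h4 := W.smul_mem (B a w)⁻¹ h3
    rw [smul_smul, inv_mul_cancel₀ haw, one_smul] at h4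
    have h5 := (W.add_mem_iff_right hw).mp h4
    have h6 : u ∈ W ⊓ perp W := ⟨h5, hu⟩
    rw [inf_perp_eq_bot W hW] at h6
    exact hu0 h6
  · intro M hPM hMS
    by_cases hMP : M ≤ Cfsg.Geo.subspaceStabilizer W
    · left
      exact le_antisymm (le_inf hMP hMS) hPM
    · right
      obtain ⟨g, hg, hgW⟩ := SetLike.not_le_iff_exists.mp hMP
      exact le_antisymm hMS (spGL_le_of_stv M
        (fun v c => centres_eq_univ_of_nondegenerate W hW0 hW hdim hMS hPM hg hgW v c))

end Cfsg.Agent.Lib.Helper29
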