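import Mathlib
import Cfsg.Prelude.Def_GeometricClasses
import Cfsg.Agent.Lib.Helper29.SpNondeg
import Cfsg.Agent.Lib.Helper29.Decomp

/-!
Stabilisers of orthogonal decompositions into non-degenerate subspaces in `Cfsg.spGL m F`.
-/

set_option autoImplicit false
set_option linter.unusedSimpArgs false

namespace Cfsg.Agent.Lib.Helper29

open Matrix Module
open Cfsg.Agent.H5Symp (form_add_left form_add_right form_smul_left form_smul_right form_neg_left
  form_neg_right form_sub_left form_sub_right form_zero_left form_zero_right form_swap form_self)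

variable {m : ℕ} {F : Type*} [Field F]

local notation "Vm" => (Fin m ⊕ Fin m → F)
local notation "B" => Cfsg.sympForm m F

/-! ### Hyperbolic pairs -/

theorem exists_hyp (S : Submodule F Vm) (hS : ∀ u ∈ S, u ≠ 0 → ∃ z ∈ S, B u z ≠ 0) (hS0 : S ≠ ⊥) :
    ∃ e ∈ S, ∃ f ∈ S, B e f = 1 := by
  obtain ⟨e, he, he0⟩ := Submodule.exists_mem_ne_zero_of_ne_bot hS0
  obtain ⟨z, hz, hez⟩ := hS e he he0
  exact ⟨e, he, (B e z)⁻¹ • z, S.smul_mem _ hz, by rw [form_smul_right, inv_mul_cancel₀ hez]⟩

theorem linInd_hyp {e f : Vm} (h : B e f = 1) : LinearIndependent F ![e, f] := by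
  rw [LinearIndependent.pair_iff]
  intro s t hst
  have h1 : B (s • e + t • f) f = 0 := by rw [hst, form_zero_left]
  have h2 : B e (s • e + t • f) = 0 := by rw [hst, form_zero_right]
  rw [form_add_left, form_smul_left, form_smul_left, form_self, h] at h1
  rw [form_add_right, form_smul_right, form_smul_right, form_self, h] at h2
  exact ⟨by simpa using h1, by simpa using h2⟩

theorem finrank_span_hyp {e f : Vm} (h : B e f = 1) :
    finrank F (Submodule.span F ({e, f} : Set Vm)) = 2 := by
  have := finrank_span_eq_card (linInd_hyp h)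
  have h2 : Set.range ![e, f] = ({e, f} : Set Vm) := by
    ext x
    simp only [Set.mem_range, Set.mem_insert_iff, Set.mem_singleton_iff]
    constructor
    · rintro ⟨i, rfl⟩
      fin_cases i
      · left; rfl
      · right; rfl
    · rintro (rfl | rfl)
      · exact ⟨0, rfl⟩
      · exact ⟨1, rfl⟩
  rw [h2] at this
  simpa using this

theorem nondeg_span_hyp {e f : Vm} (h : B e f = 1) :
    Cfsg.Geo.IsNondegenerateOn (Cfsg.sympForm m F) (Submodule.span F ({e, f} : Set Vm)) := by
  have he : e ∈ Submodule.span F ({e, f} : Set Vm) := Submodule.subset_span (by simp)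
  have hf : f ∈ Submodule.span F ({e, f} : Set Vm) := Submodule.subset_span (by simp)
  have hfe : B f e = -1 := by rw [form_swap, h]
  intro w hw hw0
  obtain ⟨a, b, rfl⟩ := Submodule.mem_span_pair.mp hw
  by_cases ha : a = 0
  · have hb : b ≠ 0 := by
      rintro rfl
      apply hw0; rw [ha]; simp
    refine ⟨⟨e, he, ?_⟩, ⟨e, he, ?_⟩⟩
    · rw [form_add_right, form_smul_right, form_smul_right, form_self, h]; simpa using hb
    · rw [form_add_left, form_smul_left, form_smul_left, form_self, hfe]; simpa using hb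
  · refine ⟨⟨f, hf, ?_⟩, ⟨f, hf, ?_⟩⟩
    · rw [form_add_right, form_smul_right, form_smul_right, form_self, hfe]; simpa using ha
    · rw [form_add_left, form_smul_left, form_smul_left, form_self, h]; simpa using ha

theorem finrank_inf_perp {P A : Submodule F Vm} (hPA : P ≤ A)
    (hP : Cfsg.Geo.IsNondegenerateOn (Cfsg.sympForm m F) P) :
    finrank F P + finrank F (A ⊓ perp P : Submodule F Vm) = finrank F A := by
  have h := Submodule.finrank_sup_add_finrank_inf_eq P (A ⊓ perp P)
  have h1 : P ⊓ (A ⊓ perp P) = ⊥ := by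
    rw [eq_bot_iff, ← inf_perp_eq_bot P hP]
    exact le_inf inf_le_left (inf_le_right.trans inf_le_right)
  have h2 : P ⊔ (A ⊓ perp P) = A := by
    apply le_antisymm (sup_le hPA inf_le_left)
    intro x hx
    obtain ⟨w, hw, hxw⟩ := exists_decomp P hP x
    have : x = w + (x - w) := by abel
    rw [this]
    exact Submodule.add_mem_sup hw ⟨A.sub_mem hx (hPA hw), hxw⟩
  rw [h1, h2, finrank_bot, add_zero] at h
  exact h.symm

theorem mem_perp_span_pair {e f z : Vm} :
    z ∈ perp (Submodule.span F ({e, f} : Set Vm)) ↔ B e z = 0 ∧ B f z = 0 := by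
  rw [mem_perp]
  constructor
  · intro h
    exact ⟨h e (Submodule.subset_span (by simp)), h f (Submodule.subset_span (by simp))⟩
  · rintro ⟨h1, h2⟩ a ha
    obtain ⟨s, t, rfl⟩ := Submodule.mem_span_pair.mp ha
    rw [form_add_left, form_smul_left, form_smul_left, h1, h2]; simp

/-! ### Swapping two hyperbolic pairs -/

noncomputable def hswapLin (a b : Vm) : Vm →ₗ[F] Vm :=
  LinearMap.id - (formDual b).smulRight a + (formDual a).smulRight b

theorem hswapLin_apply (a b x : Vm) : hswapLin a b x = x - B x b • a + B x a • b := by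
  simp [hswapLin]

theorem hswapLin_invol {a b : Vm} (hab : B a b = 2) : Function.Involutive (hswapLin a b) := by
  intro x
  have hba : B b a = -2 := by rw [form_swap, hab]
  rw [hswapLin_apply, hswapLin_apply]
  simp only [form_add_left, form_sub_left, form_smul_left, form_self, hab, hba]
  module

noncomputable def hswap (a b : Vm) (hab : B a b = 2) : GL (Fin m ⊕ Fin m) F :=
  ofLE (LinearEquiv.ofInvolutive (hswapLin a b) (hswapLin_invol hab))

theorem hswap_mulVec (a b : Vm) (hab : B a b = 2) (x : Vm) :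
    (hswap a b hab : Matrix _ _ F) *ᵥ x = x - B x b • a + B x a • b := by
  rw [hswap, ofLE_mulVec, LinearEquiv.coe_ofInvolutive, hswapLin_apply]

theorem hswap_mem_spGL (a b : Vm) (hab : B a b = 2) : hswap a b hab ∈ Cfsg.spGL m F := by
  rw [mem_spGL_iff]
  intro x y
  have hba : B b a = -2 := by rw [form_swap, hab]
  rw [hswap_mulVec, hswap_mulVec]
  simp only [form_add_left, form_sub_left, form_smul_left, form_add_right, form_sub_right,
    form_smul_right, form_self, hab, hba]
  rw [form_swap a y, form_swap b y]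
  ring

/-- Removing a hyperbolic plane from a non-degenerate subspace. -/
theorem nondeg_inf_perp_hyp {A : Submodule F Vm} (hA : ∀ u ∈ A, u ≠ 0 → ∃ z ∈ A, B u z ≠ 0)
    {e f : Vm} (he : e ∈ A) (hf : f ∈ A) (h : B e f = 1) :
    ∀ u ∈ (A ⊓ perp (Submodule.span F ({e, f} : Set Vm)) : Submodule F Vm), u ≠ 0 →
      ∃ z ∈ (A ⊓ perp (Submodule.span F ({e, f} : Set Vm)) : Submodule F Vm), B u z ≠ 0 := by
  have hfe : B f e = -1 := by rw [form_swap, h]
  intro u hu' hu0
  obtain ⟨huA, hu⟩ := Submodule.mem_inf.mp hu'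
  rw [mem_perp_span_pair] at hu
  obtain ⟨z, hz, huz⟩ := hA u huA hu0
  refine ⟨z - B z f • e + B z e • f, Submodule.mem_inf.mpr
    ⟨A.add_mem (A.sub_mem hz (A.smul_mem _ he)) (A.smul_mem _ hf), ?_⟩, ?_⟩
  · rw [mem_perp_span_pair]
    constructor
    · rw [form_add_right, form_sub_right, form_smul_right, form_smul_right, form_self, h,
        form_swap e z]; ring
    · rw [form_add_right, form_sub_right, form_smul_right, form_smul_right, form_self, hfe,
        form_swap f z]; ring
  · rw [form_add_right, form_sub_right, form_smul_right, form_smul_right, form_swap u e, hu.1,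
      form_swap u f, hu.2]
    simpa using huz

/-- Two orthogonal non-degenerate subspaces of the same dimension are swapped by an isometry
fixing every vector orthogonal to both. -/
theorem exists_swap : ∀ (k : ℕ) (A A' : Submodule F Vm), finrank F A = k → finrank F A' = k →
    (∀ u ∈ A, u ≠ 0 → ∃ z ∈ A, B u z ≠ 0) → (∀ u ∈ A', u ≠ 0 → ∃ z ∈ A', B u z ≠ 0) →
    (∀ u ∈ A, ∀ v ∈ A', B u v = 0) →
    ∃ h ∈ Cfsg.spGL m F, (∀ x ∈ A, (h : Matrix _ _ F) *ᵥ x ∈ A') ∧
      (∀ x ∈ A', (h : Matrix _ _ F) *ᵥ x ∈ A) ∧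
      (∀ x, (∀ a ∈ A, B a x = 0) → (∀ a ∈ A', B a x = 0) → (h : Matrix _ _ F) *ᵥ x = x) := by
  intro k
  induction k using Nat.strong_induction_on with
  | _ k ih =>
    intro A A' hk hk' hA hA' hAA'
    by_cases hk0 : k = 0
    · subst hk0
      rw [Submodule.finrank_eq_zero] at hk hk'
      subst hk hk'
      exact ⟨1, (Cfsg.spGL m F).one_mem, by simp, by simp, by simp⟩
    have hAne : A ≠ ⊥ := by
      intro h0; rw [h0, finrank_bot] at hk; exact hk0 hk.symm
    have hAne' : A' ≠ ⊥ := by
      intro h0; rw [h0, finrank_bot] at hk'; exact hk0 hk'.symm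
    obtain ⟨e, he, f, hf, hef⟩ := exists_hyp A hA hAne
    obtain ⟨e', he', f', hf', hef'⟩ := exists_hyp A' hA' hAne'
    have hfe : B f e = -1 := by rw [form_swap, hef]
    have hfe' : B f' e' = -1 := by rw [form_swap, hef']
    have hA'A : ∀ u ∈ A', ∀ v ∈ A, B u v = 0 := by
      intro u hu v hv; rw [form_swap, hAA' v hv u hu, neg_zero]
    set P := Submodule.span F ({e, f} : Set Vm) with hP
    set P' := Submodule.span F ({e', f'} : Set Vm) with hP'
    have hPA : P ≤ A := by
      rw [hP, Submodule.span_le]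
      rintro x (rfl | rfl)
      · exact he
      · exact hf
    have hPA' : P' ≤ A' := by
      rw [hP', Submodule.span_le]
      rintro x (rfl | rfl)
      · exact he'
      · exact hf'
    have hd := finrank_inf_perp hPA (nondeg_span_hyp hef)
    have hd' := finrank_inf_perp hPA' (nondeg_span_hyp hef')
    rw [finrank_span_hyp hef, hk] at hd
    rw [finrank_span_hyp hef', hk'] at hd'
    obtain ⟨h₁, h₁S, h₁A, h₁A', h₁fix⟩ := ih (k - 2) (by omega) (A ⊓ perp P) (A' ⊓ perp P')
      (by omega) (by omega) (nondeg_inf_perp_hyp hA he hf hef)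
      (nondeg_inf_perp_hyp hA' he' hf' hef')
      (fun u hu v hv => hAA' u hu.1 v hv.1)
    have hab : B (e - e') (f - f') = 2 := by
      rw [form_sub_left, form_sub_right, form_sub_right, hef, hef', hAA' e he f' hf',
        hA'A e' he' f hf]; ring
    -- h₁ fixes e, f, e', f'
    have fixA : ∀ x ∈ P, (h₁ : Matrix _ _ F) *ᵥ x = x := by
      intro x hx
      apply h₁fix
      · intro a ha
        rw [form_swap, ha.2 x hx, neg_zero]
      · intro a ha
        exact hA'A a ha.1 x (hPA hx)
    have fixA' : ∀ x ∈ P', (h₁ : Matrix _ _ F) *ᵥ x = x := by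
      intro x hx
      apply h₁fix
      · intro a ha
        exact hAA' a ha.1 x (hPA' hx)
      · intro a ha
        rw [form_swap, ha.2 x hx, neg_zero]
    have heP : e ∈ P := Submodule.subset_span (by simp)
    have hfP : f ∈ P := Submodule.subset_span (by simp)
    have heP' : e' ∈ P' := Submodule.subset_span (by simp)
    have hfP' : f' ∈ P' := Submodule.subset_span (by simp)
    refine ⟨hswap (e - e') (f - f') hab * h₁,
      (Cfsg.spGL m F).mul_mem (hswap_mem_spGL _ _ _) h₁S, ?_, ?_, ?_⟩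
    · intro x hx
      set x₁ := x - B x f • e + B x e • f with hx₁
      have hx₁mem : x₁ ∈ (A ⊓ perp P : Submodule F Vm) := by
        refine Submodule.mem_inf.mpr
          ⟨A.add_mem (A.sub_mem hx (A.smul_mem _ he)) (A.smul_mem _ hf), ?_⟩
        rw [hP, mem_perp_span_pair]
        constructor
        · rw [hx₁, form_add_right, form_sub_right, form_smul_right, form_smul_right, form_self, hef,
            form_swap e x]; ring
        · rw [hx₁, form_add_right, form_sub_right, form_smul_right, form_smul_right, form_self, hfe,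
            form_swap f x]; ring
      have hy := Submodule.mem_inf.mp (h₁A x₁ hx₁mem)
      set y := (h₁ : Matrix (Fin m ⊕ Fin m) (Fin m ⊕ Fin m) F) *ᵥ x₁ with hy_def
      have hxe : x = x₁ + B x f • e - B x e • f := by rw [hx₁]; abel
      have h1 : (h₁ : Matrix _ _ F) *ᵥ x = y + B x f • e - B x e • f := by
        conv_lhs => rw [hxe]
        rw [Matrix.mulVec_sub, Matrix.mulVec_add, Matrix.mulVec_smul, Matrix.mulVec_smul,
          fixA e heP, fixA f hfP]
      have hyP := hy.2
      rw [hP', mem_perp_span_pair] at hyP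
      have hye : B y e = 0 := hA'A y hy.1 e he
      have hyf : B y f = 0 := hA'A y hy.1 f hf
      have hye' : B y e' = 0 := by rw [form_swap, hyP.1, neg_zero]
      have hyf' : B y f' = 0 := by rw [form_swap, hyP.2, neg_zero]
      have c1 : B (y + B x f • e - B x e • f) (f - f') = B x f := by
        simp only [form_add_left, form_sub_left, form_smul_left, form_sub_right, form_self, hef, hfe,
          hye, hyf, hye', hyf', hAA' e he e' he', hAA' e he f' hf', hAA' f hf e' he',
          hAA' f hf f' hf']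
        ring
      have c2 : B (y + B x f • e - B x e • f) (e - e') = B x e := by
        simp only [form_add_left, form_sub_left, form_smul_left, form_sub_right, form_self, hef, hfe,
          hye, hyf, hye', hyf', hAA' e he e' he', hAA' e he f' hf', hAA' f hf e' he',
          hAA' f hf f' hf']
        ring
      rw [gl_mul_mulVec, h1, hswap_mulVec, c1, c2]
      have : y + B x f • e - B x e • f - B x f • (e - e') + B x e • (f - f')
          = y + B x f • e' - B x e • f' := by
        module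
      rw [this]
      exact A'.sub_mem (A'.add_mem hy.1 (A'.smul_mem _ he')) (A'.smul_mem _ hf')
    · intro x hx
      set x₁ := x - B x f' • e' + B x e' • f' with hx₁
      have hx₁mem : x₁ ∈ (A' ⊓ perp P' : Submodule F Vm) := by
        refine Submodule.mem_inf.mpr
          ⟨A'.add_mem (A'.sub_mem hx (A'.smul_mem _ he')) (A'.smul_mem _ hf'), ?_⟩
        rw [hP', mem_perp_span_pair]
        constructor
        · rw [hx₁, form_add_right, form_sub_right, form_smul_right, form_smul_right, form_self,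
            hef', form_swap e' x]; ring
        · rw [hx₁, form_add_right, form_sub_right, form_smul_right, form_smul_right, form_self,
            hfe', form_swap f' x]; ring
      have hy := Submodule.mem_inf.mp (h₁A' x₁ hx₁mem)
      set y := (h₁ : Matrix (Fin m ⊕ Fin m) (Fin m ⊕ Fin m) F) *ᵥ x₁ with hy_def
      have hxe : x = x₁ + B x f' • e' - B x e' • f' := by rw [hx₁]; abel
      have h1 : (h₁ : Matrix _ _ F) *ᵥ x = y + B x f' • e' - B x e' • f' := by
        conv_lhs => rw [hxe]
        rw [Matrix.mulVec_sub, Matrix.mulVec_add, Matrix.mulVec_smul, Matrix.mulVec_smul,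
          fixA' e' heP', fixA' f' hfP']
      have hyP := hy.2
      rw [hP, mem_perp_span_pair] at hyP
      have hye' : B y e' = 0 := hAA' y hy.1 e' he'
      have hyf' : B y f' = 0 := hAA' y hy.1 f' hf'
      have hye : B y e = 0 := by rw [form_swap, hyP.1, neg_zero]
      have hyf : B y f = 0 := by rw [form_swap, hyP.2, neg_zero]
      have c1 : B (y + B x f' • e' - B x e' • f') (f - f') = - B x f' := by
        simp only [form_add_left, form_sub_left, form_smul_left, form_sub_right, form_self, hef',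
          hfe', hye, hyf, hye', hyf', hA'A e' he' e he, hA'A e' he' f hf, hA'A f' hf' e he,
          hA'A f' hf' f hf]
        ring
      have c2 : B (y + B x f' • e' - B x e' • f') (e - e') = - B x e' := by
        simp only [form_add_left, form_sub_left, form_smul_left, form_sub_right, form_self, hef',
          hfe', hye, hyf, hye', hyf', hA'A e' he' e he, hA'A e' he' f hf, hA'A f' hf' e he,
          hA'A f' hf' f hf]
        ring
      rw [gl_mul_mulVec, h1, hswap_mulVec, c1, c2]
      have : y + B x f' • e' - B x e' • f' - (- B x f') • (e - e') + (- B x e') • (f - f')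
          = y + B x f' • e - B x e' • f := by
        module
      rw [this]
      exact A.sub_mem (A.add_mem hy.1 (A.smul_mem _ he)) (A.smul_mem _ hf)
    · intro x hxA hxA'
      have h1 : (h₁ : Matrix _ _ F) *ᵥ x = x :=
        h₁fix x (fun a ha => hxA a ha.1) (fun a ha => hxA' a ha.1)
      rw [gl_mul_mulVec, h1, hswap_mulVec, form_sub_right, form_sub_right, form_swap x f,
        hxA f hf, form_swap x f', hxA' f' hf', form_swap x e, hxA e he, form_swap x e',
        hxA' e' he']
      simp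

/-! ### Decompositions -/

theorem glMap_eq_of_forall_mem {ι : Type} [Fintype ι] [DecidableEq ι] (g : GL ι F)
    (W W' : Submodule F (ι → F)) (h : ∀ x ∈ W, (g : Matrix ι ι F) *ᵥ x ∈ W')
    (hd : finrank F W = finrank F W') : glMap g W = W' := by
  apply Submodule.eq_of_le_of_finrank_eq
  · intro x hx
    rw [mem_glMap] at hx
    have := h _ hx
    rwa [gl_mulVec_inv] at this
  · rw [finrank_glMap, hd]

theorem gl_mulVec_ne_zero {ι : Type} [Fintype ι] [DecidableEq ι] (g : GL ι F) {v : ι → F}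
    (hv : v ≠ 0) : (g : Matrix ι ι F) *ᵥ v ≠ 0 := by
  intro h0
  apply hv
  have := gl_inv_mulVec g v
  rw [h0, Matrix.mulVec_zero] at this
  exact this.symm

section decomp

variable {t k : ℕ} {D : Fin t → Submodule F (Fin m ⊕ Fin m → F)}
  (hD : Cfsg.Geo.IsNondegenerateMDecomposition (Cfsg.sympForm m F) k D)

include hD in
theorem D_nondeg (i : Fin t) : ∀ u ∈ D i, u ≠ 0 → ∃ z ∈ D i, B u z ≠ 0 :=
  fun u hu h0 => (hD.nondegenerate i u hu h0).2

include hD in
theorem D_ne_bot (i : Fin t) : D i ≠ ⊥ := by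
  intro h
  have h1 := hD.decomp.finrank_eq i
  rw [h, finrank_bot] at h1
  have := hD.decomp.pos
  omega

include hD in
theorem eq_of_add_mem {i j l : Fin t} (hij : i ≠ j) {u w : Vm} (hu : u ∈ D i) (hw : w ∈ D j)
    (hw0 : w ≠ 0) (h : u + w ∈ D l) : l = j := by
  by_contra hlj
  obtain ⟨y, hy, hwy⟩ := D_nondeg hD j w hw hw0
  apply hwy
  have h1 := hD.orthogonal l j hlj (u + w) h y hy
  rw [form_add_left, hD.orthogonal i j hij u hu y hy, zero_add] at h1
  exact h1

include hD in
theorem exists_not_mem_of_not_stab {g : GL (Fin m ⊕ Fin m) F}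
    (hg : g ∉ Cfsg.Geo.decompositionStabilizer D) :
    ∃ i, ∃ v ∈ D i, ∀ j, (g : Matrix _ _ F) *ᵥ v ∉ D j := by
  by_contra hcon
  push Not at hcon
  have h1 : ∀ i, ∃ j, ∀ v ∈ D i, (g : Matrix _ _ F) *ᵥ v ∈ D j := by
    intro i
    obtain ⟨v₀, hv₀, hv₀0⟩ := Submodule.exists_mem_ne_zero_of_ne_bot (D_ne_bot hD i)
    obtain ⟨j₀, hj₀⟩ := hcon i v₀ hv₀
    refine ⟨j₀, fun v hv => ?_⟩
    by_cases hv0 : v = 0
    · rw [hv0, Matrix.mulVec_zero]; exact (D j₀).zero_mem
    obtain ⟨j, hj⟩ := hcon i v hv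
    by_cases hjj : j = j₀
    · rw [← hjj]; exact hj
    exfalso
    obtain ⟨l, hl⟩ := hcon i (v + v₀) ((D i).add_mem hv hv₀)
    rw [Matrix.mulVec_add] at hl
    have e1 := eq_of_add_mem hD hjj hj hj₀ (gl_mulVec_ne_zero g hv₀0) hl
    rw [add_comm] at hl
    have e2 := eq_of_add_mem hD (Ne.symm hjj) hj₀ hj (gl_mulVec_ne_zero g hv0) hl
    exact hjj (e2.symm.trans e1)
  choose σ hσ using h1
  have h2 : ∀ i, glMap g (D i) = D (σ i) := fun i =>
    glMap_eq_of_forall_mem g _ _ (hσ i) (by rw [hD.decomp.finrank_eq, hD.decomp.finrank_eq])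
  have hinj : Function.Injective σ := by
    intro i i' hii
    by_contra hne
    have h3 : glMap g (D i) = glMap g (D i') := by rw [h2, h2, hii]
    have h4 : D i = D i' := by
      have := congrArg (glMap g⁻¹) h3
      rwa [← glMap_mul, ← glMap_mul, inv_mul_cancel, glMap_one, glMap_one] at this
    obtain ⟨v, hv, hv0⟩ := Submodule.exists_mem_ne_zero_of_ne_bot (D_ne_bot hD i)
    obtain ⟨z, hz, hvz⟩ := D_nondeg hD i v hv hv0
    exact hvz (hD.orthogonal i i' hne v hv z (h4 ▸ hz))
  exact hg ((mem_decompositionStabilizer_iff D g).mpr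
    ⟨Equiv.ofBijective σ (Finite.injective_iff_bijective.mp hinj), h2⟩)

include hD in
theorem stv_mem_decompStab {i : Fin t} {v : Vm} (hv : v ∈ D i) (c : F) :
    stv v c ∈ Cfsg.Geo.decompositionStabilizer D := by
  rw [mem_decompositionStabilizer_iff]
  refine ⟨1, fun j => glMap_eq_of_forall_mem _ _ _ (fun x hx => ?_) rfl⟩
  rw [stv_mulVec]
  by_cases hij : j = i
  · subst hij; exact (D j).add_mem hx ((D j).smul_mem _ hv)
  · rw [hD.orthogonal j i hij x hx v hv]; simpa using hx

include hD in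
theorem exists_swap_mem (i j : Fin t) (hij : i ≠ j) :
    ∃ h ∈ Cfsg.Geo.decompositionStabilizer D ⊓ Cfsg.spGL m F,
      ∀ l, glMap h (D l) = D (Equiv.swap i j l) := by
  obtain ⟨h, hS, h1, h2, h3⟩ := exists_swap k (D i) (D j) (hD.decomp.finrank_eq i)
    (hD.decomp.finrank_eq j) (D_nondeg hD i) (D_nondeg hD j) (hD.orthogonal i j hij)
  have key : ∀ l, glMap h (D l) = D (Equiv.swap i j l) := by
    intro l
    apply glMap_eq_of_forall_mem _ _ _ _ (by rw [hD.decomp.finrank_eq, hD.decomp.finrank_eq])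
    intro x hx
    by_cases hli : l = i
    · subst hli; rw [Equiv.swap_apply_left]; exact h1 x hx
    by_cases hlj : l = j
    · subst hlj; rw [Equiv.swap_apply_right]; exact h2 x hx
    rw [Equiv.swap_apply_of_ne_of_ne hli hlj, h3 x
      (fun a ha => hD.orthogonal i l (Ne.symm hli) a ha x hx)
      (fun a ha => hD.orthogonal j l (Ne.symm hlj) a ha x hx)]
    exact hx
  exact ⟨h, ⟨(mem_decompositionStabilizer_iff D h).mpr ⟨_, key⟩, hS⟩, key⟩

/-- All sums of a vector of `D i` and a vector of `D j` are centres. -/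
def Edge (M : Subgroup (GL (Fin m ⊕ Fin m) F)) (D : Fin t → Submodule F (Fin m ⊕ Fin m → F))
    (i j : Fin t) : Prop := ∀ a ∈ D i, ∀ b ∈ D j, a + b ∈ centres M

theorem Edge_map {M : Subgroup (GL (Fin m ⊕ Fin m) F)} (hM : M ≤ Cfsg.spGL m F)
    {h : GL (Fin m ⊕ Fin m) F} (hh : h ∈ M) {σ : Equiv.Perm (Fin t)}
    (hσ : ∀ l, glMap h (D l) = D (σ l)) {i j : Fin t} (hE : Edge M D i j) :
    Edge M D (σ i) (σ j) := by
  intro a ha b hb
  rw [← hσ, mem_glMap] at ha hb
  have := centres_mulVec hM hh (hE _ ha _ hb)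
  rwa [Matrix.mulVec_add, gl_mulVec_inv, gl_mulVec_inv] at this

theorem Edge_symm {M : Subgroup (GL (Fin m ⊕ Fin m) F)} {i j : Fin t} (hE : Edge M D i j) :
    Edge M D j i := by
  intro a ha b hb
  rw [add_comm]; exact hE b hb a ha

include hD in
theorem Edge_all {M : Subgroup (GL (Fin m ⊕ Fin m) F)} (hM : M ≤ Cfsg.spGL m F)
    (hHM : Cfsg.Geo.decompositionStabilizer D ⊓ Cfsg.spGL m F ≤ M) {a b : Fin t} (hab : a ≠ b)
    (hE : Edge M D a b) : ∀ c d : Fin t, c ≠ d → Edge M D c d := by
  have step1 : ∀ c, c ≠ a → Edge M D a c := by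
    intro c hc
    by_cases hcb : c = b
    · rw [hcb]; exact hE
    obtain ⟨h, hh, hσ⟩ := exists_swap_mem hD b c (Ne.symm hcb)
    have := Edge_map hM (hHM hh) hσ hE
    rwa [Equiv.swap_apply_of_ne_of_ne hab (Ne.symm hc), Equiv.swap_apply_left] at this
  intro c d hcd
  by_cases hca : c = a
  · rw [hca]; exact step1 d (by rw [← hca]; exact Ne.symm hcd)
  by_cases hda : d = a
  · rw [hda]; exact Edge_symm (step1 c hca)
  obtain ⟨h, hh, hσ⟩ := exists_swap_mem hD a c (Ne.symm hca)
  have := Edge_map hM (hHM hh) hσ (step1 d hda)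
  rwa [Equiv.swap_apply_left, Equiv.swap_apply_of_ne_of_ne hda (Ne.symm hcd)] at this

include hD in
theorem exists_block_form_ne_zero {y : Vm} (hy : y ≠ 0) : ∃ j, ∃ z ∈ D j, B y z ≠ 0 := by
  by_contra hcon
  push Not at hcon
  have h1 : (⨆ j, D j) ≤ perp (Submodule.span F {y}) := by
    apply iSup_le
    intro j z hz a ha
    obtain ⟨c, rfl⟩ := Submodule.mem_span_singleton.mp ha
    rw [form_smul_left, hcon j z hz, mul_zero]
  rw [hD.decomp.iSup_eq_top] at h1
  obtain ⟨z, hz⟩ := exists_form_ne_zero hy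
  exact hz (h1 (Submodule.mem_top (x := z)) y (Submodule.mem_span_singleton_self y))

include hD in
theorem biSup_le_perp (J : Finset (Fin t)) {i : Fin t} (hi : i ∉ J) :
    (⨆ j ∈ J, D j) ≤ perp (D i) := by
  apply iSup₂_le
  intro j hj z hz a ha
  exact hD.orthogonal i j (fun h => hi (h ▸ hj)) a ha z hz

include hD in
theorem all_centres {M : Subgroup (GL (Fin m ⊕ Fin m) F)} (hM : M ≤ Cfsg.spGL m F)
    (hE : ∀ c d : Fin t, c ≠ d → Edge M D c d) (J : Finset (Fin t)) :
    ∀ x ∈ ⨆ j ∈ J, D j, x ∈ centres M := by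
  induction J using Finset.induction_on with
  | empty =>
    intro x hx
    simp at hx
    rw [hx]; exact centres_zero M
  | insert i J hi ih =>
    intro x hx
    rw [Finset.iSup_insert] at hx
    obtain ⟨a, ha, y, hy, rfl⟩ := Submodule.mem_sup.mp hx
    by_cases hy0 : y = 0
    · obtain ⟨i', hi'⟩ : ∃ i' : Fin t, i' ≠ i := by
        have := hD.decomp.two_le
        by_cases h0 : i = ⟨0, by omega⟩
        · exact ⟨⟨1, by omega⟩, by rw [h0]; simp [Fin.ext_iff]⟩
        · exact ⟨⟨0, by omega⟩, fun h => h0 h.symm⟩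
      rw [hy0]
      exact hE i i' (Ne.symm hi') a ha 0 (D i').zero_mem
    obtain ⟨j, z, hz, hyz⟩ := exists_block_form_ne_zero hD hy0
    have hjJ : j ∈ J := by
      by_contra hj
      apply hyz
      rw [form_swap, biSup_le_perp hD J hj hy z hz, neg_zero]
    have hij : i ≠ j := fun h => hi (h ▸ hjJ)
    have hzJ : z ∈ ⨆ j ∈ J, D j := by
      have : D j ≤ ⨆ j ∈ J, D j := le_iSup₂_of_le j hjJ le_rfl
      exact this hz
    have h1 : y - z ∈ centres M := ih _ (Submodule.sub_mem _ hy hzJ)
    have h2 : z + a ∈ centres M := hE j i (Ne.symm hij) z hz a ha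
    have h3 : B (y - z) (z + a) ≠ 0 := by
      have e1 : B y a = 0 := by rw [form_swap, biSup_le_perp hD J hi hy a ha, neg_zero]
      rw [form_sub_left, form_add_right, form_add_right, form_self, e1,
        hD.orthogonal j i (Ne.symm hij) z hz a ha]
      simpa using hyz
    have h4 := centres_add hM h1 h2 h3
    have : y - z + (z + a) = a + y := by abel
    rwa [this] at h4

include hD in
theorem exists_perp_pair [Fintype F] (hex : ¬ (k = 2 ∧ Fintype.card F = 2)) (j : Fin t) :
    ∃ b₁ ∈ D j, ∃ b₂ ∈ D j, b₁ ≠ 0 ∧ b₂ ≠ 0 ∧ b₁ ≠ b₂ ∧ B b₁ b₂ = 0 := by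
  classical
  obtain ⟨e, he, f, hf, hef⟩ := exists_hyp (D j) (D_nondeg hD j) (D_ne_bot hD j)
  have he0 : e ≠ 0 := by
    rintro rfl
    rw [form_zero_left] at hef
    exact zero_ne_one hef
  by_cases hk : k = 2
  · have hq : Fintype.card F ≠ 2 := fun h => hex ⟨hk, h⟩
    have h1 : 1 < Fintype.card F := Fintype.one_lt_card
    have h2 : ({0, 1} : Finset F).card < (Finset.univ : Finset F).card := by
      rw [Finset.card_univ]
      have := Finset.card_le_two (a := (0 : F)) (b := 1)
      omega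
    obtain ⟨μ, -, hμ⟩ := Finset.exists_mem_notMem_of_card_lt_card h2
    simp only [Finset.mem_insert, Finset.mem_singleton, not_or] at hμ
    refine ⟨e, he, μ • e, (D j).smul_mem _ he, he0, smul_ne_zero hμ.1 he0, ?_, ?_⟩
    · intro h
      have h3 : B e f = B (μ • e) f := by rw [← h]
      rw [form_smul_left, hef, mul_one] at h3
      exact hμ.2 h3.symm
    · rw [form_smul_right, form_self, mul_zero]
  · have hle : Submodule.span F ({e, f} : Set Vm) ≤ D j := by
      rw [Submodule.span_le]
      rintro x (rfl | rfl)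
      · exact he
      · exact hf
    have hne : ¬ D j ≤ Submodule.span F ({e, f} : Set Vm) := by
      intro h
      have h1 := le_antisymm h hle
      have h2 := hD.decomp.finrank_eq j
      rw [h1, finrank_span_hyp hef] at h2
      exact hk h2.symm
    obtain ⟨x, hx, hxn⟩ := SetLike.not_le_iff_exists.mp hne
    have hfe : B f e = -1 := by rw [form_swap, hef]
    refine ⟨e, he, x - B x f • e + B x e • f,
      (D j).add_mem ((D j).sub_mem hx ((D j).smul_mem _ he)) ((D j).smul_mem _ hf), he0, ?_, ?_, ?_⟩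
    · intro h0
      apply hxn
      rw [Submodule.mem_span_pair]
      refine ⟨B x f, - B x e, ?_⟩
      have : x = (x - B x f • e + B x e • f) + B x f • e - B x e • f := by abel
      rw [h0] at this
      conv_rhs => rw [this]
      module
    · intro h
      have h3 : B e f = B (x - B x f • e + B x e • f) f := by rw [← h]
      rw [form_add_left, form_sub_left, form_smul_left, form_smul_left, form_self, hef] at h3
      simp at h3
    · rw [form_add_right, form_sub_right, form_smul_right, form_smul_right, form_self, hef,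
        form_swap e x]; ring

include hD in
theorem exists_edge [Fintype F] (hex : ¬ (k = 2 ∧ Fintype.card F = 2))
    {M : Subgroup (GL (Fin m ⊕ Fin m) F)} (hM : M ≤ Cfsg.spGL m F)
    (hDM : ∀ i, ∀ s ∈ D i, s ∈ centres M) {v : Vm} (hv : v ∈ centres M) (hvD : ∀ j, v ∉ D j) :
    ∃ a b : Fin t, a ≠ b ∧ Edge M D a b := by
  have hv0 : v ≠ 0 := by
    rintro rfl
    exact hvD ⟨0, by have := hD.decomp.two_le; omega⟩ (Submodule.zero_mem _)
  obtain ⟨j₁, z₁, hz₁, hvz₁⟩ := exists_block_form_ne_zero hD hv0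
  obtain ⟨a, ha, hr⟩ := exists_decomp (D j₁) (hD.nondegenerate j₁) v
  set r := v - a with hr_def
  have hr0 : r ≠ 0 := by
    intro h0
    apply hvD j₁
    have : v = a := sub_eq_zero.mp h0
    rw [this]; exact ha
  have ha0 : a ≠ 0 := by
    rintro rfl
    apply hvz₁
    have : v = r := by rw [hr_def, sub_zero]
    rw [this, form_swap, hr z₁ hz₁, neg_zero]
  obtain ⟨j₂, z₂, hz₂, hrz₂⟩ := exists_block_form_ne_zero hD hr0
  have hj : j₁ ≠ j₂ := by
    rintro rfl
    apply hrz₂
    rw [form_swap, hr z₂ hz₂, neg_zero]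
  obtain ⟨b, hb, hr'⟩ := exists_decomp (D j₂) (hD.nondegenerate j₂) r
  set r' := r - b with hr'_def
  have hb0 : b ≠ 0 := by
    rintro rfl
    apply hrz₂
    have : r = r' := by rw [hr'_def, sub_zero]
    rw [this, form_swap, hr' z₂ hz₂, neg_zero]
  have hr'1 : ∀ s ∈ D j₁, B r' s = 0 := by
    intro s hs
    rw [hr'_def, form_sub_left, form_swap r s, hr s hs, hD.orthogonal j₂ j₁ (Ne.symm hj) b hb s hs]
    simp
  have hr'2 : ∀ s ∈ D j₂, B r' s = 0 := by
    intro s hs
    rw [form_swap, hr' s hs, neg_zero]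
  have hv_eq : v = a + (b + r') := by rw [hr'_def, hr_def]; abel
  rw [hv_eq] at hv
  have step1 : ∀ a' ∈ D j₁, a' ≠ 0 → a' + (b + r') ∈ centres M := by
    intro a' ha' ha'0
    refine centres_move hM (D j₁) (D_nondeg hD j₁) (hDM j₁) ?_ ha ha0 hv ha' ha'0
    intro s hs
    rw [form_add_left, hr'1 s hs, hD.orthogonal j₂ j₁ (Ne.symm hj) b hb s hs, add_zero]
  have step2 : ∀ a' ∈ D j₁, a' ≠ 0 → ∀ b' ∈ D j₂, b' ≠ 0 → b' + (a' + r') ∈ centres M := by
    intro a' ha' ha'0 b' hb' hb'0
    have h1 := step1 a' ha' ha'0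
    have e : a' + (b + r') = b + (a' + r') := by abel
    rw [e] at h1
    refine centres_move hM (D j₂) (D_nondeg hD j₂) (hDM j₂) ?_ hb hb0 h1 hb' hb'0
    intro s hs
    rw [form_add_left, hr'2 s hs, hD.orthogonal j₁ j₂ hj a' ha' s hs, add_zero]
  obtain ⟨a₁, ha₁, a₂, ha₂, ha12⟩ := exists_hyp (D j₁) (D_nondeg hD j₁) (D_ne_bot hD j₁)
  obtain ⟨b₁, hb₁, b₂, hb₂, hb₁0, hb₂0, hb12, hbb⟩ := exists_perp_pair hD hex j₂
  have ha₁0 : a₁ ≠ 0 := by
    rintro rfl
    rw [form_zero_left] at ha12
    exact zero_ne_one ha12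
  have ha₂0 : a₂ ≠ 0 := by
    rintro rfl
    rw [form_zero_right] at ha12
    exact zero_ne_one ha12
  have hx := step2 a₁ ha₁ ha₁0 b₁ hb₁ hb₁0
  have hy := centres_smul (step2 a₂ ha₂ ha₂0 b₂ hb₂ hb₂0) (-1)
  have hxy : B (b₁ + (a₁ + r')) ((-1 : F) • (b₂ + (a₂ + r'))) ≠ 0 := by
    have e1 : B r' b₂ = 0 := hr'2 b₂ hb₂
    have e2 : B r' a₂ = 0 := hr'1 a₂ ha₂
    have e3 : B b₁ r' = 0 := by rw [form_swap, hr'2 b₁ hb₁, neg_zero]
    have e4 : B a₁ r' = 0 := by rw [form_swap, hr'1 a₁ ha₁, neg_zero]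
    simp only [form_smul_right, form_add_left, form_add_right, form_self, hbb, ha12, e1, e2, e3, e4,
      hD.orthogonal j₂ j₁ (Ne.symm hj) b₁ hb₁ a₂ ha₂, hD.orthogonal j₁ j₂ hj a₁ ha₁ b₂ hb₂]
    simp
  have h0 := centres_add hM hx hy hxy
  have e0 : b₁ + (a₁ + r') + (-1 : F) • (b₂ + (a₂ + r')) = (a₁ - a₂) + (b₁ - b₂) := by module
  rw [e0] at h0
  have ha0' : a₁ - a₂ ≠ 0 := by
    intro h
    rw [sub_eq_zero.mp h, form_self] at ha12
    exact zero_ne_one ha12
  have hb0' : b₁ - b₂ ≠ 0 := sub_ne_zero.mpr hb12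
  have step3 : ∀ a' ∈ D j₁, a' ≠ 0 → a' + (b₁ - b₂) ∈ centres M := by
    intro a' ha' ha'0
    refine centres_move hM (D j₁) (D_nondeg hD j₁) (hDM j₁) ?_ ((D j₁).sub_mem ha₁ ha₂) ha0' h0
      ha' ha'0
    intro s hs
    exact hD.orthogonal j₂ j₁ (Ne.symm hj) _ ((D j₂).sub_mem hb₁ hb₂) s hs
  refine ⟨j₁, j₂, hj, ?_⟩
  intro a' ha' b' hb'
  by_cases ha'0 : a' = 0
  · rw [ha'0, zero_add]; exact hDM j₂ b' hb'
  by_cases hb'0 : b' = 0
  · rw [hb'0, add_zero]; exact hDM j₁ a' ha'
  have h1 := step3 a' ha' ha'0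
  rw [add_comm] at h1
  rw [add_comm]
  refine centres_move hM (D j₂) (D_nondeg hD j₂) (hDM j₂) ?_ ((D j₂).sub_mem hb₁ hb₂) hb0' h1
    hb' hb'0
  intro s hs
  exact hD.orthogonal j₁ j₂ hj a' ha' s hs

include hD in
/-- The stabiliser in Sp of an orthogonal decomposition into non-degenerate subspaces is maximal,
unless the blocks are planes over the field with two elements. -/
theorem sp_decomp_isMaximalIn [Fintype F] (hex : ¬ (k = 2 ∧ Fintype.card F = 2)) :
    Cfsg.Geo.IsMaximalIn (Cfsg.spGL m F)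
      (Cfsg.Geo.decompositionStabilizer D ⊓ Cfsg.spGL m F) := by
  have ht := hD.decomp.two_le
  refine ⟨lt_of_le_of_ne inf_le_right ?_, ?_⟩
  · intro heq
    set i₀ : Fin t := ⟨0, by omega⟩ with hi₀
    set i₁ : Fin t := ⟨1, by omega⟩ with hi₁
    have h01 : i₀ ≠ i₁ := by simp [hi₀, hi₁, Fin.ext_iff]
    obtain ⟨a, ha, x, hx, hax⟩ := exists_hyp (D i₀) (D_nondeg hD i₀) (D_ne_bot hD i₀)
    obtain ⟨b, hb, hb0⟩ := Submodule.exists_mem_ne_zero_of_ne_bot (D_ne_bot hD i₁)
    have h1 : stv (a + b) 1 ∈ Cfsg.spGL m F := stv_mem_spGL _ _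
    rw [← heq] at h1
    obtain ⟨σ, hσ⟩ := (mem_decompositionStabilizer_iff D _).mp h1.1
    have h2 := mulVec_mem_glMap (stv (a + b) 1) (D i₀) hx
    rw [hσ, stv_mulVec, form_add_right, hD.orthogonal i₀ i₁ h01 x hx b hb, form_swap x a, hax] at h2
    have e : x + (1 * (-1 + 0) : F) • (a + b) = (x - a) + (-b) := by module
    rw [e] at h2
    have h3 := eq_of_add_mem hD h01 ((D i₀).sub_mem hx ha) ((D i₁).neg_mem hb)
      (neg_ne_zero.mpr hb0) h2
    rw [h3] at h2
    have h4 : x - a ∈ D i₁ := ((D i₁).add_mem_iff_left ((D i₁).neg_mem hb)).mp h2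
    have h5 := hD.orthogonal i₁ i₀ (Ne.symm h01) _ h4 x hx
    rw [form_sub_left, form_self, hax] at h5
    simp at h5
  · intro M hHM hMS
    by_cases hMH : M ≤ Cfsg.Geo.decompositionStabilizer D
    · left
      exact le_antisymm (le_inf hMH hMS) hHM
    · right
      obtain ⟨g, hg, hgD⟩ := SetLike.not_le_iff_exists.mp hMH
      have hDM : ∀ i, ∀ s ∈ D i, s ∈ centres M := fun i s hs c =>
        hHM ⟨stv_mem_decompStab hD hs c, stv_mem_spGL s c⟩
      obtain ⟨i, v, hv, hvD⟩ := exists_not_mem_of_not_stab hD hgD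
      obtain ⟨a, b, hab, hE⟩ := exists_edge hD hex hMS hDM
        (centres_mulVec hMS hg (hDM i v hv)) hvD
      have hall := all_centres hD hMS (Edge_all hD hMS hHM hab hE) Finset.univ
      refine le_antisymm hMS (spGL_le_of_stv M (fun w c => hall w ?_ c))
      have : (⨆ j ∈ (Finset.univ : Finset (Fin t)), D j) = ⊤ := by
        rw [← hD.decomp.iSup_eq_top]; simp
      rw [this]; trivial

end decomp

end Cfsg.Agent.Lib.Helper29
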