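import Mathlib
import Cfsg.Prelude.Def_GeometricClasses
import Cfsg.Agent.Lib.Helper29.SpTransv
import Cfsg.Agent.Lib.Helper29.SubfieldSL
import Cfsg.Agent.Lib.Helper29.RootFull

/-!
Maximality of the subfield subgroup of `Sp_{2m}(F)`.
-/

set_option autoImplicit false

namespace Cfsg.Agent.Lib.Helper29

open Matrix Module
open Cfsg.Agent.H5Symp (form_add_left form_add_right form_smul_left form_smul_right form_neg_left
  form_neg_right form_sub_left form_sub_right form_zero_left form_zero_right form_swap form_self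
  form_single_inl form_single_inr)

variable {m : ℕ} {F : Type*} [Field F]

local notation "Vm" => (Fin m ⊕ Fin m → F)
local notation "B" => Cfsg.sympForm m F

theorem form_inv_left {g : GL (Fin m ⊕ Fin m) F} (hg : g ∈ Cfsg.spGL m F) (x y : Vm) :
    B (((g⁻¹ : GL (Fin m ⊕ Fin m) F) : Matrix _ _ F) *ᵥ x) y = B x ((g : Matrix _ _ F) *ᵥ y) := by
  have := (mem_spGL_iff g).mp hg (((g⁻¹ : GL (Fin m ⊕ Fin m) F) : Matrix _ _ F) *ᵥ x) y
  rw [gl_mulVec_inv] at this
  exact this.symm

/-- The elements of the unipotent radical of the stabiliser of `e`. -/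
noncomputable def qel (e z : Vm) (c : F) : GL (Fin m ⊕ Fin m) F := eich e z * stv e c

theorem qel_mem_spGL (e z : Vm) (c : F) : qel e z c ∈ Cfsg.spGL m F :=
  (Cfsg.spGL m F).mul_mem (eich_mem_spGL _ _) (stv_mem_spGL _ _)

theorem qel_mulVec {e z : Vm} (h : B e z = 0) (c : F) (x : Vm) :
    (qel e z c : Matrix _ _ F) *ᵥ x = x + B x e • z + (B x z + c * B x e) • e := by
  rw [qel, gl_mul_mulVec, stv_mulVec, eich_mulVec h]
  simp only [form_add_left, form_smul_left, form_self, h]
  module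

theorem qel_zero {e z : Vm} (h : B e z = 0) : qel e z 0 = eich e z := by
  apply gl_ext
  intro x
  rw [qel_mulVec h, eich_mulVec h]
  module

theorem qel_mul {e z z' : Vm} (h : B e z = 0) (h' : B e z' = 0) (c c' : F) :
    qel e z c * qel e z' c' = qel e (z + z') (c + c' + B z' z) := by
  have h2 : B e (z + z') = 0 := by rw [form_add_right, h, h', add_zero]
  have hz : B z e = 0 := by rw [form_swap, h, neg_zero]
  have hz' : B z' e = 0 := by rw [form_swap, h', neg_zero]
  apply gl_ext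
  intro x
  rw [gl_mul_mulVec, qel_mulVec h', qel_mulVec h, qel_mulVec h2]
  simp only [form_add_left, form_smul_left, form_add_right, form_self, h, hz']
  module

theorem qel_inv {e z : Vm} (h : B e z = 0) (c : F) : (qel e z c)⁻¹ = qel e (-z) (-c) := by
  have h' : B e (-z) = 0 := by rw [form_neg_right, h, neg_zero]
  rw [inv_eq_iff_mul_eq_one, qel_mul h h']
  apply gl_ext
  intro x
  rw [qel_mulVec (by rw [add_neg_cancel, form_zero_right])]
  simp [form_neg_left, form_self, form_zero_right]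

theorem conj_qel {g : GL (Fin m ⊕ Fin m) F} (hg : g ∈ Cfsg.spGL m F) {e z : Vm}
    (he : (g : Matrix _ _ F) *ᵥ e = e) (h : B e z = 0) (c : F) :
    g * qel e z c * g⁻¹ = qel e ((g : Matrix _ _ F) *ᵥ z) c := by
  have h' : B e ((g : Matrix _ _ F) *ᵥ z) = 0 := by
    have := (mem_spGL_iff g).mp hg e z
    rw [he] at this
    rw [this, h]
  apply gl_ext
  intro x
  rw [gl_mul_mulVec, gl_mul_mulVec, qel_mulVec h, qel_mulVec h', form_inv_left hg, form_inv_left hg,
    he]
  simp only [Matrix.mulVec_add, Matrix.mulVec_smul, gl_mulVec_inv, he]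

theorem eich_inv {e z : Vm} (h : B e z = 0) : (eich e z)⁻¹ = eich e (-z) := by
  rw [← qel_zero h, qel_inv h, neg_zero, qel_zero (by rw [form_neg_right, h, neg_zero])]

theorem eich_add {e z z' : Vm} (h : B e z = 0) (h' : B e z' = 0) (hzz : B z' z = 0) :
    eich e (z + z') = eich e z * eich e z' := by
  rw [← qel_zero h, ← qel_zero h', qel_mul h h', hzz,
    ← qel_zero (by rw [form_add_right, h, h', add_zero])]
  simp

/-- The commutator relation between Eichler elements. -/
theorem eich_comm {u v v' z : Vm} (huv : B u v = 0) (hvz : B v' z = 0) (hvv : B v v' = 1)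
    (huv' : B u v' = 0) (huz : B u z = 0) (hvz' : B v z = 0) (s t : F) :
    eich u (s • v) * eich v' (t • z) * (eich u (s • v))⁻¹ * (eich v' (t • z))⁻¹
      = eich u ((-(s * t)) • z) := by
  have h1 : B u (s • v) = 0 := by rw [form_smul_right, huv, mul_zero]
  have h2 : B v' (t • z) = 0 := by rw [form_smul_right, hvz, mul_zero]
  have h3 : B u ((-(s * t)) • z) = 0 := by rw [form_smul_right, huz, mul_zero]
  have a1 : B v u = 0 := by rw [form_swap, huv, neg_zero]
  have a2 : B z v' = 0 := by rw [form_swap, hvz, neg_zero]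
  have a3 : B v' v = -1 := by rw [form_swap, hvv]
  have a4 : B v' u = 0 := by rw [form_swap, huv', neg_zero]
  have a5 : B z u = 0 := by rw [form_swap, huz, neg_zero]
  have a6 : B z v = 0 := by rw [form_swap, hvz', neg_zero]
  rw [eich_inv h1, eich_inv h2]
  apply gl_ext
  intro x
  have h1n : B u (-(s • v)) = 0 := by rw [form_neg_right, h1, neg_zero]
  have h2n : B v' (-(t • z)) = 0 := by rw [form_neg_right, h2, neg_zero]
  simp only [gl_mul_mulVec, eich_mulVec h1, eich_mulVec h2, eich_mulVec h1n, eich_mulVec h2n,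
    eich_mulVec h3]
  simp only [form_add_left, form_smul_left, form_add_right, form_smul_right, form_neg_right,
    form_neg_left, form_self, huv, hvz, hvv, huv', huz, hvz', a1, a2, a3, a4, a5, a6]
  module

/-! ### Rational vectors -/

section rat

/-- vectors with entries in `F₀` -/
def RV {ι : Type} (F₀ : Subfield F) (v : ι → F) : Prop := ∀ i, v i ∈ F₀

/-- multiples of rational vectors -/
def RD {ι : Type} (F₀ : Subfield F) (v : ι → F) : Prop := ∃ (β : F) (v₀ : ι → F), RV F₀ v₀ ∧ v = β • v₀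

variable {F₀ : Subfield F}

theorem RV.add {ι : Type} {u v : ι → F} (hu : RV F₀ u) (hv : RV F₀ v) : RV F₀ (u + v) :=
  fun i => F₀.add_mem (hu i) (hv i)

theorem RV.sub {ι : Type} {u v : ι → F} (hu : RV F₀ u) (hv : RV F₀ v) : RV F₀ (u - v) :=
  fun i => F₀.sub_mem (hu i) (hv i)

theorem RV.neg {ι : Type} {u : ι → F} (hu : RV F₀ u) : RV F₀ (-u) :=
  fun i => F₀.neg_mem (hu i)

theorem RV.smul {ι : Type} {u : ι → F} (hu : RV F₀ u) {c : F} (hc : c ∈ F₀) : RV F₀ (c • u) :=
  fun i => F₀.mul_mem hc (hu i)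

theorem RV_single {ι : Type} [DecidableEq ι] (j : ι) : RV F₀ (Pi.single j 1 : ι → F) :=
  single_mem F₀ j

theorem RV.RD {ι : Type} {u : ι → F} (hu : RV F₀ u) : RD F₀ u := ⟨1, u, hu, (one_smul _ _).symm⟩

theorem RD.smul {ι : Type} {u : ι → F} (hu : RD F₀ u) (c : F) : RD F₀ (c • u) := by
  obtain ⟨β, v, hv, rfl⟩ := hu
  exact ⟨c * β, v, hv, by rw [smul_smul]⟩

theorem RD.mulVec {ι : Type} [Fintype ι] [DecidableEq ι] {h : GL ι F} (hh : h ∈ ratGL ι F₀)
    {y : ι → F} (hy : RD F₀ y) : RD F₀ ((h : Matrix ι ι F) *ᵥ y) := by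
  obtain ⟨β, y₀, hy₀, rfl⟩ := hy
  obtain ⟨c, hc0, hc⟩ := (mem_ratGL_iff F₀ h).mp hh
  refine ⟨β * c⁻¹, (c • (h : Matrix ι ι F)) *ᵥ y₀, fun i => ?_, ?_⟩
  · simp only [Matrix.mulVec, dotProduct, Matrix.smul_apply, smul_eq_mul]
    exact F₀.sum_mem fun j _ => F₀.mul_mem (hc i j) (hy₀ j)
  · rw [Matrix.smul_mulVec, Matrix.mulVec_smul, smul_smul, mul_assoc, inv_mul_cancel₀ hc0, mul_one]

theorem form_mem {u v : Vm} (hu : RV F₀ u) (hv : RV F₀ v) : B u v ∈ F₀ := by
  rw [Cfsg.Agent.H5Symp.form_explicit]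
  exact F₀.sum_mem fun i _ => F₀.sub_mem (F₀.mul_mem (hu _) (hv _)) (F₀.mul_mem (hu _) (hv _))

theorem stv_mem_ratGL {v : Vm} (hv : RV F₀ v) {c : F} (hc : c ∈ F₀) :
    stv v c ∈ ratGL (Fin m ⊕ Fin m) F₀ := by
  apply tv_mem_ratGL
  · intro k
    exact F₀.mul_mem hc (form_mem (RV_single k) hv)
  · exact hv

theorem eich_mem_ratGL {a w : Vm} (ha : RV F₀ a) (hw : RV F₀ w) :
    eich a w ∈ ratGL (Fin m ⊕ Fin m) F₀ :=
  Subgroup.mul_mem _ (Subgroup.mul_mem _ (stv_mem_ratGL (ha.add hw) F₀.one_mem)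
    (stv_mem_ratGL ha (F₀.neg_mem F₀.one_mem))) (stv_mem_ratGL hw (F₀.neg_mem F₀.one_mem))

end rat

/-! ### The standard symplectic basis -/

/-- `e_i` -/
def eb (i : Fin m) : Vm := Pi.single (Sum.inl i) 1
/-- `f_i` -/
def fb (i : Fin m) : Vm := Pi.single (Sum.inr i) 1

theorem form_eb (x : Vm) (i : Fin m) : B x (eb i) = x (Sum.inr i) := form_single_inl x i
theorem form_fb (x : Vm) (i : Fin m) : B x (fb i) = - x (Sum.inl i) := form_single_inr x i

theorem form_eb_eb (i l : Fin m) : B (eb i : Vm) (eb l) = 0 := by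
  rw [form_eb]; simp [eb]
theorem form_fb_fb (i l : Fin m) : B (fb i : Vm) (fb l) = 0 := by
  rw [form_fb]; simp [fb]
theorem form_eb_fb_self (i : Fin m) : B (eb i : Vm) (fb i) = -1 := by
  rw [form_fb]; simp [eb]
theorem form_fb_eb_self (i : Fin m) : B (fb i : Vm) (eb i) = 1 := by
  rw [form_eb]; simp [fb]
theorem form_eb_fb {i l : Fin m} (h : i ≠ l) : B (eb i : Vm) (fb l) = 0 := by
  rw [form_fb]; simp [eb, h.symm]
theorem form_fb_eb {i l : Fin m} (h : i ≠ l) : B (fb i : Vm) (eb l) = 0 := by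
  rw [form_eb]; simp [fb, h.symm]

theorem RV_eb {F₀ : Subfield F} (i : Fin m) : RV F₀ (eb i : Vm) := RV_single _
theorem RV_fb {F₀ : Subfield F} (i : Fin m) : RV F₀ (fb i : Vm) := RV_single _

theorem eb_ne_zero (i : Fin m) : (eb i : Vm) ≠ 0 := by
  intro h
  have := congrFun h (Sum.inl i)
  simp [eb] at this

theorem stv_add (v : Vm) (a b : F) : stv v (a + b) = stv v a * stv v b := by
  apply gl_ext
  intro x
  rw [gl_mul_mulVec, stv_mulVec, stv_mulVec, stv_mulVec]
  simp only [form_add_left, form_smul_left, form_self]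
  module

theorem stv_inv (v : Vm) (a : F) : (stv v a)⁻¹ = stv v (-a) := by
  rw [inv_eq_iff_mul_eq_one, ← stv_add]
  apply gl_ext
  intro x
  rw [stv_mulVec]
  simp

section lemmaA

variable (F₀ : Subfield F) (M : Subgroup (GL (Fin m ⊕ Fin m) F))

/-- From an element of the radical to a pure Eichler element. -/
theorem exists_pure (hHM : ratGL (Fin m ⊕ Fin m) F₀ ⊓ Cfsg.spGL m F ≤ M)
    {e z u u' v : Vm} {c : F} (hez : B e z = 0) (hmem : qel e z c ∈ M)
    (hu : RV F₀ u) (hu' : RV F₀ u') (hv : RV F₀ v) (heu : B e u = 0) (heu' : B e u' = 0)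
    (hev : B e v = 0) (huu : B u u' = 1) (huv : B u v = 0) (hu'v : B u' v = 0) :
    eich e (B z u • v) ∈ M := by
  set lam := B z u with hlam
  have h1M : stv u 1 ∈ M :=
    hHM (Subgroup.mem_inf.mpr ⟨stv_mem_ratGL hu F₀.one_mem, stv_mem_spGL _ _⟩)
  have h2M : eich u' v ∈ M :=
    hHM (Subgroup.mem_inf.mpr ⟨eich_mem_ratGL hu' hv, eich_mem_spGL _ _⟩)
  have e1 : (stv u 1 : Matrix _ _ F) *ᵥ e = e := by
    rw [stv_mulVec, heu]; simp
  have e2 : (eich u' v : Matrix _ _ F) *ᵥ e = e := by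
    rw [eich_mulVec hu'v, heu', hev]; simp
  have hlu : B e (lam • u) = 0 := by rw [form_smul_right, heu, mul_zero]
  have hlv : B e (lam • v) = 0 := by rw [form_smul_right, hev, mul_zero]
  have n1 : qel e (z + lam • u) c ∈ M := by
    have h3 := conj_qel (stv_mem_spGL u 1) e1 hez c
    rw [stv_mulVec, one_mul, ← hlam] at h3
    rw [← h3]
    exact M.mul_mem (M.mul_mem h1M hmem) (M.inv_mem h1M)
  obtain ⟨c₁, n2⟩ : ∃ c₁, qel e (lam • u) c₁ ∈ M := by
    have h3 := M.mul_mem (M.inv_mem hmem) n1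
    rw [qel_inv hez, qel_mul (by rw [form_neg_right, hez, neg_zero])
      (by rw [form_add_right, hez, hlu, add_zero]), neg_add_cancel_left] at h3
    exact ⟨_, h3⟩
  have n3 : qel e (lam • u + lam • v) c₁ ∈ M := by
    have h3 := conj_qel (eich_mem_spGL u' v) e2 hlu c₁
    rw [eich_mulVec hu'v, form_smul_left, form_smul_left, huu, huv] at h3
    have h4 : lam • u + (lam * 1) • v + (lam * 0) • u' = lam • u + lam • v := by module
    rw [h4] at h3
    rw [← h3]
    exact M.mul_mem (M.mul_mem h2M n2) (M.inv_mem h2M)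
  have h3 := M.mul_mem (M.inv_mem n2) n3
  rw [qel_inv hlu, qel_mul (by rw [form_neg_right, hlu, neg_zero])
      (by rw [form_add_right, hlu, hlv, add_zero]), neg_add_cancel_left] at h3
  have hvu : B v u = 0 := by rw [form_swap, huv, neg_zero]
  have h5 : -c₁ + c₁ + B (lam • u + lam • v) (-(lam • u)) = 0 := by
    simp only [form_add_left, form_smul_left, form_neg_right, form_smul_right, form_self, hvu]
    ring
  rw [h5, qel_zero hlv] at h3
  exact h3

theorem sp_le_of_eich [Finite F] (hm : 3 ≤ m) (hprime : (Module.finrank F₀ F).Prime)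
    (hHM : ratGL (Fin m ⊕ Fin m) F₀ ⊓ Cfsg.spGL m F ≤ M) (hMS : M ≤ Cfsg.spGL m F)
    (j l : Fin m) (hjl : j ≠ l) (a : F) (ha : a ∉ F₀) (hmem : eich (eb j) (a • fb l) ∈ M) :
    Cfsg.spGL m F ≤ M := by
  let X : (i l : Fin m) → i ≠ l → F → GL (Fin m ⊕ Fin m) F :=
    fun i l _ c => eich (eb i) ((-c) • fb l)
  have hall : ∀ (i k : Fin m) (h : i ≠ k) (c : F), X i k h c ∈ M := by
    apply root_full X ?_ ?_ (by simpa using hm) F₀ hprime M ?_ j l hjl (-a) ?_ ?_
    · intro i l h c d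
      show eich (eb i) ((-(c + d)) • fb l) = eich (eb i) ((-c) • fb l) * eich (eb i) ((-d) • fb l)
      rw [← eich_add (by rw [form_smul_right, form_eb_fb h, mul_zero])
        (by rw [form_smul_right, form_eb_fb h, mul_zero])
        (by rw [form_smul_right, form_smul_left, form_fb_fb]; simp)]
      congr 1
      module
    · intro i l k h1 h2 h3 c d
      have := eich_comm (u := (eb i : Vm)) (v := fb l) (v' := eb l) (z := fb k) (form_eb_fb h1)
        (form_eb_fb h2) (form_fb_eb_self l) (form_eb_eb i l) (form_eb_fb h3) (form_fb_fb l k)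
        (-c) (-d)
      show eich (eb i) ((-c) • fb l) * eich (eb l) ((-d) • fb k) * (eich (eb i) ((-c) • fb l))⁻¹ *
        (eich (eb l) ((-d) • fb k))⁻¹ = eich (eb i) ((-(c * d)) • fb k)
      rw [this]
      congr 2
      ring
    · intro i l h c hc
      exact hHM (Subgroup.mem_inf.mpr
        ⟨eich_mem_ratGL (RV_eb i) ((RV_fb l).smul (F₀.neg_mem hc)), eich_mem_spGL _ _⟩)
    · intro h
      exact ha (by simpa using F₀.neg_mem h)
    · show eich (eb j) ((- -a) • fb l) ∈ M
      rwa [neg_neg]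
  have Y : ∀ (i k : Fin m), i ≠ k → ∀ s : F, eich (eb i) (s • fb k) ∈ M := fun i k h s => by
    have h1 := hall i k h (-s)
    simpa [X] using h1
  -- (c1)
  have Z : ∀ (i k : Fin m), i ≠ k → ∀ s : F, eich (eb i) (s • eb k) ∈ M := by
    intro i l hil s
    obtain ⟨k, hki, hkl⟩ := exists_ne_ne (ι := Fin m) (by simpa using hm) i l
    have h1 := eich_comm (u := (eb i : Vm)) (v := fb k) (v' := eb k) (z := eb l)
      (form_eb_fb (Ne.symm hki)) (form_eb_eb k l) (form_fb_eb_self k) (form_eb_eb i k)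
      (form_eb_eb i l) (form_fb_eb hkl) (-s) 1
    have h2 : eich (eb k) ((1 : F) • eb l) ∈ M := hHM (Subgroup.mem_inf.mpr
        ⟨eich_mem_ratGL (RV_eb k) ((RV_eb l).smul F₀.one_mem), eich_mem_spGL _ _⟩)
    have h3 : (-(-s * 1)) = s := by ring
    rw [h3] at h1
    rw [← h1]
    exact M.mul_mem (M.mul_mem (M.mul_mem (Y _ _ (Ne.symm hki) _) h2)
      (M.inv_mem (Y _ _ (Ne.symm hki) _))) (M.inv_mem h2)
  -- (c2)
  have sq : ∀ (i : Fin m) (s : F), stv (eb i) (s ^ 2) ∈ M := by
    intro i s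
    obtain ⟨l, hli, -⟩ := exists_ne_ne (ι := Fin m) (by simpa using hm) i i
    have hg := Y i l (Ne.symm hli) s
    have h0 : B (eb i : Vm) (s • fb l) = 0 := by rw [form_smul_right, form_eb_fb (Ne.symm hli), mul_zero]
    have h1 := conj_stv (hMS hg) (eb l) 1
    rw [eich_mulVec h0, form_eb_eb, form_smul_right, form_eb_fb_self] at h1
    have h2 : stv (eb l) (1 : F) ∈ M := hHM (Subgroup.mem_inf.mpr
        ⟨stv_mem_ratGL (RV_eb l) F₀.one_mem, stv_mem_spGL _ _⟩)
    have h3 : stv ((eb l : Vm) + (0 : F) • s • fb l + (s * -1) • eb i) 1 ∈ M := by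
      rw [← h1]
      exact M.mul_mem (M.mul_mem hg h2) (M.inv_mem hg)
    have h00 : B (eb i : Vm) ((-s) • eb l) = 0 := by rw [form_smul_right, form_eb_eb, mul_zero]
    have h4 : stv ((eb l : Vm) + (0 : F) • s • fb l + (s * -1) • eb i) 1
        = stv (eb l) 1 * eich (eb i) ((-s) • eb l) * stv (eb i) (s ^ 2) := by
      apply gl_ext
      intro x
      rw [gl_mul_mulVec, gl_mul_mulVec, stv_mulVec, stv_mulVec, stv_mulVec, eich_mulVec h00]
      simp only [form_add_left, form_smul_left, form_add_right, form_smul_right, form_eb_eb]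
      module
    have h5 : stv (eb i) (s ^ 2) = (stv (eb l) 1 * eich (eb i) ((-s) • eb l))⁻¹ *
        stv ((eb l : Vm) + (0 : F) • s • fb l + (s * -1) • eb i) 1 := by
      rw [h4]; group
    rw [h5]
    exact M.mul_mem (M.inv_mem (M.mul_mem h2 (Z _ _ (Ne.symm hli) _))) h3
  -- (c3)
  have cen : ∀ i : Fin m, (eb i : Vm) ∈ centres M := by
    intro i a
    by_cases h2 : (2 : F) = 0
    · have : CharP F 2 := CharTwo.of_one_ne_zero_of_two_eq_zero one_ne_zero h2
      obtain ⟨s, hs⟩ := FiniteField.isSquare_of_char_two (F := F) (by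
        exact ringChar.eq F 2) a
      rw [hs, ← pow_two]
      exact sq i s
    · have h3 : a = ((a + 1) / 2) ^ 2 + -((a - 1) / 2) ^ 2 := by
        field_simp
        ring
      rw [h3, stv_add, ← stv_inv]
      exact M.mul_mem (sq i _) (M.inv_mem (sq i _))
  obtain ⟨i⟩ : Nonempty (Fin m) := ⟨⟨0, by omega⟩⟩
  -- (c4)
  have cenf : (fb i : Vm) ∈ centres M := by
    have h1 : stv ((fb i : Vm) - eb i) (-1) ∈ M := hHM (Subgroup.mem_inf.mpr
      ⟨stv_mem_ratGL ((RV_fb i).sub (RV_eb i)) (F₀.neg_mem F₀.one_mem), stv_mem_spGL _ _⟩)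
    have h2 := centres_mulVec hMS h1 (cen i)
    rw [stv_mulVec, form_sub_right, form_eb_fb_self, form_self] at h2
    have h3 : (eb i : Vm) + ((-1 : F) * (-1 - 0)) • ((fb i : Vm) - eb i) = fb i := by module
    rwa [h3] at h2
  -- (c5)
  let YY : AddSubgroup Vm :=
    { carrier := {y | B (eb i) y = 0 ∧ ∀ c, qel (eb i) y c ∈ M}
      add_mem' := by
        rintro y y' ⟨h1, h2⟩ ⟨h1', h2'⟩
        refine ⟨by rw [form_add_right, h1, h1', add_zero], fun c => ?_⟩
        have h4 := qel_mul h1 h1' (c - B y' y) 0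
        have h3 : c - B y' y + 0 + B y' y = c := by ring
        rw [h3] at h4
        rw [← h4]
        exact M.mul_mem (h2 _) (h2' _)
      zero_mem' := ⟨form_zero_right _, fun c => by
        have h4 : qel (eb i : Vm) 0 c = stv (eb i) c := by
          apply gl_ext
          intro x
          rw [qel_mulVec (form_zero_right _), stv_mulVec]
          simp [form_zero_right]
        rw [h4]
        exact cen i c⟩
      neg_mem' := by
        rintro y ⟨h1, h2⟩
        refine ⟨by rw [form_neg_right, h1, neg_zero], fun c => ?_⟩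
        have h4 := qel_inv h1 (-c)
        rw [neg_neg] at h4
        rw [← h4]
        exact M.inv_mem (h2 _) }
  have memYY : ∀ y : Vm, B (eb i) y = 0 → y ∈ YY := by
    intro y hy
    have hsum : y = ∑ t, y t • (Pi.single t 1 : Vm) := by
      ext s
      simp [Finset.sum_apply, Pi.single_apply]
    rw [hsum]
    apply AddSubgroup.sum_mem
    intro t _
    rcases t with l | l
    · by_cases hl : l = i
      · subst hl
        have h0 : B (eb l : Vm) (y (Sum.inl l) • eb l) = 0 := by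
          rw [form_smul_right, form_self, mul_zero]
        refine ⟨h0, fun c => ?_⟩
        have h4 : qel (eb l : Vm) (y (Sum.inl l) • eb l) c = stv (eb l) (c + 2 * y (Sum.inl l)) := by
          apply gl_ext
          intro x
          rw [qel_mulVec h0, stv_mulVec, form_smul_right]
          module
        have h5 : (Pi.single (Sum.inl l) 1 : Vm) = eb l := rfl
        rw [h5, h4]
        exact cen l _
      · exact ⟨by
          show B (eb i : Vm) (y (Sum.inl l) • eb l) = 0
          rw [form_smul_right, form_eb_eb, mul_zero],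
          fun c => M.mul_mem (Z i l (Ne.symm hl) _) (cen i c)⟩
    · by_cases hl : l = i
      · subst hl
        have h0 : y (Sum.inr l) = 0 := by
          rw [← form_eb y l, form_swap, hy, neg_zero]
        rw [h0, zero_smul]
        exact YY.zero_mem
      · exact ⟨by
          show B (eb i : Vm) (y (Sum.inr l) • fb l) = 0
          rw [form_smul_right, form_eb_fb (Ne.symm hl), mul_zero],
          fun c => M.mul_mem (Y i l (Ne.symm hl) _) (cen i c)⟩
  -- (c6), (c7)
  apply spGL_le_of_stv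
  intro v c
  refine centres_eq_univ_of hMS (eb_ne_zero i) ?_ v c
  intro z hz
  set ζ₀ := B z (eb i) with hζ₀
  have hy : B (eb i : Vm) (ζ₀⁻¹ • z - fb i) = 0 := by
    rw [form_sub_right, form_smul_right, form_swap (eb i) z, ← hζ₀, form_eb_fb_self]
    field_simp
    ring
  have h1 := (memYY _ hy).2 (-(B (fb i) (ζ₀⁻¹ • z - fb i)))
  have h2 := centres_mulVec hMS h1 cenf
  rw [qel_mulVec hy, form_fb_eb_self] at h2
  have h3 : (fb i : Vm) + (1 : F) • (ζ₀⁻¹ • z - fb i) + (B (fb i) (ζ₀⁻¹ • z - fb i)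
      + -(B (fb i) (ζ₀⁻¹ • z - fb i)) * 1) • eb i = ζ₀⁻¹ • z := by
    module
  rw [h3] at h2
  have h4 := centres_smul h2 ζ₀
  rwa [smul_smul, mul_inv_cancel₀ hz, one_smul] at h4

/-- Lemma A: the vector part of an element of `M ∩ Q_{e_i}` is rational. -/
theorem starQ [Finite F] (hm : 3 ≤ m) (hprime : (Module.finrank F₀ F).Prime)
    (hHM : ratGL (Fin m ⊕ Fin m) F₀ ⊓ Cfsg.spGL m F ≤ M) (hMS : M ≤ Cfsg.spGL m F)
    (hne : ¬ Cfsg.spGL m F ≤ M) (i : Fin m) (z : Vm) (c : F) (hz : B (eb i) z = 0)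
    (hmem : qel (eb i) z c ∈ M) (a : Fin m) (ha : a ≠ i) :
    z (Sum.inl a) ∈ F₀ ∧ z (Sum.inr a) ∈ F₀ := by
  obtain ⟨l, hli, hla⟩ := exists_ne_ne (ι := Fin m) (by simpa using hm) i a
  constructor
  · by_contra hcon
    apply hne
    have h1 := exists_pure F₀ M hHM hz hmem (RV_fb a) (RV_eb a) (RV_fb l)
      (form_eb_fb (Ne.symm ha)) (form_eb_eb i a) (form_eb_fb (Ne.symm hli)) (form_fb_eb_self a)
      (form_fb_fb a l) (form_eb_fb (Ne.symm hla))
    rw [form_fb] at h1
    exact sp_le_of_eich F₀ M hm hprime hHM hMS i l (Ne.symm hli) _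
      (fun h => hcon (by simpa using F₀.neg_mem h)) h1
  · by_contra hcon
    apply hne
    have h1 := exists_pure F₀ M hHM hz hmem (RV_eb a) (RV_fb a).neg (RV_fb l)
      (form_eb_eb i a) (by rw [form_neg_right, form_eb_fb (Ne.symm ha), neg_zero])
      (form_eb_fb (Ne.symm hli)) (by rw [form_neg_right, form_eb_fb_self, neg_neg])
      (form_eb_fb (Ne.symm hla)) (by rw [form_neg_left, form_fb_fb, neg_zero])
    rw [form_eb] at h1
    exact sp_le_of_eich F₀ M hm hprime hHM hMS i l (Ne.symm hli) _ hcon h1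

/-- moving rational vectors -/
theorem exists_move {x y : Vm} (hx : RV F₀ x) (hy : RV F₀ y) (hxy : B x y ≠ 0) :
    ∃ h ∈ ratGL (Fin m ⊕ Fin m) F₀ ⊓ Cfsg.spGL m F, (h : Matrix _ _ F) *ᵥ x = y := by
  refine ⟨stv (y - x) (B x y)⁻¹, Subgroup.mem_inf.mpr
    ⟨stv_mem_ratGL (hy.sub hx) (F₀.inv_mem (form_mem hx hy)), stv_mem_spGL _ _⟩, ?_⟩
  rw [stv_mulVec, form_sub_right, form_self, sub_zero, inv_mul_cancel₀ hxy, one_smul]
  abel

theorem exists_trans (i : Fin m) {u : Vm} (hu : RV F₀ u) (hu0 : u ≠ 0) :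
    ∃ h ∈ ratGL (Fin m ⊕ Fin m) F₀ ⊓ Cfsg.spGL m F, (h : Matrix _ _ F) *ᵥ (eb i) = u := by
  by_cases h0 : B (eb i) u = 0
  · obtain ⟨b', hb', hb'u⟩ : ∃ b' : Vm, RV F₀ b' ∧ B b' u ≠ 0 := by
      have : ∃ t, u t ≠ 0 := by
        by_contra hcon
        push Not at hcon
        exact hu0 (funext hcon)
      obtain ⟨t, ht⟩ := this
      rcases t with a | a
      · refine ⟨fb a, RV_fb a, ?_⟩
        rw [form_swap, form_fb, neg_neg]; exact ht
      · refine ⟨eb a, RV_eb a, ?_⟩
        rw [form_swap, form_eb]; exact neg_ne_zero.mpr ht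
    obtain ⟨z, hz, hz1, hz2⟩ : ∃ z : Vm, RV F₀ z ∧ B (eb i) z ≠ 0 ∧ B z u ≠ 0 := by
      by_cases h1 : B (eb i) b' = 0
      · by_cases h2 : B (fb i) u = 0
        · refine ⟨b' + fb i, hb'.add (RV_fb i), ?_, ?_⟩
          · rw [form_add_right, h1, form_eb_fb_self]; simp
          · rw [form_add_left, h2, add_zero]; exact hb'u
        · refine ⟨fb i, RV_fb i, ?_, h2⟩
          rw [form_eb_fb_self]; simp
      · exact ⟨b', hb', h1, hb'u⟩
    obtain ⟨h₁, hh₁, e₁⟩ := exists_move F₀ (RV_eb i) hz hz1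
    obtain ⟨h₂, hh₂, e₂⟩ := exists_move F₀ hz hu hz2
    exact ⟨h₂ * h₁, Subgroup.mul_mem _ hh₂ hh₁, by rw [gl_mul_mulVec, e₁, e₂]⟩
  · exact exists_move F₀ (RV_eb i) hu h0

theorem RD_of_stv_eb [Finite F] (hm : 3 ≤ m) (hprime : (Module.finrank F₀ F).Prime)
    (hHM : ratGL (Fin m ⊕ Fin m) F₀ ⊓ Cfsg.spGL m F ≤ M) (hMS : M ≤ Cfsg.spGL m F)
    (hne : ¬ Cfsg.spGL m F ≤ M) (i : Fin m) (y : Vm) (c : F) (hc : c ≠ 0)
    (hy : B (eb i) y = 0) (hmem : stv y c ∈ M) : RD F₀ y := by
  have hyi : y (Sum.inr i) = 0 := by rw [← form_eb y i, form_swap, hy, neg_zero]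
  have key : ∀ z : Vm, RV F₀ z → B (eb i) z = 0 → ∀ a, a ≠ i →
      (c * B z y) * y (Sum.inl a) ∈ F₀ ∧ (c * B z y) * y (Sum.inr a) ∈ F₀ := by
    intro z hz hez a ha
    have hE : qel (eb i) z 0 ∈ M := by
      rw [qel_zero hez]
      exact hHM (Subgroup.mem_inf.mpr ⟨eich_mem_ratGL (RV_eb i) hz, eich_mem_spGL _ _⟩)
    have fixe : (stv y c : Matrix _ _ F) *ᵥ (eb i) = eb i := by
      rw [stv_mulVec, hy]; simp
    have h1 := conj_qel (stv_mem_spGL y c) fixe hez 0
    rw [stv_mulVec] at h1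
    have h2 : qel (eb i) (z + (c * B z y) • y) 0 ∈ M := by
      rw [← h1]
      exact M.mul_mem (M.mul_mem hmem hE) (M.inv_mem hmem)
    have hμ : B (eb i : Vm) ((c * B z y) • y) = 0 := by rw [form_smul_right, hy, mul_zero]
    have h3 := M.mul_mem (M.inv_mem hE) h2
    rw [qel_inv hez, qel_mul (by rw [form_neg_right, hez, neg_zero])
      (by rw [form_add_right, hez, hμ, add_zero]), neg_add_cancel_left] at h3
    have h4 := starQ F₀ M hm hprime hHM hMS hne i _ _ hμ h3 a ha
    simpa using h4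
  by_cases hall : ∀ a, a ≠ i → y (Sum.inl a) = 0 ∧ y (Sum.inr a) = 0
  · refine ⟨y (Sum.inl i), eb i, RV_eb i, ?_⟩
    ext t
    rcases t with a | a
    · by_cases ha : a = i
      · subst ha; simp [eb]
      · rw [(hall a ha).1]; simp [eb, ha]
    · by_cases ha : a = i
      · subst ha; rw [hyi]; simp [eb]
      · rw [(hall a ha).2]; simp [eb]
  · obtain ⟨z₁, hz₁, hez₁, hν, hcν⟩ : ∃ z₁ : Vm, RV F₀ z₁ ∧ B (eb i) z₁ = 0 ∧ B z₁ y ≠ 0 ∧
        c * (B z₁ y) ^ 2 ∈ F₀ := by
      push Not at hall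
      obtain ⟨a, ha, hall⟩ := hall
      by_cases h1 : y (Sum.inl a) = 0
      · have h2 := hall h1
        have h3 : B (eb a) y = - y (Sum.inr a) := by rw [form_swap, form_eb]
        refine ⟨eb a, RV_eb a, form_eb_eb i a, by rw [h3]; exact neg_ne_zero.mpr h2, ?_⟩
        have h4 := (key (eb a) (RV_eb a) (form_eb_eb i a) a ha).2
        rw [h3] at h4 ⊢
        have h5 := F₀.neg_mem h4
        have h6 : -(c * -y (Sum.inr a) * y (Sum.inr a)) = c * (-y (Sum.inr a)) ^ 2 := by ring
        rwa [h6] at h5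
      · have h3 : B (fb a) y = y (Sum.inl a) := by rw [form_swap, form_fb, neg_neg]
        refine ⟨fb a, RV_fb a, form_eb_fb (Ne.symm ha), by rw [h3]; exact h1, ?_⟩
        have h4 := (key (fb a) (RV_fb a) (form_eb_fb (Ne.symm ha)) a ha).1
        rw [h3] at h4 ⊢
        have h6 : c * y (Sum.inl a) * y (Sum.inl a) = c * (y (Sum.inl a)) ^ 2 := by ring
        rwa [h6] at h4
    set ν := B z₁ y with hνdef
    set θ₂ := y (Sum.inl i) with hθ₂
    have hcν0 : c * ν ^ 2 ≠ 0 := mul_ne_zero hc (pow_ne_zero _ hν)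
    set r : Vm := ν⁻¹ • y - (ν⁻¹ * θ₂) • eb i with hr
    have hrat : ∀ w : F, c * ν * w ∈ F₀ → ν⁻¹ * w ∈ F₀ := by
      intro w hw
      have h1 : ν⁻¹ * w = (c * ν * w) / (c * ν ^ 2) := by
        field_simp
      rw [h1]
      exact F₀.div_mem hw hcν
    have hri : r (Sum.inl i) = 0 := by simp [hr, eb, hθ₂]
    have hri' : r (Sum.inr i) = 0 := by simp [hr, eb, hyi]
    have hrV : RV F₀ r := by
      intro t
      rcases t with a | a
      · by_cases ha : a = i
        · subst ha; rw [hri]; exact F₀.zero_mem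
        · have h1 : r (Sum.inl a) = ν⁻¹ * y (Sum.inl a) := by simp [hr, eb, ha]
          rw [h1]
          exact hrat _ (key z₁ hz₁ hez₁ a ha).1
      · by_cases ha : a = i
        · subst ha; rw [hri']; exact F₀.zero_mem
        · have h1 : r (Sum.inr a) = ν⁻¹ * y (Sum.inr a) := by simp [hr, eb]
          rw [h1]
          exact hrat _ (key z₁ hz₁ hez₁ a ha).2
    have hyr : y = ν • r + θ₂ • eb i := by
      rw [hr, smul_sub, smul_smul, smul_smul, mul_inv_cancel₀ hν, ← mul_assoc, mul_inv_cancel₀ hν]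
      module
    have her : B (eb i : Vm) r = 0 := by
      rw [hr, form_sub_right, form_smul_right, form_smul_right, hy, form_self]; ring
    have hre : B r (eb i : Vm) = 0 := by rw [form_swap, her, neg_zero]
    have her' : B (eb i : Vm) ((c * ν * θ₂) • r) = 0 := by rw [form_smul_right, her, mul_zero]
    have hdec : stv y c = stv r (c * ν ^ 2) * qel (eb i) ((c * ν * θ₂) • r) (c * θ₂ ^ 2) := by
      apply gl_ext
      intro x
      rw [gl_mul_mulVec, qel_mulVec her', stv_mulVec, stv_mulVec]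
      conv_lhs => rw [hyr]
      simp only [form_add_left, form_smul_left, form_add_right, form_smul_right, form_self, her,
        hre]
      module
    have hq : qel (eb i) ((c * ν * θ₂) • r) (c * θ₂ ^ 2) ∈ M := by
      have h1 : stv r (c * ν ^ 2) ∈ M :=
        hHM (Subgroup.mem_inf.mpr ⟨stv_mem_ratGL hrV hcν, stv_mem_spGL _ _⟩)
      have h2 : qel (eb i) ((c * ν * θ₂) • r) (c * θ₂ ^ 2) = (stv r (c * ν ^ 2))⁻¹ * stv y c := by
        rw [hdec]; group
      rw [h2]
      exact M.mul_mem (M.inv_mem h1) hmem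
    have hV2 : RV F₀ ((c * ν * θ₂) • r) := by
      intro t
      rcases t with a | a
      · by_cases ha : a = i
        · subst ha
          simp only [Pi.smul_apply, hri, smul_zero]
          exact F₀.zero_mem
        · exact (starQ F₀ M hm hprime hHM hMS hne i _ _ her' hq a ha).1
      · by_cases ha : a = i
        · subst ha
          simp only [Pi.smul_apply, hri', smul_zero]
          exact F₀.zero_mem
        · exact (starQ F₀ M hm hprime hHM hMS hne i _ _ her' hq a ha).2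
    have hz₁r : B z₁ r = 1 := by
      have hz₁e : B z₁ (eb i : Vm) = 0 := by rw [form_swap, hez₁, neg_zero]
      rw [hr, form_sub_right, form_smul_right, form_smul_right, hz₁e, ← hνdef, mul_zero, sub_zero,
        inv_mul_cancel₀ hν]
    have h7 : c * ν * θ₂ ∈ F₀ := by
      have h8 := form_mem hz₁ hV2
      rwa [form_smul_right, hz₁r, mul_one] at h8
    refine ⟨ν, r + (ν⁻¹ * θ₂) • eb i, hrV.add ((RV_eb i).smul (hrat _ h7)), ?_⟩
    rw [hr]
    rw [sub_add_cancel, smul_smul, mul_inv_cancel₀ hν, one_smul]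

end lemmaA

end Cfsg.Agent.Lib.Helper29
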