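import Mathlib
import Cfsg.Agent.Lib.Helper29.SubfieldSp1
import Cfsg.Agent.Lib.Helper29.OmCStr3

/-!
Quadratic field extensions acting on the symplectic space with non-trivial adjoint (`q` odd): the associated
quadratic form, unitary transvections inside `Sp`.
-/

set_option autoImplicit false

namespace Cfsg.Agent.Lib.Helper29

open Matrix Module QuadraticMap
open Cfsg.Agent.H5Symp (form_add_left form_add_right form_smul_left form_smul_right form_neg_left
  form_neg_right form_sub_left form_sub_right form_zero_left form_zero_right form_swap form_self)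

variable {m : ℕ} {F : Type*} [Field F]

local notation "Vm" => (Fin m ⊕ Fin m → F)
local notation "B" => Cfsg.sympForm m F

theorem form_eq_zero_right {w : Vm} (h : ∀ u : Vm, B u w = 0) : w = 0 := by
  by_contra hne
  obtain ⟨z, hz⟩ := exists_form_ne_zero hne
  apply hz
  rw [form_swap, h, neg_zero]

/-- `L` generates a quadratic extension, `L² = δ`, with `L* = -L` for the symplectic form. -/
structure SStr (L : Vm →ₗ[F] Vm) (δ : F) : Prop where
  sq : ∀ x, L (L x) = δ • x
  adj : ∀ x y, B (L x) y = - B x (L y)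
  irr : ∀ x, x ≠ 0 → L x ∉ Submodule.span F {x}

theorem exists_sstr (hm : 0 < m) (h2 : (2 : F) ≠ 0)
    (K : Subalgebra F (Matrix (Fin m ⊕ Fin m) (Fin m ⊕ Fin m) F))
    (hK : Cfsg.Geo.IsFieldSubalgebra 2 K) (hac : Cfsg.Geo.IsAdjointClosedFor (Cfsg.sympForm m F) K)
    (hnsa : ¬ Cfsg.Geo.IsSelfAdjointFor (Cfsg.sympForm m F) K) :
    ∃ (lam : Matrix (Fin m ⊕ Fin m) (Fin m ⊕ Fin m) F) (δ : F), lam ∈ K ∧
      (∀ c : F, lam ≠ c • (1 : Matrix (Fin m ⊕ Fin m) (Fin m ⊕ Fin m) F)) ∧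
      (∀ k ∈ K, ∃ a b : F, k = a • (1 : Matrix (Fin m ⊕ Fin m) (Fin m ⊕ Fin m) F) + b • lam) ∧
      SStr (Matrix.mulVecLin lam) δ := by
  have : Nonempty (Fin m ⊕ Fin m) := ⟨Sum.inl ⟨0, hm⟩⟩
  obtain ⟨lam₀, hlamK, hlam, hspan⟩ := exists_gen K hK
  obtain ⟨a₀, t, hsq⟩ := hspan (lam₀ * lam₀) (K.mul_mem hlamK hlamK)
  obtain ⟨mu, hmuK, hmu⟩ := hac lam₀ hlamK
  have hmupoly : mu * mu = a₀ • (1 : Matrix (Fin m ⊕ Fin m) (Fin m ⊕ Fin m) F) + t • mu := by
    apply Matrix.ext_of_mulVec_single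
    intro i
    set v : Vm := Pi.single i 1
    rw [← sub_eq_zero]
    apply form_eq_zero_right
    intro u
    rw [form_sub_right, add_mulVec, smul_mulVec, smul_mulVec, one_mulVec, ← mulVec_mulVec, form_add_right,
      form_smul_right, form_smul_right, ← hmu, ← hmu, ← hmu, mulVec_mulVec, hsq, add_mulVec, smul_mulVec,
      smul_mulVec, one_mulVec, form_add_left, form_smul_left, form_smul_left]
    ring
  have hfac : (mu - lam₀) * (mu - (t • (1 : Matrix (Fin m ⊕ Fin m) (Fin m ⊕ Fin m) F) - lam₀)) = 0 := by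
    have hc : lam₀ * mu = mu * lam₀ := hK.comm lam₀ hlamK mu hmuK
    have : (mu - lam₀) * (mu - (t • (1 : Matrix (Fin m ⊕ Fin m) (Fin m ⊕ Fin m) F) - lam₀))
        = mu * mu - t • mu + (t • lam₀ - lam₀ * lam₀) + (mu * lam₀ - lam₀ * mu) := by
      simp only [sub_mul, mul_sub, mul_smul_comm, mul_one, smul_sub]
      abel
    rw [this, hc, sub_self, add_zero, hsq, hmupoly]
    abel
  have hmu' : mu = t • (1 : Matrix (Fin m ⊕ Fin m) (Fin m ⊕ Fin m) F) - lam₀ := by
    rcases field_eq_zero_or hK (K.sub_mem hmuK hlamK) hfac with h | h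
    · exfalso
      apply hnsa
      have hml : mu = lam₀ := sub_eq_zero.1 h
      intro k hk u v
      obtain ⟨a, b, rfl⟩ := hspan k hk
      rw [add_mulVec, add_mulVec, smul_mulVec, smul_mulVec, smul_mulVec, smul_mulVec, one_mulVec, one_mulVec,
        form_add_left, form_add_right, form_smul_left, form_smul_left, form_smul_right, form_smul_right,
        hmu, hml]
    · exact sub_eq_zero.1 h
  have hsqv : ∀ x : Vm, lam₀ *ᵥ (lam₀ *ᵥ x) = a₀ • x + t • (lam₀ *ᵥ x) := by
    intro x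
    rw [mulVec_mulVec, hsq, add_mulVec, smul_mulVec, smul_mulVec, one_mulVec]
  set lam : Matrix (Fin m ⊕ Fin m) (Fin m ⊕ Fin m) F :=
    (2 : F) • lam₀ - t • (1 : Matrix (Fin m ⊕ Fin m) (Fin m ⊕ Fin m) F) with hlamdef
  have hlv : ∀ x : Vm, lam *ᵥ x = (2 : F) • (lam₀ *ᵥ x) - t • x := by
    intro x
    rw [hlamdef, sub_mulVec, smul_mulVec, smul_mulVec, one_mulVec]
  have hlamK' : lam ∈ K := K.sub_mem (K.smul_mem hlamK _) (K.smul_mem K.one_mem _)
  have hlam' : ∀ c : F, lam ≠ c • (1 : Matrix (Fin m ⊕ Fin m) (Fin m ⊕ Fin m) F) := by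
    intro c hc
    apply hlam ((2 : F)⁻¹ * (c + t))
    have h3 : (2 : F) • lam₀ = (c + t) • (1 : Matrix (Fin m ⊕ Fin m) (Fin m ⊕ Fin m) F) := by
      have : (2 : F) • lam₀ = lam + t • (1 : Matrix (Fin m ⊕ Fin m) (Fin m ⊕ Fin m) F) := by
        rw [hlamdef]; abel
      rw [this, hc, add_smul]
    rw [mul_smul, ← h3, smul_smul, inv_mul_cancel₀ h2, one_smul]
  refine ⟨lam, t ^ 2 + 4 * a₀, hlamK', hlam', ?_, ?_⟩
  · intro k hk
    obtain ⟨a, b, rfl⟩ := hspan k hk
    refine ⟨a + b * t * (2 : F)⁻¹, b * (2 : F)⁻¹, ?_⟩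
    have e : b * (2 : F)⁻¹ * 2 = b := by field_simp
    rw [hlamdef, smul_sub, smul_smul, smul_smul, e]
    module
  · exact
    { sq := by
        intro x
        show lam *ᵥ (lam *ᵥ x) = _
        rw [hlv, hlv, mulVec_sub, mulVec_smul, mulVec_smul, hsqv]
        module
      adj := by
        intro x y
        show B (lam *ᵥ x) y = - B x (lam *ᵥ y)
        rw [hlv, hlv, form_sub_left, form_smul_left, form_smul_left, hmu, hmu', sub_mulVec, smul_mulVec,
          one_mulVec, form_sub_right, form_sub_right, form_smul_right, form_smul_right]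
        ring
      irr := by
        intro x hx h
        obtain ⟨d, hd⟩ := Submodule.mem_span_singleton.1 h
        have hd' : d • x = lam *ᵥ x := hd
        apply hx
        apply field_mulVec_eq_zero hK (K.sub_mem hlamK' (K.smul_mem K.one_mem d)) (sub_ne_zero.2 (hlam' d))
        rw [sub_mulVec, smul_mulVec, one_mulVec, hd', sub_self] }

/-- the symmetric form `B x (L y)` -/
noncomputable def sForm (L : Vm →ₗ[F] Vm) : LinearMap.BilinForm F Vm :=
  LinearMap.mk₂ F (fun x y => B x (L y))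
    (fun x y z => form_add_left x y (L z))
    (fun c x y => by simp [form_smul_left])
    (fun x y z => by simp [form_add_right])
    (fun c x y => by simp [form_smul_right])

/-- the quadratic form `B x (L x)` -/
noncomputable def qf (L : Vm →ₗ[F] Vm) : QuadraticForm F Vm := (sForm L).toQuadraticMap

theorem qf_apply (L : Vm →ₗ[F] Vm) (x : Vm) : qf L x = B x (L x) := rfl



theorem SStr.adj' {L : Vm →ₗ[F] Vm} {δ : F} (S : SStr L δ) (x y : Vm) : B x (L y) = - B (L x) y := by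
  rw [S.adj, neg_neg]

theorem SStr.form_LL {L : Vm →ₗ[F] Vm} {δ : F} (S : SStr L δ) (x y : Vm) : B (L x) (L y) = - (δ * B x y) := by
  rw [S.adj, S.sq, form_smul_right]

theorem SStr.symm {L : Vm →ₗ[F] Vm} {δ : F} (S : SStr L δ) (x y : Vm) : B y (L x) = B x (L y) := by
  rw [form_swap, S.adj, neg_neg]

theorem SStr.polar_qf {L : Vm →ₗ[F] Vm} {δ : F} (S : SStr L δ) (x y : Vm) : polar (qf L) x y = 2 * B x (L y) := by
  unfold polar
  rw [qf_apply, qf_apply, qf_apply, map_add, form_add_left, form_add_right, form_add_right, S.symm x y]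
  ring

theorem SStr.delta_ne_zero {L : Vm →ₗ[F] Vm} {δ : F} (S : SStr L δ) (hm : 0 < m) : δ ≠ 0 := by
  rintro rfl
  set x₀ : Vm := Pi.single (Sum.inl ⟨0, hm⟩) 1 with hx₀
  have hx : x₀ ≠ 0 := by
    intro h
    have := congrFun h (Sum.inl ⟨0, hm⟩)
    simp [hx₀] at this
  by_cases h : L x₀ = 0
  · exact S.irr x₀ hx (by rw [h]; exact Submodule.zero_mem _)
  · exact S.irr _ h (by rw [S.sq, zero_smul]; exact Submodule.zero_mem _)

theorem SStr.L_injective {L : Vm →ₗ[F] Vm} {δ : F} (S : SStr L δ) (hm : 0 < m) {x y : Vm} (h : L x = L y) : x = y := by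
  have h1 : δ • x = δ • y := by rw [← S.sq, ← S.sq, h]
  have := congrArg (fun v => δ⁻¹ • v) h1
  simpa [smul_smul, inv_mul_cancel₀ (S.delta_ne_zero hm)] using this

theorem SStr.cstr {L : Vm →ₗ[F] Vm} {δ : F} (S : SStr L δ) : CStr (qf L) L 0 (-δ) where
  sq x := by rw [S.sq]; module
  adj x y := by rw [S.polar_qf, S.polar_qf, S.polar_qf, S.adj]; ring
  QL x := by rw [qf_apply, qf_apply, S.sq, form_smul_right, form_swap]; ring
  pol x := by rw [S.polar_qf, S.sq, form_smul_right, form_self]; ring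
  irr := S.irr

theorem SStr.nondeg {L : Vm →ₗ[F] Vm} {δ : F} (S : SStr L δ) (hm : 0 < m) (h2 : (2 : F) ≠ 0) :
    (polarBilin (qf L : QuadraticForm F Vm)).Nondegenerate := by
  have key : ∀ x : Vm, (∀ y, polar (qf L) x y = 0) → x = 0 := by
    intro x hx
    by_contra hne
    obtain ⟨z, hz⟩ := exists_form_ne_zero hne
    apply hz
    have h1 := hx (δ⁻¹ • L z)
    rw [S.polar_qf, map_smul, S.sq, smul_smul, inv_mul_cancel₀ (S.delta_ne_zero hm), one_smul] at h1
    exact (mul_eq_zero.1 h1).resolve_left h2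
  constructor
  · intro x hx
    exact key x hx
  · intro y hy
    apply key y
    intro x
    rw [polar_comm]
    exact hy x

/-- solving `(a + b L) w ∈ P` for an `L`-invariant subspace `P` -/
theorem SStr.mem_inv {L : Vm →ₗ[F] Vm} {δ : F} (S : SStr L δ) (P : Submodule F Vm) (hP : ∀ w ∈ P, L w ∈ P) {a b : F}
    (hab : a ≠ 0 ∨ b ≠ 0) {w : Vm} (h : a • w + b • L w ∈ P) : w ∈ P := by
  by_cases hw : w = 0
  · rw [hw]; exact P.zero_mem
  · apply S.cstr.mem_of_comb hw P hab h
    have := hP _ h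
    rwa [map_add, map_smul, map_smul] at this


/-- the `K`-line of `v` -/
def ksp (L : Vm →ₗ[F] Vm) (v : Vm) : Submodule F Vm := Submodule.span F {v, L v}

theorem mem_ksp {L : Vm →ₗ[F] Vm} {v w : Vm} : w ∈ ksp L v ↔ ∃ a b : F, a • v + b • L v = w :=
  Submodule.mem_span_pair

theorem SStr.ksp_inv {L : Vm →ₗ[F] Vm} {δ : F} (S : SStr L δ) (v : Vm) : ∀ w ∈ ksp L v, L w ∈ ksp L v := by
  intro w hw
  obtain ⟨a, b, rfl⟩ := mem_ksp.1 hw
  rw [map_add, map_smul, map_smul, S.sq]
  exact mem_ksp.2 ⟨b * δ, a, by module⟩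

theorem stv_commute {v w : Vm} (h : B v w = 0) (a b : F) : Commute (stv v a) (stv w b) := by
  have h' : B w v = 0 := by rw [form_swap, h, neg_zero]
  apply gl_ext
  intro x
  rw [gl_mul_mulVec, gl_mul_mulVec, stv_mulVec, stv_mulVec, stv_mulVec, stv_mulVec]
  simp only [form_add_left, form_smul_left, h, h']
  module

theorem stv_pow_four (v : Vm) (a : F) : (stv v a) ^ 4 = stv v (4 * a) := by
  have : (4 : F) * a = a + a + a + a := by ring
  rw [this, stv_add, stv_add, stv_add]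
  simp only [pow_succ, pow_zero, one_mul]

/-- the unitary transvection -/
noncomputable def rho (L : Vm →ₗ[F] Vm) (δ : F) (x : Vm) (a : F) : GL (Fin m ⊕ Fin m) F :=
  stv x a * stv (L x) (-a / δ)

theorem rho_mem_spGL (L : Vm →ₗ[F] Vm) (δ : F) (x : Vm) (a : F) : rho L δ x a ∈ Cfsg.spGL m F :=
  (Cfsg.spGL m F).mul_mem (stv_mem_spGL _ _) (stv_mem_spGL _ _)

theorem rho_mulVec {L : Vm →ₗ[F] Vm} (δ : F) {x : Vm} (hx : B x (L x) = 0) (a : F) (v : Vm) :
    (rho L δ x a : Matrix _ _ F) *ᵥ v = v + (a * B v x) • x + (-a / δ * B v (L x)) • L x := by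
  have hx' : B (L x) x = 0 := by rw [form_swap, hx, neg_zero]
  rw [rho, gl_mul_mulVec, stv_mulVec, stv_mulVec]
  simp only [form_add_left, form_smul_left, hx']
  module

theorem SStr.rho_comm {L : Vm →ₗ[F] Vm} {δ : F} (S : SStr L δ) (hm : 0 < m) {x : Vm} (hx : B x (L x) = 0)
    (a : F) (v : Vm) : (rho L δ x a : Matrix _ _ F) *ᵥ (L v) = L ((rho L δ x a : Matrix _ _ F) *ᵥ v) := by
  have hδ := S.delta_ne_zero hm
  rw [rho_mulVec δ hx, rho_mulVec δ hx]
  simp only [map_add, map_smul, S.sq, S.form_LL, S.adj v x]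
  have e1 : -a / δ * -(δ * B v x) = a * B v x := by field_simp
  have e2 : (-a / δ * B v (L x)) • δ • x = (a * - B v (L x)) • x := by
    rw [smul_smul]
    congr 1
    field_simp
  rw [e1, e2]
  abel

end Cfsg.Agent.Lib.Helper29
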