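import Mathlib
import Cfsg.Agent.Lib.Helper29.SpGU1

/-!
Overgroups of the unitary group inside the symplectic group (`q` odd): producing a symplectic transvection.
-/

set_option autoImplicit false

namespace Cfsg.Agent.Lib.Helper29

open Matrix Module QuadraticMap
open Cfsg.Agent.H5Symp (form_add_left form_add_right form_smul_left form_smul_right form_neg_left
  form_neg_right form_sub_left form_sub_right form_zero_left form_zero_right form_swap form_self)

variable {m : ℕ} {F : Type*} [Field F]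

local notation "Vm" => (Fin m ⊕ Fin m → F)
local notation "B" => Cfsg.sympForm m F

/-- a singular vector `B`-perpendicular to a family and not to a vector outside its span -/
theorem SStr.exists_sing_perp [Finite F] {L : Vm →ₗ[F] Vm} {δ : F} (S : SStr L δ) (hm : 0 < m)
    (h2 : (2 : F) ≠ 0) {k : ℕ} (r : Fin k → Vm) (v : Vm)
    (hv : v ∉ Submodule.span F (Set.range r)) (hdim : 2 * k + 3 ≤ 2 * m) :
    ∃ z : Vm, B z (L z) = 0 ∧ (∀ i, B (r i) z = 0) ∧ B v z ≠ 0 := by
  have hδ := S.delta_ne_zero hm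
  have hv' : L v ∉ Submodule.span F (Set.range (fun i => L (r i))) := by
    intro h
    apply hv
    have e : Set.range (fun i => L (r i)) = L '' Set.range r := by
      rw [← Set.range_comp]; rfl
    rw [e, Submodule.span_image] at h
    obtain ⟨w, hw, hwv⟩ := h
    rw [← S.L_injective hm hwv]; exact hw
  obtain ⟨z, hz, hk, hne⟩ := exists_singular_perp_fam (S.nondeg hm h2) (fun i => L (r i)) (L v) hv'
    (by simp; omega)
  refine ⟨z, hz, fun i => ?_, ?_⟩
  · have h3 := hk i
    rw [S.polar_qf, S.form_LL] at h3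
    have h4 : δ * B (r i) z = 0 := neg_eq_zero.1 ((mul_eq_zero.1 h3).resolve_left h2)
    exact (mul_eq_zero.1 h4).resolve_left hδ
  · intro h
    apply hne
    rw [S.polar_qf, S.form_LL, h]; ring

/-- a singular vector `B`-perpendicular to a family and outside a small subspace -/
theorem exists_sing_notMem [Finite F] (L : Vm →ₗ[F] Vm) (A : Submodule F Vm) {k : ℕ} (r : Fin k → Vm)
    (h : finrank F A + k + 3 ≤ 2 * m) :
    ∃ z : Vm, B z (L z) = 0 ∧ (∀ i, B (r i) z = 0) ∧ z ∉ A := by
  obtain ⟨z, -, hz, hk, hA⟩ := exists_singular_ker_notMem (qf L) ⊤ A (fun i => formDual (r i)) (by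
    rw [finrank_top, finrank_fintype_fun_eq_card]; simp; omega)
  refine ⟨z, hz, fun i => ?_, hA⟩
  have h3 := hk i
  rw [formDual_apply] at h3
  rw [form_swap, h3, neg_zero]

/-- two simultaneous non-vanishing conditions -/
theorem SStr.exists_sing_two [Finite F] {L : Vm →ₗ[F] Vm} {δ : F} (S : SStr L δ) (hm : 0 < m)
    (h2 : (2 : F) ≠ 0) {k : ℕ} (r : Fin k → Vm) (a b : Vm)
    (ha : a ∉ Submodule.span F (Set.range r))
    (hb : ∀ s : Vm, B s (L s) = 0 → (∀ i, B (r i) s = 0) → B a s ≠ 0 → B b s = 0 →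
      b ∉ Submodule.span F (Set.range (Matrix.vecCons (L s) r)))
    (hdim : 2 * (k + 1) + 3 ≤ 2 * m) :
    ∃ w : Vm, B w (L w) = 0 ∧ (∀ i, B (r i) w = 0) ∧ B a w ≠ 0 ∧ B b w ≠ 0 := by
  obtain ⟨s₁, h1, h1r, h1a⟩ := S.exists_sing_perp hm h2 r a ha (by omega)
  by_cases h1b : B b s₁ = 0
  · obtain ⟨s₂, h2', h2r, h2b⟩ := S.exists_sing_perp hm h2 (Matrix.vecCons (L s₁) r) b
      (hb s₁ h1 h1r h1a h1b) (by omega)
    have h2r0 : B (L s₁) s₂ = 0 := h2r 0
    have h2r' : ∀ i, B (r i) s₂ = 0 := fun i => by simpa using h2r i.succ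
    by_cases h2a : B a s₂ = 0
    · refine ⟨s₁ + s₂, ?_, ?_, ?_, ?_⟩
      · rw [map_add, form_add_left, form_add_right, form_add_right, h1, h2', S.adj' s₁ s₂, h2r0,
          form_swap s₂ (L s₁), h2r0]
        ring
      · intro i
        rw [form_add_right, h1r, h2r', add_zero]
      · rw [form_add_right, h2a, add_zero]; exact h1a
      · rw [form_add_right, h1b, zero_add]; exact h2b
    · exact ⟨s₂, h2', h2r', h2a, h2b⟩
  · exact ⟨s₁, h1, h1r, h1a, h1b⟩

theorem stv_pair_apply {u z : Vm} (h : B z u = 1) (a c : F) (w : Vm) :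
    ((stv u a * stv z c : GL (Fin m ⊕ Fin m) F) : Matrix _ _ F) *ᵥ w
      = w + (c * B w z) • z + (a * (B w u + c * B w z)) • u := by
  rw [gl_mul_mulVec, stv_mulVec, stv_mulVec, form_add_left, form_smul_left, h, mul_one]

theorem stv_pair_sq {u z : Vm} (h : B z u = 1) {a c : F} (hac : a * c = 2) (v : Vm) :
    ((stv u a * stv z c * (stv u a * stv z c) : GL (Fin m ⊕ Fin m) F) : Matrix _ _ F) *ᵥ v
      = v - (2 * B v u) • z + (2 * B v z) • u := by
  have huz : B u z = -1 := by rw [form_swap, h]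
  rw [gl_mul_mulVec, stv_pair_apply h, stv_pair_apply h]
  simp only [form_add_left, form_smul_left, form_self, h, huz]
  have hz : (a * c) • z = (2 : F) • z := by rw [hac]
  have hu : (a * c) • u = (2 : F) • u := by rw [hac]
  linear_combination (norm := module) (-(B v u) - c * B v z) • hz
    + (-a * B v u - B v z * (a * c - 1)) • hu

theorem stv_pair_pow_four {u z : Vm} (h : B z u = 1) {a c : F} (hac : a * c = 2) :
    (stv u a * stv z c) ^ 4 = 1 := by
  have huz : B u z = -1 := by rw [form_swap, h]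
  have e : (stv u a * stv z c) ^ 4
      = (stv u a * stv z c * (stv u a * stv z c)) * (stv u a * stv z c * (stv u a * stv z c)) := by
    simp only [pow_succ, pow_zero, one_mul, mul_assoc]
  rw [e]
  apply gl_ext
  intro v
  rw [gl_mul_mulVec, stv_pair_sq h hac, stv_pair_sq h hac]
  simp only [form_add_left, form_sub_left, form_smul_left, form_self, h, huz, Units.val_one, one_mulVec]
  module

theorem four_aux {G : Type*} [Group G] {A Z Y W : G} (cYA : Commute Y A) (cYZ : Commute Y Z)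
    (cYW : Commute Y W) (cWA : Commute W A) (cWZ : Commute W Z) (h : (A * Z) ^ 4 = 1) :
    ((Y * A) * (Z * W)) ^ 4 = Y ^ 4 * W ^ 4 := by
  have e : (Y * A) * (Z * W) = (A * Z) * (Y * W) := by
    rw [cYA.eq, mul_assoc, ← mul_assoc Y Z W, cYZ.eq, mul_assoc, mul_assoc]
  have cc : Commute (A * Z) (Y * W) :=
    Commute.mul_left (Commute.mul_right cYA.symm cWA.symm) (Commute.mul_right cYZ.symm cWZ.symm)
  rw [e, cc.mul_pow, h, one_mul, cYW.mul_pow]

theorem SStr.phi_mem {L : Vm →ₗ[F] Vm} {δ : F} (S : SStr L δ) (hm : 0 < m)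
    {M : Subgroup (GL (Fin m ⊕ Fin m) F)}
    (hρ : ∀ x : Vm, B x (L x) = 0 → ∀ a : F, rho L δ x a ∈ M)
    {y u : Vm} (hyu : B y u = 0) (hyuM : ∀ a : F, stv y a * stv u (-a / δ) ∈ M)
    {z : Vm} (hz : B z (L z) = 0) (h1 : B y z = 0) (h2 : B (L y) z = 0) (h3 : B (L u) z = 0)
    (h4 : B z u = 1) {a : F} (ha : a ≠ 0) : stv y (4 * a) * stv (L z) (8 / a) ∈ M := by
  have hδ := S.delta_ne_zero hm
  have hac : (-a / δ) * (-2 * δ / a) = 2 := by field_simp
  have hc'' : -(-2 * δ / a) / δ = 2 / a := by field_simp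
  have hmem : (stv y a * stv u (-a / δ)) * (stv z (-2 * δ / a) * stv (L z) (-(-2 * δ / a) / δ)) ∈ M :=
    M.mul_mem (hyuM a) (hρ z hz _)
  have h5 := M.pow_mem hmem 4
  rw [four_aux (stv_commute hyu _ _) (stv_commute h1 _ _)
    (stv_commute (by rw [S.adj', h2, neg_zero]) _ _)
    (stv_commute (by rw [S.adj, form_swap, h3]; simp) _ _)
    (stv_commute (by rw [form_swap, hz, neg_zero]) _ _)
    (stv_pair_pow_four h4 hac), stv_pow_four, stv_pow_four, hc''] at h5
  have e : (4 : F) * (2 / a) = 8 / a := by ring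
  rwa [e] at h5

theorem stv_parallelogram {w e : Vm} (h : B w e = 0) (Y : GL (Fin m ⊕ Fin m) F) (b : F) :
    (Y * stv w b)⁻¹ * (Y * stv (w + e) b) * ((Y * stv w b)⁻¹ * (Y * stv (w - e) b)) = stv e (2 * b) := by
  have h' : B e w = 0 := by rw [form_swap, h, neg_zero]
  have e1 : ∀ X : GL (Fin m ⊕ Fin m) F, (Y * stv w b)⁻¹ * (Y * X) = stv w (-b) * X := by
    intro X
    rw [_root_.mul_inv_rev, stv_inv]
    group
  rw [e1, e1]
  apply gl_ext
  intro v
  simp only [gl_mul_mulVec, stv_mulVec]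
  simp only [form_add_left, form_sub_left, form_add_right, form_sub_right, form_smul_left, form_self, h, h']
  module

theorem stv_coeff_zero (v : Vm) : stv v (0 : F) = 1 := by
  apply gl_ext
  intro x
  rw [stv_mulVec]; simp

/-- the key step: a `K'`-transvection for a `K'`-point that is not a `K`-point produces a symplectic transvection -/
theorem SStr.exists_centre [Finite F] {L : Vm →ₗ[F] Vm} {δ : F} (S : SStr L δ) (hm : 7 ≤ m)
    (h2 : (2 : F) ≠ 0) {M : Subgroup (GL (Fin m ⊕ Fin m) F)}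
    (hρ : ∀ x : Vm, B x (L x) = 0 → ∀ a : F, rho L δ x a ∈ M)
    {y u : Vm} (hyu : B y u = 0) (hyuM : ∀ a : F, stv y a * stv u (-a / δ) ∈ M)
    (hu : u ∉ Submodule.span F (Set.range ![y, L y, L u])) :
    ∃ e : Vm, e ≠ 0 ∧ B e (L e) = 0 ∧ e ∈ centres M := by
  have hm0 : 0 < m := by omega
  have hδ := S.delta_ne_zero hm0
  obtain ⟨z₀, hz₀, hk₀, hne₀⟩ := S.exists_sing_perp hm0 h2 ![y, L y, L u] u hu (by omega)
  have hzu : B z₀ u ≠ 0 := by rw [form_swap]; exact neg_ne_zero.2 hne₀
  have k0 : B y z₀ = 0 := hk₀ 0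
  have k1 : B (L y) z₀ = 0 := hk₀ 1
  have k2 : B (L u) z₀ = 0 := hk₀ 2
  obtain ⟨z₁, hz₁⟩ : ∃ z₁ : Vm, z₁ = (B z₀ u)⁻¹ • z₀ := ⟨_, rfl⟩
  have a1 : B z₁ (L z₁) = 0 := by
    rw [hz₁, map_smul, form_smul_left, form_smul_right, hz₀]; ring
  have a2 : B y z₁ = 0 := by rw [hz₁, form_smul_right, k0, mul_zero]
  have a3 : B (L y) z₁ = 0 := by rw [hz₁, form_smul_right, k1, mul_zero]
  have a4 : B (L u) z₁ = 0 := by rw [hz₁, form_smul_right, k2, mul_zero]
  have a5 : B z₁ u = 1 := by rw [hz₁, form_smul_left, inv_mul_cancel₀ hzu]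
  obtain ⟨e₂, he, hke, hne⟩ := exists_sing_notMem L ⊥ ![y, L y, u, L u, z₁, L z₁] (by simp; omega)
  have b0 : B y e₂ = 0 := hke 0
  have b1 : B (L y) e₂ = 0 := hke 1
  have b2 : B u e₂ = 0 := hke 2
  have b3 : B (L u) e₂ = 0 := hke 3
  have b4 : B z₁ e₂ = 0 := hke 4
  have b5 : B (L z₁) e₂ = 0 := hke 5
  have he0 : e₂ ≠ 0 := by simpa using hne
  have good : ∀ (s : F) (a : F), a ≠ 0 → stv y (4 * a) * stv (L z₁ + s • L e₂) (8 / a) ∈ M := by
    intro s a ha
    have := S.phi_mem hm0 hρ hyu hyuM (z := z₁ + s • e₂) (by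
        rw [map_add, map_smul, form_add_left, form_add_right, form_add_right, form_smul_left, form_smul_left,
          form_smul_right, form_smul_right, a1, he, S.adj' z₁ e₂, b5, form_swap e₂ (L z₁), b5]
        ring)
      (by rw [form_add_right, form_smul_right, a2, b0]; ring)
      (by rw [form_add_right, form_smul_right, a3, b1]; ring)
      (by rw [form_add_right, form_smul_right, a4, b3]; ring)
      (by rw [form_add_left, form_smul_left, a5, form_swap e₂ u, b2]; ring) ha
    rwa [map_add, map_smul] at this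
  have hwe : B (L z₁) (L e₂) = 0 := by rw [S.form_LL, b4, mul_zero, neg_zero]
  refine ⟨L e₂, ?_, ?_, ?_⟩
  · intro h
    apply he0
    apply S.L_injective hm0
    rw [h, map_zero]
  · rw [S.sq, form_smul_right, form_swap, he]; ring
  · intro c
    by_cases hc : c = 0
    · rw [hc, stv_coeff_zero]; exact M.one_mem
    · have ha : (16 / c : F) ≠ 0 := by
        have h16 : (16 : F) ≠ 0 := by
          have : (16 : F) = 2 ^ 4 := by norm_num
          rw [this]; exact pow_ne_zero _ h2
        exact div_ne_zero h16 hc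
      have g0 := good 0 _ ha
      have g1 := good 1 _ ha
      have g2 := good (-1) _ ha
      rw [zero_smul, add_zero] at g0
      rw [one_smul] at g1
      rw [neg_smul, one_smul, ← sub_eq_add_neg] at g2
      have h6 := M.mul_mem (M.mul_mem (M.inv_mem g0) g1) (M.mul_mem (M.inv_mem g0) g2)
      rw [stv_parallelogram hwe] at h6
      have e : (2 : F) * (8 / (16 / c)) = c := by
        have h16 : (16 : F) ≠ 0 := by
          have : (16 : F) = 2 ^ 4 := by norm_num
          rw [this]; exact pow_ne_zero _ h2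
        field_simp
        ring
      rwa [e] at h6

end Cfsg.Agent.Lib.Helper29
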