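import Mathlib
import Cfsg.Agent.Lib.Helper29.SpGU2

/-!
Overgroups of the unitary group inside the symplectic group (`q` odd): from one transvection to all, maximality.
-/

set_option autoImplicit false

namespace Cfsg.Agent.Lib.Helper29

open Matrix Module QuadraticMap
open Cfsg.Agent.H5Symp (form_add_left form_add_right form_smul_left form_smul_right form_neg_left
  form_neg_right form_sub_left form_sub_right form_zero_left form_zero_right form_swap form_self)

variable {m : ℕ} {F : Type*} [Field F]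

local notation "Vm" => (Fin m ⊕ Fin m → F)
local notation "B" => Cfsg.sympForm m F

theorem SStr.centres_step {L : Vm →ₗ[F] Vm} {δ : F} {M : Subgroup (GL (Fin m ⊕ Fin m) F)}
    (hM : M ≤ Cfsg.spGL m F) (hρ : ∀ x : Vm, B x (L x) = 0 → ∀ a : F, rho L δ x a ∈ M)
    {v x : Vm} (hv : v ∈ centres M) (hx : B x (L x) = 0) (h1 : B v (L x) = 0) (h2 : B v x ≠ 0) :
    x ∈ centres M := by
  have h3 := centres_mulVec hM (hρ x hx (B v x)⁻¹) hv
  rw [rho_mulVec δ hx, h1, mul_zero, zero_smul, add_zero, inv_mul_cancel₀ h2, one_smul] at h3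
  have h4 := centres_add hM h3 (centres_smul hv (-1)) (by
    rw [form_add_left, form_smul_right, form_smul_right, form_self, form_swap x v]
    simpa using h2)
  have e : v + x + (-1 : F) • v = x := by module
  rwa [e] at h4

theorem bot_inv (L : Vm →ₗ[F] Vm) : ∀ w ∈ (⊥ : Submodule F Vm), L w ∈ (⊥ : Submodule F Vm) := by
  intro w hw
  rw [Submodule.mem_bot] at hw ⊢
  rw [hw, map_zero]

theorem SStr.centres_perp [Finite F] {L : Vm →ₗ[F] Vm} {δ : F} (S : SStr L δ) (hm : 7 ≤ m)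
    (h2 : (2 : F) ≠ 0) {M : Subgroup (GL (Fin m ⊕ Fin m) F)}
    (hM : M ≤ Cfsg.spGL m F) (hρ : ∀ x : Vm, B x (L x) = 0 → ∀ a : F, rho L δ x a ∈ M)
    {v x : Vm} (hv : v ∈ centres M) (hv0 : v ≠ 0) (hx : B x (L x) = 0) (h1 : B v x = 0)
    (h1' : B v (L x) = 0) (hnot : x ∉ ksp L v) : x ∈ centres M := by
  have hm0 : 0 < m := by omega
  have hδ := S.delta_ne_zero hm0
  have ha : v ∉ Submodule.span F (Set.range ![L v, L x]) := by
    intro h
    obtain ⟨c, hc⟩ := (Submodule.mem_span_range_iff_exists_fun F).1 h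
    simp only [Fin.sum_univ_two, Matrix.cons_val_zero, Matrix.cons_val_one] at hc
    by_cases hc1 : c 1 = 0
    · apply hv0
      rw [← Submodule.mem_bot F]
      apply S.mem_inv ⊥ (bot_inv L) (a := 1) (b := - c 0) (Or.inl one_ne_zero)
      rw [Submodule.mem_bot]
      rw [hc1, zero_smul, add_zero] at hc
      nth_rewrite 1 [← hc]
      module
    · apply hnot
      apply S.mem_inv _ (S.ksp_inv v) (a := 0) (b := c 1) (Or.inr hc1)
      refine mem_ksp.2 ⟨1, - c 0, ?_⟩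
      nth_rewrite 1 [← hc]
      module
  have hb : ∀ s : Vm, B s (L s) = 0 → (∀ i, B (![L v, L x] i) s = 0) → B v s ≠ 0 → B x s = 0 →
      x ∉ Submodule.span F (Set.range (Matrix.vecCons (L s) ![L v, L x])) := by
    intro s _ _ hvs _ h
    obtain ⟨c, hc⟩ := (Submodule.mem_span_range_iff_exists_fun F).1 h
    rw [Fin.sum_univ_three] at hc
    change c 0 • L s + c 1 • L v + c 2 • L x = x at hc
    have h3 : B (L v) x = 0 := by rw [S.adj, h1', neg_zero]
    have h4 : c 0 = 0 := by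
      rw [← hc, form_add_right, form_add_right, form_smul_right, form_smul_right, form_smul_right, form_self,
        S.form_LL, S.form_LL, h1] at h3
      have h5 : c 0 * (δ * B v s) = 0 := by linear_combination -h3
      exact (mul_eq_zero.1 h5).resolve_right (mul_ne_zero hδ hvs)
    apply hnot
    apply S.mem_inv _ (S.ksp_inv v) (a := 1) (b := - c 2) (Or.inl one_ne_zero)
    refine mem_ksp.2 ⟨0, c 1, ?_⟩
    rw [h4, zero_smul, zero_add] at hc
    nth_rewrite 1 [← hc]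
    module
  obtain ⟨w, hw, hk, hwv, hwx⟩ := S.exists_sing_two hm0 h2 ![L v, L x] v x ha hb (by omega)
  have k0 : B (L v) w = 0 := hk 0
  have k1 : B (L x) w = 0 := hk 1
  have hwC : w ∈ centres M := SStr.centres_step hM hρ hv hw (by rw [S.adj', k0, neg_zero]) hwv
  exact SStr.centres_step hM hρ hwC hx (by rw [form_swap, k1, neg_zero])
    (by rw [form_swap]; exact neg_ne_zero.2 hwx)

theorem SStr.centres_sing [Finite F] {L : Vm →ₗ[F] Vm} {δ : F} (S : SStr L δ) (hm : 7 ≤ m)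
    (h2 : (2 : F) ≠ 0) {M : Subgroup (GL (Fin m ⊕ Fin m) F)}
    (hM : M ≤ Cfsg.spGL m F) (hρ : ∀ x : Vm, B x (L x) = 0 → ∀ a : F, rho L δ x a ∈ M)
    {v₀ : Vm} (hv₀ : v₀ ∈ centres M) (hv₀0 : v₀ ≠ 0) (x : Vm) (hx : B x (L x) = 0) : x ∈ centres M := by
  by_cases hx0 : x = 0
  · rw [hx0]; exact centres_zero M
  have hfr := finrank_span_range_le ![v₀, L v₀, x, L x]
  obtain ⟨u₁, hu₁, hk, hnot⟩ := exists_sing_notMem L (Submodule.span F (Set.range ![v₀, L v₀, x, L x]))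
    ![v₀, L v₀, x, L x] (by omega)
  have k0 : B v₀ u₁ = 0 := hk 0
  have k1 : B (L v₀) u₁ = 0 := hk 1
  have k2 : B x u₁ = 0 := hk 2
  have k3 : B (L x) u₁ = 0 := hk 3
  have hu₁0 : u₁ ≠ 0 := by
    rintro rfl
    exact hnot (Submodule.zero_mem _)
  have n1 : u₁ ∉ ksp L v₀ := by
    intro hmem
    apply hnot
    refine Submodule.span_mono ?_ hmem
    rintro z (rfl | rfl)
    · exact ⟨0, rfl⟩
    · exact ⟨1, rfl⟩
  have n2 : u₁ ∉ ksp L x := by
    intro hmem
    apply hnot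
    refine Submodule.span_mono ?_ hmem
    rintro z (rfl | rfl)
    · exact ⟨2, rfl⟩
    · exact ⟨3, rfl⟩
  have hC : u₁ ∈ centres M := S.centres_perp hm h2 hM hρ hv₀ hv₀0 hu₁ k0 (by rw [S.adj', k1, neg_zero]) n1
  apply S.centres_perp hm h2 hM hρ hC hu₁0 hx (by rw [form_swap, k2, neg_zero])
    (by rw [form_swap, k3, neg_zero])
  intro hmem
  obtain ⟨a, b, hab⟩ := mem_ksp.1 hmem
  apply n2
  apply S.mem_inv _ (S.ksp_inv x) (a := a) (b := b)
  · by_contra hcon
    push Not at hcon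
    apply hx0
    rw [← hab, hcon.1, hcon.2]; simp
  · rw [hab]
    exact mem_ksp.2 ⟨1, 0, by simp⟩

theorem SStr.centres_all [Finite F] {L : Vm →ₗ[F] Vm} {δ : F} (S : SStr L δ) (hm : 7 ≤ m)
    (h2 : (2 : F) ≠ 0) {M : Subgroup (GL (Fin m ⊕ Fin m) F)}
    (hM : M ≤ Cfsg.spGL m F) (hsing : ∀ x : Vm, B x (L x) = 0 → x ∈ centres M) (z : Vm) :
    z ∈ centres M := by
  have hm0 : 0 < m := by omega
  by_cases hz : B z (L z) = 0
  · exact hsing z hz
  have hz0 : z ≠ 0 := by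
    rintro rfl
    apply hz
    rw [form_zero_left]
  have ha : z ∉ Submodule.span F (Set.range (![] : Fin 0 → Vm)) := by
    simpa using hz0
  have hb : ∀ s : Vm, B s (L s) = 0 → (∀ i, B ((![] : Fin 0 → Vm) i) s = 0) → B z s ≠ 0 → B (L z) s = 0 →
      L z ∉ Submodule.span F (Set.range (Matrix.vecCons (L s) (![] : Fin 0 → Vm))) := by
    intro s hs _ _ _ h
    obtain ⟨c, hc⟩ := (Submodule.mem_span_range_iff_exists_fun F).1 h
    simp only [Fin.sum_univ_one, Matrix.cons_val_zero] at hc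
    have h3 : z = c 0 • s := by
      apply S.L_injective hm0
      rw [map_smul, hc]
    apply hz
    rw [h3, map_smul, form_smul_left, form_smul_right, hs]; ring
  obtain ⟨s, hs, -, h1, h1'⟩ := S.exists_sing_two hm0 h2 (![] : Fin 0 → Vm) z (L z) ha hb (by omega)
  have h3 : B z (L s) ≠ 0 := by rw [S.adj']; exact neg_ne_zero.2 h1'
  obtain ⟨c, hc⟩ : ∃ c : F, c = B z (L z) / (2 * B z (L s)) := ⟨_, rfl⟩
  have hc0 : c ≠ 0 := by
    rw [hc]; exact div_ne_zero hz (mul_ne_zero h2 h3)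
  have hC1 : c • s ∈ centres M := centres_smul (hsing s hs) c
  have hC2 : z - c • s ∈ centres M := by
    apply hsing
    rw [map_sub, map_smul, form_sub_left, form_sub_right, form_sub_right, form_smul_left, form_smul_left,
      form_smul_right, form_smul_right, hs, S.symm z s, hc]
    field_simp
    ring
  have h4 := centres_add hM hC1 hC2 (by
    rw [form_sub_right, form_self, sub_zero, form_smul_left, form_swap]
    exact mul_ne_zero hc0 (neg_ne_zero.2 h1))
  rwa [add_sub_cancel] at h4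

/-- main theorem: an overgroup of the unitary transvections containing an element not normalising `K` contains
all symplectic transvections -/
theorem SStr.centres_univ [Finite F] {lam : Matrix (Fin m ⊕ Fin m) (Fin m ⊕ Fin m) F} {δ : F}
    (S : SStr (Matrix.mulVecLin lam) δ) (hm : 7 ≤ m)
    (h2 : (2 : F) ≠ 0) {M : Subgroup (GL (Fin m ⊕ Fin m) F)}
    (hM : M ≤ Cfsg.spGL m F)
    (hρ : ∀ x : Vm, B x (Matrix.mulVecLin lam x) = 0 → ∀ a : F, rho (Matrix.mulVecLin lam) δ x a ∈ M)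
    {g : GL (Fin m ⊕ Fin m) F} (hg : g ∈ M)
    (hnot : ¬ ∃ α β : F, ∀ x : Vm, ((g⁻¹ : GL (Fin m ⊕ Fin m) F) : Matrix _ _ F) *ᵥ (lam *ᵥ ((g : Matrix _ _ F) *ᵥ x))
      = α • x + β • (lam *ᵥ x)) (z : Vm) : z ∈ centres M := by
  have hm0 : 0 < m := by omega
  set L := Matrix.mulVecLin lam with hL
  set T : Vm →ₗ[F] Vm := (Matrix.mulVecLin ((g⁻¹ : GL (Fin m ⊕ Fin m) F) : Matrix _ _ F)) ∘ₗ L ∘ₗ
    (Matrix.mulVecLin (g : Matrix _ _ F)) with hT
  have hTx : ∀ x : Vm, T x = ((g⁻¹ : GL (Fin m ⊕ Fin m) F) : Matrix _ _ F) *ᵥ (L ((g : Matrix _ _ F) *ᵥ x)) :=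
    fun x => rfl
  have hex : ∃ x : Vm, qf L x = 0 ∧ T x ∉ Submodule.span F (Set.range ![x, L x]) := by
    by_contra hcon
    push Not at hcon
    obtain ⟨α, β, h⟩ := S.cstr.exists_coeff (S.nondeg hm0 h2) (by simp; omega) T hcon
    exact hnot ⟨α, β, h⟩
  obtain ⟨x, hx, hbad⟩ := hex
  have hx' : B x (L x) = 0 := hx
  have hx0 : x ≠ 0 := by
    rintro rfl
    apply hbad
    have h0 : T (0 : Vm) = 0 := map_zero T
    rw [h0]
    exact Submodule.zero_mem _
  have hgS := hM hg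
  have hyu : B ((g : Matrix _ _ F) *ᵥ x) ((g : Matrix _ _ F) *ᵥ (L x)) = 0 := by
    rw [(mem_spGL_iff g).mp hgS, hx']
  have hyuM : ∀ a : F, stv ((g : Matrix _ _ F) *ᵥ x) a * stv ((g : Matrix _ _ F) *ᵥ (L x)) (-a / δ) ∈ M := by
    intro a
    have h3 := M.mul_mem (M.mul_mem hg (hρ x hx' a)) (M.inv_mem hg)
    have e : g * rho L δ x a * g⁻¹ = (g * stv x a * g⁻¹) * (g * stv (L x) (-a / δ) * g⁻¹) := by
      rw [rho]; group
    rwa [e, conj_stv hgS, conj_stv hgS] at h3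
  have hu : (g : Matrix _ _ F) *ᵥ (L x) ∉ Submodule.span F (Set.range
      ![(g : Matrix _ _ F) *ᵥ x, L ((g : Matrix _ _ F) *ᵥ x), L ((g : Matrix _ _ F) *ᵥ (L x))]) := by
    intro h
    obtain ⟨c, hc⟩ := (Submodule.mem_span_range_iff_exists_fun F).1 h
    rw [Fin.sum_univ_three] at hc
    change c 0 • ((g : Matrix _ _ F) *ᵥ x) + c 1 • L ((g : Matrix _ _ F) *ᵥ x)
      + c 2 • L ((g : Matrix _ _ F) *ᵥ (L x)) = (g : Matrix _ _ F) *ᵥ (L x) at hc
    have h3 : (g : Matrix _ _ F) *ᵥ (L x) ∈ ksp L ((g : Matrix _ _ F) *ᵥ x) := by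
      apply S.mem_inv _ (S.ksp_inv _) (a := 1) (b := - c 2) (Or.inl one_ne_zero)
      refine mem_ksp.2 ⟨c 0, c 1, ?_⟩
      nth_rewrite 1 [← hc]
      module
    obtain ⟨a, b, hab⟩ := mem_ksp.1 h3
    have h4 := congrArg (fun v : Vm => ((g⁻¹ : GL (Fin m ⊕ Fin m) F) :
      Matrix (Fin m ⊕ Fin m) (Fin m ⊕ Fin m) F) *ᵥ v) hab
    simp only [mulVec_add, mulVec_smul, gl_inv_mulVec] at h4
    rw [← hTx] at h4
    by_cases hb : b = 0
    · rw [hb, zero_smul, add_zero] at h4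
      apply S.irr x hx0
      rw [← h4]
      exact Submodule.smul_mem _ _ (Submodule.mem_span_singleton_self x)
    · apply hbad
      have h5 : T x = b⁻¹ • (L x - a • x) := by
        rw [← h4, add_sub_cancel_left, smul_smul, inv_mul_cancel₀ hb, one_smul]
      rw [h5]
      apply Submodule.smul_mem
      apply Submodule.sub_mem
      · exact Submodule.subset_span ⟨1, rfl⟩
      · exact Submodule.smul_mem _ _ (Submodule.subset_span ⟨0, rfl⟩)
  obtain ⟨e, he0, -, heC⟩ := S.exists_centre hm h2 hρ hyu hyuM hu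
  exact S.centres_all hm h2 hM (S.centres_sing hm h2 hM hρ heC he0) z

/-- `Sp` does not normalise `K` -/
theorem SStr.exists_not_normalizer [Finite F] {lam : Matrix (Fin m ⊕ Fin m) (Fin m ⊕ Fin m) F} {δ : F}
    (S : SStr (Matrix.mulVecLin lam) δ) (hm : 3 ≤ m)
    (K : Subalgebra F (Matrix (Fin m ⊕ Fin m) (Fin m ⊕ Fin m) F)) (hlamK : lam ∈ K)
    (hspan : ∀ k ∈ K, ∃ a b : F, k = a • (1 : Matrix (Fin m ⊕ Fin m) (Fin m ⊕ Fin m) F) + b • lam) :
    ∃ g ∈ Cfsg.spGL m F, g ∉ Cfsg.Geo.subalgebraNormalizer K := by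
  set L := Matrix.mulVecLin lam with hL
  obtain ⟨x₀, -, -, hx₀⟩ := exists_sing_notMem L ⊥ (![] : Fin 0 → Vm) (by simp; omega)
  have hx₀0 : x₀ ≠ 0 := by simpa using hx₀
  refine ⟨stv x₀ 1, stv_mem_spGL _ _, fun hmem => ?_⟩
  obtain ⟨a, b, hab⟩ := hspan _ ((hmem lam).1 hlamK)
  have hab' : (stv x₀ (1 : F) : Matrix (Fin m ⊕ Fin m) (Fin m ⊕ Fin m) F) * lam
      = (a • (1 : Matrix (Fin m ⊕ Fin m) (Fin m ⊕ Fin m) F) + b • lam) * (stv x₀ (1 : F) : Matrix _ _ F) := by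
    rw [← hab, mul_assoc, ← Units.val_mul, inv_mul_cancel, Units.val_one, mul_one]
  have hconj : ∀ v : Vm, (stv x₀ (1 : F) : Matrix _ _ F) *ᵥ (L v)
      = a • ((stv x₀ (1 : F) : Matrix _ _ F) *ᵥ v) + b • L ((stv x₀ (1 : F) : Matrix _ _ F) *ᵥ v) := by
    intro v
    show (stv x₀ (1 : F) : Matrix _ _ F) *ᵥ (lam *ᵥ v) = a • ((stv x₀ (1 : F) : Matrix _ _ F) *ᵥ v)
      + b • (lam *ᵥ ((stv x₀ (1 : F) : Matrix _ _ F) *ᵥ v))
    rw [mulVec_mulVec, hab', ← mulVec_mulVec, add_mulVec, smul_mulVec, smul_mulVec, one_mulVec]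
  obtain ⟨p, -, hk, hp⟩ := exists_sing_notMem L ⊥ ![x₀, L x₀] (by simp; omega)
  have hp0 : p ≠ 0 := by simpa using hp
  have k0 : B x₀ p = 0 := hk 0
  have k1 : B (L x₀) p = 0 := hk 1
  have h1 := hconj p
  rw [stv_mulVec, stv_mulVec, form_swap p x₀, k0, S.adj, form_swap p (L x₀), k1] at h1
  simp only [neg_zero, mul_zero, zero_smul, add_zero] at h1
  have hab0 : a = 0 ∧ b - 1 = 0 := by
    by_contra hcon
    apply hp0
    rw [← Submodule.mem_bot F]
    apply S.mem_inv ⊥ (bot_inv L) (a := a) (b := b - 1)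
    · by_contra hc
      push Not at hc
      exact hcon hc
    · rw [Submodule.mem_bot]
      have : a • p + (b - 1) • L p = (a • p + b • L p) - L p := by module
      rw [this, ← h1, sub_self]
  obtain ⟨ha, hb⟩ := hab0
  have hb1 : b = 1 := sub_eq_zero.1 hb
  obtain ⟨v, hv⟩ := exists_form_ne_zero hx₀0
  have h3 := hconj v
  rw [ha, hb1, zero_smul, zero_add, one_smul, stv_mulVec, stv_mulVec, map_add, map_smul] at h3
  have h4 : (1 * B (L v) x₀) • x₀ = (1 * B v x₀) • L x₀ := add_left_cancel h3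
  have hvx : B v x₀ ≠ 0 := by rw [form_swap]; exact neg_ne_zero.2 hv
  apply S.irr x₀ hx₀0
  rw [Submodule.mem_span_singleton]
  refine ⟨(B v x₀)⁻¹ * B (L v) x₀, ?_⟩
  rw [one_mul, one_mul] at h4
  rw [mul_smul, h4, smul_smul, inv_mul_cancel₀ hvx, one_smul]

end Cfsg.Agent.Lib.Helper29
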