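import Mathlib
import Cfsg.Prelude.Def_GeometricClasses
import Cfsg.Agent.Lib.Helper29.SuParabolic

/-!
A rational structure on the unitary space on which the Hermitian form is (a scalar multiple of)
an alternating form: an overgroup of the rational transvections moving a rational point to a
non-rational one contains all unitary transvections.
-/

set_option autoImplicit false

namespace Cfsg.Agent.Lib.Helper29

open Matrix Module
open Cfsg.Agent.H6 (add_pow_q pow_q_pow_q neg_pow_q sub_pow_q q_pos hermForm_add_left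
  hermForm_smul_left hermForm_smul_right hermForm_add_right hermForm_conj)

variable {F : Type*} [Field F] [Fintype F] {n q : ℕ}

local notation "H" => Cfsg.hermForm n F q

/-- A rational structure of symplectic type. -/
structure RatStr (n q : ℕ) {F : Type*} [Field F] [Fintype F] (F₀ : Subfield F)
    (Rat : (Fin n → F) → Prop) : Prop where
  hF : Fintype.card F = q ^ 2
  fix : ∀ x : F, x ∈ F₀ ↔ x ^ q = x
  zero : Rat 0
  add : ∀ {u v : Fin n → F}, Rat u → Rat v → Rat (u + v)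
  smul : ∀ {c : F} {u : Fin n → F}, c ∈ F₀ → Rat u → Rat (c • u)
  form : ∀ {u v : Fin n → F}, Rat u → Rat v →
    Cfsg.hermForm n F q u v + (Cfsg.hermForm n F q u v) ^ q = 0
  alt : ∀ {u : Fin n → F}, Rat u → Cfsg.hermForm n F q u u = 0
  dec : ∀ θ : F, θ ^ q ≠ θ → ∀ v : Fin n → F, ∃ a b : Fin n → F, Rat a ∧ Rat b ∧ v = a + θ • b

namespace RatStr

variable {F₀ : Subfield F} {Rat : (Fin n → F) → Prop}

theorem neg (D : RatStr n q F₀ Rat) {u : Fin n → F} (hu : Rat u) : Rat (-u) := by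
  have := D.smul (F₀.neg_mem F₀.one_mem) hu
  simpa using this

theorem sub (D : RatStr n q F₀ Rat) {u v : Fin n → F} (hu : Rat u) (hv : Rat v) : Rat (u - v) := by
  rw [sub_eq_add_neg]; exact D.add hu (D.neg hv)

theorem swap (D : RatStr n q F₀ Rat) {u v : Fin n → F} (hu : Rat u) (hv : Rat v) :
    H v u = - H u v := by
  rw [← hermForm_conj D.hF u v]
  linear_combination D.form hu hv

theorem mul_mem (D : RatStr n q F₀ Rat) {c d : F} (hc : c + c ^ q = 0) (hd : d + d ^ q = 0) :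
    c * d ∈ F₀ := by
  rw [D.fix, mul_pow]
  have h1 : c ^ q = -c := by linear_combination hc
  have h2 : d ^ q = -d := by linear_combination hd
  rw [h1, h2]; ring

theorem div_mem (D : RatStr n q F₀ Rat) {c d : F} (hc : c + c ^ q = 0) (hd : d + d ^ q = 0) :
    c / d ∈ F₀ := by
  rw [div_eq_mul_inv]
  exact D.mul_mem hc (inv_trace_zero hd)

theorem utv_rat (D : RatStr n q F₀ Rat) {u : Fin n → F} (hu : Rat u) {c : F}
    (hc : c + c ^ q = 0) {x : Fin n → F} (hx : Rat x) :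
    Rat ((utv q u c (D.alt hu) : Matrix (Fin n) (Fin n) F) *ᵥ x) := by
  rw [utv_mulVec]
  exact D.add hx (D.smul (D.mul_mem hc (D.form hx hu)) hu)

theorem exists_ne (D : RatStr n q F₀ Rat) {x : Fin n → F} (hx : x ≠ 0) :
    ∃ z, Rat z ∧ H x z ≠ 0 := by
  obtain ⟨θ, hθ⟩ := exists_pow_q_ne D.hF
  obtain ⟨z, hz⟩ := exists_herm_ne_zero D.hF hx
  obtain ⟨a, b, ha, hb, rfl⟩ := D.dec θ hθ z
  by_cases h1 : H a x = 0
  · refine ⟨b, hb, herm_ne_zero_symm D.hF ?_⟩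
    intro h2
    apply hz
    rw [hermForm_add_left, hermForm_smul_left, h1, h2]; ring
  · exact ⟨a, ha, herm_ne_zero_symm D.hF h1⟩

variable (M : Subgroup (GL (Fin n) F))

/-- One rational transvection moving `x` to `y`. -/
theorem move1 (D : RatStr n q F₀ Rat)
    (hM : ∀ (u : Fin n → F) (c : F) (hu : Rat u), c + c ^ q = 0 → utv q u c (D.alt hu) ∈ M)
    {x y : Fin n → F} (hx : Rat x) (hy : Rat y) (hxy : H x y ≠ 0) :
    ∃ h ∈ M, (h : Matrix (Fin n) (Fin n) F) *ᵥ x = y ∧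
      (∀ z, Rat z → Rat ((h : Matrix (Fin n) (Fin n) F) *ᵥ z)) ∧
      (∀ z, H z (y - x) = 0 → (h : Matrix (Fin n) (Fin n) F) *ᵥ z = z) := by
  have hc := inv_trace_zero (D.form hx hy)
  refine ⟨utv q (y - x) (H x y)⁻¹ (D.alt (D.sub hy hx)), hM _ _ (D.sub hy hx) hc, ?_,
    fun z hz => D.utv_rat (D.sub hy hx) hc hz, fun z hz => ?_⟩
  · rw [utv_mulVec, herm_sub_right D.hF, D.alt hx, sub_zero, inv_mul_cancel₀ hxy, one_smul]
    abel
  · rw [utv_mulVec, hz]; simp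

theorem exists_both (D : RatStr n q F₀ Rat) {x y z₁ z₂ : Fin n → F} (h1 : Rat z₁) (h2 : Rat z₂)
    (hx : H x z₁ ≠ 0) (hy : H y z₂ ≠ 0) (P : (Fin n → F) → Prop) (hP1 : P z₁) (hP2 : P z₂)
    (hP : P (z₁ + z₂)) : ∃ z, Rat z ∧ P z ∧ H x z ≠ 0 ∧ H y z ≠ 0 := by
  by_cases h3 : H y z₁ = 0
  · by_cases h4 : H x z₂ = 0
    · refine ⟨z₁ + z₂, D.add h1 h2, hP, ?_, ?_⟩
      · rw [hermForm_add_right D.hF, h4, add_zero]; exact hx
      · rw [hermForm_add_right D.hF, h3, zero_add]; exact hy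
    · exact ⟨z₂, h2, hP2, h4, hy⟩
  · exact ⟨z₁, h1, hP1, hx, h3⟩

theorem trans1 (D : RatStr n q F₀ Rat)
    (hM : ∀ (u : Fin n → F) (c : F) (hu : Rat u), c + c ^ q = 0 → utv q u c (D.alt hu) ∈ M)
    {x y : Fin n → F} (hx : Rat x) (hy : Rat y) (hx0 : x ≠ 0) (hy0 : y ≠ 0) :
    ∃ h ∈ M, (h : Matrix (Fin n) (Fin n) F) *ᵥ x = y ∧
      (∀ z, Rat z → Rat ((h : Matrix (Fin n) (Fin n) F) *ᵥ z)) := by
  obtain ⟨z₁, hz₁, hxz₁⟩ := D.exists_ne hx0
  obtain ⟨z₂, hz₂, hyz₂⟩ := D.exists_ne hy0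
  obtain ⟨z, hz, -, hxz, hyz⟩ := D.exists_both hz₁ hz₂ hxz₁ hyz₂ (fun _ => True) trivial trivial
    trivial
  obtain ⟨h₁, hh₁, e₁, r₁, -⟩ := D.move1 M hM hx hz hxz
  obtain ⟨h₂, hh₂, e₂, r₂, -⟩ := D.move1 M hM hz hy (herm_ne_zero_symm D.hF hyz)
  refine ⟨h₂ * h₁, M.mul_mem hh₂ hh₁, ?_, fun w hw => ?_⟩
  · rw [gl_mul_mulVec, e₁, e₂]
  · rw [gl_mul_mulVec]; exact r₂ _ (r₁ _ hw)

theorem exists_ne_perp (D : RatStr n q F₀ Rat) {a b : Fin n → F} (ha : Rat a)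
    (hab : ∀ c : F, b ≠ c • a) : ∃ z, Rat z ∧ H a z = 0 ∧ H b z ≠ 0 := by
  have hq : q ≠ 0 := by have := q_pos D.hF; omega
  by_cases ha0 : a = 0
  · have hb0 : b ≠ 0 := by
      intro h
      apply hab 0
      rw [h, zero_smul]
    obtain ⟨z, hz, hbz⟩ := D.exists_ne hb0
    exact ⟨z, hz, by rw [ha0, herm_zero_left hq], hbz⟩
  obtain ⟨w, hw, haw⟩ := D.exists_ne ha0
  by_contra hcon
  push Not at hcon
  apply hab (H b w / H a w)
  by_contra hne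
  obtain ⟨y, hy, hy0⟩ := D.exists_ne (sub_ne_zero.mpr hne)
  apply hy0
  have hl : H a y / H a w ∈ F₀ := D.div_mem (D.form ha hy) (D.form ha hw)
  have hlq := (D.fix _).mp hl
  have h1 := hcon (y - (H a y / H a w) • w) (D.sub hy (D.smul hl hw))
    (by rw [herm_sub_right D.hF, hermForm_smul_right, hlq, div_mul_cancel₀ _ haw, sub_self])
  rw [herm_sub_right D.hF, hermForm_smul_right, hlq] at h1
  rw [herm_sub_left, hermForm_smul_left]
  field_simp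
  field_simp at h1
  linear_combination h1

theorem trans2 (D : RatStr n q F₀ Rat)
    (hM : ∀ (u : Fin n → F) (c : F) (hu : Rat u), c + c ^ q = 0 → utv q u c (D.alt hu) ∈ M)
    {a b b' : Fin n → F} (ha : Rat a) (hb : Rat b) (hb' : Rat b') (hab : H a b = 0)
    (hab' : H a b' = 0) (h1 : ∀ c : F, b ≠ c • a) (h2 : ∀ c : F, b' ≠ c • a) :
    ∃ h ∈ M, (h : Matrix (Fin n) (Fin n) F) *ᵥ a = a ∧ (h : Matrix (Fin n) (Fin n) F) *ᵥ b = b' := by
  obtain ⟨z₁, hz₁, haz₁, hbz₁⟩ := D.exists_ne_perp ha h1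
  obtain ⟨z₂, hz₂, haz₂, hbz₂⟩ := D.exists_ne_perp ha h2
  obtain ⟨z, hz, haz, hbz, hbz'⟩ := D.exists_both hz₁ hz₂ hbz₁ hbz₂ (fun z => H a z = 0) haz₁ haz₂
    (by rw [hermForm_add_right D.hF, haz₁, haz₂, add_zero])
  obtain ⟨h₁, hh₁, e₁, -, f₁⟩ := D.move1 M hM hb hz hbz
  obtain ⟨h₂, hh₂, e₂, -, f₂⟩ := D.move1 M hM hz hb' (herm_ne_zero_symm D.hF hbz')
  refine ⟨h₂ * h₁, M.mul_mem hh₂ hh₁, ?_, ?_⟩
  · rw [gl_mul_mulVec, f₁ a (by rw [herm_sub_right D.hF, haz, hab, sub_zero]),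
      f₂ a (by rw [herm_sub_right D.hF, haz, hab', sub_zero])]
  · rw [gl_mul_mulVec, e₁, e₂]

theorem trans_pair (D : RatStr n q F₀ Rat) (hMU : M ≤ Cfsg.GU n F q)
    (hM : ∀ (u : Fin n → F) (c : F) (hu : Rat u), c + c ^ q = 0 → utv q u c (D.alt hu) ∈ M)
    {a b a' b' : Fin n → F} (ha : Rat a) (hb : Rat b) (ha' : Rat a') (hb' : Rat b')
    (hab : H a b = 0) (hab' : H a' b' = 0) (ha0 : a ≠ 0) (ha0' : a' ≠ 0)
    (h1 : ∀ c : F, b ≠ c • a) (h2 : ∀ c : F, b' ≠ c • a') :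
    ∃ h ∈ M, (h : Matrix (Fin n) (Fin n) F) *ᵥ a = a' ∧ (h : Matrix (Fin n) (Fin n) F) *ᵥ b = b' := by
  obtain ⟨h₁, hh₁, e₁, r₁⟩ := D.trans1 M hM ha ha' ha0 ha0'
  obtain ⟨h₂, hh₂, e₂, e₃⟩ := D.trans2 M hM ha' (r₁ b hb) hb'
    (by rw [← e₁, (mem_GU_iff h₁).mp (hMU hh₁), hab]) hab'
    (by
      intro c hc
      apply h1 c
      have h3 := gl_inv_mulVec h₁ b
      rw [hc, ← e₁, Matrix.mulVec_smul, gl_inv_mulVec] at h3
      exact h3.symm) h2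
  refine ⟨h₂ * h₁, M.mul_mem hh₂ hh₁, ?_, ?_⟩
  · rw [gl_mul_mulVec, e₁, e₂]
  · rw [gl_mul_mulVec, e₃]

theorem isotropic_iff (D : RatStr n q F₀ Rat) {θ : F} (hθ : θ ^ q ≠ θ) {a b : Fin n → F}
    (ha : Rat a) (hb : Rat b) (h : H (a + θ • b) (a + θ • b) = 0) : H a b = 0 := by
  simp only [hermForm_add_left, hermForm_add_right D.hF, hermForm_smul_left, hermForm_smul_right,
    D.alt ha, D.alt hb, D.swap ha hb] at h
  have h1 : (θ ^ q - θ) * H a b = 0 := by linear_combination h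
  exact (mul_eq_zero.mp h1).resolve_left (sub_ne_zero.mpr hθ)

theorem rat_ucentres (D : RatStr n q F₀ Rat)
    (hM : ∀ (u : Fin n → F) (c : F) (hu : Rat u), c + c ^ q = 0 → utv q u c (D.alt hu) ∈ M)
    {u : Fin n → F} (hu : Rat u) : u ∈ ucentres q M :=
  ⟨D.alt hu, fun c hc => hM u c hu hc⟩

/-- The two-orbit argument. -/
theorem ucentres_all (D : RatStr n q F₀ Rat) (hMU : M ≤ Cfsg.GU n F q)
    (hM : ∀ (u : Fin n → F) (c : F) (hu : Rat u), c + c ^ q = 0 → utv q u c (D.alt hu) ∈ M)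
    {g : GL (Fin n) F} (hg : g ∈ M) {u : Fin n → F} (hu : Rat u)
    (hgu : ∀ (β : F) (v₀ : Fin n → F), Rat v₀ → (g : Matrix (Fin n) (Fin n) F) *ᵥ u ≠ β • v₀) :
    ∀ z : Fin n → F, H z z = 0 → z ∈ ucentres q M := by
  obtain ⟨θ, hθ⟩ := exists_pow_q_ne D.hF
  have hv₀ := ucentres_mulVec hMU hg (D.rat_ucentres M hM hu)
  obtain ⟨a₀, b₀, ha₀, hb₀, e₀⟩ := D.dec θ hθ ((g : Matrix (Fin n) (Fin n) F) *ᵥ u)
  rw [e₀] at hv₀ hgu
  have hab₀ := D.isotropic_iff hθ ha₀ hb₀ hv₀.1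
  have ha₀0 : a₀ ≠ 0 := by
    intro h
    apply hgu θ b₀ hb₀
    rw [h, zero_add]
  have hb₀a : ∀ c : F, b₀ ≠ c • a₀ := by
    intro c hc
    apply hgu (1 + θ * c) a₀ ha₀
    rw [hc, smul_smul, add_smul, one_smul]
  intro z hz
  obtain ⟨a, b, ha, hb, rfl⟩ := D.dec θ hθ z
  have hab := D.isotropic_iff hθ ha hb hz
  by_cases ha0 : a = 0
  · rw [ha0, zero_add]
    exact ucentres_smul D.hF (D.rat_ucentres M hM hb) θ
  by_cases hba : ∃ c : F, b = c • a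
  · obtain ⟨c, hc⟩ := hba
    have : a + θ • b = (1 + θ * c) • a := by rw [hc, smul_smul, add_smul, one_smul]
    rw [this]
    exact ucentres_smul D.hF (D.rat_ucentres M hM ha) _
  push Not at hba
  obtain ⟨h, hh, e₁, e₂⟩ := D.trans_pair M hMU hM ha₀ hb₀ ha hb hab₀ hab ha₀0 ha0 hb₀a hba
  have := ucentres_mulVec hMU hh hv₀
  rwa [Matrix.mulVec_add, Matrix.mulVec_smul, e₁, e₂] at this

end RatStr

end Cfsg.Agent.Lib.Helper29
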