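import Mathlib
import Cfsg.Prelude.Def_GeometricClasses
import Cfsg.Agent.Lib.Helper29.SpInSU2

/-!
Generation of `SU_{2k}(q)` by the unitary transvections together with a rational torus, relative
to a hyperbolic basis.
-/

set_option autoImplicit false

namespace Cfsg.Agent.Lib.Helper29

open Matrix Module
open Cfsg.Agent.H6 (add_pow_q pow_q_pow_q neg_pow_q sub_pow_q q_pos hermForm_add_left
  hermForm_smul_left hermForm_smul_right hermForm_add_right hermForm_conj)

variable {F : Type*} [Field F] [Fintype F] {n q k : ℕ}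

local notation "H" => Cfsg.hermForm n F q

/-- A hyperbolic basis with all products `H (e i) (f i)` equal to the trace-zero scalar `κ`. -/
structure HypB (n q : ℕ) {k : ℕ} {F : Type*} [Field F] [Fintype F] (κ : F)
    (e f : Fin k → (Fin n → F)) : Prop where
  hF : Fintype.card F = q ^ 2
  κ0 : κ ≠ 0
  κtr : κ + κ ^ q = 0
  ef : ∀ i j, Cfsg.hermForm n F q (e i) (f j) = if i = j then κ else 0
  ee : ∀ i j, Cfsg.hermForm n F q (e i) (e j) = 0
  ff : ∀ i j, Cfsg.hermForm n F q (f i) (f j) = 0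
  sep : ∀ v : Fin n → F, (∀ i, Cfsg.hermForm n F q v (e i) = 0) →
    (∀ i, Cfsg.hermForm n F q v (f i) = 0) → v = 0

/-- `g` fixes the first `j` hyperbolic pairs. -/
def FixB (e f : Fin k → (Fin n → F)) (j : ℕ) (g : GL (Fin n) F) : Prop :=
  ∀ i : Fin k, i.val < j → (g : Matrix (Fin n) (Fin n) F) *ᵥ e i = e i ∧
    (g : Matrix (Fin n) (Fin n) F) *ᵥ f i = f i

/-- `x` is orthogonal to the hyperbolic pairs from `j` on. -/
def PerpB (q : ℕ) (e f : Fin k → (Fin n → F)) (j : ℕ) (x : Fin n → F) : Prop :=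
  ∀ i : Fin k, j ≤ i.val → Cfsg.hermForm n F q x (e i) = 0 ∧ Cfsg.hermForm n F q x (f i) = 0

namespace HypB

variable {κ : F} {e f : Fin k → (Fin n → F)}

theorem κq (B : HypB n q κ e f) : κ ^ q = -κ := by linear_combination B.κtr

theorem ef_self (B : HypB n q κ e f) (i : Fin k) : H (e i) (f i) = κ := by rw [B.ef, if_pos rfl]

theorem ef_ne (B : HypB n q κ e f) {i j : Fin k} (h : i ≠ j) : H (e i) (f j) = 0 := by
  rw [B.ef, if_neg h]

theorem fe_self (B : HypB n q κ e f) (i : Fin k) : H (f i) (e i) = -κ := by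
  rw [← hermForm_conj B.hF, B.ef_self, B.κq]

theorem fe_ne (B : HypB n q κ e f) {i j : Fin k} (h : i ≠ j) : H (f i) (e j) = 0 :=
  herm_eq_zero_symm B.hF (B.ef_ne (Ne.symm h))

theorem fe (B : HypB n q κ e f) (i j : Fin k) : H (f i) (e j) = if i = j then -κ else 0 := by
  by_cases h : i = j
  · subst h; rw [if_pos rfl, B.fe_self]
  · rw [if_neg h, B.fe_ne h]

theorem hq (B : HypB n q κ e f) : q ≠ 0 := by have := q_pos B.hF; omega

theorem e_ne_zero (B : HypB n q κ e f) (i : Fin k) : e i ≠ 0 := by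
  intro h
  apply B.κ0
  rw [← B.ef_self i, h, herm_zero_left B.hq]

theorem cond (B : HypB n q κ e f) (j : Fin k) (a : Fin n → F) (ha : H a (e j) = 0) :
    H a a = 0 ∨ ∃ c : Fin n → F, H c c = 0 ∧ H c (e j) = 0 ∧ H c a ≠ 0 := by
  by_contra hcon
  push Not at hcon
  obtain ⟨h1, h2⟩ := hcon
  apply h1
  have h3 : a - (H a (f j) / κ) • e j = 0 := by
    apply B.sep
    · intro i
      rw [herm_sub_left, hermForm_smul_left, B.ee, mul_zero, sub_zero]
      exact herm_eq_zero_symm B.hF (h2 (e i) (B.ee i i) (B.ee i j))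
    · intro i
      rw [herm_sub_left, hermForm_smul_left]
      by_cases hij : i = j
      · subst hij
        rw [B.ef_self, div_mul_cancel₀ _ B.κ0, sub_self]
      · rw [B.ef_ne (Ne.symm hij), mul_zero, sub_zero]
        exact herm_eq_zero_symm B.hF (h2 (f i) (B.ff i i) (B.fe_ne hij))
  have h4 : a = (H a (f j) / κ) • e j := sub_eq_zero.mp h3
  rw [h4, hermForm_smul_left, hermForm_smul_right, B.ee]; ring

variable (M : Subgroup (GL (Fin n) F))

/-- Rescaling `e j`, using an auxiliary hyperbolic pair. -/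
theorem chain (B : HypB n q κ e f)
    (hM : ∀ (v : Fin n → F) (c : F) (hv : H v v = 0), c + c ^ q = 0 → utv q v c hv ∈ M)
    (j j' : Fin k) (hjj : j ≠ j') (l : F) (hl : l ≠ 0) :
    ∃ t ∈ M, (t : Matrix (Fin n) (Fin n) F) *ᵥ (l • e j) = e j ∧
      ∀ x : Fin n → F, H x (e j) = 0 → H x (f j) = 0 → H x (e j') = 0 → H x (f j') = 0 →
        (t : Matrix (Fin n) (Fin n) F) *ᵥ x = x := by
  have hF := B.hF
  have hjj' := Ne.symm hjj
  have i0 : H (l • e j) (l • e j) = 0 := by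
    rw [hermForm_smul_left, hermForm_smul_right, B.ee]; ring
  have i1 : H (l • f j + e j') (l • f j + e j') = 0 := by
    simp only [hermForm_add_left, hermForm_add_right hF, hermForm_smul_left, hermForm_smul_right,
      B.ff, B.ee, B.fe_ne hjj, B.ef_ne hjj']
    ring
  have i3 : H (e j' + f j) (e j' + f j) = 0 := by
    simp only [hermForm_add_left, hermForm_add_right hF, B.ff, B.ee, B.fe_ne hjj, B.ef_ne hjj']
    ring
  have p01 : H (l • e j) (l • f j + e j') = l * l ^ q * κ := by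
    simp only [hermForm_add_right hF, hermForm_smul_left, hermForm_smul_right, B.ee, B.ef_self]
    ring
  have p12 : H (l • f j + e j') (f j') = κ := by
    simp only [hermForm_add_left, hermForm_smul_left, B.ff, B.ef_self]
    ring
  have p23 : H (f j') (e j' + f j) = -κ := by
    simp only [hermForm_add_right hF, B.ff, B.fe_self]
    ring
  have p34 : H (e j' + f j) (e j) = -κ := by
    simp only [hermForm_add_left, B.ee, B.fe_self]
    ring
  have hnk : -κ + (-κ) ^ q = 0 := by rw [neg_pow_q hF]; linear_combination -B.κtr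
  obtain ⟨t₁, ht₁, e₁, f₁⟩ := umove1 hF M hM i0 i1
    (by rw [p01]; exact mul_ne_zero (mul_ne_zero hl (pow_ne_zero _ hl)) B.κ0)
    (by rw [p01, mul_pow, mul_pow, pow_q_pow_q hF]; linear_combination (l * l ^ q) * B.κtr)
  obtain ⟨t₂, ht₂, e₂, f₂⟩ := umove1 hF M hM i1 (B.ff j' j') (by rw [p12]; exact B.κ0)
    (by rw [p12]; exact B.κtr)
  obtain ⟨t₃, ht₃, e₃, f₃⟩ := umove1 hF M hM (B.ff j' j') i3
    (by rw [p23]; exact neg_ne_zero.mpr B.κ0) (by rw [p23]; exact hnk)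
  obtain ⟨t₄, ht₄, e₄, f₄⟩ := umove1 hF M hM i3 (B.ee j j)
    (by rw [p34]; exact neg_ne_zero.mpr B.κ0) (by rw [p34]; exact hnk)
  refine ⟨t₄ * t₃ * t₂ * t₁, M.mul_mem (M.mul_mem (M.mul_mem ht₄ ht₃) ht₂) ht₁, ?_, ?_⟩
  · rw [gl_mul_mulVec, gl_mul_mulVec, gl_mul_mulVec, e₁, e₂, e₃, e₄]
  · intro x h1 h2 h3 h4
    have q0 : H x (l • e j) = 0 := by rw [hermForm_smul_right, h1, mul_zero]
    have q1 : H x (l • f j + e j') = 0 := by
      rw [hermForm_add_right hF, hermForm_smul_right, h2, h3]; ring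
    have q3 : H x (e j' + f j) = 0 := by rw [hermForm_add_right hF, h2, h3]; ring
    rw [gl_mul_mulVec, gl_mul_mulVec, gl_mul_mulVec, f₁ x q0 q1, f₂ x q1 h4, f₃ x h4 q3,
      f₄ x q3 h1]

/-- Moving an isotropic vector to a multiple of `e j`. -/
theorem to_e (B : HypB n q κ e f)
    (hM : ∀ (v : Fin n → F) (c : F) (hv : H v v = 0), c + c ^ q = 0 → utv q v c hv ∈ M)
    (j : Fin k) {u : Fin n → F} (hu : H u u = 0) (hu0 : u ≠ 0)
    (hperp : ∀ i : Fin k, i.val < j.val → H u (e i) = 0 ∧ H u (f i) = 0) :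
    ∃ t ∈ M, ∃ l : F, l ≠ 0 ∧ (t : Matrix (Fin n) (Fin n) F) *ᵥ u = l • e j ∧
      ∀ x : Fin n → F, H x u = 0 → PerpB q e f j.val x →
        (t : Matrix (Fin n) (Fin n) F) *ᵥ x = x := by
  have hF := B.hF
  by_cases h1 : H u (e j) = 0
  · -- an intermediate vector
    obtain ⟨c, hc, huc, hce, hcx⟩ : ∃ c : Fin n → F, H c c = 0 ∧ H u c ≠ 0 ∧ H c (e j) ≠ 0 ∧
        ∀ x : Fin n → F, PerpB q e f j.val x → H x c = 0 := by
      by_cases h2 : H u (f j) = 0
      · obtain ⟨b, hb, hbe, hbf, hub, hbx⟩ : ∃ b : Fin n → F, H b b = 0 ∧ H b (e j) = 0 ∧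
            H b (f j) = 0 ∧ H u b ≠ 0 ∧ ∀ x : Fin n → F, PerpB q e f j.val x → H x b = 0 := by
          by_contra hcon
          push Not at hcon
          apply hu0
          apply B.sep
          · intro i
            by_cases hi : i.val < j.val
            · exact (hperp i hi).1
            by_cases hij : i = j
            · rw [hij]; exact h1
            by_contra h3
            obtain ⟨x, hx, hx2⟩ := hcon (e i) (B.ee i i) (B.ee i j) (B.ef_ne hij) h3
            exact hx2 (hx i (by omega)).1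
          · intro i
            by_cases hi : i.val < j.val
            · exact (hperp i hi).2
            by_cases hij : i = j
            · rw [hij]; exact h2
            by_contra h3
            obtain ⟨x, hx, hx2⟩ := hcon (f i) (B.ff i i) (B.fe_ne hij) (B.ff i j) h3
            exact hx2 (hx i (by omega)).2
        refine ⟨b + f j, ?_, ?_, ?_, ?_⟩
        · simp only [hermForm_add_left, hermForm_add_right hF, hb, hbf, B.ff,
            herm_eq_zero_symm hF hbf]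
          ring
        · rw [hermForm_add_right hF, h2, add_zero]; exact hub
        · rw [hermForm_add_left, hbe, zero_add, B.fe_self]; exact neg_ne_zero.mpr B.κ0
        · intro x hx
          rw [hermForm_add_right hF, hbx x hx, (hx j le_rfl).2, add_zero]
      · exact ⟨f j, B.ff j j, h2, by rw [B.fe_self]; exact neg_ne_zero.mpr B.κ0,
          fun x hx => (hx j le_rfl).2⟩
    obtain ⟨t₁, ht₁, l₁, hl₁, e₁, f₁⟩ := umove hF M hM hu hc huc
    obtain ⟨t₂, ht₂, l₂, hl₂, e₂, f₂⟩ := umove hF M hM hc (B.ee j j) hce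
    refine ⟨t₂ * t₁, M.mul_mem ht₂ ht₁, l₁ * l₂, mul_ne_zero hl₁ hl₂, ?_, ?_⟩
    · rw [gl_mul_mulVec, e₁, Matrix.mulVec_smul, e₂, smul_smul]
    · intro x hxu hx
      rw [gl_mul_mulVec, f₁ x hxu (hcx x hx), f₂ x (hcx x hx) (hx j le_rfl).1]
  · obtain ⟨t, ht, l, hl, e₁, f₁⟩ := umove hF M hM hu (B.ee j j) h1
    exact ⟨t, ht, l, hl, e₁, fun x hxu hx => f₁ x hxu (hx j le_rfl).1⟩

theorem perpB_e (B : HypB n q κ e f) {i : Fin k} {j : ℕ} (h : i.val < j) : PerpB q e f j (e i) := by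
  intro i' hi'
  exact ⟨B.ee i i', B.ef_ne (by intro h'; rw [h'] at h; omega)⟩

theorem perpB_f (B : HypB n q κ e f) {i : Fin k} {j : ℕ} (h : i.val < j) : PerpB q e f j (f i) := by
  intro i' hi'
  exact ⟨B.fe_ne (by intro h'; rw [h'] at h; omega), B.ff i i'⟩

/-- The common reduction: an element of GU fixing the first `j` pairs is, modulo `M`, diagonal on
the pair `j`. -/
theorem reduce (B : HypB n q κ e f)
    (hM : ∀ (v : Fin n → F) (c : F) (hv : H v v = 0), c + c ^ q = 0 → utv q v c hv ∈ M)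
    (j : Fin k) {g : GL (Fin n) F} (hg : g ∈ Cfsg.GU n F q) (hfix : FixB e f j.val g)
    {l : F} (hl : l ≠ 0) (hge : (g : Matrix (Fin n) (Fin n) F) *ᵥ e j = l • e j) :
    ∃ t ∈ M, FixB e f j.val (t * g) ∧ ((t * g : GL (Fin n) F) : Matrix (Fin n) (Fin n) F) *ᵥ e j = l • e j ∧
      ((t * g : GL (Fin n) F) : Matrix (Fin n) (Fin n) F) *ᵥ f j = (l ^ q)⁻¹ • f j := by
  have hF := B.hF
  have hgU := (mem_GU_iff g).mp hg
  have hlq : l ^ q ≠ 0 := pow_ne_zero _ hl
  set y' := (g : Matrix (Fin n) (Fin n) F) *ᵥ f j with hy'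
  have hy'0 : H y' y' = 0 := by rw [hy', hgU, B.ff]
  have hy0 : H ((l ^ q)⁻¹ • f j) ((l ^ q)⁻¹ • f j) = 0 := by
    rw [hermForm_smul_left, hermForm_smul_right, B.ff]; ring
  have hyw : H ((l ^ q)⁻¹ • f j) (e j) = (l ^ q)⁻¹ * -κ := by
    rw [hermForm_smul_left, B.fe_self]
  have hyy : H y' (e j) = H ((l ^ q)⁻¹ • f j) (e j) := by
    have h1 : H y' (l • e j) = -κ := by rw [hy', ← hge, hgU, B.fe_self]
    rw [hermForm_smul_right] at h1
    rw [hyw, ← h1]
    field_simp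
  obtain ⟨t, ht, e₁, e₂, f₁⟩ := ufix hF M hM (B.ee j j) hy0 hy'0
    (by rw [hyw]; exact mul_ne_zero (inv_ne_zero hlq) (neg_ne_zero.mpr B.κ0)) hyy (B.cond j)
  have inv_fix : ∀ x : Fin n → F, (t : Matrix (Fin n) (Fin n) F) *ᵥ x = x →
      ((t⁻¹ : GL (Fin n) F) : Matrix (Fin n) (Fin n) F) *ᵥ x = x := by
    intro x hx
    have := gl_inv_mulVec t x
    rwa [hx] at this
  refine ⟨t⁻¹, M.inv_mem ht, ?_, ?_, ?_⟩
  · intro i hi
    have hij : i ≠ j := by intro h; rw [h] at hi; omega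
    constructor
    · rw [gl_mul_mulVec, (hfix i hi).1]
      apply inv_fix
      apply f₁ _ (B.ee i j)
      · rw [hermForm_smul_right, B.ef_ne hij, mul_zero]
      · rw [hy', ← (hfix i hi).1, hgU, B.ef_ne hij]
    · rw [gl_mul_mulVec, (hfix i hi).2]
      apply inv_fix
      apply f₁ _ (B.fe_ne hij)
      · rw [hermForm_smul_right, B.ff, mul_zero]
      · rw [hy', ← (hfix i hi).2, hgU, B.ff]
  · rw [gl_mul_mulVec, hge, Matrix.mulVec_smul, inv_fix _ e₁]
  · rw [gl_mul_mulVec, ← hy', ← e₂, gl_inv_mulVec]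


/-- First half of the reduction. -/
theorem reduce0 (B : HypB n q κ e f)
    (hM : ∀ (v : Fin n → F) (c : F) (hv : H v v = 0), c + c ^ q = 0 → utv q v c hv ∈ M)
    (j : Fin k) {g : GL (Fin n) F} (hg : g ∈ Cfsg.GU n F q) (hfix : FixB e f j.val g) :
    ∃ t ∈ M, ∃ l : F, l ≠ 0 ∧ FixB e f j.val (t * g) ∧
      ((t * g : GL (Fin n) F) : Matrix (Fin n) (Fin n) F) *ᵥ e j = l • e j := by
  have hF := B.hF
  have hgU := (mem_GU_iff g).mp hg
  set u := (g : Matrix (Fin n) (Fin n) F) *ᵥ e j with hu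
  have hu0 : H u u = 0 := by rw [hu, hgU, B.ee]
  have hune : u ≠ 0 := by
    intro h
    apply B.e_ne_zero j
    have := gl_inv_mulVec g (e j)
    rw [← hu, h, Matrix.mulVec_zero] at this
    exact this.symm
  have hperp : ∀ i : Fin k, i.val < j.val → H u (e i) = 0 ∧ H u (f i) = 0 := by
    intro i hi
    have hij : j ≠ i := by intro h; rw [h] at hi; omega
    constructor
    · rw [hu, ← (hfix i hi).1, hgU, B.ee]
    · rw [hu, ← (hfix i hi).2, hgU, B.ef_ne hij]
  obtain ⟨t, ht, l, hl, e₁, f₁⟩ := B.to_e M hM j hu0 hune hperp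
  refine ⟨t, ht, l, hl, ?_, ?_⟩
  · intro i hi
    constructor
    · rw [gl_mul_mulVec, (hfix i hi).1]
      exact f₁ _ (herm_eq_zero_symm hF (hperp i hi).1) (B.perpB_e hi)
    · rw [gl_mul_mulVec, (hfix i hi).2]
      exact f₁ _ (herm_eq_zero_symm hF (hperp i hi).2) (B.perpB_f hi)
  · rw [gl_mul_mulVec, ← hu, e₁]

theorem step (B : HypB n q κ e f)
    (hMS : M ≤ Cfsg.GU n F q ⊓ Cfsg.Geo.specialLinear (Fin n) F)
    (hM : ∀ (v : Fin n → F) (c : F) (hv : H v v = 0), c + c ^ q = 0 → utv q v c hv ∈ M)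
    (j j' : Fin k) (hjj : j'.val = j.val + 1)
    (ih : ∀ g ∈ Cfsg.GU n F q ⊓ Cfsg.Geo.specialLinear (Fin n) F, FixB e f (j.val + 1) g → g ∈ M) :
    ∀ g ∈ Cfsg.GU n F q ⊓ Cfsg.Geo.specialLinear (Fin n) F, FixB e f j.val g → g ∈ M := by
  intro g hg hfix
  have hne : j ≠ j' := by intro h; rw [h] at hjj; omega
  obtain ⟨t₁, ht₁, l, hl, fix₁, e₁⟩ := B.reduce0 M hM j hg.1 hfix
  obtain ⟨t₂, ht₂, e₂, f₂⟩ := B.chain M hM j j' hne l hl
  have fix₂ : FixB e f j.val (t₂ * (t₁ * g)) := by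
    intro i hi
    have h1 : i ≠ j := by intro h; rw [h] at hi; omega
    have h2 : i ≠ j' := by intro h; rw [h] at hi; omega
    constructor
    · rw [gl_mul_mulVec, (fix₁ i hi).1]
      exact f₂ _ (B.ee _ _) (B.ef_ne h1) (B.ee _ _) (B.ef_ne h2)
    · rw [gl_mul_mulVec, (fix₁ i hi).2]
      exact f₂ _ (B.fe_ne h1) (B.ff _ _) (B.fe_ne h2) (B.ff _ _)
  have e₃ : ((t₂ * (t₁ * g) : GL (Fin n) F) : Matrix (Fin n) (Fin n) F) *ᵥ e j = (1 : F) • e j := by
    rw [gl_mul_mulVec, e₁, e₂, one_smul]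
  have hg₂ : t₂ * (t₁ * g) ∈ Cfsg.GU n F q ⊓ Cfsg.Geo.specialLinear (Fin n) F :=
    Subgroup.mul_mem _ (hMS ht₂) (Subgroup.mul_mem _ (hMS ht₁) hg)
  obtain ⟨t₃, ht₃, fix₃, e₄, e₅⟩ := B.reduce M hM j hg₂.1 fix₂ one_ne_zero e₃
  have h3 : t₃ * (t₂ * (t₁ * g)) ∈ M := by
    apply ih _ (Subgroup.mul_mem _ (hMS ht₃) hg₂)
    intro i hi
    by_cases hij : i = j
    · subst hij
      refine ⟨by rw [e₄, one_smul], by rw [e₅]; simp⟩
    · apply fix₃ i
      have : i.val ≠ j.val := fun h => hij (Fin.ext h)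
      omega
  have h4 : g = t₁⁻¹ * (t₂⁻¹ * (t₃⁻¹ * (t₃ * (t₂ * (t₁ * g))))) := by group
  rw [h4]
  exact M.mul_mem (M.inv_mem ht₁) (M.mul_mem (M.inv_mem ht₂) (M.mul_mem (M.inv_mem ht₃) h3))

theorem expand (B : HypB n q κ e f) (x : Fin n → F) :
    x = ∑ i, ((H x (f i) / κ) • e i + (H x (e i) / -κ) • f i) := by
  classical
  have hnk : -κ ≠ 0 := neg_ne_zero.mpr B.κ0
  rw [← sub_eq_zero]
  apply B.sep
  · intro i
    rw [herm_sub_left, ← hermDual_apply (e i) (∑ i, _), map_sum]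
    simp only [map_add, map_smul, hermDual_apply, B.ee, B.fe, smul_eq_mul, mul_zero, zero_add,
      mul_ite, Finset.sum_ite_eq', Finset.mem_univ, if_true]
    rw [div_mul_cancel₀ _ hnk, sub_self]
  · intro i
    rw [herm_sub_left, ← hermDual_apply (f i) (∑ i, _), map_sum]
    simp only [map_add, map_smul, hermDual_apply, B.ff, B.ef, smul_eq_mul, mul_zero, add_zero,
      mul_ite, Finset.sum_ite_eq', Finset.mem_univ, if_true]
    rw [div_mul_cancel₀ _ B.κ0, sub_self]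

theorem lin_ext (B : HypB n q κ e f) {φ ψ : (Fin n → F) →ₗ[F] (Fin n → F)}
    (he : ∀ i, φ (e i) = ψ (e i)) (hf : ∀ i, φ (f i) = ψ (f i)) : φ = ψ := by
  refine LinearMap.ext fun x => ?_
  rw [B.expand x]
  simp only [map_sum, map_add, map_smul, he, hf]

theorem last (B : HypB n q κ e f)
    (hMS : M ≤ Cfsg.GU n F q ⊓ Cfsg.Geo.specialLinear (Fin n) F)
    (hM : ∀ (v : Fin n → F) (c : F) (hv : H v v = 0), c + c ^ q = 0 → utv q v c hv ∈ M)
    (j : Fin k) (hj : j.val + 1 = k)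
    (hD : ∀ g ∈ Cfsg.GU n F q ⊓ Cfsg.Geo.specialLinear (Fin n) F, ∀ l : F, l ≠ 0 → l ^ q = l →
      (∀ x : Fin n → F, (g : Matrix (Fin n) (Fin n) F) *ᵥ x
        = x + ((l - 1) * (H x (f j) / κ)) • e j + ((l⁻¹ - 1) * (H x (e j) / -κ)) • f j) → g ∈ M) :
    ∀ g ∈ Cfsg.GU n F q ⊓ Cfsg.Geo.specialLinear (Fin n) F, FixB e f j.val g → g ∈ M := by
  intro g hg hfix
  have hnk : -κ ≠ 0 := neg_ne_zero.mpr B.κ0
  obtain ⟨t₁, ht₁, l, hl, fix₁, e₁⟩ := B.reduce0 M hM j hg.1 hfix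
  have hg₁ : t₁ * g ∈ Cfsg.GU n F q ⊓ Cfsg.Geo.specialLinear (Fin n) F :=
    Subgroup.mul_mem _ (hMS ht₁) hg
  obtain ⟨t₃, ht₃, fix₃, e₄, e₅⟩ := B.reduce M hM j hg₁.1 fix₁ hl e₁
  have hg₂ : t₃ * (t₁ * g) ∈ Cfsg.GU n F q ⊓ Cfsg.Geo.specialLinear (Fin n) F :=
    Subgroup.mul_mem _ (hMS ht₃) hg₁
  set g₂ := t₃ * (t₁ * g) with hg₂def
  have hlq : l ^ q ≠ 0 := pow_ne_zero _ hl
  let T₁ : (Fin n → F) →ₗ[F] (Fin n → F) :=
    LinearMap.transvection (κ⁻¹ • hermDual n q (f j)) ((l - 1) • e j)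
  let T₂ : (Fin n → F) →ₗ[F] (Fin n → F) :=
    LinearMap.transvection ((-κ)⁻¹ • hermDual n q (e j)) (((l ^ q)⁻¹ - 1) • f j)
  have hlt : ∀ i : Fin k, i ≠ j → i.val < j.val := by
    intro i hij
    have : i.val ≠ j.val := fun h => hij (Fin.ext h)
    have := i.2
    omega
  have hlin : Matrix.toLin' (g₂ : Matrix (Fin n) (Fin n) F) = T₁ ∘ₗ T₂ := by
    apply B.lin_ext
    · intro i
      rw [Matrix.toLin'_apply]
      simp only [T₁, T₂, LinearMap.comp_apply, LinearMap.transvection.apply, LinearMap.smul_apply,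
        hermDual_apply, B.ee, smul_eq_mul, mul_zero, zero_smul, add_zero]
      by_cases hij : i = j
      · subst hij
        rw [e₄, B.ef_self, inv_mul_cancel₀ B.κ0]
        module
      · rw [(fix₃ i (hlt i hij)).1, B.ef_ne hij]
        simp
    · intro i
      rw [Matrix.toLin'_apply]
      simp only [T₁, T₂, LinearMap.comp_apply, LinearMap.transvection.apply, LinearMap.smul_apply,
        hermDual_apply, hermForm_add_left, hermForm_smul_left, B.ff, smul_eq_mul, mul_zero,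
        zero_smul, add_zero]
      by_cases hij : i = j
      · subst hij
        rw [e₅, B.fe_self, inv_mul_cancel₀ hnk]
        module
      · rw [(fix₃ i (hlt i hij)).2, B.fe_ne hij]
        simp
  have hdet : l * (l ^ q)⁻¹ = 1 := by
    have h1 := (mem_specialLinear_iff g₂).mp hg₂.2
    rw [← LinearMap.det_toLin', hlin, LinearMap.det_comp, LinearMap.transvection.det,
      LinearMap.transvection.det] at h1
    simp only [LinearMap.smul_apply, hermDual_apply, hermForm_smul_left, B.ef_self, B.fe_self,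
      smul_eq_mul] at h1
    have h5 : κ⁻¹ * ((l - 1) * κ) = l - 1 := by field_simp [B.κ0]
    have h6 : (-κ)⁻¹ * (((l ^ q)⁻¹ - 1) * -κ) = (l ^ q)⁻¹ - 1 := by
      rw [mul_comm, mul_assoc, mul_inv_cancel₀ hnk, mul_one]
    rw [h5, h6] at h1
    rw [← h1]
    ring
  have hlql : l ^ q = l := by
    field_simp at hdet
    exact hdet.symm
  have h3 : g₂ ∈ M := by
    apply hD g₂ hg₂ l hl hlql
    intro x
    rw [← Matrix.toLin'_apply, hlin]
    simp only [T₁, T₂, LinearMap.comp_apply, LinearMap.transvection.apply, LinearMap.smul_apply,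
      hermDual_apply, hermForm_add_left, hermForm_smul_left, B.ff, smul_eq_mul, mul_zero,
      add_zero, hlql]
    module
  have h4 : g = t₁⁻¹ * (t₃⁻¹ * g₂) := by rw [hg₂def]; group
  rw [h4]
  exact M.mul_mem (M.inv_mem ht₁) (M.mul_mem (M.inv_mem ht₃) h3)

/-- Generation of SU. -/
theorem su_le (B : HypB n q κ e f)
    (hMS : M ≤ Cfsg.GU n F q ⊓ Cfsg.Geo.specialLinear (Fin n) F)
    (hM : ∀ (v : Fin n → F) (c : F) (hv : H v v = 0), c + c ^ q = 0 → utv q v c hv ∈ M)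
    (j : Fin k) (hj : j.val + 1 = k)
    (hD : ∀ g ∈ Cfsg.GU n F q ⊓ Cfsg.Geo.specialLinear (Fin n) F, ∀ l : F, l ≠ 0 → l ^ q = l →
      (∀ x : Fin n → F, (g : Matrix (Fin n) (Fin n) F) *ᵥ x
        = x + ((l - 1) * (H x (f j) / κ)) • e j + ((l⁻¹ - 1) * (H x (e j) / -κ)) • f j) → g ∈ M) :
    Cfsg.GU n F q ⊓ Cfsg.Geo.specialLinear (Fin n) F ≤ M := by
  have main : ∀ (d : ℕ) (i : Fin k), i.val + d + 1 = k →
      ∀ g ∈ Cfsg.GU n F q ⊓ Cfsg.Geo.specialLinear (Fin n) F, FixB e f i.val g → g ∈ M := by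
    intro d
    induction d with
    | zero =>
      intro i hi
      have : i = j := Fin.ext (by omega)
      subst this
      exact B.last M hMS hM i hj hD
    | succ d ih =>
      intro i hi
      exact B.step M hMS hM i ⟨i.val + 1, by omega⟩ rfl (ih ⟨i.val + 1, by omega⟩ (by simp; omega))
  intro g hg
  exact main (k - 1) ⟨0, by omega⟩ (by simp; omega) g hg (fun i hi => absurd hi (by simp))

end HypB

end Cfsg.Agent.Lib.Helper29
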