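import Mathlib
import Cfsg.Prelude.Def_GeometricClasses
import Cfsg.Agent.Lib.Helper29.SubfieldSp1

/-!
Maximality of the subfield subgroup of `Sp_{2m}(F)`, part 2.
-/

set_option autoImplicit false

namespace Cfsg.Agent.Lib.Helper29

open Matrix Module
open Cfsg.Agent.H5Symp (form_add_left form_add_right form_smul_left form_smul_right form_neg_left
  form_neg_right form_sub_left form_sub_right form_zero_left form_zero_right form_swap form_self
  form_single_inl form_single_inr)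

/-- A rational non-zero vector killed by two rational functionals. -/
theorem exists_RV_ker {ι : Type} [Fintype ι] [DecidableEq ι] {F : Type*} [Field F]
    (F₀ : Subfield F) (φ₁ φ₂ : Dual F (ι → F)) (h₁ : ∀ t, φ₁ (Pi.single t 1) ∈ F₀)
    (h₂ : ∀ t, φ₂ (Pi.single t 1) ∈ F₀) (hcard : 2 < Fintype.card ι) :
    ∃ u : ι → F, RV F₀ u ∧ u ≠ 0 ∧ φ₁ u = 0 ∧ φ₂ u = 0 := by
  let ψ₁ : (ι → F₀) →ₗ[F₀] F₀ := ∑ t, (⟨φ₁ (Pi.single t 1), h₁ t⟩ : F₀) • LinearMap.proj t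
  let ψ₂ : (ι → F₀) →ₗ[F₀] F₀ := ∑ t, (⟨φ₂ (Pi.single t 1), h₂ t⟩ : F₀) • LinearMap.proj t
  have hker : LinearMap.ker (ψ₁.prod ψ₂) ≠ ⊥ := by
    apply LinearMap.ker_ne_bot_of_finrank_lt
    rw [Module.finrank_prod, Module.finrank_self, Module.finrank_fintype_fun_eq_card]
    exact hcard
  obtain ⟨v, hv, hv0⟩ := Submodule.exists_mem_ne_zero_of_ne_bot hker
  rw [LinearMap.mem_ker, LinearMap.prod_apply, Prod.mk_eq_zero] at hv
  have expand : ∀ (φ : Dual F (ι → F)), φ (fun t => (v t : F)) = ∑ t, (v t : F) * φ (Pi.single t 1) := by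
    intro φ
    rw [LinearMap.pi_apply_eq_sum_univ φ]
    apply Finset.sum_congr rfl
    intro t _
    rw [smul_eq_mul]
    congr 2
    ext s
    simp [Pi.single_apply, eq_comm]
  refine ⟨fun t => (v t : F), fun t => (v t).2, ?_, ?_, ?_⟩
  · intro h
    apply hv0
    ext t
    exact congrFun h t
  · rw [expand]
    have hv1 : ψ₁ v = 0 := hv.1
    have h4 : ((ψ₁ v : F₀) : F) = ∑ t, φ₁ (Pi.single t 1) * (v t : F) := by
      simp [ψ₁, LinearMap.sum_apply]
    rw [hv1] at h4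
    have h5 : ((0 : F₀) : F) = 0 := rfl
    rw [h5] at h4
    rw [h4]
    apply Finset.sum_congr rfl
    intro t _
    ring
  · rw [expand]
    have hv1 : ψ₂ v = 0 := hv.2
    have h4 : ((ψ₂ v : F₀) : F) = ∑ t, φ₂ (Pi.single t 1) * (v t : F) := by
      simp [ψ₂, LinearMap.sum_apply]
    rw [hv1] at h4
    have h5 : ((0 : F₀) : F) = 0 := rfl
    rw [h5] at h4
    rw [h4]
    apply Finset.sum_congr rfl
    intro t _
    ring

theorem ratio_mem {ι : Type} {F : Type*} [Field F] (F₀ : Subfield F) {r₁ r₂ r : ι → F}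
    (h₁ : RV F₀ r₁) (h₂ : RV F₀ r₂) (hr : RV F₀ r) {β₁ β₂ γ : F} (hβ₂ : β₂ ≠ 0)
    (heq : β₁ • r₁ + β₂ • r₂ = γ • r) (hind : ∀ μ : F, r₁ ≠ μ • r₂) (hr₂ : r₂ ≠ 0) :
    β₁ / β₂ ∈ F₀ := by
  obtain ⟨q, hq⟩ : ∃ q, r₂ q ≠ 0 := by
    by_contra hcon
    push Not at hcon
    exact hr₂ (funext hcon)
  obtain ⟨p, hp⟩ : ∃ p, r₁ p ≠ (r₁ q / r₂ q) * r₂ p := by
    by_contra hcon
    push Not at hcon
    exact hind (r₁ q / r₂ q) (funext hcon)
  have hD : r₁ p * r₂ q - r₁ q * r₂ p ≠ 0 := by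
    intro h0
    apply hp
    field_simp
    linear_combination h0
  have ep : β₁ * r₁ p + β₂ * r₂ p = γ * r p := by simpa using congrFun heq p
  have eq' : β₁ * r₁ q + β₂ * r₂ q = γ * r q := by simpa using congrFun heq q
  have e1 : β₁ * (r₁ p * r₂ q - r₁ q * r₂ p) = γ * (r p * r₂ q - r q * r₂ p) := by
    linear_combination r₂ q * ep - r₂ p * eq'
  have e2 : β₂ * (r₁ p * r₂ q - r₁ q * r₂ p) = γ * (r₁ p * r q - r₁ q * r p) := by
    linear_combination r₁ p * eq' - r₁ q * ep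
  have h3 : γ * (r₁ p * r q - r₁ q * r p) ≠ 0 := by
    rw [← e2]; exact mul_ne_zero hβ₂ hD
  have hγ : γ ≠ 0 := left_ne_zero_of_mul h3
  have hN : r₁ p * r q - r₁ q * r p ≠ 0 := right_ne_zero_of_mul h3
  have h4 : β₁ / β₂ = (r p * r₂ q - r q * r₂ p) / (r₁ p * r q - r₁ q * r p) := by
    rw [div_eq_div_iff hβ₂ hN]
    have : γ * (β₁ * (r₁ p * r q - r₁ q * r p)) = γ * ((r p * r₂ q - r q * r₂ p) * β₂) := by
      linear_combination β₂ * e1 - β₁ * e2
    exact mul_left_cancel₀ hγ this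
  rw [h4]
  exact F₀.div_mem (F₀.sub_mem (F₀.mul_mem (hr _) (h₂ _)) (F₀.mul_mem (hr _) (h₂ _)))
    (F₀.sub_mem (F₀.mul_mem (h₁ _) (hr _)) (F₀.mul_mem (h₁ _) (hr _)))

theorem mem_ratGL_of_RD {ι : Type} [Fintype ι] [DecidableEq ι] {F : Type*} [Field F]
    (F₀ : Subfield F) (x : GL ι F)
    (h : ∀ u, RV F₀ u → RD F₀ ((x : Matrix ι ι F) *ᵥ u)) : x ∈ ratGL ι F₀ := by
  rw [mem_ratGL_iff]
  rcases isEmpty_or_nonempty ι with he | ⟨⟨s₀⟩⟩
  · exact ⟨1, one_ne_zero, fun i => (he.false i).elim⟩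
  have hne : ∀ v : ι → F, v ≠ 0 → (x : Matrix ι ι F) *ᵥ v ≠ 0 := by
    intro v hv h0
    apply hv
    have h1 := gl_inv_mulVec x v
    rw [h0, Matrix.mulVec_zero] at h1
    exact h1.symm
  have hs0 : ∀ s : ι, (Pi.single s 1 : ι → F) ≠ 0 := by
    intro s h0
    have := congrFun h0 s
    simp at this
  choose β r hr hx using fun s => h (Pi.single s 1) (RV_single s)
  have hβ : ∀ s, β s ≠ 0 := by
    intro s h0
    apply hne _ (hs0 s)
    rw [hx, h0, zero_smul]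
  have hr0 : ∀ s, r s ≠ 0 := by
    intro s h0
    apply hne _ (hs0 s)
    rw [hx, h0, smul_zero]
  have claim : ∀ s, β s / β s₀ ∈ F₀ := by
    intro s
    by_cases hs : s = s₀
    · subst hs
      rw [div_self (hβ s)]
      exact F₀.one_mem
    · obtain ⟨γ, r', hr', hx'⟩ := h (Pi.single s 1 + Pi.single s₀ 1) ((RV_single s).add (RV_single s₀))
      rw [Matrix.mulVec_add, hx, hx] at hx'
      refine ratio_mem F₀ (hr s) (hr s₀) hr' (hβ s₀) hx' ?_ (hr0 s₀)
      intro μ hμ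
      have h1 : (x : Matrix ι ι F) *ᵥ ((β s)⁻¹ • Pi.single s 1 - (μ * (β s₀)⁻¹) • Pi.single s₀ 1) = 0 := by
        rw [Matrix.mulVec_sub, Matrix.mulVec_smul, Matrix.mulVec_smul, hx, hx, hμ, smul_smul,
          smul_smul, smul_smul, inv_mul_cancel₀ (hβ s), mul_assoc, inv_mul_cancel₀ (hβ s₀),
          mul_one, one_mul, sub_self]
      have h2 : (β s)⁻¹ • (Pi.single s 1 : ι → F) - (μ * (β s₀)⁻¹) • Pi.single s₀ 1 = 0 := by
        by_contra h3
        exact hne _ h3 h1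
      have h3 := congrFun h2 s
      simp [hs] at h3
      exact hβ s h3
  refine ⟨(β s₀)⁻¹, inv_ne_zero (hβ s₀), fun t s => ?_⟩
  rw [← gl_apply, hx]
  have : (β s₀)⁻¹ * (β s • r s) t = (β s / β s₀) * r s t := by
    simp only [Pi.smul_apply, smul_eq_mul]
    field_simp
  rw [this]
  exact F₀.mul_mem (claim s) (hr s t)

theorem gl_zpow_fix {ι : Type} [Fintype ι] [DecidableEq ι] {F : Type*} [Field F] (g : GL ι F)
    (v : ι → F) (h : (g : Matrix ι ι F) *ᵥ v = v) (z : ℤ) :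
    ((g ^ z : GL ι F) : Matrix ι ι F) *ᵥ v = v := by
  have fixn : ∀ n : ℕ, ((g ^ n : GL ι F) : Matrix ι ι F) *ᵥ v = v := by
    intro n
    induction n with
    | zero => simp
    | succ n ih => rw [pow_succ, gl_mul_mulVec, h, ih]
  cases z with
  | ofNat n => rw [Int.ofNat_eq_natCast, zpow_natCast]; exact fixn n
  | negSucc n =>
    rw [zpow_negSucc]
    have h3 := gl_inv_mulVec (g ^ (n + 1)) v
    rwa [fixn] at h3

/-- powers of a "quadratic unipotent" element -/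
theorem gl_pow_of_fix {ι : Type} [Fintype ι] [DecidableEq ι] {F : Type*} [Field F] (a : GL ι F)
    (h : ∀ y, (a : Matrix ι ι F) *ᵥ ((a : Matrix ι ι F) *ᵥ y - y) = (a : Matrix ι ι F) *ᵥ y - y)
    (k : ℕ) (y : ι → F) :
    ((a ^ k : GL ι F) : Matrix ι ι F) *ᵥ y = y + (k : F) • ((a : Matrix ι ι F) *ᵥ y - y) := by
  induction k generalizing y with
  | zero => simp
  | succ k ih =>
    rw [pow_succ, gl_mul_mulVec, ih]
    have h1 := h y
    rw [Matrix.mulVec_sub] at h1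
    rw [h1]
    push_cast
    module

variable {m : ℕ} {F : Type*} [Field F]

local notation "Vm" => (Fin m ⊕ Fin m → F)
local notation "B" => Cfsg.sympForm m F

section main

variable (F₀ : Subfield F) (M : Subgroup (GL (Fin m ⊕ Fin m) F))
variable [Finite F] (hm : 3 ≤ m) (hprime : (Module.finrank F₀ F).Prime)
    (hHM : ratGL (Fin m ⊕ Fin m) F₀ ⊓ Cfsg.spGL m F ≤ M) (hMS : M ≤ Cfsg.spGL m F)
    (hne : ¬ Cfsg.spGL m F ≤ M)

include hm hprime hHM hMS hne

theorem RD_of_stv {e y : Vm} {c : F} (he : RV F₀ e) (he0 : e ≠ 0) (hc : c ≠ 0) (hey : B e y = 0)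
    (hmem : stv y c ∈ M) : RD F₀ y := by
  obtain ⟨i⟩ : Nonempty (Fin m) := ⟨⟨0, by omega⟩⟩
  obtain ⟨h, hh, hhe⟩ := exists_trans F₀ i he he0
  have hhS := (Subgroup.mem_inf.mp hh).2
  have hhR := (Subgroup.mem_inf.mp hh).1
  have hhM := hHM hh
  have h1 := conj_stv ((Cfsg.spGL m F).inv_mem hhS) y c
  rw [inv_inv] at h1
  have h2 : stv (((h⁻¹ : GL (Fin m ⊕ Fin m) F) : Matrix (Fin m ⊕ Fin m) (Fin m ⊕ Fin m) F) *ᵥ y) c ∈ M := by
    rw [← h1]
    exact M.mul_mem (M.mul_mem (M.inv_mem hhM) hmem) hhM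
  have h3 : B (eb i) (((h⁻¹ : GL (Fin m ⊕ Fin m) F) : Matrix (Fin m ⊕ Fin m) (Fin m ⊕ Fin m) F) *ᵥ y) = 0 := by
    rw [form_swap, form_inv_left hhS, hhe, form_swap, hey]
    simp
  have h4 := RD_of_stv_eb F₀ M hm hprime hHM hMS hne i _ c hc h3 h2
  have h5 := RD.mulVec hhR h4
  rwa [gl_mulVec_inv] at h5

theorem mem_ratGL_of_RD_one {x : GL (Fin m ⊕ Fin m) F} (hx : x ∈ M) {u₀ : Vm} (hu₀ : RV F₀ u₀)
    (hu₀0 : u₀ ≠ 0) (hxu : RD F₀ ((x : Matrix (Fin m ⊕ Fin m) (Fin m ⊕ Fin m) F) *ᵥ u₀)) :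
    x ∈ ratGL (Fin m ⊕ Fin m) F₀ := by
  have hxS := hMS hx
  have hne0 : ∀ v : Vm, v ≠ 0 → (x : Matrix (Fin m ⊕ Fin m) (Fin m ⊕ Fin m) F) *ᵥ v ≠ 0 := by
    intro v hv h0
    apply hv
    have h1 := gl_inv_mulVec x v
    rw [h0, Matrix.mulVec_zero] at h1
    exact h1.symm
  have step : ∀ u₁ : Vm, RV F₀ u₁ → u₁ ≠ 0 → RD F₀ ((x : Matrix (Fin m ⊕ Fin m) (Fin m ⊕ Fin m) F) *ᵥ u₁) →
      ∀ u : Vm, RV F₀ u → B u₁ u = 0 → RD F₀ ((x : Matrix (Fin m ⊕ Fin m) (Fin m ⊕ Fin m) F) *ᵥ u) := by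
    intro u₁ hu₁ hu₁0 hxu₁ u hu huu
    obtain ⟨β, r₀, hr₀, hβ⟩ := hxu₁
    have hx0 := hne0 u₁ hu₁0
    have hβ0 : β ≠ 0 := by
      rintro rfl
      rw [zero_smul] at hβ
      exact hx0 hβ
    have hr₀0 : r₀ ≠ 0 := by
      rintro rfl
      rw [smul_zero] at hβ
      exact hx0 hβ
    have h1 : stv ((x : Matrix (Fin m ⊕ Fin m) (Fin m ⊕ Fin m) F) *ᵥ u) 1 ∈ M := by
      rw [← conj_stv hxS]
      exact M.mul_mem (M.mul_mem hx (hHM (Subgroup.mem_inf.mpr
        ⟨stv_mem_ratGL hu F₀.one_mem, stv_mem_spGL _ _⟩))) (M.inv_mem hx)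
    refine RD_of_stv F₀ M hm hprime hHM hMS hne hr₀ hr₀0 one_ne_zero ?_ h1
    have h2 := (mem_spGL_iff x).mp hxS u₁ u
    rw [hβ, form_smul_left, huu] at h2
    exact (mul_eq_zero.mp h2).resolve_left hβ0
  apply mem_ratGL_of_RD
  intro u hu
  obtain ⟨u', hu', hu'0, h1, h2⟩ := exists_RV_ker F₀ (formDual u₀) (formDual u)
    (fun t => form_mem (RV_single t) hu₀) (fun t => form_mem (RV_single t) hu)
    (by simp; omega)
  have h1' : B u' u₀ = 0 := h1
  have h2' : B u' u = 0 := h2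
  have h3 := step u₀ hu₀ hu₀0 hxu u' hu' (by rw [form_swap, h1', neg_zero])
  exact step u' hu' hu'0 h3 u hu h2'

theorem sp_mem_ratGL_of_mem (hm5 : 5 ≤ m) {g : GL (Fin m ⊕ Fin m) F} (hg : g ∈ M) :
    g ∈ ratGL (Fin m ⊕ Fin m) F₀ := by
  by_contra hgr
  obtain ⟨i₀⟩ : Nonempty (Fin m) := ⟨⟨0, by omega⟩⟩
  set w : Vm := (g : Matrix (Fin m ⊕ Fin m) (Fin m ⊕ Fin m) F) *ᵥ (eb i₀) with hw
  have hwRD : ¬ RD F₀ w := fun h =>
    hgr (mem_ratGL_of_RD_one F₀ M hm hprime hHM hMS hne hg (RV_eb i₀) (eb_ne_zero i₀) h)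
  obtain ⟨i, k, hk, hik⟩ : ∃ i k, w k ≠ 0 ∧ w i / w k ∉ F₀ := by
    by_contra hcon
    push Not at hcon
    apply hwRD
    by_cases h0 : ∃ k, w k ≠ 0
    · obtain ⟨k, hk⟩ := h0
      refine ⟨w k, fun t => w t / w k, fun t => hcon t k hk, ?_⟩
      ext t
      simp only [Pi.smul_apply, smul_eq_mul]
      field_simp
    · push Not at h0
      exact ⟨0, 0, fun _ => F₀.zero_mem, by rw [zero_smul]; exact funext h0⟩
  -- fresh indices
  let idx : Fin m ⊕ Fin m → Fin m := Sum.elim id id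
  obtain ⟨a₀, ha₀⟩ := exists_fresh ({idx i, idx k} : Finset (Fin m))
    (lt_of_le_of_lt Finset.card_le_two (by simp; omega))
  obtain ⟨b₀, hb₀⟩ := exists_fresh ({idx i, idx k, a₀} : Finset (Fin m))
    (lt_of_le_of_lt Finset.card_le_three (by simp; omega))
  obtain ⟨l₀, hl₀⟩ := exists_fresh ({idx i, idx k, a₀, b₀} : Finset (Fin m))
    (lt_of_le_of_lt Finset.card_le_four (by simp; omega))
  simp only [Finset.mem_insert, Finset.mem_singleton, not_or] at ha₀ hb₀ hl₀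
  have hne_of : ∀ (t : Fin m ⊕ Fin m) (a : Fin m), a ≠ idx t → t ≠ Sum.inl a := by
    rintro t a h rfl
    exact h rfl
  have hia := hne_of i a₀ ha₀.1
  have hka := hne_of k a₀ ha₀.2
  have hib := hne_of i b₀ hb₀.1
  have hkb := hne_of k b₀ hb₀.2.1
  have hab : b₀ ≠ a₀ := hb₀.2.2
  have hil := hne_of i l₀ hl₀.1
  have hkl := hne_of k l₀ hl₀.2.1
  have hla : l₀ ≠ a₀ := hl₀.2.2.1
  have hlb : l₀ ≠ b₀ := hl₀.2.2.2
  obtain ⟨p, hp⟩ := CharP.exists F
  have hpp : Fact p.Prime := ⟨CharP.char_is_prime F p⟩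
  set A : Submodule F Vm := Submodule.span F {eb a₀, eb b₀} with hA
  set U : Submodule F Vm := Submodule.span F {eb a₀, eb b₀, w} with hU
  have haA : (eb a₀ : Vm) ∈ A := Submodule.subset_span (by simp)
  have hbA : (eb b₀ : Vm) ∈ A := Submodule.subset_span (by simp)
  have tiA : ∀ u ∈ A, ∀ u' ∈ A, B u u' = 0 := by
    intro u hu u' hu'
    obtain ⟨α, β, rfl⟩ := Submodule.mem_span_pair.mp hu
    obtain ⟨α', β', rfl⟩ := Submodule.mem_span_pair.mp hu'
    simp only [form_add_left, form_add_right, form_smul_left, form_smul_right, form_eb_eb]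
    ring
  have hAU : A ≤ U := Submodule.span_mono (by
    intro v hv
    simp only [Set.mem_insert_iff, Set.mem_singleton_iff] at hv ⊢
    tauto)
  have hEL : resid M A ≤ resid M U := by
    rintro x ⟨hx, hx'⟩
    exact ⟨hx, fun y => hAU (hx' y)⟩
  have fixA : ∀ a ∈ resid M A, ∀ u ∈ A,
      (a : Matrix (Fin m ⊕ Fin m) (Fin m ⊕ Fin m) F) *ᵥ u = u := by
    intro a ha u hu
    by_contra hcon
    obtain ⟨z, hz⟩ := exists_form_ne_zero (sub_ne_zero.mpr hcon)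
    apply hz
    have h1 := gl_mulVec_inv a z
    set y := ((a⁻¹ : GL (Fin m ⊕ Fin m) F) : Matrix (Fin m ⊕ Fin m) (Fin m ⊕ Fin m) F) *ᵥ z
    rw [← h1, form_sub_left, (mem_spGL_iff a).mp (hMS ha.1) u y]
    have h2 := tiA u hu _ (ha.2 y)
    rw [form_sub_right] at h2
    linear_combination -h2
  have ratio : ∀ B₁ c' : F, c' ≠ 0 → c' * (B₁ * w i) ∈ F₀ → c' * (B₁ * w k) ∈ F₀ → B₁ = 0 := by
    intro B₁ c' hc' h1 h2
    by_contra hB
    apply hik
    have : w i / w k = (c' * (B₁ * w i)) / (c' * (B₁ * w k)) := by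
      field_simp
    rw [this]
    exact F₀.div_mem h1 h2
  have stvE : ∀ u ∈ A, RV F₀ u → stv u 1 ∈ resid M A := by
    intro u hu huV
    refine ⟨hHM (Subgroup.mem_inf.mpr ⟨stv_mem_ratGL huV F₀.one_mem, stv_mem_spGL _ _⟩),
      fun y => ?_⟩
    rw [stv_mulVec, add_sub_cancel_left]
    exact A.smul_mem _ hu
  have key : resid M U ≤ resid M A := by
    apply tame p _ _ hEL
    · intro a ha
      apply gl_ext
      intro y
      rw [gl_pow_of_fix a (fun y => fixA a ha _ (ha.2 y)), CharP.cast_eq_zero F p]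
      simp
    · intro a ha b hb
      apply gl_ext
      intro y
      rw [gl_mul_mulVec, gl_mul_mulVec]
      have h1 := fixA a ha _ (hb.2 y)
      have h2 := fixA b hb _ (ha.2 y)
      rw [Matrix.mulVec_sub] at h1 h2
      have h3 : (a : Matrix (Fin m ⊕ Fin m) (Fin m ⊕ Fin m) F) *ᵥ
          ((b : Matrix (Fin m ⊕ Fin m) (Fin m ⊕ Fin m) F) *ᵥ y) =
          (b : Matrix (Fin m ⊕ Fin m) (Fin m ⊕ Fin m) F) *ᵥ y - y +
          (a : Matrix (Fin m ⊕ Fin m) (Fin m ⊕ Fin m) F) *ᵥ y := by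
        rw [← h1]; abel
      have h4 : (b : Matrix (Fin m ⊕ Fin m) (Fin m ⊕ Fin m) F) *ᵥ
          ((a : Matrix (Fin m ⊕ Fin m) (Fin m ⊕ Fin m) F) *ᵥ y) =
          (a : Matrix (Fin m ⊕ Fin m) (Fin m ⊕ Fin m) F) *ᵥ y - y +
          (b : Matrix (Fin m ⊕ Fin m) (Fin m ⊕ Fin m) F) *ᵥ y := by
        rw [← h2]; abel
      rw [h3, h4]; abel
    · refine ⟨stv (eb a₀) 1, stvE _ haA (RV_eb a₀), stv (eb b₀) 1, stvE _ hbA (RV_eb b₀), ?_, ?_⟩
      · intro h1
        have h2 := congrArg (fun z : GL (Fin m ⊕ Fin m) F =>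
          ((z : Matrix (Fin m ⊕ Fin m) (Fin m ⊕ Fin m) F) *ᵥ (fb a₀)) (Sum.inl a₀)) h1
        simp only [stv_mulVec, form_fb_eb_self] at h2
        simp [eb, fb] at h2
      · intro hmem
        obtain ⟨z, hz⟩ := Subgroup.mem_zpowers_iff.mp hmem
        have h1 := gl_zpow_fix (stv (eb a₀ : Vm) 1) (fb b₀)
          (by rw [stv_mulVec, form_fb_eb hab]; simp) z
        rw [hz, stv_mulVec, form_fb_eb_self] at h1
        have h2 := congrFun h1 (Sum.inl b₀)
        simp [eb, fb] at h2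
    · intro x hx a ha ha1 hxa
      have hxS := hMS hx.1
      have haR : a ∈ ratGL (Fin m ⊕ Fin m) F₀ :=
        mem_ratGL_of_RD_one F₀ M hm hprime hHM hMS hne ha.1 (RV_eb a₀) (eb_ne_zero a₀)
          (by rw [fixA a ha _ haA]; exact (RV_eb a₀).RD)
      obtain ⟨c, hc0, hc⟩ := (mem_ratGL_iff F₀ a).mp haR
      have hcF : c ∈ F₀ := by
        have h1 := hc (Sum.inl a₀) (Sum.inl a₀)
        have h2 := fixA a ha _ haA
        rw [← gl_apply] at h1
        have h3 : (Pi.single (Sum.inl a₀) 1 : Vm) = eb a₀ := rfl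
        rw [h3, h2] at h1
        simpa [eb] using h1
      have haF : ∀ t s, (a : Matrix (Fin m ⊕ Fin m) (Fin m ⊕ Fin m) F) t s ∈ F₀ := by
        intro t s
        have h3 := F₀.mul_mem (F₀.inv_mem hcF) (hc t s)
        rwa [inv_mul_cancel_left₀ hc0] at h3
      obtain ⟨s, hs⟩ : ∃ s, (a : Matrix (Fin m ⊕ Fin m) (Fin m ⊕ Fin m) F) *ᵥ Pi.single s 1
          ≠ Pi.single s 1 := by
        by_contra hcon
        push Not at hcon
        apply ha1
        apply Units.ext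
        apply Matrix.ext_of_mulVec_single
        intro s
        rw [hcon, Units.val_one, Matrix.one_mulVec]
      set u : Vm := (a : Matrix (Fin m ⊕ Fin m) (Fin m ⊕ Fin m) F) *ᵥ Pi.single s 1
          - Pi.single s 1 with hu
      have huV : RV F₀ u := fun t =>
        F₀.sub_mem (by rw [gl_apply]; exact haF t s) (single_mem F₀ _ _)
      have hu0 : u ≠ 0 := sub_ne_zero.mpr hs
      have hxu : (x : Matrix (Fin m ⊕ Fin m) (Fin m ⊕ Fin m) F) *ᵥ u ∈ A := by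
        have h1 := hxa.2 ((x : Matrix (Fin m ⊕ Fin m) (Fin m ⊕ Fin m) F) *ᵥ Pi.single s 1)
        rw [gl_mul_mulVec, gl_mul_mulVec, gl_inv_mulVec, ← Matrix.mulVec_sub] at h1
        exact h1
      have h2 : stv ((x : Matrix (Fin m ⊕ Fin m) (Fin m ⊕ Fin m) F) *ᵥ u) 1 ∈ M := by
        rw [← conj_stv hxS]
        exact M.mul_mem (M.mul_mem hx.1 (hHM (Subgroup.mem_inf.mpr
          ⟨stv_mem_ratGL huV F₀.one_mem, stv_mem_spGL _ _⟩))) (M.inv_mem hx.1)
      have h3 : RD F₀ ((x : Matrix (Fin m ⊕ Fin m) (Fin m ⊕ Fin m) F) *ᵥ u) :=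
        RD_of_stv F₀ M hm hprime hHM hMS hne (RV_eb a₀) (eb_ne_zero a₀) one_ne_zero
          (tiA _ haA _ hxu) h2
      have hxR := mem_ratGL_of_RD_one F₀ M hm hprime hHM hMS hne hx.1 huV hu0 h3
      obtain ⟨c, hc0, hc⟩ := (mem_ratGL_iff F₀ x).mp hxR
      have dec : ∀ s, ∃ A₁ A₂ B₁ : F, (x : Matrix (Fin m ⊕ Fin m) (Fin m ⊕ Fin m) F) *ᵥ
          Pi.single s 1 - Pi.single s 1 = A₁ • eb a₀ + A₂ • eb b₀ + B₁ • w := fun s => by
        obtain ⟨A₁, A₂, B₁, h⟩ := Submodule.mem_span_triple.mp (hx.2 (Pi.single s 1))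
        exact ⟨A₁, A₂, B₁, h.symm⟩
      have entry : ∀ (s : Fin m ⊕ Fin m) (A₁ A₂ B₁ : F),
          (x : Matrix (Fin m ⊕ Fin m) (Fin m ⊕ Fin m) F) *ᵥ Pi.single s 1 - Pi.single s 1
          = A₁ • eb a₀ + A₂ • eb b₀ + B₁ • w → ∀ t, t ≠ Sum.inl a₀ → t ≠ Sum.inl b₀ →
          (x : Matrix (Fin m ⊕ Fin m) (Fin m ⊕ Fin m) F) t s
            = (Pi.single s 1 : Vm) t + B₁ * w t := by
        intro s A₁ A₂ B₁ h t hta htb
        have h3 := congrFun h t
        simp only [Pi.sub_apply, Pi.add_apply, Pi.smul_apply, smul_eq_mul, gl_apply, eb,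
          Pi.single_eq_of_ne hta, Pi.single_eq_of_ne htb, mul_zero, zero_add] at h3
        linear_combination h3
      have hcF : c ∈ F₀ := by
        obtain ⟨A₁, A₂, B₁, hAB⟩ := dec (Sum.inl l₀)
        have hB : B₁ = 0 := by
          apply ratio B₁ c hc0
          · have h3 := hc i (Sum.inl l₀)
            rw [entry _ A₁ A₂ B₁ hAB i hia hib, Pi.single_eq_of_ne hil, zero_add] at h3
            exact h3
          · have h3 := hc k (Sum.inl l₀)
            rw [entry _ A₁ A₂ B₁ hAB k hka hkb, Pi.single_eq_of_ne hkl, zero_add] at h3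
            exact h3
        have h3 := hc (Sum.inl l₀) (Sum.inl l₀)
        rw [entry _ A₁ A₂ B₁ hAB (Sum.inl l₀) (by simpa using hla) (by simpa using hlb), hB] at h3
        simpa using h3
      have hxF : ∀ t s, (x : Matrix (Fin m ⊕ Fin m) (Fin m ⊕ Fin m) F) t s ∈ F₀ := by
        intro t s
        have h3 := F₀.mul_mem (F₀.inv_mem hcF) (hc t s)
        rwa [inv_mul_cancel_left₀ hc0] at h3
      have hBall : ∀ s, (x : Matrix (Fin m ⊕ Fin m) (Fin m ⊕ Fin m) F) *ᵥ Pi.single s 1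
          - Pi.single s 1 ∈ A := by
        intro s
        obtain ⟨A₁, A₂, B₁, hAB⟩ := dec s
        have hB : B₁ = 0 := by
          apply ratio B₁ 1 one_ne_zero
          · rw [one_mul]
            have h3 := entry s A₁ A₂ B₁ hAB i hia hib
            have h4 : B₁ * w i = (x : Matrix (Fin m ⊕ Fin m) (Fin m ⊕ Fin m) F) i s
                - (Pi.single s 1 : Vm) i := by
              rw [h3]; ring
            rw [h4]
            exact F₀.sub_mem (hxF _ _) (single_mem F₀ _ _)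
          · rw [one_mul]
            have h3 := entry s A₁ A₂ B₁ hAB k hka hkb
            have h4 : B₁ * w k = (x : Matrix (Fin m ⊕ Fin m) (Fin m ⊕ Fin m) F) k s
                - (Pi.single s 1 : Vm) k := by
              rw [h3]; ring
            rw [h4]
            exact F₀.sub_mem (hxF _ _) (single_mem F₀ _ _)
        rw [hAB, hB, zero_smul, add_zero]
        exact A.add_mem (A.smul_mem _ haA) (A.smul_mem _ hbA)
      refine ⟨hx.1, fun y => ?_⟩
      let N : Vm →ₗ[F] Vm :=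
        Matrix.toLin' (x : Matrix (Fin m ⊕ Fin m) (Fin m ⊕ Fin m) F) - LinearMap.id
      have htop : (⊤ : Submodule F Vm) ≤ A.comap N := by
        rw [← (Pi.basisFun F (Fin m ⊕ Fin m)).span_eq, Submodule.span_le]
        rintro _ ⟨s, rfl⟩
        have := hBall s
        simpa [N] using this
      have h5 := htop (Submodule.mem_top : y ∈ ⊤)
      simpa [N] using h5
  have hy : stv w 1 ∈ resid M U := by
    refine ⟨?_, fun y => ?_⟩
    · rw [hw, ← conj_stv (hMS hg)]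
      exact M.mul_mem (M.mul_mem hg (hHM (Subgroup.mem_inf.mpr
          ⟨stv_mem_ratGL (RV_eb i₀) F₀.one_mem, stv_mem_spGL _ _⟩))) (M.inv_mem hg)
    · rw [stv_mulVec, add_sub_cancel_left]
      exact U.smul_mem _ (Submodule.subset_span (by simp))
  have hw0 : w ≠ 0 := by
    intro h0
    apply hk
    rw [h0]; rfl
  obtain ⟨z, hz⟩ := exists_form_ne_zero hw0
  have h2 := (key hy).2 z
  rw [stv_mulVec, add_sub_cancel_left, one_mul] at h2
  have hzw : B z w ≠ 0 := by rw [form_swap]; exact neg_ne_zero.mpr hz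
  have h3 := A.smul_mem (B z w)⁻¹ h2
  rw [smul_smul, inv_mul_cancel₀ hzw, one_smul] at h3
  obtain ⟨α, β, hαβ⟩ := Submodule.mem_span_pair.mp h3
  apply hk
  rw [← hαβ]
  simp [eb, Pi.single_eq_of_ne hka, Pi.single_eq_of_ne hkb]

end main

theorem sp_ratGL_isMaximalIn [Finite F] (F₀ : Subfield F) (hm : 5 ≤ m)
    (hprime : (Module.finrank F₀ F).Prime) :
    Cfsg.Geo.IsMaximalIn (Cfsg.spGL m F) (ratGL (Fin m ⊕ Fin m) F₀ ⊓ Cfsg.spGL m F) := by
  refine ⟨lt_of_le_of_ne inf_le_right ?_, ?_⟩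
  · intro heq
    have hs := Subalgebra.isSimpleOrder_of_finrank_prime F₀ F hprime
    have hex : ∃ a : F, a ∉ F₀ := by
      by_contra hcon
      push Not at hcon
      apply bot_ne_top (α := Subalgebra F₀ F)
      symm
      rw [eq_bot_iff]
      intro a _
      rw [Algebra.mem_bot]
      exact ⟨⟨a, hcon a⟩, rfl⟩
    obtain ⟨a, ha⟩ := hex
    let i : Fin m := ⟨0, by omega⟩
    let l : Fin m := ⟨1, by omega⟩
    have hli : l ≠ i := by simp [l, i, Fin.ext_iff]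
    have h1 : stv (eb i : Vm) a ∈ ratGL (Fin m ⊕ Fin m) F₀ ⊓ Cfsg.spGL m F := by
      rw [heq]; exact stv_mem_spGL _ _
    obtain ⟨c, hc0, hc⟩ := (mem_ratGL_iff F₀ _).mp (Subgroup.mem_inf.mp h1).1
    have h2 := hc (Sum.inl l) (Sum.inl l)
    have h3 := hc (Sum.inl i) (Sum.inr i)
    rw [← gl_apply, stv_mulVec] at h2 h3
    have e2 : (Pi.single (Sum.inl l) 1 : Vm) = eb l := rfl
    have e3 : (Pi.single (Sum.inr i) 1 : Vm) = fb i := rfl
    rw [e2, form_eb_eb] at h2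
    rw [e3, form_fb_eb_self] at h3
    simp [eb, fb] at h2 h3
    apply ha
    have h4 := F₀.mul_mem (F₀.inv_mem h2) h3
    rwa [inv_mul_cancel_left₀ hc0] at h4
  · intro M' hHM hMS
    by_cases hSL : Cfsg.spGL m F ≤ M'
    · right; exact le_antisymm hMS hSL
    · left
      apply le_antisymm _ hHM
      intro g hg
      exact Subgroup.mem_inf.mpr
        ⟨sp_mem_ratGL_of_mem F₀ M' (by omega) hprime hHM hMS hSL hm hg, hMS hg⟩

end Cfsg.Agent.Lib.Helper29
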