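import Mathlib
import Cfsg.Prelude.Def_GeometricClasses
import Cfsg.Agent.Lib.Helper29.SpInSU1
import Cfsg.Agent.Lib.Helper29.SpInSU3
import Cfsg.Agent.Lib.Helper29.SubfieldSp2
import Cfsg.Agent.S0752

/-!
The rational structure attached to a matrix `P`, and its hyperbolic basis.
-/

set_option autoImplicit false

namespace Cfsg.Agent.Lib.Helper29

open Matrix Module
open Cfsg.Agent.H6 (add_pow_q pow_q_pow_q neg_pow_q sub_pow_q q_pos hermForm_add_left
  hermForm_smul_left hermForm_smul_right hermForm_add_right hermForm_conj)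

variable {F : Type*} [Field F] [Fintype F] {n q : ℕ}

local notation "H" => Cfsg.hermForm n F q

theorem subfield_pow_q (hF : Fintype.card F = q ^ 2) (F₀ : Subfield F)
    (hcard : Fintype.card F = Nat.card F₀ ^ 2) {x : F} (hx : x ∈ F₀) : x ^ q = x := by
  have hq : Nat.card F₀ = q := by
    rw [hF] at hcard
    exact (Nat.pow_left_injective (n := 2) (by omega) hcard).symm
  have : Fintype F₀ := Fintype.ofFinite F₀
  have h1 := FiniteField.pow_card (⟨x, hx⟩ : F₀)
  rw [← Nat.card_eq_fintype_card, hq] at h1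
  exact congrArg Subtype.val h1

theorem subfield_dec (F₀ : Subfield F)
    (hcard : Fintype.card F = Nat.card F₀ ^ 2) {θ : F} (hθ : θ ∉ F₀) (c : F) :
    ∃ c₁ ∈ F₀, ∃ c₂ ∈ F₀, c = c₁ + θ * c₂ := by
  let φ : F₀ × F₀ → F := fun p => (p.1 : F) + θ * (p.2 : F)
  have hinj : Function.Injective φ := by
    rintro ⟨a, b⟩ ⟨a', b'⟩ h
    have h1 : (a : F) + θ * (b : F) = (a' : F) + θ * (b' : F) := h
    have hb : b = b' := by
      by_contra hne
      have hne' : (b : F) - (b' : F) ≠ 0 := sub_ne_zero.mpr (fun h => hne (Subtype.ext h))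
      apply hθ
      have : θ = ((a' : F) - (a : F)) / ((b : F) - (b' : F)) := by
        field_simp
        linear_combination h1
      rw [this]
      exact F₀.div_mem (F₀.sub_mem a'.2 a.2) (F₀.sub_mem b.2 b'.2)
    subst hb
    have ha : a = a' := Subtype.ext (by linear_combination h1)
    rw [ha]
  have hbij := hinj.bijective_of_nat_card_le
    (by rw [Nat.card_prod, Nat.card_eq_fintype_card, hcard, sq])
  obtain ⟨⟨a, b⟩, hab⟩ := hbij.2 c
  exact ⟨a, a.2, b, b.2, hab.symm⟩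

theorem subfield_fix (hF : Fintype.card F = q ^ 2) (F₀ : Subfield F)
    (hcard : Fintype.card F = Nat.card F₀ ^ 2) (x : F) : x ∈ F₀ ↔ x ^ q = x := by
  refine ⟨subfield_pow_q hF F₀ hcard, fun hx => ?_⟩
  obtain ⟨θ, hθ⟩ := exists_pow_q_ne hF
  obtain ⟨c₁, h1, c₂, h2, rfl⟩ := subfield_dec F₀ hcard
    (fun h => hθ (subfield_pow_q hF F₀ hcard h)) x
  rw [add_pow_q hF, mul_pow, subfield_pow_q hF F₀ hcard h1, subfield_pow_q hF F₀ hcard h2] at hx
  have h3 : (θ ^ q - θ) * c₂ = 0 := by linear_combination hx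
  have h4 := (mul_eq_zero.mp h3).resolve_left (sub_ne_zero.mpr hθ)
  rw [h4, mul_zero, add_zero]
  exact h1

/-- The rational vectors of the structure `P`. -/
def RatP (F₀ : Subfield F) (P : GL (Fin n) F) (v : Fin n → F) : Prop :=
  RV F₀ (((P⁻¹ : GL (Fin n) F) : Matrix (Fin n) (Fin n) F) *ᵥ v)

omit [Fintype F] in
theorem ratP_mulVec (F₀ : Subfield F) (P : GL (Fin n) F) {u : Fin n → F} (hu : RV F₀ u) :
    RatP F₀ P ((P : Matrix (Fin n) (Fin n) F) *ᵥ u) := by
  unfold RatP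
  rw [gl_inv_mulVec]
  exact hu

theorem ratStr_of (hF : Fintype.card F = q ^ 2) (F₀ : Subfield F)
    (hcard : Fintype.card F = Nat.card F₀ ^ 2) (ζ : F) (hζ0 : ζ ≠ 0) (hζ : ζ + ζ ^ q = 0)
    (P : GL (Fin n) F) (hP : Cfsg.Geo.IsFormRationalStructure (Cfsg.hermForm n F q) F₀ ζ P)
    (halt : ∀ u : Fin n → F, (∀ i, u i ∈ F₀) →
      H ((P : Matrix (Fin n) (Fin n) F) *ᵥ u) ((P : Matrix (Fin n) (Fin n) F) *ᵥ u) = 0) :
    RatStr n q F₀ (RatP F₀ P) where
  hF := hF
  fix := subfield_fix hF F₀ hcard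
  zero := by
    unfold RatP
    rw [Matrix.mulVec_zero]
    exact fun _ => F₀.zero_mem
  add := by
    intro u v hu hv
    unfold RatP
    rw [Matrix.mulVec_add]
    exact RV.add hu hv
  smul := by
    intro c u hc hu
    unfold RatP
    rw [Matrix.mulVec_smul]
    exact RV.smul hu hc
  form := by
    intro u v hu hv
    have h1 := hP _ _ hu hv
    rw [gl_mulVec_inv, gl_mulVec_inv, subfield_fix hF F₀ hcard, mul_pow] at h1
    have h2 : ζ * (H u v + (H u v) ^ q) = 0 := by linear_combination -h1 + (H u v) ^ q * hζ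
    exact (mul_eq_zero.mp h2).resolve_left hζ0
  alt := by
    intro u hu
    have h1 := halt _ hu
    rwa [gl_mulVec_inv] at h1
  dec := by
    intro θ hθ v
    have hθ' : θ ∉ F₀ := fun h => hθ (subfield_pow_q hF F₀ hcard h)
    choose c₁ h1 c₂ h2 h3 using fun i =>
      subfield_dec F₀ hcard hθ' ((((P⁻¹ : GL (Fin n) F) : Matrix (Fin n) (Fin n) F) *ᵥ v) i)
    refine ⟨(P : Matrix (Fin n) (Fin n) F) *ᵥ c₁, (P : Matrix (Fin n) (Fin n) F) *ᵥ c₂,
      ratP_mulVec F₀ P h1, ratP_mulVec F₀ P h2, ?_⟩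
    rw [← Matrix.mulVec_smul, ← Matrix.mulVec_add]
    have h4 : c₁ + θ • c₂ = ((P⁻¹ : GL (Fin n) F) : Matrix (Fin n) (Fin n) F) *ᵥ v := by
      ext i
      rw [h3 i]; rfl
    rw [h4, gl_mulVec_inv]

omit [Fintype F] in
theorem mem_subfieldSubgroup_of (F₀ : Subfield F) (P : GL (Fin n) F) (g : GL (Fin n) F)
    (h : ∀ u, RatP F₀ P u → ∃ (β : F) (v₀ : Fin n → F), RatP F₀ P v₀ ∧
      (g : Matrix (Fin n) (Fin n) F) *ᵥ u = β • v₀) : g ∈ Cfsg.Geo.subfieldSubgroup F₀ P := by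
  unfold Cfsg.Geo.subfieldSubgroup
  rw [Subgroup.mem_map]
  refine ⟨P⁻¹ * g * P, ?_, ?_⟩
  · apply mem_ratGL_of_RD
    intro u hu
    obtain ⟨β, v₀, hv₀, e⟩ := h _ (ratP_mulVec F₀ P hu)
    refine ⟨β, _, hv₀, ?_⟩
    rw [gl_mul_mulVec, gl_mul_mulVec, e, Matrix.mulVec_smul]
  · show P * (P⁻¹ * g * P) * P⁻¹ = g
    group

omit [Fintype F] in
theorem of_mem_subfieldSubgroup (F₀ : Subfield F) (P : GL (Fin n) F) {g : GL (Fin n) F}
    (hg : g ∈ Cfsg.Geo.subfieldSubgroup F₀ P) {u : Fin n → F} (hu : RatP F₀ P u) :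
    ∃ (β : F) (v₀ : Fin n → F), RatP F₀ P v₀ ∧ (g : Matrix (Fin n) (Fin n) F) *ᵥ u = β • v₀ := by
  unfold Cfsg.Geo.subfieldSubgroup at hg
  rw [Subgroup.mem_map] at hg
  obtain ⟨y, hy, hyg⟩ := hg
  have h1 : P * y * P⁻¹ = g := hyg
  obtain ⟨β, r, hr, e⟩ := RD.mulVec (F₀ := F₀) hy (RV.RD hu)
  refine ⟨β, (P : Matrix (Fin n) (Fin n) F) *ᵥ r, ratP_mulVec F₀ P hr, ?_⟩
  rw [← h1, gl_mul_mulVec, gl_mul_mulVec, e, Matrix.mulVec_smul]

theorem exists_hypB (hF : Fintype.card F = q ^ 2) (F₀ : Subfield F)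
    (hcard : Fintype.card F = Nat.card F₀ ^ 2) (ζ : F) (hζ0 : ζ ≠ 0) (hζ : ζ + ζ ^ q = 0)
    (P : GL (Fin n) F) (hP : Cfsg.Geo.IsFormRationalStructure (Cfsg.hermForm n F q) F₀ ζ P)
    (halt : ∀ u : Fin n → F, (∀ i, u i ∈ F₀) →
      H ((P : Matrix (Fin n) (Fin n) F) *ᵥ u) ((P : Matrix (Fin n) (Fin n) F) *ᵥ u) = 0) :
    ∃ (k : ℕ) (e f : Fin k → (Fin n → F)), 2 * k = n ∧ HypB n q ζ⁻¹ e f ∧
      (∀ i, RatP F₀ P (e i)) ∧ (∀ i, RatP F₀ P (f i)) := by
  have D := ratStr_of hF F₀ hcard ζ hζ0 hζ P hP halt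
  let up : (Fin n → F₀) → (Fin n → F) := fun u t => (u t : F)
  have up_add : ∀ u v, up (u + v) = up u + up v := fun u v => rfl
  have up_smul : ∀ (c : F₀) u, up (c • u) = (c : F) • up u := fun c u => rfl
  have upV : ∀ u, RV F₀ (up u) := fun u t => (u t).2
  have hcq : ∀ c : F₀, (c : F) ^ q = c := fun c => subfield_pow_q hF F₀ hcard c.2
  let β₀ : LinearMap.BilinForm F₀ (Fin n → F₀) :=
    LinearMap.mk₂ F₀ (fun u v => (⟨ζ * H ((P : Matrix (Fin n) (Fin n) F) *ᵥ up u)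
        ((P : Matrix (Fin n) (Fin n) F) *ᵥ up v), hP _ _ (upV u) (upV v)⟩ : F₀))
      (by
        intro u u' v
        apply Subtype.ext
        simp only [up_add, Matrix.mulVec_add, hermForm_add_left, mul_add]
        rfl)
      (by
        intro c u v
        apply Subtype.ext
        simp only [up_smul, Matrix.mulVec_smul, hermForm_smul_left]
        show _ = (c : F) * _
        ring)
      (by
        intro u v v'
        apply Subtype.ext
        simp only [up_add, Matrix.mulVec_add, hermForm_add_right hF, mul_add]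
        rfl)
      (by
        intro c u v
        apply Subtype.ext
        simp only [up_smul, Matrix.mulVec_smul, hermForm_smul_right, hcq]
        show _ = (c : F) * _
        ring)
  have hβ : ∀ u v, ((β₀ u v : F₀) : F) = ζ * H ((P : Matrix (Fin n) (Fin n) F) *ᵥ up u)
        ((P : Matrix (Fin n) (Fin n) F) *ᵥ up v) := fun u v => rfl
  have hA : β₀.IsAlt := by
    intro u
    apply Subtype.ext
    rw [hβ, halt _ (upV u), mul_zero]
    rfl
  have hlift : ∀ z, RatP F₀ P z → ∃ z₀ : Fin n → F₀, (P : Matrix (Fin n) (Fin n) F) *ᵥ up z₀ = z := by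
    intro z hz
    refine ⟨fun t => ⟨_, hz t⟩, ?_⟩
    have : up (fun t => ⟨_, hz t⟩) = ((P⁻¹ : GL (Fin n) F) : Matrix (Fin n) (Fin n) F) *ᵥ z := rfl
    rw [this, gl_mulVec_inv]
  obtain ⟨m', k, b, h1, h2, h3, h4⟩ := Cfsg.Agent.S0752.result β₀ hA
  have hk : k = 0 := by
    by_contra hk0
    have j : Fin k := ⟨0, Nat.pos_of_ne_zero hk0⟩
    have hne : (P : Matrix (Fin n) (Fin n) F) *ᵥ up (b (Sum.inr j)) ≠ 0 := by
      intro h0
      apply b.ne_zero (Sum.inr j)
      have h7 := gl_inv_mulVec P (up (b (Sum.inr j)))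
      rw [h0, Matrix.mulVec_zero] at h7
      ext t
      exact (congrFun h7 t).symm
    obtain ⟨z, hz, hz0⟩ := D.exists_ne hne
    obtain ⟨z₀, rfl⟩ := hlift z hz
    apply hz0
    have h6 := congrArg (fun z : F₀ => (z : F)) (h4 j z₀)
    simp only [hβ] at h6
    have h7 : ((0 : F₀) : F) = 0 := rfl
    rw [h7] at h6
    exact (mul_eq_zero.mp h6).resolve_left hζ0
  subst hk
  have hm' : 2 * m' = n := by
    have h5 := Module.finrank_eq_card_basis b
    simp at h5
    omega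
  have hval : ∀ u v (c : F₀), β₀ u v = c → H ((P : Matrix (Fin n) (Fin n) F) *ᵥ up u)
        ((P : Matrix (Fin n) (Fin n) F) *ᵥ up v) = ζ⁻¹ * (c : F) := by
    intro u v c h
    rw [← h, hβ, inv_mul_cancel_left₀ hζ0]
  refine ⟨m', fun i => (P : Matrix (Fin n) (Fin n) F) *ᵥ up (b (Sum.inl (Sum.inl i))),
    fun i => (P : Matrix (Fin n) (Fin n) F) *ᵥ up (b (Sum.inl (Sum.inr i))), hm', ?_,
    fun i => ratP_mulVec F₀ P (upV _), fun i => ratP_mulVec F₀ P (upV _)⟩
  refine ⟨hF, inv_ne_zero hζ0, inv_trace_zero hζ, ?_, ?_, ?_, ?_⟩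
  · intro i j
    rw [hval _ _ _ (h1 i j)]
    split_ifs <;> simp
  · intro i j
    rw [hval _ _ _ (h2 i j)]
    simp
  · intro i j
    rw [hval _ _ _ (h3 i j)]
    simp
  · intro v hve hvf
    by_contra hne
    obtain ⟨z, hz, hz0⟩ := D.exists_ne hne
    obtain ⟨z₀, rfl⟩ := hlift z hz
    apply hz0
    apply herm_eq_zero_symm hF
    let Λ : (Fin n → F₀) →ₗ[F₀] F :=
      { toFun := fun u => H ((P : Matrix (Fin n) (Fin n) F) *ᵥ up u) v
        map_add' := by
          intro u u'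
          simp only [up_add, Matrix.mulVec_add, hermForm_add_left]
        map_smul' := by
          intro c u
          simp only [up_smul, Matrix.mulVec_smul, hermForm_smul_left]
          rfl }
    have hΛ : Λ = 0 := by
      apply b.ext
      intro t
      rcases t with (i | i) | i
      · exact herm_eq_zero_symm hF (hve i)
      · exact herm_eq_zero_symm hF (hvf i)
      · exact i.elim0
    have : Λ z₀ = 0 := by rw [hΛ]; rfl
    exact this

end Cfsg.Agent.Lib.Helper29
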