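import Mathlib
import Cfsg.Prelude.Def_GeometricClasses
import Cfsg.Agent.Lib.Helper29.SubfieldSp1
import Cfsg.Agent.Lib.Helper29.SpDecomp

/-!
Pairs of complementary totally singular subspaces of the symplectic space: overgroups of the
stabiliser of such a pair.
-/

set_option autoImplicit false

namespace Cfsg.Agent.Lib.Helper29

open Matrix Module
open Cfsg.Agent.H5Symp (form_add_left form_add_right form_smul_left form_smul_right form_neg_left
  form_neg_right form_sub_left form_sub_right form_zero_left form_zero_right form_swap form_self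
  form_single_inl form_single_inr)

/-- A vector of `W` outside `A` killed by `k` functionals. -/
theorem exists_mem_ker_notMem {F : Type*} [Field F] {V : Type*} [AddCommGroup V] [Module F V]
    [FiniteDimensional F V] (W A : Submodule F V) {k : ℕ} (f : Fin k → Dual F V)
    (h : finrank F A + k < finrank F W) : ∃ z ∈ W, (∀ i, f i z = 0) ∧ z ∉ A := by
  let Ψ : W →ₗ[F] (Fin k → F) := LinearMap.pi (fun i => (f i) ∘ₗ W.subtype)
  have h1 := LinearMap.finrank_range_add_finrank_ker Ψ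
  have h2 : finrank F (LinearMap.range Ψ) ≤ k := by
    calc _ ≤ finrank F (Fin k → F) := Submodule.finrank_le _
      _ = k := by simp
  have h3 : ¬ (LinearMap.ker Ψ).map W.subtype ≤ A := fun hle => by
    have h4 := Submodule.finrank_mono hle
    rw [Submodule.finrank_map_subtype_eq] at h4
    omega
  obtain ⟨z, hz, hzA⟩ := SetLike.not_le_iff_exists.mp h3
  obtain ⟨y, hy, rfl⟩ := Submodule.mem_map.mp hz
  refine ⟨_, y.2, fun i => ?_, hzA⟩
  have : Ψ y = 0 := hy
  exact congrFun this i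

theorem notMem_span_of_ind {F : Type*} [Field F] {V : Type*} [AddCommGroup V] [Module F V]
    {u v : V} (h : ∀ s t : F, s • u + t • v = 0 → s = 0 ∧ t = 0) : v ∉ Submodule.span F {u} := by
  intro hv
  obtain ⟨c, hc⟩ := Submodule.mem_span_singleton.mp hv
  have := (h c (-1) (by rw [hc]; simp)).2
  simp at this

theorem ind_of_notMem_span {F : Type*} [Field F] {V : Type*} [AddCommGroup V] [Module F V]
    {u v : V} (hu : u ≠ 0) (h : v ∉ Submodule.span F {u}) :
    ∀ s t : F, s • u + t • v = 0 → s = 0 ∧ t = 0 := by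
  intro s t hst
  have ht : t = 0 := by
    by_contra ht
    apply h
    rw [Submodule.mem_span_singleton]
    refine ⟨-(t⁻¹ * s), ?_⟩
    have h1 : t • v = -(s • u) := by rw [eq_neg_iff_add_eq_zero, add_comm]; exact hst
    have h2 : v = t⁻¹ • (t • v) := by rw [smul_smul, inv_mul_cancel₀ ht, one_smul]
    rw [h2, h1]
    module
  refine ⟨?_, ht⟩
  rw [ht, zero_smul, add_zero] at hst
  exact (smul_eq_zero.mp hst).resolve_right hu

theorem ind_symm {F : Type*} [Field F] {V : Type*} [AddCommGroup V] [Module F V]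
    {u v : V} (h : ∀ s t : F, s • u + t • v = 0 → s = 0 ∧ t = 0) :
    ∀ s t : F, s • v + t • u = 0 → s = 0 ∧ t = 0 := by
  intro s t hst
  have := h t s (by rw [add_comm]; exact hst)
  exact ⟨this.2, this.1⟩

variable {m : ℕ} {F : Type*} [Field F]

local notation "Vm" => (Fin m ⊕ Fin m → F)
local notation "B" => Cfsg.sympForm m F

theorem conj_eich {g : GL (Fin m ⊕ Fin m) F} (hg : g ∈ Cfsg.spGL m F) (a w : Vm) :
    g * eich a w * g⁻¹ = eich ((g : Matrix (Fin m ⊕ Fin m) (Fin m ⊕ Fin m) F) *ᵥ a) ((g : Matrix (Fin m ⊕ Fin m) (Fin m ⊕ Fin m) F) *ᵥ w) := by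
  unfold eich
  rw [← Matrix.mulVec_add, ← conj_stv hg, ← conj_stv hg, ← conj_stv hg]
  group

/-- A pair of totally singular subspaces spanning the space. -/
structure TSPair (W W' : Submodule F Vm) : Prop where
  ts : ∀ u ∈ W, ∀ v ∈ W, B u v = 0
  ts' : ∀ u ∈ W', ∀ v ∈ W', B u v = 0
  sum : ∀ v : Vm, ∃ w ∈ W, ∃ w' ∈ W', v = w + w'

namespace TSPair

theorem symm {W W' : Submodule F Vm} (h : TSPair W W') : TSPair W' W :=
  ⟨h.ts', h.ts, fun v => by
    obtain ⟨w, hw, w', hw', e⟩ := h.sum v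
    exact ⟨w', hw', w, hw, by rw [e, add_comm]⟩⟩

theorem mem_of_perp {W W' : Submodule F Vm} (h : TSPair W W') {v : Vm} (hv : ∀ a ∈ W, B a v = 0) : v ∈ W := by
  obtain ⟨w, hw, w', hw', rfl⟩ := h.sum v
  have : w' = 0 := by
    by_contra hne
    obtain ⟨z, hz⟩ := exists_form_ne_zero hne
    obtain ⟨a, ha, a', ha', rfl⟩ := h.sum z
    apply hz
    rw [form_add_right, h.ts' w' hw' a' ha', add_zero]
    have := hv a ha
    rw [form_add_right, h.ts a ha w hw, zero_add] at this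
    rw [form_swap, this, neg_zero]
  rw [this, add_zero]; exact hw

theorem disj {W W' : Submodule F Vm} (h : TSPair W W') {v : Vm} (hv : v ∈ W) (hv' : v ∈ W') : v = 0 := by
  by_contra hne
  obtain ⟨z, hz⟩ := exists_form_ne_zero hne
  obtain ⟨a, ha, a', ha', rfl⟩ := h.sum z
  apply hz
  rw [form_add_right, h.ts v hv a ha, h.ts' v hv' a' ha', add_zero]

theorem exists_dual {W W' : Submodule F Vm} (h : TSPair W W') (A : Submodule F Vm) (hA : A ≤ W) {r : Vm} (hr : r ∈ W)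
    (hrA : r ∉ A) : ∃ a' ∈ W', (∀ a ∈ A, B a a' = 0) ∧ B r a' = 1 := by
  obtain ⟨z, hz, hz1⟩ := exists_perp_form_eq_one A hrA
  obtain ⟨w, hw, w', hw', rfl⟩ := h.sum z
  refine ⟨w', hw', fun a ha => ?_, ?_⟩
  · have := hz a ha
    rwa [form_add_right, h.ts a (hA ha) w hw, zero_add] at this
  · rwa [form_add_right, h.ts r hr w hw, zero_add] at hz1

/-- dual vector for an independent pair -/
theorem exists_dual_pair {W W' : Submodule F Vm} (h : TSPair W W') {r r₂ : Vm} (hr : r ∈ W) (hr₂ : r₂ ∈ W)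
    (hind : ∀ s t : F, s • r + t • r₂ = 0 → s = 0 ∧ t = 0) :
    ∃ a' ∈ W', B r a' = 0 ∧ B r₂ a' = 1 := by
  obtain ⟨a', ha', h1, h2⟩ := h.exists_dual (Submodule.span F {r})
    (by rw [Submodule.span_singleton_le_iff_mem]; exact hr) hr₂ (notMem_span_of_ind hind)
  exact ⟨a', ha', h1 r (Submodule.mem_span_singleton_self r), h2⟩

theorem map {W W' : Submodule F Vm} (h : TSPair W W') {g : GL (Fin m ⊕ Fin m) F} (hg : g ∈ Cfsg.spGL m F) :
    TSPair (glMap g W) (glMap g W') := by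
  refine ⟨?_, ?_, ?_⟩
  · intro u hu v hv
    rw [mem_glMap] at hu hv
    rw [← gl_mulVec_inv g u, ← gl_mulVec_inv g v, (mem_spGL_iff g).mp hg]
    exact h.ts _ hu _ hv
  · intro u hu v hv
    rw [mem_glMap] at hu hv
    rw [← gl_mulVec_inv g u, ← gl_mulVec_inv g v, (mem_spGL_iff g).mp hg]
    exact h.ts' _ hu _ hv
  · intro v
    obtain ⟨w, hw, w', hw', e⟩ := h.sum (((g⁻¹ : GL (Fin m ⊕ Fin m) F) : Matrix (Fin m ⊕ Fin m) (Fin m ⊕ Fin m) F) *ᵥ v)
    refine ⟨_, mulVec_mem_glMap g W hw, _, mulVec_mem_glMap g W' hw', ?_⟩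
    rw [← Matrix.mulVec_add, ← e, gl_mulVec_inv]

variable (M : Subgroup (GL (Fin m ⊕ Fin m) F))

/-- B1: an element of `M` stabilising `W` stabilises `W'`. -/
theorem stab_of_stab {W W' : Submodule F Vm} (h : TSPair W W') (h2 : (2 : F) ≠ 0) (hMS : M ≤ Cfsg.spGL m F)
    (hL : ∀ a ∈ W, ∀ a' ∈ W', B a a' = 0 → eich a a' ∈ M)
    (hNQ : ∀ x ∈ M, (∀ w ∈ W, (x : Matrix (Fin m ⊕ Fin m) (Fin m ⊕ Fin m) F) *ᵥ w = w) → x = 1)
    (hdim : 2 ≤ finrank F W)
    {x : GL (Fin m ⊕ Fin m) F} (hx : x ∈ M) (hxW : ∀ w ∈ W, (x : Matrix (Fin m ⊕ Fin m) (Fin m ⊕ Fin m) F) *ᵥ w ∈ W) :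
    ∀ b' ∈ W', (x : Matrix (Fin m ⊕ Fin m) (Fin m ⊕ Fin m) F) *ᵥ b' ∈ W' := by
  intro b' hb'
  obtain ⟨b, hb, hbb, hb0⟩ := exists_mem_ker_notMem W ⊥ ![formDual b'] (by simp; omega)
  have hbb' : B b b' = 0 := by simpa using hbb 0
  have hb0' : b ≠ 0 := by simpa using hb0
  obtain ⟨w₀, hw₀, a', ha', e⟩ := h.sum ((x : Matrix (Fin m ⊕ Fin m) (Fin m ⊕ Fin m) F) *ᵥ b')
  have hxS := (mem_spGL_iff x).mp (hMS hx)
  set a := (x : Matrix (Fin m ⊕ Fin m) (Fin m ⊕ Fin m) F) *ᵥ b with hadef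
  have ha : a ∈ W := hxW b hb
  have ha0 : a ≠ 0 := gl_mulVec_ne_zero x hb0'
  have haw : B a (w₀ + a') = 0 := by rw [← e, hadef, hxS, hbb']
  have haa' : B a a' = 0 := by
    rw [form_add_right, h.ts a ha w₀ hw₀, zero_add] at haw
    exact haw
  have hl2 : eich a (w₀ + a') ∈ M := by
    rw [← e, hadef, ← conj_eich (hMS hx)]
    exact M.mul_mem (M.mul_mem hx (hL b hb b' hb' hbb')) (M.inv_mem hx)
  have hz : (eich a a')⁻¹ * eich a (w₀ + a') = 1 := by
    apply hNQ _ (M.mul_mem (M.inv_mem (hL a ha a' ha' haa')) hl2)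
    intro w hw
    have h3 : (eich a (w₀ + a') : Matrix (Fin m ⊕ Fin m) (Fin m ⊕ Fin m) F) *ᵥ w = (eich a a' : Matrix (Fin m ⊕ Fin m) (Fin m ⊕ Fin m) F) *ᵥ w := by
      rw [eich_mulVec haw, eich_mulVec haa', form_add_right, h.ts w hw w₀ hw₀, h.ts w hw a ha]
      simp
    rw [gl_mul_mulVec, h3, gl_inv_mulVec]
  have heq : eich a (w₀ + a') = eich a a' := by
    rw [inv_mul_eq_one] at hz
    exact hz.symm
  have hall : ∀ v : Vm, B v a • w₀ + B v w₀ • a = 0 := by
    intro v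
    have h3 := congrArg (fun y : GL (Fin m ⊕ Fin m) F => (y : Matrix (Fin m ⊕ Fin m) (Fin m ⊕ Fin m) F) *ᵥ v) heq
    simp only [eich_mulVec haw, eich_mulVec haa', form_add_right] at h3
    have h4 : v + B v a • (w₀ + a') + (B v w₀ + B v a') • a
        = (v + B v a • a' + B v a' • a) + (B v a • w₀ + B v w₀ • a) := by module
    rw [h4] at h3
    exact add_eq_left.mp h3
  obtain ⟨v, hv⟩ := exists_form_ne_zero ha0
  have hva : B v a ≠ 0 := by rw [form_swap]; exact neg_ne_zero.mpr hv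
  have hw₀a : w₀ = (-(B v w₀ / B v a)) • a := by
    have h3 := hall v
    have h5 : B v a • w₀ = -(B v w₀ • a) := eq_neg_of_add_eq_zero_left h3
    calc w₀ = (B v a)⁻¹ • (B v a • w₀) := by rw [smul_smul, inv_mul_cancel₀ hva, one_smul]
      _ = (B v a)⁻¹ • (-(B v w₀ • a)) := by rw [h5]
      _ = _ := by module
  have hμ : -(B v w₀ / B v a) = 0 := by
    set μ := -(B v w₀ / B v a) with hμdef
    have h3 := hall v
    rw [hw₀a, form_smul_right, smul_smul, ← add_smul] at h3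
    have h4 := (smul_eq_zero.mp h3).resolve_right ha0
    have h5 : (2 * B v a) * μ = 0 := by linear_combination h4
    exact (mul_eq_zero.mp h5).resolve_left (mul_ne_zero h2 hva)
  rw [hμ, zero_smul] at hw₀a
  rw [e, hw₀a, zero_add]
  exact ha'

/-- Lemma A: a non-trivial element of `M` fixing `W` pointwise forces all transvections with centre
in `W` into `M`. -/
theorem centres_of_fix {W W' : Submodule F Vm} (h : TSPair W W') (h2 : (2 : F) ≠ 0)
    (hMS : M ≤ Cfsg.spGL m F)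
    (hL : ∀ a ∈ W, ∀ a' ∈ W', B a a' = 0 → eich a a' ∈ M) (hdim : 3 ≤ finrank F W)
    {x : GL (Fin m ⊕ Fin m) F} (hx : x ∈ M) (hx1 : x ≠ 1)
    (hxW : ∀ w ∈ W, (x : Matrix (Fin m ⊕ Fin m) (Fin m ⊕ Fin m) F) *ᵥ w = w) :
    ∀ w ∈ W, w ∈ centres M := by
  have hxS := (mem_spGL_iff x).mp (hMS hx)
  obtain ⟨a', ha', hu0⟩ : ∃ a' ∈ W', (x : Matrix (Fin m ⊕ Fin m) (Fin m ⊕ Fin m) F) *ᵥ a' - a' ≠ 0 := by
    by_contra hcon
    push Not at hcon
    apply hx1
    apply gl_ext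
    intro v
    obtain ⟨w, hw, w', hw', rfl⟩ := h.sum v
    rw [Matrix.mulVec_add, hxW w hw, sub_eq_zero.mp (hcon w' hw')]
    simp
  set u := (x : Matrix (Fin m ⊕ Fin m) (Fin m ⊕ Fin m) F) *ᵥ a' - a' with hudef
  have hu : u ∈ W := by
    apply h.mem_of_perp
    intro a ha
    rw [hudef, form_sub_right]
    nth_rewrite 1 [← hxW a ha]
    rw [hxS, sub_self]
  have hxa' : (x : Matrix (Fin m ⊕ Fin m) (Fin m ⊕ Fin m) F) *ᵥ a' = a' + u := by
    rw [hudef]; abel
  have hxu := hxW u hu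
  -- the basic construction
  have key : ∀ a ∈ W, B a a' = 0 → (∃ a'' ∈ W', B a a'' = 0 ∧ B u a'' = 1) → stv a (-2) ∈ M := by
    rintro a ha haa' ⟨a'', ha'', h1, h3⟩
    have hau : B a u = 0 := h.ts a ha u hu
    have hua : B u a = 0 := h.ts u hu a ha
    have hanu : B a (-u) = 0 := by rw [form_neg_right, hau, neg_zero]
    have hxa := hxW a ha
    have hy₁ : qel a (-u) (-(B u a')) ∈ M := by
      have id : eich a a' * x = qel a (-u) (-(B u a')) * x * eich a a' := by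
        apply gl_ext
        intro v
        have e1 : B ((x : Matrix (Fin m ⊕ Fin m) (Fin m ⊕ Fin m) F) *ᵥ v) a = B v a := by
          nth_rewrite 1 [← hxa]; rw [hxS]
        have e2 : B ((x : Matrix (Fin m ⊕ Fin m) (Fin m ⊕ Fin m) F) *ᵥ v) u = B v u := by
          nth_rewrite 1 [← hxu]; rw [hxS]
        have e3 : B ((x : Matrix (Fin m ⊕ Fin m) (Fin m ⊕ Fin m) F) *ᵥ v) a' = B v a' - B v u := by
          have : a' = (x : Matrix (Fin m ⊕ Fin m) (Fin m ⊕ Fin m) F) *ᵥ a' - u := by rw [hxa']; abel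
          nth_rewrite 1 [this]
          rw [form_sub_right, hxS, e2]
        have e4 : B a' a = 0 := by rw [form_swap, haa', neg_zero]
        have e5 : B a' u = - B u a' := form_swap _ _
        rw [gl_mul_mulVec, gl_mul_mulVec, gl_mul_mulVec, eich_mulVec haa', eich_mulVec haa',
          qel_mulVec hanu]
        simp only [Matrix.mulVec_add, Matrix.mulVec_smul, hxa, hxa', form_add_left, form_smul_left,
          form_neg_right, e1, e2, e3, e4, e5, hua, hau, form_self]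
        module
      have : qel a (-u) (-(B u a')) = eich a a' * x * (eich a a')⁻¹ * x⁻¹ := by
        rw [id]; group
      rw [this]
      have hE := hL a ha a' ha' haa'
      exact M.mul_mem (M.mul_mem (M.mul_mem hE hx) (M.inv_mem hE)) (M.inv_mem hx)
    have hE₂ := hL a ha a'' ha'' h1
    have hy₂ : qel a (-u - a) (-(B u a')) ∈ M := by
      have e1 : (eich a a'' : Matrix (Fin m ⊕ Fin m) (Fin m ⊕ Fin m) F) *ᵥ a = a := by
        rw [eich_mulVec h1, form_self, h1]; simp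
      have e2 : (eich a a'' : Matrix (Fin m ⊕ Fin m) (Fin m ⊕ Fin m) F) *ᵥ (-u) = -u - a := by
        rw [eich_mulVec h1, form_neg_left, form_neg_left, hua, h3]; module
      have := conj_qel (eich_mem_spGL a a'') e1 hanu (-(B u a'))
      rw [e2] at this
      rw [← this]
      exact M.mul_mem (M.mul_mem hE₂ hy₁) (M.inv_mem hE₂)
    have hfin : stv a (-2) = qel a (-u - a) (-(B u a')) * (qel a (-u) (-(B u a')))⁻¹ := by
      rw [eq_mul_inv_iff_mul_eq]
      apply gl_ext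
      intro v
      have h4 : B a (-u - a) = 0 := by rw [form_sub_right, hanu, form_self, sub_zero]
      rw [gl_mul_mulVec, qel_mulVec hanu, qel_mulVec h4, stv_mulVec]
      simp only [form_add_left, form_smul_left, form_neg_left, form_neg_right, form_sub_right, hua,
        form_self]
      module
    rw [hfin]
    exact M.mul_mem hy₂ (M.inv_mem hy₁)
  -- moving centres inside `W`
  have move : ∀ w₁ ∈ W, ∀ w₂ ∈ W, (∀ s t : F, s • w₁ + t • w₂ = 0 → s = 0 ∧ t = 0) →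
      stv w₁ (-2) ∈ M → stv w₂ (-2) ∈ M := by
    intro w₁ hw₁ w₂ hw₂ hind hmem
    obtain ⟨d₁, hd₁, p1, p2⟩ := h.exists_dual_pair hw₁ hw₂ hind
    obtain ⟨d₂, hd₂, p3, p4⟩ := h.exists_dual_pair hw₂ hw₁ (ind_symm hind)
    have hperp : B (w₂ - w₁) (d₁ + d₂) = 0 := by
      simp only [form_sub_left, form_add_right, p1, p2, p3, p4]; ring
    have hE := hL (w₂ - w₁) (W.sub_mem hw₂ hw₁) (d₁ + d₂) (W'.add_mem hd₁ hd₂) hperp
    have e1 : (eich (w₂ - w₁) (d₁ + d₂) : Matrix (Fin m ⊕ Fin m) (Fin m ⊕ Fin m) F) *ᵥ w₁ = w₂ := by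
      rw [eich_mulVec hperp]
      simp only [form_sub_right, form_add_right, form_self, h.ts w₁ hw₁ w₂ hw₂, p1, p4]
      module
    rw [← e1, ← conj_stv (eich_mem_spGL _ _)]
    exact M.mul_mem (M.mul_mem hE hmem) (M.inv_mem hE)
  obtain ⟨a₀, ha₀, hk, ha₀u⟩ := exists_mem_ker_notMem W (Submodule.span F {u}) ![formDual a']
    (by
      have := finrank_span_singleton (K := F) hu0
      omega)
  have ha₀a' : B a₀ a' = 0 := by simpa using hk 0
  have hind₀ := ind_of_notMem_span hu0 ha₀u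
  have ha₀0 : a₀ ≠ 0 := by
    rintro rfl
    exact ha₀u (Submodule.zero_mem _)
  have hbase : stv a₀ (-2) ∈ M := by
    apply key a₀ ha₀ ha₀a'
    obtain ⟨a'', ha'', p1, p2⟩ := h.exists_dual_pair ha₀ hu (ind_symm hind₀)
    exact ⟨a'', ha'', p1, p2⟩
  have hall : ∀ w ∈ W, stv w (-2) ∈ M := by
    have h1 : ∀ w ∈ W, w ∉ Submodule.span F {a₀} → stv w (-2) ∈ M := fun w hw hwa =>
      move a₀ ha₀ w hw (ind_of_notMem_span ha₀0 hwa) hbase
    intro w hw
    by_cases hwa : w ∈ Submodule.span F {a₀}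
    · by_cases hw0 : w = 0
      · rw [hw0, stv_zero]; exact M.one_mem
      obtain ⟨w₁, hw₁, -, hw₁a⟩ := exists_mem_ker_notMem W (Submodule.span F {a₀})
        (k := 0) (fun i => i.elim0)
        (by
          have := finrank_span_singleton (K := F) ha₀0
          omega)
      apply move w₁ hw₁ w hw _ (h1 w₁ hw₁ hw₁a)
      apply ind_symm
      apply ind_of_notMem_span hw0
      intro hmem
      apply hw₁a
      obtain ⟨c, hc⟩ := Submodule.mem_span_singleton.mp hmem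
      rw [← hc]
      exact Submodule.smul_mem _ _ hwa
    · exact h1 w hw hwa
  intro w hw d
  have e1 : stv w d = stv (((-d / 2 + 1) / 2) • w) (-2) * (stv (((-d / 2 - 1) / 2) • w) (-2))⁻¹ := by
    rw [stv_smul, stv_smul, stv_inv, ← stv_add]
    congr 1
    field_simp
    ring
  rw [e1]
  exact M.mul_mem (hall _ (W.smul_mem _ hw)) (M.inv_mem (hall _ (W.smul_mem _ hw)))

/-- (D): a second pair `(Z, Z')` with `Z` meeting `W` in two independent vectors has `W' ≤ Z'`. -/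
theorem le_of_common {W W' Z Z' : Submodule F Vm} (h : TSPair W W') (hZ : TSPair Z Z')
    (h2 : (2 : F) ≠ 0)
    (hL : ∀ a ∈ W, ∀ a' ∈ W', B a a' = 0 → eich a a' ∈ M)
    (hB1 : ∀ x ∈ M, (∀ z ∈ Z, (x : Matrix (Fin m ⊕ Fin m) (Fin m ⊕ Fin m) F) *ᵥ z ∈ Z) →
      ∀ z' ∈ Z', (x : Matrix (Fin m ⊕ Fin m) (Fin m ⊕ Fin m) F) *ᵥ z' ∈ Z')
    {r r₂ : Vm} (hr : r ∈ W) (hrZ : r ∈ Z) (hr₂ : r₂ ∈ W) (hr₂Z : r₂ ∈ Z)
    (hind : ∀ s t : F, s • r + t • r₂ = 0 → s = 0 ∧ t = 0) : W' ≤ Z' := by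
  -- Claim 1
  have claim : ∀ r ∈ W, r ∈ Z → ∀ a' ∈ W', B r a' = 0 → ∀ z' ∈ Z',
      B z' r • a' + B z' a' • r ∈ Z' := by
    intro r hr hrZ a' ha' hra z' hz'
    have h1 := hB1 _ (hL r hr a' ha' hra) (by
      intro z hz
      rw [eich_mulVec hra, hZ.ts z hz r hrZ, zero_smul, add_zero]
      exact Z.add_mem hz (Z.smul_mem _ hrZ)) z' hz'
    rw [eich_mulVec hra, add_assoc] at h1
    exact (Z'.add_mem_iff_right hz').mp h1
  -- normalised vectors of `Z'`
  have norm : ∀ r ∈ Z, r ≠ 0 → ∃ z' ∈ Z', B z' r = 1 := by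
    intro r hrZ hr0
    have hnot : r ∉ Z' := fun h' => hr0 (hZ.disj hrZ h')
    have : ∃ z' ∈ Z', B z' r ≠ 0 := by
      by_contra hcon
      push Not at hcon
      exact hnot (hZ.symm.mem_of_perp hcon)
    obtain ⟨z', hz', hne⟩ := this
    exact ⟨(B z' r)⁻¹ • z', Z'.smul_mem _ hz', by rw [form_smul_left, inv_mul_cancel₀ hne]⟩
  have hr0 : r ≠ 0 := by
    rintro rfl
    have := (hind 1 0 (by simp)).1
    exact one_ne_zero this
  have hr₂0 : r₂ ≠ 0 := by
    rintro rfl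
    have := (hind 0 1 (by simp)).2
    exact one_ne_zero this
  obtain ⟨z₁, hz₁, hz₁r⟩ := norm r hrZ hr0
  obtain ⟨z₂, hz₂, hz₂r⟩ := norm r₂ hr₂Z hr₂0
  have c1 : ∀ a' ∈ W', B r a' = 0 → a' + B z₁ a' • r ∈ Z' := by
    intro a' ha' hra
    have := claim r hr hrZ a' ha' hra z₁ hz₁
    rwa [hz₁r, one_smul] at this
  have c2 : ∀ a' ∈ W', B r₂ a' = 0 → a' + B z₂ a' • r₂ ∈ Z' := by
    intro a' ha' hra
    have := claim r₂ hr₂ hr₂Z a' ha' hra z₂ hz₂
    rwa [hz₂r, one_smul] at this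
  have zero_of : ∀ v : Vm, v ∈ Z → v ∈ Z' → v = 0 := fun v h1 h2 => hZ.disj h1 h2
  have c3 : ∀ a' ∈ W', B r a' = 0 → B r₂ a' = 0 → a' ∈ Z' := by
    intro a' ha' h1 h3
    have h4 := Z'.sub_mem (c1 a' ha' h1) (c2 a' ha' h3)
    have h5 : a' + B z₁ a' • r - (a' + B z₂ a' • r₂) = B z₁ a' • r + (-(B z₂ a')) • r₂ := by module
    rw [h5] at h4
    have h6 := zero_of _ (Z.add_mem (Z.smul_mem _ hrZ) (Z.smul_mem _ hr₂Z)) h4
    have h7 := (hind _ _ h6).1
    have h8 := c1 a' ha' h1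
    rwa [h7, zero_smul, add_zero] at h8
  obtain ⟨a₁, ha₁, p1, p2⟩ := h.exists_dual_pair hr hr₂ hind
  obtain ⟨a₂, ha₂, p3, p4⟩ := h.exists_dual_pair hr₂ hr (ind_symm hind)
  set l := B z₁ a₁ with hl
  set μ := B z₂ a₂ with hμ
  have hp : a₁ + l • r ∈ Z' := c1 a₁ ha₁ p1
  have hp₂ : a₂ + μ • r₂ ∈ Z' := c2 a₂ ha₂ p3
  have e1 : l = μ := by
    have h3 := hZ.ts' _ hp _ hp₂
    have q1 : B a₁ r₂ = -1 := by rw [form_swap, p2]
    simp only [form_add_left, form_add_right, form_smul_left, form_smul_right, h.ts' a₁ ha₁ a₂ ha₂,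
      h.ts r hr r₂ hr₂, p4, q1] at h3
    linear_combination h3
  have e2 : l + μ = 0 := by
    have h3 := claim r₂ hr₂ hr₂Z a₂ ha₂ p3 _ hp
    have q1 : B a₁ r₂ = -1 := by rw [form_swap, p2]
    simp only [form_add_left, form_smul_left, h.ts' a₁ ha₁ a₂ ha₂, h.ts r hr r₂ hr₂, p4, q1] at h3
    have h4 := Z'.add_mem h3 hp₂
    have h5 : (-1 + l * 0) • a₂ + (0 + l * 1) • r₂ + (a₂ + μ • r₂) = (l + μ) • r₂ := by module
    rw [h5] at h4
    have h6 := zero_of _ (Z.smul_mem _ hr₂Z) h4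
    exact (smul_eq_zero.mp h6).resolve_right hr₂0
  have hl0 : l = 0 := by
    have : 2 * l = 0 := by linear_combination e1 + e2
    exact (mul_eq_zero.mp this).resolve_left h2
  have hμ0 : μ = 0 := by rw [← e1, hl0]
  rw [hl0, zero_smul, add_zero] at hp
  rw [hμ0, zero_smul, add_zero] at hp₂
  intro w' hw'
  have h3 := c3 (w' - B r₂ w' • a₁ - B r w' • a₂)
    (W'.sub_mem (W'.sub_mem hw' (W'.smul_mem _ ha₁)) (W'.smul_mem _ ha₂))
    (by simp only [form_sub_right, form_smul_right, p1, p4]; ring)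
    (by simp only [form_sub_right, form_smul_right, p2, p3]; ring)
  have h4 := Z'.add_mem (Z'.add_mem h3 (Z'.smul_mem (B r₂ w') hp)) (Z'.smul_mem (B r w') hp₂)
  have h5 : w' - B r₂ w' • a₁ - B r w' • a₂ + B r₂ w' • a₁ + B r w' • a₂ = w' := by abel
  rwa [h5] at h4

/-- (C): a maximal totally singular subspace other than `W`, `W'` is moved by a root element. -/
theorem exists_moved {W W' Y Y' : Submodule F Vm} (h : TSPair W W') (hY : TSPair Y Y')
    (hYW : ¬ Y ≤ W) (hYW' : ¬ Y ≤ W') (hdim : 3 ≤ finrank F W) :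
    ∃ w ∈ W, ∃ w' ∈ W', B w w' = 0 ∧
      ∃ y ∈ Y, (eich w w' : Matrix (Fin m ⊕ Fin m) (Fin m ⊕ Fin m) F) *ᵥ y ∉ Y := by
  by_contra hcon
  push Not at hcon
  obtain ⟨y, hy, hyW, hyW'⟩ : ∃ y ∈ Y, y ∉ W ∧ y ∉ W' := by
    by_contra hc
    push Not at hc
    rcases le_or_le_of_forall_mem_or Y W W' (fun a ha => by
      by_cases h1 : a ∈ W
      · exact Or.inl h1
      · exact Or.inr (hc a ha h1)) with h1 | h1
    · exact hYW h1
    · exact hYW' h1
  obtain ⟨a, ha, a', ha', rfl⟩ := h.sum y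
  have ha0 : a ≠ 0 := by
    rintro rfl
    apply hyW'
    rw [zero_add]; exact ha'
  have ha'0 : a' ≠ 0 := by
    rintro rfl
    apply hyW
    rw [add_zero]; exact ha
  have hmem : ∀ w ∈ W, ∀ w' ∈ W', B w w' = 0 → B a' w • w' + B a w' • w ∈ Y := by
    intro w hw w' hw' hww
    have h1 := hcon w hw w' hw' hww _ hy
    rw [eich_mulVec hww, add_assoc, form_add_left, form_add_left, h.ts a ha w hw,
      h.ts' a' ha' w' hw', zero_add, add_zero] at h1
    exact (Y.add_mem_iff_right hy).mp h1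
  obtain ⟨w, hw, hk, hwa⟩ := exists_mem_ker_notMem W (Submodule.span F {a}) ![formDual a']
    (by
      have := finrank_span_singleton (K := F) ha0
      omega)
  have hwa' : B w a' = 0 := by simpa using hk 0
  have ha'w : B a' w = 0 := by rw [form_swap, hwa', neg_zero]
  have hind := ind_of_notMem_span ha0 hwa
  -- `w ∈ Y`
  obtain ⟨w', hw', p1, p2⟩ := h.exists_dual_pair hw ha (ind_symm hind)
  have hwY : w ∈ Y := by
    have := hmem w hw w' hw' p1
    rwa [ha'w, zero_smul, zero_add, p2, one_smul] at this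
  -- a vector `v' ∈ W'` of `Y` not orthogonal to `w`
  obtain ⟨v', hv', p3, p4⟩ := h.exists_dual_pair ha hw hind
  have hv'a' : v' ∉ Submodule.span F {a'} := by
    intro hmem'
    obtain ⟨c, hc⟩ := Submodule.mem_span_singleton.mp hmem'
    rw [← hc, form_smul_right, hwa', mul_zero] at p4
    exact zero_ne_one p4
  obtain ⟨v, hv, p5, p6⟩ := h.symm.exists_dual_pair hv' ha' (ind_symm (ind_of_notMem_span ha'0 hv'a'))
  have hv'Y : v' ∈ Y := by
    have := hmem v hv v' hv' (by rw [form_swap, p5, neg_zero])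
    rwa [p6, one_smul, p3, zero_smul, add_zero] at this
  have := hY.ts w hwY v' hv'Y
  rw [p4] at this
  exact one_ne_zero this

end TSPair

end Cfsg.Agent.Lib.Helper29
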