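import Mathlib
import Cfsg.Prelude.Def_GeometricClasses
import Cfsg.Agent.Lib.Helper29.SpPair1

/-!
Dual bases of a pair of complementary totally singular subspaces, the swapping isometry, and the
maximality of the stabiliser of the pair.
-/

set_option autoImplicit false

namespace Cfsg.Agent.Lib.Helper29

open Matrix Module
open Cfsg.Agent.H5Symp (form_add_left form_add_right form_smul_left form_smul_right form_neg_left
  form_neg_right form_sub_left form_sub_right form_zero_left form_zero_right form_swap form_self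
  form_single_inl form_single_inr)

variable {m : ℕ} {F : Type*} [Field F]

local notation "Vm" => (Fin m ⊕ Fin m → F)
local notation "B" => Cfsg.sympForm m F

namespace TSPair

theorem exists_basis {W W' : Submodule F Vm} (h : TSPair W W') :
    ∃ (k : ℕ) (e f : Fin k → Vm), (∀ i, e i ∈ W) ∧ (∀ i, f i ∈ W') ∧
      (∀ i j, B (e i) (f j) = if i = j then 1 else 0) ∧
      (∀ x : Vm, x = ∑ i, (B x (f i) • e i - B x (e i) • f i)) := by
  classical
  let b := Module.finBasis F W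
  let e : Fin (finrank F W) → Vm := fun i => (b i : Vm)
  have he : ∀ i, e i ∈ W := fun i => (b i).2
  have hli : LinearIndependent F e := b.linearIndependent.map' W.subtype (Submodule.ker_subtype W)
  have hex : ∀ j, ∃ a' ∈ W', (∀ a ∈ Submodule.span F (e '' (Set.univ \ {j})), B a a' = 0) ∧
      B (e j) a' = 1 := by
    intro j
    apply h.exists_dual _ _ (he j) (linearIndependent_iff_notMem_span.mp hli j)
    rw [Submodule.span_le]
    rintro _ ⟨i, -, rfl⟩
    exact he i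
  choose f hf hf0 hf1 using hex
  have hef : ∀ i j, B (e i) (f j) = if i = j then 1 else 0 := by
    intro i j
    by_cases hij : i = j
    · subst hij; rw [if_pos rfl, hf1]
    · rw [if_neg hij]
      exact hf0 j _ (Submodule.subset_span ⟨i, ⟨trivial, hij⟩, rfl⟩)
  have hfe : ∀ i j, B (f i) (e j) = if i = j then -1 else 0 := by
    intro i j
    rw [form_swap, hef]
    by_cases hij : i = j
    · subst hij; simp
    · rw [if_neg hij, if_neg (Ne.symm hij), neg_zero]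
  have repr_eq : ∀ (a : Vm) (ha : a ∈ W), a = ∑ i, b.repr ⟨a, ha⟩ i • e i := by
    intro a ha
    have h6 : (⟨a, ha⟩ : W) = ∑ i, b.repr ⟨a, ha⟩ i • b i := (b.sum_repr _).symm
    have h7 := congrArg (W.subtype) h6
    rw [map_sum] at h7
    exact h7
  refine ⟨_, e, f, he, hf, hef, fun x => ?_⟩
  obtain ⟨w, hw, w', hw', rfl⟩ := h.sum x
  have h1 : w = ∑ i, B w (f i) • e i := by
    have h3 := repr_eq w hw
    have h4 : ∀ j, B w (f j) = b.repr ⟨w, hw⟩ j := by
      intro j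
      rw [← formDual_apply (f j) w]
      conv_lhs => rw [h3]
      rw [map_sum]
      simp only [map_smul, formDual_apply, hef, smul_eq_mul, mul_ite, mul_one, mul_zero,
        Finset.sum_ite_eq', Finset.mem_univ, if_true]
    simp only [h4]
    exact h3
  have h2 : w' = - ∑ i, B w' (e i) • f i := by
    rw [eq_neg_iff_add_eq_zero]
    have hmem' : w' + ∑ i, B w' (e i) • f i ∈ W' :=
      W'.add_mem hw' (Submodule.sum_mem _ fun i _ => W'.smul_mem _ (hf i))
    apply h.disj _ hmem'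
    apply h.mem_of_perp
    intro a ha
    have h5 : ∀ j, B (w' + ∑ i, B w' (e i) • f i) (e j) = 0 := by
      intro j
      rw [form_add_left, ← formDual_apply (e j) (∑ i, _), map_sum]
      simp only [map_smul, formDual_apply, hfe, smul_eq_mul, mul_ite, mul_neg, mul_one, mul_zero,
        Finset.sum_ite_eq', Finset.mem_univ, if_true]
      ring
    have h7 := repr_eq a ha
    rw [h7, ← formDual_apply _ (∑ i, _), map_sum]
    apply Finset.sum_eq_zero
    intro i _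
    rw [map_smul, formDual_apply, form_swap, h5, neg_zero, smul_zero]
  have h3 : ∀ i, B (w + w') (f i) = B w (f i) := fun i => by
    rw [form_add_left, h.ts' w' hw' _ (hf i), add_zero]
  have h4 : ∀ i, B (w + w') (e i) = B w' (e i) := fun i => by
    rw [form_add_left, h.ts w hw _ (he i), zero_add]
  simp only [h3, h4, Finset.sum_sub_distrib]
  rw [← h1, sub_eq_add_neg, ← h2]

theorem exists_swap {W W' : Submodule F Vm} (h : TSPair W W') :
    ∃ s ∈ Cfsg.spGL m F,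
      (∀ w ∈ W, (s : Matrix (Fin m ⊕ Fin m) (Fin m ⊕ Fin m) F) *ᵥ w ∈ W') ∧
      (∀ w' ∈ W', (s : Matrix (Fin m ⊕ Fin m) (Fin m ⊕ Fin m) F) *ᵥ w' ∈ W) := by
  classical
  obtain ⟨k, e, f, he, hf, hef, hexp⟩ := h.exists_basis
  have hfe : ∀ i j, B (f i) (e j) = if i = j then -1 else 0 := by
    intro i j
    rw [form_swap, hef]
    by_cases hij : i = j
    · subst hij; simp
    · rw [if_neg hij, if_neg (Ne.symm hij), neg_zero]
  have hee : ∀ i j, B (e i) (e j) = 0 := fun i j => h.ts _ (he i) _ (he j)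
  have hff : ∀ i j, B (f i) (f j) = 0 := fun i j => h.ts' _ (hf i) _ (hf j)
  let S : Vm →ₗ[F] Vm :=
    ∑ i, ((formDual (f i)).smulRight (f i) + (formDual (e i)).smulRight (e i))
  have hS : ∀ x, S x = ∑ i, (B x (f i) • f i + B x (e i) • e i) := by
    intro x
    simp [S, LinearMap.sum_apply]
  have hSz : ∀ x z, B (S x) z = ∑ i, (B x (f i) * B (f i) z + B x (e i) * B (e i) z) := by
    intro x z
    rw [hS, ← formDual_apply z (∑ i, _), map_sum]
    simp only [map_add, map_smul, formDual_apply, smul_eq_mul]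
  have hSf : ∀ y i, B (S y) (f i) = B y (e i) := by
    intro y i
    rw [hSz]
    simp only [hff, hef, mul_zero, zero_add, mul_ite, mul_one, Finset.sum_ite_eq', Finset.mem_univ,
      if_true]
  have hSe : ∀ y i, B (S y) (e i) = - B y (f i) := by
    intro y i
    rw [hSz]
    simp only [hee, hfe, mul_zero, add_zero, mul_ite, mul_neg, mul_one, Finset.sum_ite_eq',
      Finset.mem_univ, if_true]
  have hiso : ∀ x y, B (S x) (S y) = B x y := by
    intro x y
    rw [hSz]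
    have h1 : B x y = ∑ i, (B x (f i) * B (e i) y - B x (e i) * B (f i) y) := by
      rw [← formDual_apply y x]
      conv_lhs => rw [hexp x]
      rw [map_sum]
      simp only [map_sub, map_smul, formDual_apply, smul_eq_mul]
    rw [h1]
    apply Finset.sum_congr rfl
    intro i _
    rw [form_swap (f i) (S y), form_swap (e i) (S y), hSf, hSe, form_swap (e i) y,
      form_swap (f i) y]
    ring
  have hinj : Function.Injective S := by
    rw [← LinearMap.ker_eq_bot, LinearMap.ker_eq_bot']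
    intro x hx
    by_contra hne
    obtain ⟨z, hz⟩ := exists_form_ne_zero hne
    apply hz
    rw [← hiso, hx, form_zero_left]
  refine ⟨ofLE (LinearEquiv.ofInjectiveEndo S hinj), ?_, ?_, ?_⟩
  · rw [mem_spGL_iff]
    intro u v
    rw [ofLE_mulVec, ofLE_mulVec]
    exact hiso u v
  · intro w hw
    rw [ofLE_mulVec]
    show S w ∈ W'
    rw [hS]
    refine Submodule.sum_mem _ fun i _ => ?_
    rw [h.ts w hw _ (he i), zero_smul, add_zero]
    exact W'.smul_mem _ (hf i)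
  · intro w hw
    rw [ofLE_mulVec]
    show S w ∈ W
    rw [hS]
    refine Submodule.sum_mem _ fun i _ => ?_
    rw [h.ts' w hw _ (hf i), zero_smul, zero_add]
    exact W.smul_mem _ (he i)

theorem eich_symm {a a' : Vm} (h : B a a' = 0) : eich a' a = eich a a' := by
  apply gl_ext
  intro x
  rw [eich_mulVec h, eich_mulVec (by rw [form_swap, h, neg_zero])]
  abel

variable (M : Subgroup (GL (Fin m ⊕ Fin m) F))

/-- If all vectors of `W` are centres of `M`, then `M` contains `Sp`. -/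
theorem sp_le_of_centres {W W' : Submodule F Vm} (h : TSPair W W') (hMS : M ≤ Cfsg.spGL m F)
    (hdim : 1 ≤ finrank F W)
    {s : GL (Fin m ⊕ Fin m) F} (hs : s ∈ M)
    (hsW' : ∀ w' ∈ W', (s : Matrix (Fin m ⊕ Fin m) (Fin m ⊕ Fin m) F) *ᵥ w' ∈ W)
    (hc : ∀ w ∈ W, w ∈ centres M) : Cfsg.spGL m F ≤ M := by
  have hc' : ∀ w' ∈ W', w' ∈ centres M := by
    intro w' hw'
    have := centres_mulVec hMS (M.inv_mem hs) (hc _ (hsW' w' hw'))
    rwa [gl_inv_mulVec] at this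
  obtain ⟨w₀, hw₀, -, hw₀0⟩ := exists_mem_ker_notMem W ⊥ (k := 0) (fun i => i.elim0)
    (by simp; omega)
  have hw₀0' : w₀ ≠ 0 := by simpa using hw₀0
  apply spGL_le_of_stv
  apply centres_eq_univ_of hMS hw₀0'
  intro z hz
  obtain ⟨w, hw, w', hw', rfl⟩ := h.sum z
  rw [form_add_left, h.ts w hw w₀ hw₀, zero_add] at hz
  by_cases hww : B w w' = 0
  · have h1 : (w + w₀) + w' ∈ centres M := by
      apply centres_add hMS (hc _ (W.add_mem hw hw₀)) (hc' w' hw')
      rw [form_add_left, hww, zero_add, form_swap]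
      exact neg_ne_zero.mpr hz
    have h2 := centres_add hMS h1 (centres_smul (hc w₀ hw₀) (-1)) (by
      rw [form_smul_right, form_add_left, form_add_left, h.ts w hw w₀ hw₀, form_self]
      simpa using hz)
    have h3 : w + w₀ + w' + (-1 : F) • w₀ = w + w' := by module
    rwa [h3] at h2
  · exact centres_add hMS (hc w hw) (hc' w' hw') hww

theorem main {W W' : Submodule F Vm} (h : TSPair W W') (h2 : (2 : F) ≠ 0)
    (hdim : 4 ≤ finrank F W) (hdim' : 4 ≤ finrank F W') (hMS : M ≤ Cfsg.spGL m F)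
    (hL : ∀ a ∈ W, ∀ a' ∈ W', B a a' = 0 → eich a a' ∈ M)
    {s : GL (Fin m ⊕ Fin m) F} (hs : s ∈ M)
    (hsW : ∀ w ∈ W, (s : Matrix (Fin m ⊕ Fin m) (Fin m ⊕ Fin m) F) *ᵥ w ∈ W')
    (hsW' : ∀ w' ∈ W', (s : Matrix (Fin m ⊕ Fin m) (Fin m ⊕ Fin m) F) *ᵥ w' ∈ W)
    (hne : ¬ Cfsg.spGL m F ≤ M) {g : GL (Fin m ⊕ Fin m) F} (hg : g ∈ M) :
    ((∀ w ∈ W, (g : Matrix (Fin m ⊕ Fin m) (Fin m ⊕ Fin m) F) *ᵥ w ∈ W) ∧
      (∀ w' ∈ W', (g : Matrix (Fin m ⊕ Fin m) (Fin m ⊕ Fin m) F) *ᵥ w' ∈ W')) ∨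
    ((∀ w ∈ W, (g : Matrix (Fin m ⊕ Fin m) (Fin m ⊕ Fin m) F) *ᵥ w ∈ W') ∧
      (∀ w' ∈ W', (g : Matrix (Fin m ⊕ Fin m) (Fin m ⊕ Fin m) F) *ᵥ w' ∈ W)) := by
  have hL' : ∀ a' ∈ W', ∀ a ∈ W, B a' a = 0 → eich a' a ∈ M := by
    intro a' ha' a ha haa
    have h1 : B a a' = 0 := by rw [form_swap, haa, neg_zero]
    rw [eich_symm h1]
    exact hL a ha a' ha' h1
  have hNQ : ∀ x ∈ M, (∀ w ∈ W, (x : Matrix (Fin m ⊕ Fin m) (Fin m ⊕ Fin m) F) *ᵥ w = w) → x = 1 := by
    intro x hx hxW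
    by_contra hx1
    exact hne (h.sp_le_of_centres M hMS (by omega) hs hsW'
      (h.centres_of_fix M h2 hMS hL (by omega) hx hx1 hxW))
  have hNQ' : ∀ x ∈ M, (∀ w ∈ W', (x : Matrix (Fin m ⊕ Fin m) (Fin m ⊕ Fin m) F) *ᵥ w = w) → x = 1 := by
    intro x hx hxW
    by_contra hx1
    exact hne (h.symm.sp_le_of_centres M hMS (by omega) hs hsW
      (h.symm.centres_of_fix M h2 hMS hL' (by omega) hx hx1 hxW))
  have B1 := fun (x : GL (Fin m ⊕ Fin m) F) (hx : x ∈ M) =>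
    h.stab_of_stab M h2 hMS hL hNQ (by omega) hx
  have B1' := fun (x : GL (Fin m ⊕ Fin m) F) (hx : x ∈ M) =>
    h.symm.stab_of_stab M h2 hMS hL' hNQ' (by omega) hx
  have hY := h.map (hMS hg)
  by_cases hYW : glMap g W ≤ W
  · left
    have h1 : ∀ w ∈ W, (g : Matrix (Fin m ⊕ Fin m) (Fin m ⊕ Fin m) F) *ᵥ w ∈ W :=
      fun w hw => hYW (mulVec_mem_glMap g W hw)
    exact ⟨h1, B1 g hg h1⟩
  by_cases hYW' : glMap g W ≤ W'
  · right
    have h1 : ∀ w ∈ W, (g : Matrix (Fin m ⊕ Fin m) (Fin m ⊕ Fin m) F) *ᵥ w ∈ W' :=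
      fun w hw => hYW' (mulVec_mem_glMap g W hw)
    refine ⟨h1, fun w' hw' => ?_⟩
    have h3 := B1 (s * g) (M.mul_mem hs hg) (fun w hw => by
      rw [gl_mul_mulVec]; exact hsW' _ (h1 w hw)) w' hw'
    rw [gl_mul_mulVec] at h3
    obtain ⟨a, ha, a', ha', e⟩ := h.sum ((g : Matrix (Fin m ⊕ Fin m) (Fin m ⊕ Fin m) F) *ᵥ w')
    rw [e, Matrix.mulVec_add] at h3
    have h4 := (W'.add_mem_iff_right (hsW a ha)).mp h3
    have h5 := h.disj (hsW' a' ha') h4
    have h6 : a' = 0 := by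
      by_contra hne'
      exact gl_mulVec_ne_zero s hne' h5
    rw [e, h6, add_zero]
    exact ha
  exfalso
  obtain ⟨w, hw, w', hw', hww, y, hy, hyY⟩ := h.exists_moved hY hYW hYW' (by omega)
  have hE := hL w hw w' hw' hww
  set k := g⁻¹ * eich w w' * g with hk
  have hkM : k ∈ M := M.mul_mem (M.mul_mem (M.inv_mem hg) hE) hg
  have hgS := (mem_spGL_iff g).mp (hMS hg)
  -- `k` does not stabilise `W`
  have hkW : ¬ ∀ w ∈ W, (k : Matrix (Fin m ⊕ Fin m) (Fin m ⊕ Fin m) F) *ᵥ w ∈ W := by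
    intro hcon
    apply hyY
    have h1 := hcon _ ((mem_glMap g W y).mp hy)
    rw [hk, gl_mul_mulVec, gl_mul_mulVec, gl_mulVec_inv] at h1
    exact (mem_glMap g W _).mpr h1
  -- two independent vectors of `W` fixed by `k`
  have hfix : ∀ r : Vm, B r (((g⁻¹ : GL (Fin m ⊕ Fin m) F) : Matrix (Fin m ⊕ Fin m) (Fin m ⊕ Fin m) F) *ᵥ w) = 0 →
      B r (((g⁻¹ : GL (Fin m ⊕ Fin m) F) : Matrix (Fin m ⊕ Fin m) (Fin m ⊕ Fin m) F) *ᵥ w') = 0 →
      (k : Matrix (Fin m ⊕ Fin m) (Fin m ⊕ Fin m) F) *ᵥ r = r := by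
    intro r h1 h3
    rw [← hgS, gl_mulVec_inv] at h1 h3
    rw [hk, gl_mul_mulVec, gl_mul_mulVec, eich_mulVec hww, h1, h3]
    simp
  obtain ⟨r, hr, hrk, hr0⟩ := exists_mem_ker_notMem W ⊥
    ![formDual (((g⁻¹ : GL (Fin m ⊕ Fin m) F) : Matrix (Fin m ⊕ Fin m) (Fin m ⊕ Fin m) F) *ᵥ w),
      formDual (((g⁻¹ : GL (Fin m ⊕ Fin m) F) : Matrix (Fin m ⊕ Fin m) (Fin m ⊕ Fin m) F) *ᵥ w')]
    (by simp; omega)
  have hr0' : r ≠ 0 := by simpa using hr0
  obtain ⟨r₂, hr₂, hr₂k, hr₂r⟩ := exists_mem_ker_notMem W (Submodule.span F {r})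
    ![formDual (((g⁻¹ : GL (Fin m ⊕ Fin m) F) : Matrix (Fin m ⊕ Fin m) (Fin m ⊕ Fin m) F) *ᵥ w),
      formDual (((g⁻¹ : GL (Fin m ⊕ Fin m) F) : Matrix (Fin m ⊕ Fin m) (Fin m ⊕ Fin m) F) *ᵥ w')]
    (by
      have := finrank_span_singleton (K := F) hr0'
      omega)
  have hkr : (k : Matrix (Fin m ⊕ Fin m) (Fin m ⊕ Fin m) F) *ᵥ r = r :=
    hfix r (by simpa using hrk 0) (by simpa using hrk 1)
  have hkr₂ : (k : Matrix (Fin m ⊕ Fin m) (Fin m ⊕ Fin m) F) *ᵥ r₂ = r₂ :=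
    hfix r₂ (by simpa using hr₂k 0) (by simpa using hr₂k 1)
  have hZ := h.map (hMS hkM)
  have hrZ : r ∈ glMap k W := by
    have := mulVec_mem_glMap k W hr
    rwa [hkr] at this
  have hr₂Z : r₂ ∈ glMap k W := by
    have := mulVec_mem_glMap k W hr₂
    rwa [hkr₂] at this
  have hB1Z : ∀ x ∈ M, (∀ z ∈ glMap k W, (x : Matrix (Fin m ⊕ Fin m) (Fin m ⊕ Fin m) F) *ᵥ z ∈ glMap k W) →
      ∀ z' ∈ glMap k W', (x : Matrix (Fin m ⊕ Fin m) (Fin m ⊕ Fin m) F) *ᵥ z' ∈ glMap k W' := by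
    intro x hx hxZ z' hz'
    have h1 := B1 (k⁻¹ * x * k) (M.mul_mem (M.mul_mem (M.inv_mem hkM) hx) hkM) (by
      intro w hw
      rw [gl_mul_mulVec, gl_mul_mulVec]
      exact (mem_glMap k W _).mp (hxZ _ (mulVec_mem_glMap k W hw))) _ ((mem_glMap k W' z').mp hz')
    rw [gl_mul_mulVec, gl_mul_mulVec, gl_mulVec_inv] at h1
    exact (mem_glMap k W' _).mpr h1
  have hle := h.le_of_common M hZ h2 hL hB1Z hr hrZ hr₂ hr₂Z (ind_of_notMem_span hr0' hr₂r)
  have hkW' : ∀ w' ∈ W', (k : Matrix (Fin m ⊕ Fin m) (Fin m ⊕ Fin m) F) *ᵥ w' ∈ W' := by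
    intro w' hw'
    apply h.symm.mem_of_perp
    intro a' ha'
    exact hZ.ts' _ (hle ha') _ (mulVec_mem_glMap k W' hw')
  exact hkW (B1' k hkM hkW')

end TSPair

end Cfsg.Agent.Lib.Helper29
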