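import Mathlib
import Cfsg.Prelude.Def_GeometricClasses
import Cfsg.Agent.Lib.Helper29.SuBasic

/-!
Over the field with four elements, the stabiliser in `SU_n(2)` of an orthogonal decomposition into
non-degenerate 2-spaces is not maximal: it preserves the set of non-isotropic vectors of the
members.
-/

set_option autoImplicit false

namespace Cfsg.Agent.Lib.Helper29

open Matrix Module
open Cfsg.Agent.H6 (hermForm_add_left hermForm_smul_left hermForm_smul_right hermForm_add_right
  hermForm_conj)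

theorem span_two {F V : Type*} [Field F] [AddCommGroup V] [Module F V] (W : Submodule F V)
    (hW : finrank F W = 2) {a b : V} (ha : a ∈ W) (hb : b ∈ W) (ha0 : a ≠ 0)
    (hb' : ∀ c : F, b ≠ c • a) : ∀ x ∈ W, ∃ α β : F, x = α • a + β • b := by
  have hli : LinearIndependent F ![a, b] := by
    rw [LinearIndependent.pair_iff]
    intro s t hst
    have ht : t = 0 := by
      by_contra hne
      apply hb' (-(t⁻¹ * s))
      have h2 : t • b = -(s • a) := eq_neg_of_add_eq_zero_right hst
      have h3 : b = t⁻¹ • (t • b) := by rw [smul_smul, inv_mul_cancel₀ hne, one_smul]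
      rw [h3, h2, smul_neg, smul_smul, neg_smul]
    refine ⟨?_, ht⟩
    rw [ht, zero_smul, add_zero] at hst
    exact (smul_eq_zero.1 hst).resolve_right ha0
  have hfr : finrank F (Submodule.span F (Set.range ![a, b])) = 2 := by
    rw [finrank_span_eq_card hli]; simp
  have hle : Submodule.span F (Set.range ![a, b]) ≤ W := by
    rw [Submodule.span_le]
    rintro _ ⟨i, rfl⟩
    fin_cases i
    · exact ha
    · exact hb
  haveI : FiniteDimensional F W := FiniteDimensional.of_finrank_pos (by omega)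
  have heq := Submodule.eq_of_le_of_finrank_le hle (by rw [hfr, hW])
  intro k hk
  have hk' : k ∈ Submodule.span F (Set.range ![a, b]) := by rw [heq]; exact hk
  have hr : Set.range ![a, b] = {a, b} := by
    ext x
    simp only [Set.mem_range, Set.mem_insert_iff, Set.mem_singleton_iff]
    constructor
    · rintro ⟨i, rfl⟩
      fin_cases i
      · left; rfl
      · right; rfl
    · rintro (rfl | rfl)
      · exact ⟨0, rfl⟩
      · exact ⟨1, rfl⟩
  rw [hr] at hk'
  obtain ⟨x, y, hxy⟩ := Submodule.mem_span_pair.1 hk'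
  exact ⟨x, y, hxy.symm⟩

variable {F : Type*} [Field F] [Fintype F] {n : ℕ}

local notation "H" => Cfsg.hermForm n F 2

theorem two_eq_zero_of_card (hF : Fintype.card F = 2 ^ 2) : (2 : F) = 0 := by
  have h := Nat.cast_card_eq_zero F
  rw [hF] at h
  have h4 : (2 : F) * 2 = 0 := by
    have : ((2 ^ 2 : ℕ) : F) = 2 * 2 := by norm_num
    rw [← this]; exact h
  exact mul_self_eq_zero.1 h4

theorem norm_eq_one_of_card (hF : Fintype.card F = 2 ^ 2) {x : F} (hx : x ≠ 0) : x * x ^ 2 = 1 := by
  have h := FiniteField.pow_card_sub_one_eq_one x hx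
  rw [hF] at h
  have : x * x ^ 2 = x ^ (2 ^ 2 - 1) := by norm_num; ring
  rw [this, h]

theorem herm_self_eq_one (hF : Fintype.card F = 2 ^ 2) {a : Fin n → F} (ha : H a a ≠ 0) :
    H a a = 1 := by
  have h := herm_self_pow hF a
  have h2 : H a a * H a a = H a a * 1 := by rw [mul_one, ← pow_two]; exact h
  exact mul_left_cancel₀ ha h2

theorem exists_nonisotropic_mem (hF : Fintype.card F = 2 ^ 2) (W : Submodule F (Fin n → F))
    (hW : W ≠ ⊥) (hnd : Cfsg.Geo.IsNondegenerateOn (Cfsg.hermForm n F 2) W) :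
    ∃ a ∈ W, H a a ≠ 0 := by
  by_contra hcon
  push Not at hcon
  obtain ⟨w, hw, hw0⟩ := Submodule.exists_mem_ne_zero_of_ne_bot hW
  obtain ⟨⟨x, hx, hxw⟩, -⟩ := hnd w hw hw0
  obtain ⟨μ, hμ⟩ := exists_pow_q_ne hF
  have two := two_eq_zero_of_card hF
  have h1 := hcon ((μ / H x w) • x + w) (W.add_mem (W.smul_mem _ hx) hw)
  simp only [hermForm_add_left, hermForm_add_right hF, hermForm_smul_left, hermForm_smul_right,
    hcon x hx, hcon w hw] at h1
  rw [← hermForm_conj hF x w] at h1
  apply hμ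
  have h2 : μ / H x w * H x w = μ := div_mul_cancel₀ _ hxw
  have h3 : (μ / H x w) ^ 2 * (H x w) ^ 2 = μ ^ 2 := by rw [← mul_pow, h2]
  linear_combination h1 - h2 - h3 - μ * two

theorem exists_onb (hF : Fintype.card F = 2 ^ 2) (W : Submodule F (Fin n → F))
    (hW : finrank F W = 2) (hnd : Cfsg.Geo.IsNondegenerateOn (Cfsg.hermForm n F 2) W) :
    ∃ a ∈ W, ∃ b ∈ W, H a a = 1 ∧ H b b = 1 ∧ H a b = 0 ∧ H b a = 0 ∧
      ∀ v ∈ W, H v v ≠ 0 → (∃ l : F, v = l • a) ∨ (∃ l : F, v = l • b) := by
  have two := two_eq_zero_of_card hF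
  have hW0 : W ≠ ⊥ := by
    rintro rfl
    rw [finrank_bot] at hW
    omega
  obtain ⟨a, ha, haa⟩ := exists_nonisotropic_mem hF W hW0 hnd
  have haa1 := herm_self_eq_one hF haa
  have ha0 : a ≠ 0 := by
    rintro rfl
    exact haa (herm_zero_left (by norm_num) 0)
  have hnle : ¬ W ≤ Submodule.span F {a} := by
    intro hle
    have h1 := Submodule.finrank_mono hle
    rw [finrank_span_singleton ha0, hW] at h1
    omega
  obtain ⟨w, hw, hwa⟩ := SetLike.not_le_iff_exists.1 hnle
  set b : Fin n → F := w - (H w a) • a with hb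
  have hbW : b ∈ W := W.sub_mem hw (W.smul_mem _ ha)
  have hba : H b a = 0 := by
    rw [hb, herm_sub_left, hermForm_smul_left, haa1, mul_one, sub_self]
  have hab : H a b = 0 := herm_eq_zero_symm hF hba
  have hb' : ∀ c : F, b ≠ c • a := by
    intro c hc
    apply hwa
    rw [Submodule.mem_span_singleton]
    refine ⟨c + H w a, ?_⟩
    rw [add_smul, ← hc, hb]; abel
  have hb0 : b ≠ 0 := by
    intro h
    exact hb' 0 (by rw [h, zero_smul])
  have hspan := span_two W hW ha hbW ha0 hb'
  have hbb : H b b ≠ 0 := by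
    intro hbb
    obtain ⟨⟨x, hx, hxb⟩, -⟩ := hnd b hbW hb0
    obtain ⟨α, β, rfl⟩ := hspan x hx
    apply hxb
    rw [hermForm_add_left, hermForm_smul_left, hermForm_smul_left, hab, hbb, mul_zero, mul_zero,
      add_zero]
  have hbb1 := herm_self_eq_one hF hbb
  refine ⟨a, ha, b, hbW, haa1, hbb1, hab, hba, ?_⟩
  intro v hv hvv
  obtain ⟨α, β, rfl⟩ := hspan v hv
  by_cases hα : α = 0
  · right
    exact ⟨β, by rw [hα, zero_smul, zero_add]⟩
  · left
    refine ⟨α, ?_⟩
    by_cases hβ : β = 0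
    · rw [hβ, zero_smul, add_zero]
    · exfalso
      apply hvv
      simp only [hermForm_add_left, hermForm_add_right hF, hermForm_smul_left, hermForm_smul_right,
        haa1, hbb1, hab, hba]
      have e1 := norm_eq_one_of_card hF hα
      have e2 := norm_eq_one_of_card hF hβ
      linear_combination e1 + e2 + two

/-- the elements of `S` preserving a set of vectors -/
def PStab (S : Subgroup (GL (Fin n) F)) (P : Set (Fin n → F)) : Subgroup (GL (Fin n) F) where
  carrier := {g | g ∈ S ∧ ∀ v, v ∈ P ↔ (g : Matrix (Fin n) (Fin n) F) *ᵥ v ∈ P}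
  mul_mem' := fun {a b} ha hb => ⟨S.mul_mem ha.1 hb.1, fun v => by
    rw [gl_mul_mulVec, ← ha.2, ← hb.2]⟩
  one_mem' := ⟨S.one_mem, fun v => by rw [Units.val_one, one_mulVec]⟩
  inv_mem' := fun {a} ha => ⟨S.inv_mem ha.1, fun v => by
    rw [ha.2 (((a⁻¹ : GL (Fin n) F) : Matrix (Fin n) (Fin n) F) *ᵥ v), gl_mulVec_inv]⟩

theorem mem_PStab {S : Subgroup (GL (Fin n) F)} {P : Set (Fin n → F)} {g : GL (Fin n) F} :
    g ∈ PStab S P ↔ g ∈ S ∧ ∀ v, v ∈ P ↔ (g : Matrix (Fin n) (Fin n) F) *ᵥ v ∈ P := Iff.rfl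

end Cfsg.Agent.Lib.Helper29
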