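import Mathlib
import Cfsg.Prelude.Def_GeometricClasses
import Cfsg.Agent.Lib.Helper29.SuImp2

/-!
The stabiliser in `SU_n(2)` of an orthogonal decomposition into non-degenerate 2-spaces is not
maximal.
-/

set_option autoImplicit false

namespace Cfsg.Agent.Lib.Helper29

open Matrix Module
open Cfsg.Agent.H6 (hermForm_add_left hermForm_smul_left hermForm_smul_right hermForm_add_right
  hermForm_conj)

variable {F : Type*} [Field F] [Fintype F] {n : ℕ}

local notation "H" => Cfsg.hermForm n F 2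

theorem utv_fix (w : Fin n → F) (hw : H w w = 0) {v : Fin n → F} (h : H v w = 0) :
    (utv 2 w 1 hw : Matrix (Fin n) (Fin n) F) *ᵥ v = v := by
  rw [utv_mulVec, h, mul_zero, zero_smul, add_zero]

theorem utv_invol (hF : Fintype.card F = 2 ^ 2) (w : Fin n → F) (hw : H w w = 0) (v : Fin n → F) :
    (utv 2 w 1 hw : Matrix (Fin n) (Fin n) F) *ᵥ ((utv 2 w 1 hw : Matrix (Fin n) (Fin n) F) *ᵥ v)
      = v := by
  have two := two_eq_zero_of_card hF
  rw [utv_mulVec, utv_mulVec, hermForm_add_left, hermForm_smul_left, hw, mul_zero, add_zero,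
    add_assoc, ← add_smul, one_mul, ← two_mul, two, zero_mul, zero_smul, add_zero]

theorem su2_not_maximal (hF4 : Fintype.card F = 4) {t : ℕ} (D : Fin t → Submodule F (Fin n → F))
    (hD : Cfsg.Geo.IsNondegenerateMDecomposition (Cfsg.hermForm n F 2) 2 D) :
    ∃ K : Subgroup (Matrix.GeneralLinearGroup (Fin n) F),
      Cfsg.Geo.decompositionStabilizer D ⊓ (Cfsg.GU n F 2 ⊓ Cfsg.Geo.specialLinear (Fin n) F) < K ∧
        K < (Cfsg.GU n F 2 ⊓ Cfsg.Geo.specialLinear (Fin n) F) := by
  have hF : Fintype.card F = 2 ^ 2 := by rw [hF4]; norm_num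
  have two := two_eq_zero_of_card hF
  have ht := hD.decomp.two_le
  obtain ⟨i0, i1, h01⟩ : ∃ i0 i1 : Fin t, i0 ≠ i1 :=
    ⟨⟨0, by omega⟩, ⟨1, by omega⟩, by intro h; simpa using congrArg Fin.val h⟩
  obtain ⟨a0, ha0, b0, hb0, haa0, hbb0, hab0, hba0, hcl0⟩ :=
    exists_onb hF (D i0) (hD.decomp.finrank_eq i0) (hD.nondegenerate i0)
  obtain ⟨a1, ha1, b1, hb1, haa1, hbb1, hab1, hba1, hcl1⟩ :=
    exists_onb hF (D i1) (hD.decomp.finrank_eq i1) (hD.nondegenerate i1)
  have o1 : H a0 a1 = 0 := hD.orthogonal i0 i1 h01 a0 ha0 a1 ha1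
  have o2 : H a0 b1 = 0 := hD.orthogonal i0 i1 h01 a0 ha0 b1 hb1
  have o3 : H b0 a1 = 0 := hD.orthogonal i0 i1 h01 b0 hb0 a1 ha1
  have o4 : H b0 b1 = 0 := hD.orthogonal i0 i1 h01 b0 hb0 b1 hb1
  have o5 : H a1 a0 = 0 := hD.orthogonal i1 i0 h01.symm a1 ha1 a0 ha0
  have o6 : H b1 a0 = 0 := hD.orthogonal i1 i0 h01.symm b1 hb1 a0 ha0
  have o7 : H a1 b0 = 0 := hD.orthogonal i1 i0 h01.symm a1 ha1 b0 hb0
  have o8 : H b1 b0 = 0 := hD.orthogonal i1 i0 h01.symm b1 hb1 b0 hb0
  have hc : (1 : F) + 1 ^ 2 = 0 := by rw [one_pow, one_add_one_eq_two, two]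
  set P : Set (Fin n → F) := {v | ∃ i, v ∈ D i ∧ H v v ≠ 0} with hP
  refine ⟨PStab (Cfsg.GU n F 2 ⊓ Cfsg.Geo.specialLinear (Fin n) F) P, ?_, ?_⟩
  · rw [SetLike.lt_iff_le_and_exists]
    constructor
    · rintro g ⟨⟨σ, hσ⟩, hSU⟩
      refine ⟨hSU, fun v => ⟨?_, ?_⟩⟩
      · rintro ⟨i, hvi, hv⟩
        refine ⟨σ i, ?_, ?_⟩
        · rw [← hσ i]
          exact ⟨v, hvi, Matrix.toLin'_apply _ _⟩
        · rw [(mem_GU_iff g).1 hSU.1 v v]; exact hv
      · rintro ⟨j, hgj, hgv⟩
        refine ⟨σ.symm j, ?_, ?_⟩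
        · have h1 := hσ (σ.symm j)
          rw [Equiv.apply_symm_apply] at h1
          rw [← h1] at hgj
          obtain ⟨v', hv', hvv'⟩ := hgj
          rw [Matrix.toLin'_apply] at hvv'
          have h2 := gl_inv_mulVec g v'
          rw [hvv', gl_inv_mulVec] at h2
          rw [h2]; exact hv'
        · rw [(mem_GU_iff g).1 hSU.1 v v] at hgv; exact hgv
    · -- the transvection swapping `b0` and `a1`
      have hw : H (b0 + a1) (b0 + a1) = 0 := by
        simp only [hermForm_add_left, hermForm_add_right hF, hbb0, haa1, o3, o7]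
        linear_combination two
      have e_a0 : (utv 2 (b0 + a1) 1 hw : Matrix (Fin n) (Fin n) F) *ᵥ a0 = a0 := by
        apply utv_fix
        rw [hermForm_add_right hF, hab0, o1, add_zero]
      have e_b0 : ∀ l : F, (utv 2 (b0 + a1) 1 hw : Matrix (Fin n) (Fin n) F) *ᵥ (l • b0) = l • a1 := by
        intro l
        rw [utv_mulVec, hermForm_smul_left, hermForm_add_right hF, hbb0, o3, add_zero, mul_one,
          one_mul, smul_add, ← add_assoc, ← add_smul, ← two_mul, two, zero_mul, zero_smul, zero_add]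
      have e_a1 : ∀ l : F, (utv 2 (b0 + a1) 1 hw : Matrix (Fin n) (Fin n) F) *ᵥ (l • a1) = l • b0 := by
        intro l
        rw [utv_mulVec, hermForm_smul_left, hermForm_add_right hF, haa1, o7, zero_add, mul_one,
          one_mul, smul_add, add_comm (l • b0), ← add_assoc, ← add_smul, ← two_mul, two, zero_mul,
          zero_smul, zero_add]
      refine ⟨utv 2 (b0 + a1) 1 hw, ⟨utv_mem_SU hF _ _ hw hc, ?_⟩, ?_⟩
      · have hfwd : ∀ v ∈ P, (utv 2 (b0 + a1) 1 hw : Matrix (Fin n) (Fin n) F) *ᵥ v ∈ P := by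
          rintro v ⟨j, hvj, hv⟩
          by_cases hj0 : j = i0
          · subst hj0
            rcases hcl0 v hvj hv with ⟨l, rfl⟩ | ⟨l, rfl⟩
            · rw [utv_fix]
              · exact ⟨j, hvj, hv⟩
              · rw [hermForm_smul_left, hermForm_add_right hF, hab0, o1, add_zero, mul_zero]
            · rw [e_b0]
              refine ⟨i1, (D i1).smul_mem _ ha1, ?_⟩
              rw [hermForm_smul_left, hermForm_smul_right, hbb0] at hv
              rw [hermForm_smul_left, hermForm_smul_right, haa1]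
              exact hv
          · by_cases hj1 : j = i1
            · subst hj1
              rcases hcl1 v hvj hv with ⟨l, rfl⟩ | ⟨l, rfl⟩
              · rw [e_a1]
                refine ⟨i0, (D i0).smul_mem _ hb0, ?_⟩
                rw [hermForm_smul_left, hermForm_smul_right, haa1] at hv
                rw [hermForm_smul_left, hermForm_smul_right, hbb0]
                exact hv
              · rw [utv_fix]
                · exact ⟨j, hvj, hv⟩
                · rw [hermForm_smul_left, hermForm_add_right hF, o8, hba1, add_zero, mul_zero]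
            · rw [utv_fix]
              · exact ⟨j, hvj, hv⟩
              · rw [hermForm_add_right hF, hD.orthogonal j i0 hj0 v hvj b0 hb0,
                  hD.orthogonal j i1 hj1 v hvj a1 ha1, add_zero]
        intro v
        refine ⟨hfwd v, fun h => ?_⟩
        have h2 := hfwd _ h
        rwa [utv_invol hF] at h2
      · rintro ⟨⟨σ, hσ⟩, -⟩
        have h1 : (utv 2 (b0 + a1) 1 hw : Matrix (Fin n) (Fin n) F) *ᵥ a0 ∈ D (σ i0) := by
          rw [← hσ i0]
          exact ⟨a0, ha0, Matrix.toLin'_apply _ _⟩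
        have h2 : (utv 2 (b0 + a1) 1 hw : Matrix (Fin n) (Fin n) F) *ᵥ ((1 : F) • b0) ∈ D (σ i0) := by
          rw [← hσ i0]
          exact ⟨(1 : F) • b0, (D i0).smul_mem _ hb0, Matrix.toLin'_apply _ _⟩
        rw [e_a0] at h1
        rw [e_b0, one_smul] at h2
        have hs : σ i0 = i0 := by
          by_contra hne
          have := hD.orthogonal (σ i0) i0 hne a0 h1 a0 ha0
          rw [haa0] at this
          exact one_ne_zero this
        rw [hs] at h2
        have := hD.orthogonal i0 i1 h01 a1 h2 a1 ha1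
        rw [haa1] at this
        exact one_ne_zero this
  · rw [SetLike.lt_iff_le_and_exists]
    refine ⟨fun g hg => hg.1, ?_⟩
    have hw : H (a0 + b0 + a1 + b1) (a0 + b0 + a1 + b1) = 0 := by
      simp only [hermForm_add_left, hermForm_add_right hF, haa0, hbb0, hab0, hba0, haa1, hbb1, hab1,
        hba1, o1, o2, o3, o4, o5, o6, o7, o8]
      linear_combination 2 * two
    refine ⟨utv 2 (a0 + b0 + a1 + b1) 1 hw, utv_mem_SU hF _ _ hw hc, ?_⟩
    rintro ⟨-, hg⟩
    obtain ⟨j, hj, -⟩ := (hg a0).1 ⟨i0, ha0, by rw [haa0]; exact one_ne_zero⟩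
    rw [utv_mulVec] at hj
    have hx : H a0 (a0 + b0 + a1 + b1) = 1 := by
      simp only [hermForm_add_right hF, haa0, hab0, o1, o2, add_zero]
    rw [hx, mul_one, one_smul] at hj
    have k1 : H (a0 + (a0 + b0 + a1 + b1)) b0 = 1 := by
      simp only [hermForm_add_left, hab0, hbb0, o7, o8]
      ring
    have k2 : H (a0 + (a0 + b0 + a1 + b1)) a1 = 1 := by
      simp only [hermForm_add_left, o1, o3, haa1, hba1]
      ring
    have hs : j = i0 := by
      by_contra hne
      have := hD.orthogonal j i0 hne _ hj b0 hb0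
      rw [k1] at this
      exact one_ne_zero this
    rw [hs] at hj
    have := hD.orthogonal i0 i1 h01 _ hj a1 ha1
    rw [k2] at this
    exact one_ne_zero this

end Cfsg.Agent.Lib.Helper29
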