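import Mathlib
import Cfsg.Prelude.Def_GeometricClasses
import Cfsg.Agent.Lib.Helper29.SuGeom
import Cfsg.Agent.Lib.Helper29.SLtv

/-!
The similarity group of the Hermitian form `Cfsg.hermForm n F q` meets `SL` in a maximal subgroup.
-/

set_option autoImplicit false
set_option linter.unusedSimpArgs false

namespace Cfsg.Agent.Lib.Helper29

open Matrix Module
open Cfsg.Agent.H6 (add_pow_q pow_q_pow_q neg_pow_q sub_pow_q q_pos hermForm_add_left
  hermForm_smul_left hermForm_smul_right hermForm_add_right hermForm_conj)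

variable {F : Type*} [Field F] [Fintype F] {n q : ℕ}

local notation "H" => Cfsg.hermForm n F q

/-- The transvection `x ↦ x + H x u • w` lies in `M`. -/
def UP (q : ℕ) (M : Subgroup (GL (Fin n) F)) (w u : Fin n → F) : Prop :=
  Cfsg.hermForm n F q w u = 0 ∧ ∃ t ∈ M, ∀ x, (t : Matrix (Fin n) (Fin n) F) *ᵥ x =
    x + Cfsg.hermForm n F q x u • w

theorem inv_action {t : GL (Fin n) F} {w u : Fin n → F} (h0 : H w u = 0)
    (ht : ∀ x, (t : Matrix (Fin n) (Fin n) F) *ᵥ x = x + H x u • w) (x : Fin n → F) :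
    ((t⁻¹ : GL (Fin n) F) : Matrix (Fin n) (Fin n) F) *ᵥ x = x - H x u • w := by
  have := gl_inv_mulVec t (x - H x u • w)
  rw [ht, herm_sub_left, hermForm_smul_left, h0, mul_zero, sub_zero, sub_add_cancel] at this
  exact this

theorem UP_conj {M : Subgroup (GL (Fin n) F)} {k : GL (Fin n) F} (hk : k ∈ M)
    (hiso : k ∈ Cfsg.GU n F q) {w u : Fin n → F} (hP : UP q M w u) :
    UP q M ((k : Matrix (Fin n) (Fin n) F) *ᵥ w) ((k : Matrix (Fin n) (Fin n) F) *ᵥ u) := by
  obtain ⟨h0, t, ht, htx⟩ := hP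
  have hiso' := (mem_GU_iff k).mp hiso
  refine ⟨by rw [hiso', h0], k * t * k⁻¹, M.mul_mem (M.mul_mem hk ht) (M.inv_mem hk), fun x => ?_⟩
  rw [gl_mul_mulVec, gl_mul_mulVec, htx, Matrix.mulVec_add, gl_mulVec_inv, Matrix.mulVec_smul]
  congr 2
  rw [← hiso', gl_mulVec_inv]

theorem UP_add_right (hF : Fintype.card F = q ^ 2) {M : Subgroup (GL (Fin n) F)}
    {w u u' : Fin n → F} (hP : UP q M w u) (hP' : UP q M w u') : UP q M w (u + u') := by
  obtain ⟨h0, t, ht, htx⟩ := hP
  obtain ⟨h0', t', ht', htx'⟩ := hP'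
  refine ⟨by rw [hermForm_add_right hF, h0, h0', add_zero], t * t', M.mul_mem ht ht', fun x => ?_⟩
  rw [gl_mul_mulVec, htx, htx', hermForm_add_left, hermForm_smul_left, h0, hermForm_add_right hF]
  module

theorem UP_neg_right (hF : Fintype.card F = q ^ 2) {M : Subgroup (GL (Fin n) F)}
    {w u : Fin n → F} (hP : UP q M w u) : UP q M w (-u) := by
  obtain ⟨h0, t, ht, htx⟩ := hP
  refine ⟨by rw [herm_neg_right hF, h0, neg_zero], t⁻¹, M.inv_mem ht, fun x => ?_⟩
  rw [inv_action h0 htx, herm_neg_right hF]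
  module

theorem UP_smul (hF : Fintype.card F = q ^ 2) {M : Subgroup (GL (Fin n) F)}
    {w u : Fin n → F} {a : F} (hP : UP q M (a • w) u) : UP q M w (a ^ q • u) := by
  obtain ⟨h0, t, ht, htx⟩ := hP
  refine ⟨?_, t, ht, fun x => ?_⟩
  · rw [hermForm_smul_right, pow_q_pow_q hF, ← hermForm_smul_left, h0]
  · rw [htx, hermForm_smul_right, pow_q_pow_q hF, smul_smul, mul_comm]

/-- The commutator of two transvections. -/
theorem UP_comm {M : Subgroup (GL (Fin n) F)} {w u w' u' : Fin n → F} (hP : UP q M w u)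
    (hP' : UP q M w' u') (h : H w' u = 0) : UP q M ((- H w u') • w') u := by
  obtain ⟨h0, a, ha, hax⟩ := hP
  obtain ⟨h0', b, hb, hbx⟩ := hP'
  refine ⟨by rw [hermForm_smul_left, h, mul_zero], a * b * a⁻¹ * b⁻¹,
    M.mul_mem (M.mul_mem (M.mul_mem ha hb) (M.inv_mem ha)) (M.inv_mem hb), fun x => ?_⟩
  rw [gl_mul_mulVec, gl_mul_mulVec, gl_mul_mulVec, inv_action h0' hbx, inv_action h0 hax, hbx, hax]
  simp only [hermForm_add_left, herm_sub_left, hermForm_smul_left, h0, h0', h]
  module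

/-- Base: unitary transvections. -/
theorem UP_base (hF : Fintype.card F = q ^ 2) {M : Subgroup (GL (Fin n) F)}
    (hSU : Cfsg.GU n F q ⊓ Cfsg.Geo.specialLinear (Fin n) F ≤ M) {v : Fin n → F} (hv : H v v = 0)
    {c : F} (hc : c + c ^ q = 0) : UP q M (c • v) v := by
  refine ⟨by rw [hermForm_smul_left, hv, mul_zero], utv q v c hv, hSU (utv_mem_SU hF v c hv hc),
    fun x => ?_⟩
  rw [utv_mulVec, smul_smul, mul_comm]

/-- If a transvection with isotropic centre `v` and axis different from `v^⊥` lies in `M`, so do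
those with axis `v^⊥`. -/
theorem UP_line (hF : Fintype.card F = q ^ 2) {M : Subgroup (GL (Fin n) F)}
    (hSU : Cfsg.GU n F q ⊓ Cfsg.Geo.specialLinear (Fin n) F ≤ M) {v u₁ : Fin n → F}
    (hv : H v v = 0) (hP : UP q M v u₁) (hu₁ : u₁ ∉ Submodule.span F {v}) (l : F) :
    UP q M v (l • v) := by
  obtain ⟨z₀, hz₀, hz₁⟩ := exists_herm_perp_eq_one hF _ hu₁
  have hvz₀ : H v z₀ = 0 := hz₀ v (Submodule.mem_span_singleton_self v)
  set z : Fin n → F := ((-l) ^ q) • z₀ with hz
  have hvz : H v z = 0 := by rw [hz, hermForm_smul_right, hvz₀, mul_zero]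
  have hzv : H z v = 0 := herm_eq_zero_symm hF hvz
  obtain ⟨s, hs⟩ := exists_trace_eq hF (- H z z) (by rw [neg_pow_q hF, herm_self_pow hF])
  have hk := ueich_mem_GU hF v z s hv hzv hvz (by rw [hs]; ring)
  have hkM : ueich q v z s hv hzv hvz ∈ M := hSU ⟨hk, ueich_mem_SL v z s hv hzv hvz⟩
  have h1 := UP_conj hkM hk hP
  have hu₁v : H u₁ v = 0 := herm_eq_zero_symm hF hP.1
  rw [ueich_mulVec, ueich_mulVec, hv, hvz, hu₁v] at h1
  have e1 : v + (0 : F) • z + (s * 0 - 0) • v = v := by module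
  rw [e1] at h1
  have h2 := UP_add_right hF h1 (UP_neg_right hF hP)
  have e2 : u₁ + (0 : F) • z + (s * 0 - H u₁ z) • v + -u₁ = l • v := by
    rw [hz, hermForm_smul_right, pow_q_pow_q hF, hz₁]
    module
  rwa [e2] at h2

/-- If a transvection with isotropic centre `v` and axis different from `v^⊥` lies in `M`, then all
transvections with centre `v` lie in `M`. -/
theorem UP_full (hF : Fintype.card F = q ^ 2) (hn : 13 ≤ n) {M : Subgroup (GL (Fin n) F)}
    (hSU : Cfsg.GU n F q ⊓ Cfsg.Geo.specialLinear (Fin n) F ≤ M) {v u₁ : Fin n → F}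
    (hv : H v v = 0) (hv0 : v ≠ 0) (hP : UP q M v u₁) (hu₁ : u₁ ∉ Submodule.span F {v}) :
    ∀ u, H v u = 0 → UP q M v u := by
  have hq : q ≠ 0 := by have := q_pos hF; omega
  obtain ⟨θ, hθ0, hθ⟩ := exists_trace_zero hF
  have hline := UP_line hF hSU hv hP hu₁
  have hvu₁ : H v u₁ = 0 := hP.1
  have hu₁v : H u₁ v = 0 := herm_eq_zero_symm hF hP.1
  have step : ∀ u, UP q M v u → ∀ s, H s s = 0 → H v s = 0 → ∀ c : F, c + c ^ q = 0 →
      UP q M v ((c * H u s) • s) := by
    intro u hu s hs hvs c hc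
    have hk := utv_mem_GU hF s c hs hc
    have hkM := hSU (utv_mem_SU hF s c hs hc)
    have h1 := UP_conj hkM hk hu
    rw [utv_mulVec, utv_mulVec, hvs, mul_zero, zero_smul, add_zero] at h1
    have h2 := UP_add_right hF h1 (UP_neg_right hF hu)
    have : u + (c * H u s) • s + -u = (c * H u s) • s := by abel
    rwa [this] at h2
  let XF : (Fin n → F) → Prop := fun z => H z z = 0 ∧ H v z = 0 ∧ ∀ μ : F, UP q M v (μ • z)
  have nb : ∀ z y, XF z → H y y = 0 → H v y = 0 → H z y ≠ 0 → XF y := by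
    intro z y hz hy hvy hzy
    refine ⟨hy, hvy, fun μ => ?_⟩
    have := step ((μ / (θ * H z y)) • z) (hz.2.2 _) y hy hvy θ hθ
    rw [hermForm_smul_left] at this
    have e : θ * (μ / (θ * H z y) * H z y) = μ := by field_simp
    rwa [e] at this
  -- an isotropic vector y ⊥ v with H u₁ y ≠ 0
  obtain ⟨y, hyy, hvy, hu₁y⟩ : ∃ y, H y y = 0 ∧ H v y = 0 ∧ H u₁ y ≠ 0 := by
    by_cases huu : H u₁ u₁ = 0
    · obtain ⟨x₀, hx₀, hx₁⟩ := exists_herm_perp_eq_one hF _ hu₁
      have hvx₀ : H v x₀ = 0 := hx₀ v (Submodule.mem_span_singleton_self v)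
      obtain ⟨l, hl⟩ := exists_isotropic_add hF huu (by rw [hx₁]; exact one_ne_zero)
      refine ⟨x₀ + l • u₁, hl, ?_, ?_⟩
      · rw [hermForm_add_right hF, hermForm_smul_right, hvx₀, hvu₁]; simp
      · rw [hermForm_add_right hF, hermForm_smul_right, hx₁, huu]; simp
    · obtain ⟨z', hz', hzz'⟩ := exists_norm_perp hF ![v, u₁] (by omega) (- H u₁ u₁)
        (by rw [neg_pow_q hF, herm_self_pow hF])
      have h1 : H z' v = 0 := hz' 0
      have h2 : H z' u₁ = 0 := hz' 1
      have h1' : H v z' = 0 := herm_eq_zero_symm hF h1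
      have h2' : H u₁ z' = 0 := herm_eq_zero_symm hF h2
      refine ⟨u₁ + z', ?_, ?_, ?_⟩
      · simp only [hermForm_add_left, hermForm_add_right hF, h2, h2', hzz']; ring
      · rw [hermForm_add_right hF, hvu₁, h1', add_zero]
      · rw [hermForm_add_right hF, h2', add_zero]; exact huu
  obtain ⟨vs, hvs⟩ := exists_herm_ne_zero hF hv0
  obtain ⟨z, hz0, hzp, hzz⟩ := exists_isotropic_perp hF ![v, y, u₁, vs] (by omega)
  have hzv : H z v = 0 := hzp 0
  have hzy : H z y = 0 := hzp 1
  have hzu₁ : H z u₁ = 0 := hzp 2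
  have hzvs : H z vs = 0 := hzp 3
  have hvz : H v z = 0 := herm_eq_zero_symm hF hzv
  have hyz : H y z = 0 := herm_eq_zero_symm hF hzy
  have hu₁z : H u₁ z = 0 := herm_eq_zero_symm hF hzu₁
  have hXz : XF z := by
    refine ⟨hzz, hvz, fun μ => ?_⟩
    set ν : F := μ / (θ * H u₁ y) with hν
    have h1 := step u₁ hP (y + ν • z)
      (by simp only [hermForm_add_left, hermForm_add_right hF, hermForm_smul_left,
            hermForm_smul_right, hyy, hzz, hzy, hyz]; ring)
      (by rw [hermForm_add_right hF, hermForm_smul_right, hvy, hvz]; simp) θ hθ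
    have h2 := UP_neg_right hF (step u₁ hP y hyy hvy θ hθ)
    have h3 := UP_add_right hF h1 h2
    rw [hermForm_add_right hF, hermForm_smul_right, hu₁z, mul_zero, add_zero] at h3
    have e : (θ * H u₁ y) • (y + ν • z) + -((θ * H u₁ y) • y) = μ • z := by
      have : (θ * H u₁ y) * ν = μ := by rw [hν]; field_simp
      rw [← this]; module
    rwa [e] at h3
  have hznot : z ∉ Submodule.span F {v} := by
    intro hmem
    obtain ⟨l, hl⟩ := Submodule.mem_span_singleton.mp hmem
    rw [← hl, hermForm_smul_left] at hzvs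
    rcases mul_eq_zero.mp hzvs with h | h
    · apply hz0; rw [← hl, h, zero_smul]
    · exact herm_ne_zero_symm hF hvs h
  intro u hvu
  by_cases hu : u ∈ Submodule.span F {v}
  · obtain ⟨l, hl⟩ := Submodule.mem_span_singleton.mp hu
    rw [← hl]; exact hline l
  -- some x ∈ XF with H x u ≠ 0
  obtain ⟨x, hXx, hxu⟩ : ∃ x, XF x ∧ H x u ≠ 0 := by
    by_cases hzu : H z u = 0
    · obtain ⟨x₀, hx₀S, hx₀u, hx₀z⟩ := exists_both_ne_zero (LinearMap.ker (hermDual n q v))
        (hermDual n q u) (hermDual n q z)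
        (by
          obtain ⟨x', hx', hx1⟩ := exists_herm_perp_eq_one hF _ hu
          refine ⟨x', ?_, ?_⟩
          · exact herm_eq_zero_symm hF (hx' v (Submodule.mem_span_singleton_self v))
          · exact herm_ne_zero_symm hF (by rw [hx1]; exact one_ne_zero))
        (by
          obtain ⟨x', hx', hx1⟩ := exists_herm_perp_eq_one hF _ hznot
          refine ⟨x', ?_, ?_⟩
          · exact herm_eq_zero_symm hF (hx' v (Submodule.mem_span_singleton_self v))
          · exact herm_ne_zero_symm hF (by rw [hx1]; exact one_ne_zero))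
      have hx₀v : H x₀ v = 0 := hx₀S
      have hx₀u' : H x₀ u ≠ 0 := hx₀u
      have hx₀z' : H x₀ z ≠ 0 := hx₀z
      obtain ⟨l, hl⟩ := exists_isotropic_add hF hzz (herm_ne_zero_symm hF hx₀z')
      refine ⟨x₀ + l • z, nb z _ hXz hl ?_ ?_, ?_⟩
      · rw [hermForm_add_right hF, hermForm_smul_right, herm_eq_zero_symm hF hx₀v, hvz]; simp
      · rw [hermForm_add_right hF, hermForm_smul_right, hzz, mul_zero, add_zero]
        exact herm_ne_zero_symm hF hx₀z'
      · rw [hermForm_add_left, hermForm_smul_left, hzu, mul_zero, add_zero]; exact hx₀u'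
    · exact ⟨z, hXz, hzu⟩
  obtain ⟨l, hl⟩ := exists_isotropic_add hF hXx.1 hxu
  have hXs : XF (u + l • x) := by
    refine nb x _ hXx hl ?_ ?_
    · rw [hermForm_add_right hF, hermForm_smul_right, hvu, hXx.2.1]; simp
    · rw [hermForm_add_right hF, hermForm_smul_right, hXx.1, mul_zero, add_zero]; exact hxu
  have h1 := UP_add_right hF (hXs.2.2 1) (hXx.2.2 (-l))
  have e : (1 : F) • (u + l • x) + (-l) • x = u := by module
  rwa [e] at h1

/-! ### Full centres -/

/-- All transvections with centre `x` lie in `M`. -/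
def Full (M : Subgroup (GL (Fin n) F)) (x : Fin n → F) : Prop :=
  ∀ (φ : Dual F (Fin n → F)) (h : φ x = 0), tv φ x h ∈ M

omit [Fintype F] in
theorem Full_conj {M : Subgroup (GL (Fin n) F)} {k : GL (Fin n) F} (hk : k ∈ M) {x : Fin n → F}
    (hx : Full M x) : Full M ((k : Matrix (Fin n) (Fin n) F) *ᵥ x) := by
  intro φ h
  have h' : (φ ∘ₗ Matrix.toLin' (k : Matrix (Fin n) (Fin n) F)) x = 0 := by
    simpa [Matrix.toLin'_apply] using h
  have e : tv φ ((k : Matrix (Fin n) (Fin n) F) *ᵥ x) h = k * tv _ x h' * k⁻¹ := by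
    apply gl_ext; intro y
    rw [gl_mul_mulVec, gl_mul_mulVec, tv_mulVec, tv_mulVec, Matrix.mulVec_add, gl_mulVec_inv,
      Matrix.mulVec_smul]
    simp [Matrix.toLin'_apply, gl_mulVec_inv]
  rw [e]; exact M.mul_mem (M.mul_mem hk (hx _ h')) (M.inv_mem hk)

omit [Fintype F] in
theorem Full_smul {M : Subgroup (GL (Fin n) F)} {x : Fin n → F} (hx : Full M x) (c : F) :
    Full M (c • x) := by
  intro φ h
  have h' : (c • φ) x = 0 := by simpa using h
  rw [tv_smul_left φ x c h h']
  exact hx _ h'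

omit [Fintype F] in
theorem Full_add {M : Subgroup (GL (Fin n) F)} {x z : Fin n → F} (hx : Full M x) (hz : Full M z)
    (l : F) : Full M (x + l • z) := by
  by_cases hxz : x ∈ Submodule.span F {z}
  · obtain ⟨μ, hμ⟩ := Submodule.mem_span_singleton.mp hxz
    have : x + l • z = (μ + l) • z := by rw [← hμ]; module
    rw [this]; exact Full_smul hz _
  · obtain ⟨φ, hφ0, hφ1⟩ := exists_dual_eq_one _ hxz
    have h0 : (l • φ) z = 0 := by
      simp [hφ0 z (Submodule.mem_span_singleton_self z)]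
    have := Full_conj (hz (l • φ) h0) hx
    rw [tv_mulVec] at this
    simpa [hφ1] using this

theorem Full_of_UP (hF : Fintype.card F = q ^ 2) {M : Subgroup (GL (Fin n) F)} {v : Fin n → F}
    (h : ∀ u, H v u = 0 → UP q M v u) : Full M v := by
  intro φ hφ
  obtain ⟨u, hu⟩ := exists_hermDual_eq (q := q) hF φ
  obtain ⟨-, t, ht, htx⟩ := h u (by rw [← hu]; exact hφ)
  have : tv φ v hφ = t := by
    apply gl_ext; intro x
    rw [tv_mulVec, htx, hu]
  rw [this]; exact ht

theorem Full_all (hF : Fintype.card F = q ^ 2) {M : Subgroup (GL (Fin n) F)}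
    (hSU : Cfsg.GU n F q ⊓ Cfsg.Geo.specialLinear (Fin n) F ≤ M) {v : Fin n → F}
    (hv : H v v = 0) (hv0 : v ≠ 0) (hfull : Full M v) : ∀ y, Full M y := by
  obtain ⟨θ, hθ0, hθ⟩ := exists_trace_zero hF
  have step1 : ∀ s, H s s = 0 → H v s ≠ 0 → Full M s := by
    intro s hs hvs
    have h1 := Full_conj (hSU (utv_mem_SU hF s θ hs hθ)) hfull
    rw [utv_mulVec] at h1
    have h2 := Full_smul (Full_add h1 hfull (-1)) (θ * H v s)⁻¹
    have e : (θ * H v s)⁻¹ • (v + (θ * H v s) • s + (-1 : F) • v) = s := by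
      have : v + (θ * H v s) • s + (-1 : F) • v = (θ * H v s) • s := by module
      rw [this, smul_smul, inv_mul_cancel₀ (mul_ne_zero hθ0 hvs), one_smul]
    rwa [e] at h2
  have step2 : ∀ y, H v y ≠ 0 → Full M y := by
    intro y hvy
    obtain ⟨l, hl⟩ := exists_isotropic_add hF hv hvy
    have h1 := step1 (y + l • v) hl
      (by rw [hermForm_add_right hF, hermForm_smul_right, hv, mul_zero, add_zero]; exact hvy)
    have h2 := Full_add h1 hfull (-l)
    have e : y + l • v + (-l) • v = y := by module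
    rwa [e] at h2
  intro y
  by_cases hvy : H v y = 0
  · obtain ⟨x, hx⟩ := exists_herm_ne_zero hF hv0
    have hvx : H v x ≠ 0 := herm_ne_zero_symm hF hx
    have h1 := step2 (y + x) (by rw [hermForm_add_right hF, hvy, zero_add]; exact hvx)
    have h2 := Full_add h1 (step2 x hvx) (-1)
    have e : y + x + (-1 : F) • x = y := by module
    rwa [e] at h2
  · exact step2 y hvy

/-! ### Elements that are not similarities -/

theorem exists_isotropic_nbr (hF : Fintype.card F = q ^ 2) {v : Fin n → F} (hv : H v v = 0)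
    (hv0 : v ≠ 0) : ∃ v', H v' v' = 0 ∧ H v v' ≠ 0 := by
  obtain ⟨x, hx⟩ := exists_herm_ne_zero hF hv0
  have hvx : H v x ≠ 0 := herm_ne_zero_symm hF hx
  obtain ⟨l, hl⟩ := exists_isotropic_add hF hv hvx
  exact ⟨x + l • v, hl, by
    rw [hermForm_add_right hF, hermForm_smul_right, hv, mul_zero, add_zero]; exact hvx⟩

theorem ne_zero_of_herm_ne_zero_right (hF : Fintype.card F = q ^ 2) {x y : Fin n → F}
    (h : H x y ≠ 0) : y ≠ 0 := by
  have hq : q ≠ 0 := by have := q_pos hF; omega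
  rintro rfl
  exact h (herm_zero_right hq x)

/-- An element of `M` that is not a similarity produces a transvection in `M` with isotropic centre
`v` and axis different from `v^⊥`. -/
theorem exists_new (hF : Fintype.card F = q ^ 2) (hn : 13 ≤ n) {M : Subgroup (GL (Fin n) F)}
    (hSU : Cfsg.GU n F q ⊓ Cfsg.Geo.specialLinear (Fin n) F ≤ M) {g : GL (Fin n) F} (hg : g ∈ M)
    (hgS : g ∉ Cfsg.Geo.similarityGroup (Cfsg.hermForm n F q)) :
    ∃ v u₁ : Fin n → F, H v v = 0 ∧ v ≠ 0 ∧ UP q M v u₁ ∧ u₁ ∉ Submodule.span F {v} := by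
  have hq : q ≠ 0 := by have := q_pos hF; omega
  obtain ⟨θ, hθ0, hθ⟩ := exists_trace_zero hF
  by_contra hcon
  push Not at hcon
  have key : ∀ v : Fin n → F, ∃ b : F, H v v = 0 → v ≠ 0 →
      ∀ y, H y v = b * H ((g : Matrix (Fin n) (Fin n) F) *ᵥ y) ((g : Matrix (Fin n) (Fin n) F) *ᵥ v) := by
    intro v
    by_cases hv : H v v = 0
    swap
    · exact ⟨0, fun h => absurd h hv⟩
    by_cases hv0 : v = 0
    · exact ⟨0, fun _ h => absurd hv0 h⟩
    obtain ⟨u, hu⟩ := exists_hermDual_eq (q := q) hF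
      ((hermDual n q v) ∘ₗ Matrix.toLin' ((g⁻¹ : GL (Fin n) F) : Matrix (Fin n) (Fin n) F))
    simp only [LinearMap.comp_apply, Matrix.toLin'_apply] at hu
    have hu' : ∀ x, H (((g⁻¹ : GL (Fin n) F) : Matrix (Fin n) (Fin n) F) *ᵥ x) v = H x u := hu
    set w := (g : Matrix (Fin n) (Fin n) F) *ᵥ v with hw
    have hw0 : w ≠ 0 := by
      intro h0
      apply hv0
      have := gl_inv_mulVec g v
      rw [← hw, h0, Matrix.mulVec_zero] at this
      exact this.symm
    have hwu : H w u = 0 := by rw [← hu', hw, gl_inv_mulVec, hv]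
    have hUP : UP q M (θ • w) u := by
      refine ⟨by rw [hermForm_smul_left, hwu, mul_zero], g * utv q v θ hv * g⁻¹,
        M.mul_mem (M.mul_mem hg (hSU (utv_mem_SU hF v θ hv hθ))) (M.inv_mem hg), fun x => ?_⟩
      rw [gl_mul_mulVec, gl_mul_mulVec, utv_mulVec, Matrix.mulVec_add, gl_mulVec_inv,
        Matrix.mulVec_smul, hu', smul_smul, mul_comm]
    have hu0 : u ≠ 0 := by
      rintro rfl
      obtain ⟨z, hz⟩ := exists_herm_ne_zero hF hv0
      apply hz
      have := hu' ((g : Matrix (Fin n) (Fin n) F) *ᵥ z)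
      rwa [gl_inv_mulVec, herm_zero_right hq] at this
    have hww : H w w = 0 := by
      by_contra hne
      obtain ⟨z, hz, hzz⟩ := exists_norm_perp hF ![u, w] (by omega) (- H w w)
        (by rw [neg_pow_q hF, herm_self_pow hF])
      have hzu : H z u = 0 := hz 0
      have hzw : H z w = 0 := hz 1
      have hwz : H w z = 0 := herm_eq_zero_symm hF hzw
      have hv'v' : H (w + z) (w + z) = 0 := by
        simp only [hermForm_add_left, hermForm_add_right hF, hzw, hwz, hzz]; ring
      have hv'u : H (w + z) u = 0 := by rw [hermForm_add_left, hwu, hzu, add_zero]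
      have hwv' : H w (w + z) = H w w := by rw [hermForm_add_right hF, hwz, add_zero]
      have hv'0 : w + z ≠ 0 := ne_zero_of_herm_ne_zero_right hF (by rw [hwv']; exact hne)
      have h1 := UP_comm hUP (UP_base hF hSU hv'v' hθ)
        (by rw [hermForm_smul_left, hv'u, mul_zero])
      rw [smul_smul] at h1
      have h2 := hcon _ _ hv'v' hv'0 (UP_smul hF h1)
      obtain ⟨l, hl⟩ := Submodule.mem_span_singleton.mp h2
      have hκ : (-H (θ • w) (w + z) * θ) ^ q ≠ 0 := by
        apply pow_ne_zero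
        rw [hermForm_smul_left, hwv']
        exact mul_ne_zero (neg_ne_zero.mpr (mul_ne_zero hθ0 hne)) hθ0
      have h3 : H w ((-H (θ • w) (w + z) * θ) ^ q • u) = 0 := by
        rw [hermForm_smul_right, hwu, mul_zero]
      rw [← hl, hermForm_smul_right, hwv'] at h3
      rcases mul_eq_zero.mp h3 with h4 | h4
      · have hl0 : l = 0 := by
          by_contra hl0
          exact pow_ne_zero q hl0 h4
        rw [hl0, zero_smul] at hl
        exact (smul_ne_zero hκ hu0) hl.symm
      · exact hne h4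
    have h1 := hcon _ _ hww hw0 (UP_smul hF hUP)
    obtain ⟨l, hl⟩ := Submodule.mem_span_singleton.mp h1
    have hθq : θ ^ q ≠ 0 := pow_ne_zero q hθ0
    have hua : u = (l / θ ^ q) • w := by
      rw [div_eq_inv_mul, ← smul_smul, hl, smul_smul, inv_mul_cancel₀ hθq, one_smul]
    refine ⟨(l / θ ^ q) ^ q, fun _ _ y => ?_⟩
    have := hu' ((g : Matrix (Fin n) (Fin n) F) *ᵥ y)
    rw [gl_inv_mulVec, hua, hermForm_smul_right] at this
    exact this
  choose b hb using key
  have nbr : ∀ v v', H v v = 0 → H v' v' = 0 → H v v' ≠ 0 → b v' = (b v) ^ q := by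
    intro v v' hv hv' hvv'
    have hv'0 : v' ≠ 0 := ne_zero_of_herm_ne_zero_right hF hvv'
    have hv0 : v ≠ 0 := ne_zero_of_herm_ne_zero_right hF (herm_ne_zero_symm hF hvv')
    have e1 := hb v hv hv0 v'
    have e2 := hb v' hv' hv'0 v
    have e3 : H v v' = (b v) ^ q * H ((g : Matrix (Fin n) (Fin n) F) *ᵥ v)
        ((g : Matrix (Fin n) (Fin n) F) *ᵥ v') := by
      rw [← hermForm_conj hF v' v, e1, mul_pow, hermForm_conj hF]
    have hX : H ((g : Matrix (Fin n) (Fin n) F) *ᵥ v) ((g : Matrix (Fin n) (Fin n) F) *ᵥ v') ≠ 0 := by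
      intro h0
      rw [h0, mul_zero] at e2
      exact hvv' e2
    exact mul_right_cancel₀ hX (e2.symm.trans e3)
  have fixed : ∀ v, H v v = 0 → v ≠ 0 → (b v) ^ q = b v := by
    intro v hv hv0
    obtain ⟨v', hv', hvv'⟩ := exists_isotropic_nbr hF hv hv0
    have hv'v : H v' v ≠ 0 := herm_ne_zero_symm hF hvv'
    set μ : F := θ / H v' v with hμ
    have hμ0 : μ ≠ 0 := div_ne_zero hθ0 hv'v
    have hμ1 : μ * H v' v = θ := by rw [hμ]; field_simp
    have hμ2 : μ ^ q * H v v' = θ ^ q := by rw [← hermForm_conj hF v' v, ← mul_pow, hμ1]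
    have h'' : H (v + μ • v') (v + μ • v') = 0 := by
      simp only [hermForm_add_left, hermForm_add_right hF, hermForm_smul_left,
        hermForm_smul_right, hv, hv']
      linear_combination hμ1 + hμ2 + hθ
    have h1 := nbr v v' hv hv' hvv'
    have h2 := nbr v (v + μ • v') hv h''
      (by rw [hermForm_add_right hF, hermForm_smul_right, hv, zero_add, hμ2]
          exact pow_ne_zero q hθ0)
    have h3 := nbr v' (v + μ • v') hv' h''
      (by rw [hermForm_add_right hF, hermForm_smul_right, hv', mul_zero, add_zero]; exact hv'v)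
    rw [h1, pow_q_pow_q hF] at h3
    rw [← h2, h3]
  have nbr' : ∀ v v', H v v = 0 → H v' v' = 0 → H v v' ≠ 0 → b v' = b v := by
    intro v v' hv hv' hvv'
    rw [nbr v v' hv hv' hvv', fixed v hv
      (ne_zero_of_herm_ne_zero_right hF (herm_ne_zero_symm hF hvv'))]
  obtain ⟨v₀, hv₀0, -, hv₀⟩ := exists_isotropic_perp (q := q) hF (![] : Fin 0 → (Fin n → F))
    (by omega)
  have const : ∀ v, H v v = 0 → v ≠ 0 → b v = b v₀ := by
    intro v hv hv0
    by_cases h0 : H v₀ v = 0
    · obtain ⟨x₀, -, hx1, hx2⟩ := exists_both_ne_zero (⊤ : Submodule F (Fin n → F))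
        (hermDual n q v₀) (hermDual n q v)
        (by obtain ⟨z, hz⟩ := exists_herm_ne_zero hF hv₀0; exact ⟨z, trivial, hz⟩)
        (by obtain ⟨z, hz⟩ := exists_herm_ne_zero hF hv0; exact ⟨z, trivial, hz⟩)
      have hx1' : H x₀ v₀ ≠ 0 := hx1
      have hx2' : H x₀ v ≠ 0 := hx2
      obtain ⟨l, hl⟩ := exists_isotropic_add hF hv₀ (herm_ne_zero_symm hF hx1')
      have e1 := nbr' v₀ (x₀ + l • v₀) hv₀ hl
        (by rw [hermForm_add_right hF, hermForm_smul_right, hv₀, mul_zero, add_zero]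
            exact herm_ne_zero_symm hF hx1')
      have e2 := nbr' (x₀ + l • v₀) v hl hv
        (by rw [hermForm_add_left, hermForm_smul_left, h0, mul_zero, add_zero]; exact hx2')
      rw [e2, e1]
    · exact nbr' v₀ v hv₀ hv h0
  have iso : ∀ v, H v v = 0 → ∀ y, H y v = b v₀ *
      H ((g : Matrix (Fin n) (Fin n) F) *ᵥ y) ((g : Matrix (Fin n) (Fin n) F) *ᵥ v) := by
    intro v hv y
    by_cases hv0 : v = 0
    · rw [hv0, Matrix.mulVec_zero, herm_zero_right hq, herm_zero_right hq, mul_zero]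
    · rw [← const v hv hv0]; exact hb v hv hv0 y
  have step2 : ∀ z, H v₀ z ≠ 0 → ∀ y, H y z = b v₀ *
      H ((g : Matrix (Fin n) (Fin n) F) *ᵥ y) ((g : Matrix (Fin n) (Fin n) F) *ᵥ z) := by
    intro z hz y
    obtain ⟨l, hl⟩ := exists_isotropic_add hF hv₀ hz
    have e1 := iso _ hl y
    have e2 := iso _ hv₀ y
    rw [Matrix.mulVec_add, Matrix.mulVec_smul, hermForm_add_right hF, hermForm_add_right hF,
      hermForm_smul_right, hermForm_smul_right] at e1
    linear_combination e1 - l ^ q * e2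
  have all : ∀ z y, H y z = b v₀ *
      H ((g : Matrix (Fin n) (Fin n) F) *ᵥ y) ((g : Matrix (Fin n) (Fin n) F) *ᵥ z) := by
    intro z y
    by_cases hz : H v₀ z = 0
    · obtain ⟨x, hx⟩ := exists_herm_ne_zero hF hv₀0
      have hvx : H v₀ x ≠ 0 := herm_ne_zero_symm hF hx
      have e1 := step2 (z + x) (by rw [hermForm_add_right hF, hz, zero_add]; exact hvx) y
      have e2 := step2 x hvx y
      rw [Matrix.mulVec_add, hermForm_add_right hF, hermForm_add_right hF] at e1
      linear_combination e1 - e2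
    · exact step2 z hz y
  have hb0 : b v₀ ≠ 0 := by
    intro h0
    obtain ⟨x, hx⟩ := exists_herm_ne_zero hF hv₀0
    apply hx
    rw [all v₀ x, h0, zero_mul]
  apply hgS
  refine ⟨Units.mk0 (b v₀)⁻¹ (inv_ne_zero hb0), fun x y => ?_⟩
  rw [Units.val_mk0, all y x, ← mul_assoc, inv_mul_cancel₀ hb0, one_mul]

/-- The similarity group of the Hermitian form meets `SL` in a maximal subgroup. -/
theorem herm_similarity_isMaximalIn (hF : Fintype.card F = q ^ 2) (hn : 13 ≤ n) :
    Cfsg.Geo.IsMaximalIn (Cfsg.Geo.specialLinear (Fin n) F)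
      (Cfsg.Geo.similarityGroup (Cfsg.hermForm n F q) ⊓ Cfsg.Geo.specialLinear (Fin n) F) := by
  have hq : q ≠ 0 := by have := q_pos hF; omega
  have hnt : Nontrivial (Fin n) := Fin.nontrivial_iff_two_le.mpr (by omega)
  have hGU : Cfsg.GU n F q ≤ Cfsg.Geo.similarityGroup (Cfsg.hermForm n F q) := by
    intro g hg
    exact ⟨1, fun x y => by rw [(mem_GU_iff g).mp hg]; simp⟩
  obtain ⟨v₀, hv₀0, -, hv₀⟩ := exists_isotropic_perp (q := q) hF (![] : Fin 0 → (Fin n → F))
    (by omega)
  refine ⟨lt_of_le_of_ne inf_le_right ?_, ?_⟩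
  · intro heq
    obtain ⟨c, hc⟩ := exists_trace_eq hF 1 (one_pow q)
    have h1 : utv q v₀ c hv₀ ∈ Cfsg.Geo.specialLinear (Fin n) F := utv_mem_SL _ _ _
    rw [← heq] at h1
    obtain ⟨μ, hμ⟩ := h1.1
    have hμ' : ∀ x y : Fin n → F, H (x + (c * H x v₀) • v₀) (y + (c * H y v₀) • v₀)
        = (μ : F) * H x y := by
      intro x y
      have := hμ x y
      rwa [utv_mulVec, utv_mulVec] at this
    obtain ⟨x, hx⟩ := exists_herm_ne_zero hF hv₀0
    have e1 := hμ' x v₀
    simp only [hermForm_add_left, hermForm_add_right hF, hermForm_smul_left, hermForm_smul_right,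
      hv₀, mul_zero, zero_pow hq, zero_mul, add_zero] at e1
    have hμ1 : (μ : F) = 1 := by
      have : ((μ : F) - 1) * H x v₀ = 0 := by linear_combination -e1
      rcases mul_eq_zero.mp this with h | h
      · exact sub_eq_zero.mp h
      · exact absurd h hx
    have e2 := hμ' x x
    simp only [hermForm_add_left, hermForm_add_right hF, hermForm_smul_left, hermForm_smul_right,
      hv₀, hμ1, mul_pow] at e2
    have e3 : (H x v₀) ^ q = H v₀ x := hermForm_conj hF x v₀
    rw [e3] at e2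
    have e4 : (c + c ^ q) * (H x v₀ * H v₀ x) = 0 := by linear_combination e2
    rw [hc, one_mul] at e4
    rcases mul_eq_zero.mp e4 with h | h
    · exact hx h
    · exact herm_ne_zero_symm hF hx h
  · intro M hHM hMS
    by_cases hMH : M ≤ Cfsg.Geo.similarityGroup (Cfsg.hermForm n F q)
    · left
      exact le_antisymm (le_inf hMH hMS) hHM
    · right
      obtain ⟨g, hg, hgS⟩ := SetLike.not_le_iff_exists.mp hMH
      have hSU : Cfsg.GU n F q ⊓ Cfsg.Geo.specialLinear (Fin n) F ≤ M :=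
        le_trans (inf_le_inf_right _ hGU) hHM
      obtain ⟨v, u₁, hv, hv0, hP, hu₁⟩ := exists_new hF hn hSU hg hgS
      have hfull := Full_all hF hSU hv hv0 (Full_of_UP hF (UP_full hF hn hSU hv hv0 hP hu₁))
      exact le_antisymm hMS (specialLinear_le_of_tv M (fun φ y h => hfull y φ h))

end Cfsg.Agent.Lib.Helper29
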