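import Mathlib
import Cfsg.Prelude.Def_GeometricClasses
import Cfsg.Agent.Lib.Helper29.SpInSU3
import Cfsg.Agent.Lib.Helper29.SpPair1

/-!
Pairs of complementary totally singular subspaces of the unitary space: overgroups of the
stabiliser of such a pair.
-/

set_option autoImplicit false

namespace Cfsg.Agent.Lib.Helper29

open Matrix Module
open Cfsg.Agent.H6 (add_pow_q pow_q_pow_q neg_pow_q sub_pow_q q_pos hermForm_add_left
  hermForm_smul_left hermForm_smul_right hermForm_add_right hermForm_conj)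

variable {F : Type*} [Field F] [Fintype F] {n q : ℕ}

local notation "H" => Cfsg.hermForm n F q
local notation "Vn" => (Fin n → F)

/-- A pair of totally singular subspaces spanning the unitary space. -/
structure UPair (q : ℕ) (W W' : Submodule F (Fin n → F)) : Prop where
  hF : Fintype.card F = q ^ 2
  ts : ∀ u ∈ W, ∀ v ∈ W, Cfsg.hermForm n F q u v = 0
  ts' : ∀ u ∈ W', ∀ v ∈ W', Cfsg.hermForm n F q u v = 0
  sum : ∀ v : Fin n → F, ∃ w ∈ W, ∃ w' ∈ W', v = w + w'

namespace UPair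

theorem symm {W W' : Submodule F Vn} (h : UPair q W W') : UPair q W' W :=
  ⟨h.hF, h.ts', h.ts, fun v => by
    obtain ⟨w, hw, w', hw', e⟩ := h.sum v
    exact ⟨w', hw', w, hw, by rw [e, add_comm]⟩⟩

theorem mem_of_perp {W W' : Submodule F Vn} (h : UPair q W W') {v : Vn}
    (hv : ∀ a ∈ W, H a v = 0) : v ∈ W := by
  obtain ⟨w, hw, w', hw', rfl⟩ := h.sum v
  have : w' = 0 := by
    by_contra hne
    obtain ⟨z, hz⟩ := exists_herm_ne_zero h.hF hne
    obtain ⟨a, ha, a', ha', rfl⟩ := h.sum z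
    apply hz
    rw [hermForm_add_left, h.ts' a' ha' w' hw', add_zero]
    have := hv a ha
    rwa [hermForm_add_right h.hF, h.ts a ha w hw, zero_add] at this
  rw [this, add_zero]; exact hw

theorem disj {W W' : Submodule F Vn} (h : UPair q W W') {v : Vn} (hv : v ∈ W) (hv' : v ∈ W') :
    v = 0 := by
  by_contra hne
  obtain ⟨z, hz⟩ := exists_herm_ne_zero h.hF hne
  obtain ⟨a, ha, a', ha', rfl⟩ := h.sum z
  apply hz
  rw [hermForm_add_left, h.ts a ha v hv, h.ts' a' ha' v hv', add_zero]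

theorem exists_dual {W W' : Submodule F Vn} (h : UPair q W W') (A : Submodule F Vn) (hA : A ≤ W)
    {r : Vn} (hr : r ∈ W) (hrA : r ∉ A) : ∃ a' ∈ W', (∀ a ∈ A, H a a' = 0) ∧ H r a' = 1 := by
  obtain ⟨z, hz, hz1⟩ := exists_herm_perp_eq_one h.hF A hrA
  obtain ⟨w, hw, w', hw', rfl⟩ := h.sum z
  refine ⟨w', hw', fun a ha => ?_, ?_⟩
  · have := hz a ha
    rwa [hermForm_add_right h.hF, h.ts a (hA ha) w hw, zero_add] at this
  · rwa [hermForm_add_right h.hF, h.ts r hr w hw, zero_add] at hz1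

theorem exists_dual_pair {W W' : Submodule F Vn} (h : UPair q W W') {r r₂ : Vn} (hr : r ∈ W)
    (hr₂ : r₂ ∈ W) (hind : ∀ s t : F, s • r + t • r₂ = 0 → s = 0 ∧ t = 0) :
    ∃ a' ∈ W', H r a' = 0 ∧ H r₂ a' = 1 := by
  obtain ⟨a', ha', h1, h2⟩ := h.exists_dual (Submodule.span F {r})
    (by rw [Submodule.span_singleton_le_iff_mem]; exact hr) hr₂ (notMem_span_of_ind hind)
  exact ⟨a', ha', h1 r (Submodule.mem_span_singleton_self r), h2⟩

theorem map {W W' : Submodule F Vn} (h : UPair q W W') {g : GL (Fin n) F}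
    (hg : g ∈ Cfsg.GU n F q) : UPair q (glMap g W) (glMap g W') := by
  refine ⟨h.hF, ?_, ?_, ?_⟩
  · intro u hu v hv
    rw [mem_glMap] at hu hv
    rw [← gl_mulVec_inv g u, ← gl_mulVec_inv g v, (mem_GU_iff g).mp hg]
    exact h.ts _ hu _ hv
  · intro u hu v hv
    rw [mem_glMap] at hu hv
    rw [← gl_mulVec_inv g u, ← gl_mulVec_inv g v, (mem_GU_iff g).mp hg]
    exact h.ts' _ hu _ hv
  · intro v
    obtain ⟨w, hw, w', hw', e⟩ := h.sum (((g⁻¹ : GL (Fin n) F) : Matrix (Fin n) (Fin n) F) *ᵥ v)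
    refine ⟨_, mulVec_mem_glMap g W hw, _, mulVec_mem_glMap g W' hw', ?_⟩
    rw [← Matrix.mulVec_add, ← e, gl_mulVec_inv]

end UPair

theorem conj_ueich {g : GL (Fin n) F} (hg : g ∈ Cfsg.GU n F q) (w a : Vn) (s : F)
    (hw : H w w = 0) (haw : H a w = 0) (hwa : H w a = 0)
    (hw' : H ((g : Matrix (Fin n) (Fin n) F) *ᵥ w) ((g : Matrix (Fin n) (Fin n) F) *ᵥ w) = 0)
    (haw' : H ((g : Matrix (Fin n) (Fin n) F) *ᵥ a) ((g : Matrix (Fin n) (Fin n) F) *ᵥ w) = 0)
    (hwa' : H ((g : Matrix (Fin n) (Fin n) F) *ᵥ w) ((g : Matrix (Fin n) (Fin n) F) *ᵥ a) = 0) :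
    g * ueich q w a s hw haw hwa * g⁻¹
      = ueich q ((g : Matrix (Fin n) (Fin n) F) *ᵥ w) ((g : Matrix (Fin n) (Fin n) F) *ᵥ a) s
        hw' haw' hwa' := by
  apply gl_ext
  intro x
  have e : ∀ v : Vn, H (((g⁻¹ : GL (Fin n) F) : Matrix (Fin n) (Fin n) F) *ᵥ x) v
      = H x ((g : Matrix (Fin n) (Fin n) F) *ᵥ v) := by
    intro v
    rw [← (mem_GU_iff g).mp hg, gl_mulVec_inv]
  rw [gl_mul_mulVec, gl_mul_mulVec, ueich_mulVec, ueich_mulVec, e, e]
  simp only [Matrix.mulVec_add, Matrix.mulVec_smul, gl_mulVec_inv]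

omit [Fintype F] in
theorem ueich_congr {w a w' a' : Vn} (s : F) (e1 : w = w') (e2 : a = a')
    (hw : H w w = 0) (haw : H a w = 0) (hwa : H w a = 0)
    (hw' : H w' w' = 0) (haw' : H a' w' = 0) (hwa' : H w' a' = 0) :
    ueich q w a s hw haw hwa = ueich q w' a' s hw' haw' hwa' := by
  subst e1; subst e2; rfl

namespace UPair

variable (M : Subgroup (GL (Fin n) F))

/-- B1: an element of `M` stabilising `W` stabilises `W'`. -/
theorem stab_of_stab {W W' : Submodule F Vn} (h : UPair q W W') (hMU : M ≤ Cfsg.GU n F q)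
    (hL : ∀ a ∈ W, ∀ a' ∈ W', ∀ (h1 : H a a = 0) (h2 : H a' a = 0) (h3 : H a a' = 0),
      ueich q a a' 0 h1 h2 h3 ∈ M)
    (hNQ : ∀ x ∈ M, (∀ w ∈ W, (x : Matrix (Fin n) (Fin n) F) *ᵥ w = w) → x = 1)
    (hdim : 2 ≤ finrank F W)
    {x : GL (Fin n) F} (hx : x ∈ M) (hxW : ∀ w ∈ W, (x : Matrix (Fin n) (Fin n) F) *ᵥ w ∈ W) :
    ∀ b' ∈ W', (x : Matrix (Fin n) (Fin n) F) *ᵥ b' ∈ W' := by
  have hF := h.hF
  intro b' hb'
  obtain ⟨w₀, hw₀, a', ha', e⟩ := h.sum ((x : Matrix (Fin n) (Fin n) F) *ᵥ b')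
  have hxU := (mem_GU_iff x).mp (hMU hx)
  have key : ∀ b ∈ W, b ≠ 0 → H b b' = 0 →
      ∃ μ : F, μ ^ q = μ ∧ w₀ = μ • ((x : Matrix (Fin n) (Fin n) F) *ᵥ b) := by
    intro b hb hb0 hbb'
    set a := (x : Matrix (Fin n) (Fin n) F) *ᵥ b with hadef
    have ha : a ∈ W := hxW b hb
    have ha0 : a ≠ 0 := gl_mulVec_ne_zero x hb0
    have haa : H a a = 0 := h.ts a ha a ha
    have haz : H a (w₀ + a') = 0 := by rw [← e, hadef, hxU, hbb']
    have hza : H (w₀ + a') a = 0 := herm_eq_zero_symm hF haz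
    have haa' : H a a' = 0 := by
      rw [hermForm_add_right hF, h.ts a ha w₀ hw₀, zero_add] at haz
      exact haz
    have ha'a : H a' a = 0 := herm_eq_zero_symm hF haa'
    have hl2 : ueich q a (w₀ + a') 0 haa hza haz ∈ M := by
      have h1 := conj_ueich (hMU hx) b b' 0 (h.ts b hb b hb) (herm_eq_zero_symm hF hbb') hbb'
        (by rw [hxU]; exact h.ts b hb b hb) (by rw [hxU]; exact herm_eq_zero_symm hF hbb')
        (by rw [hxU]; exact hbb')
      rw [ueich_congr 0 rfl e _ _ _ haa hza haz] at h1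
      rw [← h1]
      exact M.mul_mem (M.mul_mem hx (hL b hb b' hb' _ _ _)) (M.inv_mem hx)
    have hl1 := hL a ha a' ha' haa ha'a haa'
    have hz : (ueich q a a' 0 haa ha'a haa')⁻¹ * ueich q a (w₀ + a') 0 haa hza haz = 1 := by
      apply hNQ _ (M.mul_mem (M.inv_mem hl1) hl2)
      intro w hw
      have h3 : (ueich q a (w₀ + a') 0 haa hza haz : Matrix (Fin n) (Fin n) F) *ᵥ w
          = (ueich q a a' 0 haa ha'a haa' : Matrix (Fin n) (Fin n) F) *ᵥ w := by
        rw [ueich_mulVec, ueich_mulVec, hermForm_add_right hF, h.ts w hw w₀ hw₀, h.ts w hw a ha]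
        simp
      rw [gl_mul_mulVec, h3, gl_inv_mulVec]
    have heq : ueich q a (w₀ + a') 0 haa hza haz = ueich q a a' 0 haa ha'a haa' := by
      rw [inv_mul_eq_one] at hz
      exact hz.symm
    have hall : ∀ v : Vn, H v a • w₀ - H v w₀ • a = 0 := by
      intro v
      have h3 := congrArg (fun y : GL (Fin n) F => (y : Matrix (Fin n) (Fin n) F) *ᵥ v) heq
      simp only [ueich_mulVec, hermForm_add_right hF] at h3
      have h4 : v + H v a • (w₀ + a') + (0 * H v a - (H v w₀ + H v a')) • a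
          = (v + H v a • a' + (0 * H v a - H v a') • a) + (H v a • w₀ - H v w₀ • a) := by module
      rw [h4] at h3
      exact add_eq_left.mp h3
    obtain ⟨v, hva⟩ := exists_herm_ne_zero hF ha0
    have hw₀a : w₀ = (H v w₀ / H v a) • a := by
      have h5 : H v a • w₀ = H v w₀ • a := sub_eq_zero.mp (hall v)
      calc w₀ = (H v a)⁻¹ • (H v a • w₀) := by rw [smul_smul, inv_mul_cancel₀ hva, one_smul]
        _ = (H v a)⁻¹ • (H v w₀ • a) := by rw [h5]
        _ = _ := by module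
    refine ⟨H v w₀ / H v a, ?_, hw₀a⟩
    set μ := H v w₀ / H v a with hμdef
    have h3 := hall v
    rw [hw₀a, hermForm_smul_right, smul_smul, ← sub_smul] at h3
    have h4 := (smul_eq_zero.mp h3).resolve_right ha0
    have h5 : H v a * (μ - μ ^ q) = 0 := by linear_combination h4
    have h6 := (mul_eq_zero.mp h5).resolve_left hva
    exact (sub_eq_zero.mp h6).symm
  obtain ⟨b, hb, hbb, hb0⟩ := exists_mem_ker_notMem W ⊥ ![hermDual n q b'] (by simp; omega)
  have hbb' : H b b' = 0 := by simpa using hbb 0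
  have hb0' : b ≠ 0 := by simpa using hb0
  obtain ⟨θ, hθ⟩ := exists_pow_q_ne hF
  have hθ0 : θ ≠ 0 := by
    rintro rfl
    apply hθ
    rw [zero_pow (by have := q_pos hF; omega)]
  obtain ⟨μ, hμ, e1⟩ := key b hb hb0' hbb'
  obtain ⟨μ', hμ', e2⟩ := key (θ • b) (W.smul_mem _ hb) (smul_ne_zero hθ0 hb0')
    (by rw [hermForm_smul_left, hbb', mul_zero])
  have hxb0 := gl_mulVec_ne_zero x hb0'
  have h3 : μ = μ' * θ := by
    rw [e1, Matrix.mulVec_smul, smul_smul] at e2
    have h4 : (μ - μ' * θ) • ((x : Matrix (Fin n) (Fin n) F) *ᵥ b) = 0 := by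
      rw [sub_smul, sub_eq_zero]; exact e2
    exact sub_eq_zero.mp ((smul_eq_zero.mp h4).resolve_right hxb0)
  have hμ0 : μ = 0 := by
    by_contra hne
    have hμ'0 : μ' ≠ 0 := by
      rintro rfl
      apply hne
      rw [h3, zero_mul]
    apply hθ
    have : θ = μ / μ' := by rw [h3]; field_simp
    rw [this, div_pow, hμ, hμ']
  rw [hμ0, zero_smul] at e1
  rw [e, e1, zero_add]
  exact ha'

/-- Lemma A: a non-trivial element of `M` fixing `W` pointwise forces all transvections with centre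
in `W` into `M`. -/
theorem ucentres_of_fix {W W' : Submodule F Vn} (h : UPair q W W') (hMU : M ≤ Cfsg.GU n F q)
    (hL : ∀ a ∈ W, ∀ a' ∈ W', ∀ (h1 : H a a = 0) (h2 : H a' a = 0) (h3 : H a a' = 0),
      ueich q a a' 0 h1 h2 h3 ∈ M)
    (hdim : 3 ≤ finrank F W)
    {x : GL (Fin n) F} (hx : x ∈ M) (hx1 : x ≠ 1)
    (hxW : ∀ w ∈ W, (x : Matrix (Fin n) (Fin n) F) *ᵥ w = w) :
    ∀ w ∈ W, w ∈ ucentres q M := by
  have hF := h.hF
  have hxU := (mem_GU_iff x).mp (hMU hx)
  obtain ⟨a', ha', hu0⟩ : ∃ a' ∈ W', (x : Matrix (Fin n) (Fin n) F) *ᵥ a' - a' ≠ 0 := by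
    by_contra hcon
    push Not at hcon
    apply hx1
    apply gl_ext
    intro v
    obtain ⟨w, hw, w', hw', rfl⟩ := h.sum v
    rw [Matrix.mulVec_add, hxW w hw, sub_eq_zero.mp (hcon w' hw')]
    simp
  set u := (x : Matrix (Fin n) (Fin n) F) *ᵥ a' - a' with hudef
  have hu : u ∈ W := by
    apply h.mem_of_perp
    intro a ha
    rw [hudef, herm_sub_right hF]
    nth_rewrite 1 [← hxW a ha]
    rw [hxU, sub_self]
  have hxa' : (x : Matrix (Fin n) (Fin n) F) *ᵥ a' = a' + u := by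
    rw [hudef]; abel
  have hxu := hxW u hu
  have huu : H u u = 0 := h.ts u hu u hu
  have ha'a' : H a' a' = 0 := h.ts' a' ha' a' ha'
  have htr : H a' u + H u a' = 0 := by
    have h1 : H (a' + u) (a' + u) = 0 := by rw [← hxa', hxU, ha'a']
    simp only [hermForm_add_left, hermForm_add_right hF, huu, ha'a'] at h1
    linear_combination h1
  obtain ⟨η, hη⟩ := exists_trace_eq hF 1 (one_pow q)
  -- the basic construction
  have key : ∀ a ∈ W, H a a' = 0 → (∃ a'' ∈ W', H a a'' = 0 ∧ H u a'' = 1) → a ∈ ucentres q M := by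
    rintro a ha haa' ⟨a₀, ha₀, h1, h3⟩
    have haa : H a a = 0 := h.ts a ha a ha
    refine ⟨haa, fun c hc => ?_⟩
    have hcq : c ^ q = -c := by linear_combination hc
    set γ := c * η with hγ
    have hγc : γ - γ ^ q = c := by
      rw [hγ, mul_pow, hcq]; linear_combination c * hη
    set a'' := (γ ^ q) • a₀ with ha''def
    have ha'' : a'' ∈ W' := W'.smul_mem _ ha₀
    have h1' : H a a'' = 0 := by rw [ha''def, hermForm_smul_right, h1, mul_zero]
    have h3' : H u a'' = γ := by rw [ha''def, hermForm_smul_right, h3, mul_one, pow_q_pow_q hF]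
    have hau : H a u = 0 := h.ts a ha u hu
    have hua : H u a = 0 := h.ts u hu a ha
    have ha'a : H a' a = 0 := herm_eq_zero_symm hF haa'
    have ha''a : H a'' a = 0 := herm_eq_zero_symm hF h1'
    have hanu : H a (-u) = 0 := by rw [herm_neg_right hF, hau, neg_zero]
    have hnua : H (-u) a = 0 := by rw [herm_neg_left, hua, neg_zero]
    have hxa := hxW a ha
    have hE := hL a ha a' ha' haa ha'a haa'
    have hy₁ : ueich q a (-u) (-(H a' u)) haa hnua hanu ∈ M := by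
      have id : ueich q a a' 0 haa ha'a haa' * x
          = ueich q a (-u) (-(H a' u)) haa hnua hanu * x * ueich q a a' 0 haa ha'a haa' := by
        apply gl_ext
        intro v
        have e1 : H ((x : Matrix (Fin n) (Fin n) F) *ᵥ v) a = H v a := by
          nth_rewrite 1 [← hxa]; rw [hxU]
        have e2 : H ((x : Matrix (Fin n) (Fin n) F) *ᵥ v) u = H v u := by
          nth_rewrite 1 [← hxu]; rw [hxU]
        have e3 : H ((x : Matrix (Fin n) (Fin n) F) *ᵥ v) a' = H v a' - H v u := by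
          have : a' = (x : Matrix (Fin n) (Fin n) F) *ᵥ a' - u := by rw [hxa']; abel
          nth_rewrite 1 [this]
          rw [herm_sub_right hF, hxU, e2]
        rw [gl_mul_mulVec, gl_mul_mulVec, gl_mul_mulVec, ueich_mulVec, ueich_mulVec, ueich_mulVec]
        simp only [Matrix.mulVec_add, Matrix.mulVec_smul, hxa, hxa', hermForm_add_left,
          hermForm_smul_left, herm_neg_right hF, e1, e2, e3, ha'a, hua, hau, haa, huu]
        module
      have : ueich q a (-u) (-(H a' u)) haa hnua hanu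
          = ueich q a a' 0 haa ha'a haa' * x * (ueich q a a' 0 haa ha'a haa')⁻¹ * x⁻¹ := by
        rw [id]; group
      rw [this]
      exact M.mul_mem (M.mul_mem (M.mul_mem hE hx) (M.inv_mem hE)) (M.inv_mem hx)
    have hE₂ := hL a ha a'' ha'' haa ha''a h1'
    have hfin : utv q a c haa = ueich q a a'' 0 haa ha''a h1' *
        ueich q a (-u) (-(H a' u)) haa hnua hanu * (ueich q a a'' 0 haa ha''a h1')⁻¹ *
        (ueich q a (-u) (-(H a' u)) haa hnua hanu)⁻¹ := by
      rw [eq_mul_inv_iff_mul_eq, eq_mul_inv_iff_mul_eq]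
      apply gl_ext
      intro v
      rw [gl_mul_mulVec, gl_mul_mulVec, gl_mul_mulVec, ueich_mulVec, ueich_mulVec, ueich_mulVec,
        ueich_mulVec, utv_mulVec]
      simp only [hermForm_add_left, hermForm_smul_left, herm_neg_left, herm_neg_right hF, hua, hau,
        haa, h1', h3', ha''a, ← hγc]
      have e5 : H a'' u = γ ^ q := by rw [← h3', hermForm_conj hF]
      rw [e5]
      module
    rw [hfin]
    exact M.mul_mem (M.mul_mem (M.mul_mem hE₂ hy₁) (M.inv_mem hE₂)) (M.inv_mem hy₁)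
  -- moving centres inside `W`
  have move : ∀ w₁ ∈ W, ∀ w₂ ∈ W, (∀ s t : F, s • w₁ + t • w₂ = 0 → s = 0 ∧ t = 0) →
      w₁ ∈ ucentres q M → w₂ ∈ ucentres q M := by
    intro w₁ hw₁ w₂ hw₂ hind hmem
    obtain ⟨d₁, hd₁, p1, p2⟩ := h.exists_dual_pair hw₁ hw₂ hind
    obtain ⟨d₂, hd₂, p3, p4⟩ := h.exists_dual_pair hw₂ hw₁ (ind_symm hind)
    have hperp : H (w₂ - w₁) (-(d₁ + d₂)) = 0 := by
      simp only [herm_sub_left, herm_neg_right hF, hermForm_add_right hF, p1, p2, p3, p4]; ring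
    have hE := hL (w₂ - w₁) (W.sub_mem hw₂ hw₁) (-(d₁ + d₂)) (W'.neg_mem (W'.add_mem hd₁ hd₂))
      (h.ts _ (W.sub_mem hw₂ hw₁) _ (W.sub_mem hw₂ hw₁)) (herm_eq_zero_symm hF hperp) hperp
    have e1 := ucentres_mulVec hMU hE hmem
    rw [ueich_mulVec] at e1
    simp only [herm_sub_right hF, herm_neg_right hF, hermForm_add_right hF, h.ts w₁ hw₁ w₁ hw₁,
      h.ts w₁ hw₁ w₂ hw₂, p1, p4] at e1
    have e2 : w₁ + ((0 : F) - 0) • -(d₁ + d₂) + (0 * ((0 : F) - 0) - -(0 + 1)) • (w₂ - w₁) = w₂ := by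
      module
    rwa [e2] at e1
  obtain ⟨a₀, ha₀, hk, ha₀u⟩ := exists_mem_ker_notMem W (Submodule.span F {u}) ![hermDual n q a']
    (by
      have := finrank_span_singleton (K := F) hu0
      omega)
  have ha₀a' : H a₀ a' = 0 := by simpa using hk 0
  have hind₀ := ind_of_notMem_span hu0 ha₀u
  have ha₀0 : a₀ ≠ 0 := by
    rintro rfl
    exact ha₀u (Submodule.zero_mem _)
  have hbase : a₀ ∈ ucentres q M := by
    apply key a₀ ha₀ ha₀a'
    obtain ⟨a'', ha'', p1, p2⟩ := h.exists_dual_pair ha₀ hu (ind_symm hind₀)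
    exact ⟨a'', ha'', p1, p2⟩
  have h1 : ∀ w ∈ W, w ∉ Submodule.span F {a₀} → w ∈ ucentres q M := fun w hw hwa =>
    move a₀ ha₀ w hw (ind_of_notMem_span ha₀0 hwa) hbase
  intro w hw
  by_cases hwa : w ∈ Submodule.span F {a₀}
  · obtain ⟨c, rfl⟩ := Submodule.mem_span_singleton.mp hwa
    exact ucentres_smul hF hbase c
  · exact h1 w hw hwa

/-- (D): a second pair `(Z, Z')` with `Z` meeting `W` in two independent vectors has `W' ≤ Z'`. -/
theorem le_of_common {W W' Z Z' : Submodule F Vn} (h : UPair q W W') (hZ : UPair q Z Z')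
    (hL : ∀ a ∈ W, ∀ a' ∈ W', ∀ (h1 : H a a = 0) (h2 : H a' a = 0) (h3 : H a a' = 0),
      ueich q a a' 0 h1 h2 h3 ∈ M)
    (hB1 : ∀ x ∈ M, (∀ z ∈ Z, (x : Matrix (Fin n) (Fin n) F) *ᵥ z ∈ Z) →
      ∀ z' ∈ Z', (x : Matrix (Fin n) (Fin n) F) *ᵥ z' ∈ Z')
    {r r₂ : Vn} (hr : r ∈ W) (hrZ : r ∈ Z) (hr₂ : r₂ ∈ W) (hr₂Z : r₂ ∈ Z)
    (hind : ∀ s t : F, s • r + t • r₂ = 0 → s = 0 ∧ t = 0) : W' ≤ Z' := by
  have hF := h.hF
  obtain ⟨θ, hθ⟩ := exists_pow_q_ne hF
  have claim : ∀ r ∈ W, r ∈ Z → ∀ a' ∈ W', H r a' = 0 → ∀ z' ∈ Z',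
      H z' r • a' - H z' a' • r ∈ Z' := by
    intro r hr hrZ a' ha' hra z' hz'
    have h1 := hB1 _ (hL r hr a' ha' (h.ts r hr r hr) (herm_eq_zero_symm hF hra) hra) (by
      intro z hz
      rw [ueich_mulVec, hZ.ts z hz r hrZ, zero_smul, add_zero]
      exact Z.add_mem hz (Z.smul_mem _ hrZ)) z' hz'
    rw [ueich_mulVec, add_assoc] at h1
    have h3 := (Z'.add_mem_iff_right hz').mp h1
    have h4 : H z' r • a' + (0 * H z' r - H z' a') • r = H z' r • a' - H z' a' • r := by module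
    rwa [h4] at h3
  have sub : ∀ r ∈ W, r ∈ Z → r ≠ 0 → ∀ a' ∈ W', H r a' = 0 → a' ∈ Z' := by
    intro r hr hrZ hr0 a' ha' hra
    have hnot : r ∉ Z' := fun h' => hr0 (hZ.disj hrZ h')
    have : ∃ z' ∈ Z', H z' r ≠ 0 := by
      by_contra hcon
      push Not at hcon
      exact hnot (hZ.symm.mem_of_perp hcon)
    obtain ⟨z₀, hz₀, hne⟩ := this
    set z₁ := (H z₀ r)⁻¹ • z₀ with hz₁def
    have hz₁ : z₁ ∈ Z' := Z'.smul_mem _ hz₀
    have hz₁r : H z₁ r = 1 := by rw [hz₁def, hermForm_smul_left, inv_mul_cancel₀ hne]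
    have c1 := claim r hr hrZ a' ha' hra z₁ hz₁
    have c2 := claim r hr hrZ (θ • a') (W'.smul_mem _ ha')
      (by rw [hermForm_smul_right, hra, mul_zero]) z₁ hz₁
    rw [hz₁r, one_smul] at c1 c2
    rw [hermForm_smul_right] at c2
    have c3 := Z'.sub_mem (Z'.smul_mem θ c1) c2
    have e1 : θ • (a' - H z₁ a' • r) - (θ • a' - (θ ^ q * H z₁ a') • r)
        = ((θ ^ q - θ) * H z₁ a') • r := by module
    rw [e1] at c3
    have c4 := hZ.disj (Z.smul_mem _ hrZ) c3
    have c5 := (smul_eq_zero.mp c4).resolve_right hr0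
    have c6 := (mul_eq_zero.mp c5).resolve_left (sub_ne_zero.mpr hθ)
    rwa [c6, zero_smul, sub_zero] at c1
  have hr0 : r ≠ 0 := by
    rintro rfl
    have := (hind 1 0 (by simp)).1
    exact one_ne_zero this
  have hr₂0 : r₂ ≠ 0 := by
    rintro rfl
    have := (hind 0 1 (by simp)).2
    exact one_ne_zero this
  obtain ⟨a₂, ha₂, p3, p4⟩ := h.exists_dual_pair hr₂ hr (ind_symm hind)
  have ha₂Z := sub r₂ hr₂ hr₂Z hr₂0 a₂ ha₂ p3
  intro w' hw'
  have h3 := sub r hr hrZ hr0 (w' - (H w' r) • a₂) (W'.sub_mem hw' (W'.smul_mem _ ha₂))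
    (by rw [herm_sub_right hF, hermForm_smul_right, p4, mul_one, hermForm_conj hF, sub_self])
  have h4 := Z'.add_mem h3 (Z'.smul_mem (H w' r) ha₂Z)
  rwa [sub_add_cancel] at h4

/-- (C): a maximal totally singular subspace other than `W`, `W'` is moved by a root element. -/
theorem exists_moved {W W' Y Y' : Submodule F Vn} (h : UPair q W W') (hY : UPair q Y Y')
    (hYW : ¬ Y ≤ W) (hYW' : ¬ Y ≤ W') (hdim : 3 ≤ finrank F W) :
    ∃ w ∈ W, ∃ w' ∈ W', ∃ (h1 : H w w = 0) (h2 : H w' w = 0) (h3 : H w w' = 0),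
      ∃ y ∈ Y, (ueich q w w' 0 h1 h2 h3 : Matrix (Fin n) (Fin n) F) *ᵥ y ∉ Y := by
  have hF := h.hF
  by_contra hcon
  push Not at hcon
  obtain ⟨y, hy, hyW, hyW'⟩ : ∃ y ∈ Y, y ∉ W ∧ y ∉ W' := by
    by_contra hc
    push Not at hc
    rcases le_or_le_of_forall_mem_or Y W W' (fun a ha => by
      by_cases h1 : a ∈ W
      · exact Or.inl h1
      · exact Or.inr (hc a ha h1)) with h1 | h1
    · exact hYW h1
    · exact hYW' h1
  obtain ⟨a, ha, a', ha', rfl⟩ := h.sum y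
  have ha0 : a ≠ 0 := by
    rintro rfl
    apply hyW'
    rw [zero_add]; exact ha'
  have ha'0 : a' ≠ 0 := by
    rintro rfl
    apply hyW
    rw [add_zero]; exact ha
  have hmem : ∀ w ∈ W, ∀ w' ∈ W', H w w' = 0 → H a' w • w' - H a w' • w ∈ Y := by
    intro w hw w' hw' hww
    have h1 := hcon w hw w' hw' (h.ts w hw w hw) (herm_eq_zero_symm hF hww) hww _ hy
    rw [ueich_mulVec, add_assoc, hermForm_add_left, hermForm_add_left, h.ts a ha w hw,
      h.ts' a' ha' w' hw', zero_add, add_zero] at h1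
    have h3 := (Y.add_mem_iff_right hy).mp h1
    have h4 : H a' w • w' + (0 * H a' w - H a w') • w = H a' w • w' - H a w' • w := by module
    rwa [h4] at h3
  obtain ⟨w, hw, hk, hwa⟩ := exists_mem_ker_notMem W (Submodule.span F {a}) ![hermDual n q a']
    (by
      have := finrank_span_singleton (K := F) ha0
      omega)
  have hwa' : H w a' = 0 := by simpa using hk 0
  have ha'w : H a' w = 0 := herm_eq_zero_symm hF hwa'
  have hind := ind_of_notMem_span ha0 hwa
  obtain ⟨w', hw', p1, p2⟩ := h.exists_dual_pair hw ha (ind_symm hind)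
  have hwY : w ∈ Y := by
    have := hmem w hw w' hw' p1
    rw [ha'w, zero_smul, zero_sub, p2, one_smul] at this
    have h5 := Y.neg_mem this
    rwa [neg_neg] at h5
  obtain ⟨v', hv', p3, p4⟩ := h.exists_dual_pair ha hw hind
  have hv'a' : v' ∉ Submodule.span F {a'} := by
    intro hmem'
    obtain ⟨c, hc⟩ := Submodule.mem_span_singleton.mp hmem'
    rw [← hc, hermForm_smul_right, hwa', mul_zero] at p4
    exact zero_ne_one p4
  obtain ⟨v, hv, p5, p6⟩ := h.symm.exists_dual_pair hv' ha' (ind_symm (ind_of_notMem_span ha'0 hv'a'))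
  have hv'Y : v' ∈ Y := by
    have := hmem v hv v' hv' (herm_eq_zero_symm hF p5)
    rwa [p6, one_smul, p3, zero_smul, sub_zero] at this
  have := hY.ts w hwY v' hv'Y
  rw [p4] at this
  exact one_ne_zero this

end UPair

end Cfsg.Agent.Lib.Helper29
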