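import Mathlib
import Cfsg.Agent.Lib.Helper29.OmRat7
import Cfsg.Agent.Lib.Helper29.SuGen
import Cfsg.Agent.Lib.Helper29.SpInSU4
import Cfsg.Agent.Lib.Helper29.SuPair1

/-!
Orthogonal rational structures on a unitary space: the bilinear extension of the form.
-/

set_option autoImplicit false
set_option linter.unusedSectionVars false
set_option linter.unusedSimpArgs false

namespace Cfsg.Agent.Lib.Helper29

open Matrix QuadraticMap Module
open Cfsg.Agent.H6 (add_pow_q pow_q_pow_q neg_pow_q sub_pow_q q_pos hermForm_add_left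
  hermForm_smul_left hermForm_smul_right hermForm_add_right hermForm_conj)

variable {F : Type*} [Field F] [Fintype F] {n q : ℕ} {F₀ : Subfield F}

local notation "H" => Cfsg.hermForm n F q
local notation "Vn" => (Fin n → F)

theorem herm_sum_left {κ : Type*} (s : Finset κ) (f : κ → Vn) (w : Vn) :
    H (∑ j ∈ s, f j) w = ∑ j ∈ s, H (f j) w :=
  map_sum (hermDual n q w) f s

theorem herm_sum_right (hF : Fintype.card F = q ^ 2) {κ : Type*} (s : Finset κ) (f : κ → Vn) (w : Vn) :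
    H w (∑ j ∈ s, f j) = ∑ j ∈ s, H w (f j) := by
  classical
  have hq : q ≠ 0 := by have := q_pos hF; omega
  induction s using Finset.induction_on with
  | empty => simp [herm_zero_right hq]
  | insert a s ha ih => rw [Finset.sum_insert ha, Finset.sum_insert ha, hermForm_add_right hF, ih]

/-- the columns of `P` -/
def ratCol (F₀ : Subfield F) (P : GL (Fin n) F) (j : Fin n) : Vn := ratEmb F₀ P (Pi.single j 1)

theorem ratCol_expand (P : GL (Fin n) F) (v : Vn) :
    v = ∑ j, (((P⁻¹ : GL (Fin n) F) : Matrix (Fin n) (Fin n) F) *ᵥ v) j • ratCol F₀ P j := by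
  set w := ((P⁻¹ : GL (Fin n) F) : Matrix (Fin n) (Fin n) F) *ᵥ v with hw
  have h1 : v = (P : Matrix (Fin n) (Fin n) F) *ᵥ w := by
    rw [hw, gl_mulVec_inv]
  have h2 : w = ∑ i, w i • (Pi.single i 1 : Vn) := by
    funext j
    simp [Finset.sum_apply, Pi.single_apply]
  conv_lhs => rw [h1, h2]
  rw [Matrix.mulVec_sum]
  apply Finset.sum_congr rfl
  intro j _
  rw [Matrix.mulVec_smul]
  congr 1
  unfold ratCol ratEmb
  congr 1
  funext k
  by_cases hk : k = j
  · subst hk; simp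
  · simp [Pi.single_apply, hk]

theorem inv_mulVec_ratEmb (P : GL (Fin n) F) (x : Fin n → F₀) :
    ((P⁻¹ : GL (Fin n) F) : Matrix (Fin n) (Fin n) F) *ᵥ ratEmb F₀ P x = fun i => (x i : F) := by
  unfold ratEmb
  rw [gl_inv_mulVec]

theorem ratEmb_expand (P : GL (Fin n) F) (x : Fin n → F₀) :
    ratEmb F₀ P x = ∑ j, (x j : F) • ratCol F₀ P j := by
  conv_lhs => rw [ratCol_expand (F₀ := F₀) P (ratEmb F₀ P x)]
  rw [inv_mulVec_ratEmb]

/-- the bilinear extension of the restriction of the hermitian form to the rational vectors -/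
noncomputable def bilExt (q : ℕ) (F₀ : Subfield F) (P : GL (Fin n) F) : Vn →ₗ[F] Vn →ₗ[F] F :=
  LinearMap.mk₂ F (fun v w => ∑ j, Cfsg.hermForm n F q v (ratCol F₀ P j) *
      (((P⁻¹ : GL (Fin n) F) : Matrix (Fin n) (Fin n) F) *ᵥ w) j)
    (fun v v' w => by simp only [hermForm_add_left, add_mul, Finset.sum_add_distrib])
    (fun c v w => by simp only [hermForm_smul_left, smul_eq_mul, Finset.mul_sum, mul_assoc])
    (fun v w w' => by simp only [Matrix.mulVec_add, Pi.add_apply, mul_add, Finset.sum_add_distrib])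
    (fun c v w => by
      simp only [Matrix.mulVec_smul, Pi.smul_apply, smul_eq_mul, Finset.mul_sum]
      apply Finset.sum_congr rfl
      intro j _
      ring)

theorem bilExt_apply (P : GL (Fin n) F) (v w : Vn) :
    bilExt q F₀ P v w = ∑ j, H v (ratCol F₀ P j) * (((P⁻¹ : GL (Fin n) F) : Matrix (Fin n) (Fin n) F) *ᵥ w) j :=
  rfl

theorem bilExt_right (hF : Fintype.card F = q ^ 2) (hfix : ∀ x : F, x ∈ F₀ → x ^ q = x) (P : GL (Fin n) F)
    (v : Vn) (x : Fin n → F₀) : bilExt q F₀ P v (ratEmb F₀ P x) = H v (ratEmb F₀ P x) := by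
  rw [bilExt_apply, inv_mulVec_ratEmb, ratEmb_expand, herm_sum_right hF]
  apply Finset.sum_congr rfl
  intro j _
  rw [hermForm_smul_right, hfix _ (x j).2, mul_comm]

theorem bilExt_left (hF : Fintype.card F = q ^ 2) (hfix : ∀ x : F, x ∈ F₀ → x ^ q = x) (P : GL (Fin n) F)
    (hP : ∀ x y : Fin n → F₀, H (ratEmb F₀ P x) (ratEmb F₀ P y) ∈ F₀)
    (v : Vn) (x : Fin n → F₀) : bilExt q F₀ P (ratEmb F₀ P x) v = H v (ratEmb F₀ P x) := by
  rw [bilExt_apply]
  conv_rhs => rw [ratCol_expand (F₀ := F₀) P v, herm_sum_left]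
  apply Finset.sum_congr rfl
  intro j _
  rw [hermForm_smul_left, mul_comm]
  congr 1
  rw [← hermForm_conj hF]
  exact hfix _ (hP (Pi.single j 1) x)

/-- the quadratic form of the bilinear extension -/
noncomputable def quadExt (q : ℕ) (F₀ : Subfield F) (P : GL (Fin n) F) : QuadraticForm F Vn :=
  LinearMap.BilinMap.toQuadraticMap ((2 : F)⁻¹ • bilExt q F₀ P)

theorem polar_quadExt (hF : Fintype.card F = q ^ 2) (h2 : (2 : F) ≠ 0) (hfix : ∀ x : F, x ∈ F₀ → x ^ q = x)
    (P : GL (Fin n) F) (hP : ∀ x y : Fin n → F₀, H (ratEmb F₀ P x) (ratEmb F₀ P y) ∈ F₀)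
    (v : Vn) (x : Fin n → F₀) : polar (quadExt q F₀ P) v (ratEmb F₀ P x) = H v (ratEmb F₀ P x) := by
  unfold quadExt
  rw [LinearMap.BilinMap.polar_toQuadraticMap]
  simp only [LinearMap.smul_apply, bilExt_right hF hfix, bilExt_left hF hfix P hP, smul_eq_mul]
  field_simp
  ring

theorem quadExt_ratEmb (hF : Fintype.card F = q ^ 2) (hfix : ∀ x : F, x ∈ F₀ → x ^ q = x)
    (P : GL (Fin n) F) (x : Fin n → F₀) :
    quadExt q F₀ P (ratEmb F₀ P x) = (2 : F)⁻¹ * H (ratEmb F₀ P x) (ratEmb F₀ P x) := by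
  unfold quadExt
  rw [LinearMap.BilinMap.toQuadraticMap_apply]
  simp only [LinearMap.smul_apply, bilExt_right hF hfix, smul_eq_mul]

theorem ratEmb_dec (hcard : Fintype.card F = Nat.card F₀ ^ 2) (P : GL (Fin n) F) {θ : F} (hθ : θ ∉ F₀) (v : Vn) :
    ∃ a b : Fin n → F₀, v = ratEmb F₀ P a + θ • ratEmb F₀ P b := by
  choose c₁ h1 c₂ h2 h3 using fun i =>
    subfield_dec F₀ hcard hθ ((((P⁻¹ : GL (Fin n) F) : Matrix (Fin n) (Fin n) F) *ᵥ v) i)
  refine ⟨fun i => ⟨c₁ i, h1 i⟩, fun i => ⟨c₂ i, h2 i⟩, ?_⟩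
  unfold ratEmb
  rw [← Matrix.mulVec_smul, ← Matrix.mulVec_add]
  have h4 : c₁ + θ • c₂ = ((P⁻¹ : GL (Fin n) F) : Matrix (Fin n) (Fin n) F) *ᵥ v := by
    ext i
    rw [h3 i]; rfl
  show v = (P : Matrix (Fin n) (Fin n) F) *ᵥ (c₁ + θ • c₂)
  rw [h4, gl_mulVec_inv]

theorem quadExt_nondeg (hF : Fintype.card F = q ^ 2) (h2 : (2 : F) ≠ 0) (hfix : ∀ x : F, x ∈ F₀ → x ^ q = x)
    (hcard : Fintype.card F = Nat.card F₀ ^ 2)
    (P : GL (Fin n) F) (hP : ∀ x y : Fin n → F₀, H (ratEmb F₀ P x) (ratEmb F₀ P y) ∈ F₀) :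
    (polarBilin (quadExt q F₀ P)).Nondegenerate := by
  obtain ⟨θ, hθ⟩ := exists_pow_q_ne hF
  have hθ' : θ ∉ F₀ := fun h => hθ (hfix _ h)
  have key : ∀ v : Vn, (∀ w, polar (quadExt q F₀ P) v w = 0) → v = 0 := by
    intro v hv
    by_contra hv0
    obtain ⟨z, hz⟩ := exists_herm_ne_zero (q := q) hF hv0
    apply herm_ne_zero_symm hF hz
    obtain ⟨a, b, rfl⟩ := ratEmb_dec hcard P hθ' z
    rw [hermForm_add_right hF, hermForm_smul_right, ← polar_quadExt hF h2 hfix P hP,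
      ← polar_quadExt hF h2 hfix P hP, hv, hv]
    ring
  constructor
  · intro v hv
    exact key v hv
  · intro v hv
    apply key v
    intro w
    rw [polar_comm]
    exact hv w

end Cfsg.Agent.Lib.Helper29
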