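import Mathlib
import Cfsg.Agent.Lib.Helper29.SuO1

/-!
Orthogonal rational structures on a unitary space: Siegel transformations, and the subgroups
containing a transvection with rational centre.
-/

set_option autoImplicit false
set_option linter.unusedSectionVars false
set_option linter.unusedSimpArgs false

namespace Cfsg.Agent.Lib.Helper29

open Matrix QuadraticMap Module
open Cfsg.Agent.H6 (add_pow_q pow_q_pow_q neg_pow_q sub_pow_q q_pos hermForm_add_left
  hermForm_smul_left hermForm_smul_right hermForm_add_right hermForm_conj)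

variable {F : Type*} [Field F] [Fintype F] {n q : ℕ} {F₀ : Subfield F}

local notation "H" => Cfsg.hermForm n F q
local notation "Vn" => (Fin n → F)

/-- membership of a unitary Siegel transformation -/
def UE (q : ℕ) (M : Subgroup (GL (Fin n) F)) (w a : Fin n → F) (s : F) : Prop :=
  ∀ (hw : Cfsg.hermForm n F q w w = 0) (haw : Cfsg.hermForm n F q a w = 0)
    (hwa : Cfsg.hermForm n F q w a = 0), ueich q w a s hw haw hwa ∈ M

variable {M : Subgroup (GL (Fin n) F)}

theorem UE_congr {w a w' a' : Vn} {s s' : F} (h : UE q M w a s) (e1 : w = w') (e2 : a = a') (e3 : s = s') :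
    UE q M w' a' s' := by
  subst e1; subst e2; subst e3; exact h

theorem UE_mul (hF : Fintype.card F = q ^ 2) {w a a' : Vn} {s s' : F} (h : UE q M w a s)
    (h' : UE q M w a' s') (haw : H a w = 0) (haw' : H a' w = 0) :
    UE q M w (a + a') (s + s' - H a' a) := by
  intro hw h1 h2
  have hwa := herm_eq_zero_symm hF haw
  have hwa' := herm_eq_zero_symm hF haw'
  rw [← ueich_mul hF s s' hw haw hwa haw' hwa' h1 h2]
  exact M.mul_mem (h hw haw hwa) (h' hw haw' hwa')

theorem UE_inv (hF : Fintype.card F = q ^ 2) {w a : Vn} {s : F} (h : UE q M w a s) (haw : H a w = 0) :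
    UE q M w (-a) (-s - H a a) := by
  intro hw h1 h2
  have hwa := herm_eq_zero_symm hF haw
  have : ueich q w (-a) (-s - H a a) hw h1 h2 = (ueich q w a s hw haw hwa)⁻¹ := by
    apply eq_inv_of_mul_eq_one_left
    apply gl_ext
    intro x
    rw [gl_mul_mulVec, ueich_mulVec, ueich_mulVec, Units.val_one, Matrix.one_mulVec]
    simp only [hermForm_add_left, hermForm_smul_left, herm_neg_right hF, hw, haw, hwa]
    module
  rw [this]
  exact M.inv_mem (h hw haw hwa)

theorem UE_conj {g : GL (Fin n) F} (hg : g ∈ M) (hgU : g ∈ Cfsg.GU n F q) {w a : Vn} {s : F}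
    (h : UE q M w a s) :
    UE q M ((g : Matrix (Fin n) (Fin n) F) *ᵥ w) ((g : Matrix (Fin n) (Fin n) F) *ᵥ a) s := by
  intro hw haw hwa
  have e := (mem_GU_iff g).mp hgU
  have hw' : H w w = 0 := by rw [← e]; exact hw
  have haw' : H a w = 0 := by rw [← e]; exact haw
  have hwa' : H w a = 0 := by rw [← e]; exact hwa
  rw [← conj_ueich hgU w a s hw' haw' hwa' hw haw hwa]
  exact M.mul_mem (M.mul_mem hg (h _ _ _)) (M.inv_mem hg)

theorem utv_of_UE (hF : Fintype.card F = q ^ 2) {w : Vn} {c : F} (h : UE q M w 0 c) (hw : H w w = 0) :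
    utv q w c hw ∈ M := by
  have hq : q ≠ 0 := by have := q_pos hF; omega
  have h1 := h hw (herm_zero_left hq w) (herm_zero_right hq w)
  have e : ueich q w 0 c hw (herm_zero_left hq w) (herm_zero_right hq w) = utv q w c hw := by
    apply gl_ext; intro x; rw [ueich_mulVec, utv_mulVec, herm_zero_right hq]; simp
  rwa [e] at h1

theorem UE_diff (hF : Fintype.card F = q ^ 2) {w b : Vn} {t₁ t₂ : F} (h1 : UE q M w b t₁)
    (h2 : UE q M w b t₂) (hbw : H b w = 0) : UE q M w 0 (t₁ - t₂) := by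
  have k := UE_mul hF h1 (UE_inv hF h2 hbw) hbw (by rw [herm_neg_left, hbw, neg_zero])
  refine UE_congr k rfl (by abel) ?_
  rw [herm_neg_left]; ring

theorem utv_congr {v v' : Vn} (c : F) (h : v = v') (hv : H v v = 0) (hv' : H v' v' = 0) :
    utv q v c hv = utv q v' c hv' := by
  subst h; rfl

theorem utv_sub (v : Vn) (c₁ c₂ : F) (hv : H v v = 0) :
    utv q v (c₁ - c₂) hv = utv q v c₁ hv * (utv q v c₂ hv)⁻¹ := by
  apply eq_mul_inv_of_mul_eq
  apply gl_ext
  intro x
  rw [gl_mul_mulVec, utv_mulVec, utv_mulVec, utv_mulVec]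
  simp only [hermForm_add_left, hermForm_smul_left, hv]
  module

theorem Q_sub' {K V : Type*} [Field K] [AddCommGroup V] [Module K V] (Q : QuadraticForm K V) (y x : V) :
    Q (y - x) = Q y + Q x - polar Q y x := by
  have h := QuadraticMap.map_add Q (y - x) x
  rw [sub_add_cancel, polar_sub_left, polar_self] at h
  rw [h]
  simp only [smul_eq_mul, nsmul_eq_mul]
  push_cast
  ring

theorem Q_add_smul {K V : Type*} [Field K] [AddCommGroup V] [Module K V] (Q : QuadraticForm K V) (a b : V)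
    (c : K) : Q (a + c • b) = Q a + c * c * Q b + c * polar Q a b := by
  rw [QuadraticMap.map_add Q, QuadraticMap.map_smul, polar_smul_right]
  simp only [smul_eq_mul]

/-- an orthogonal rational structure on the unitary space -/
structure URat (n q : ℕ) {F : Type*} [Field F] [Fintype F] {F₀ : Subfield F}
    (Q : QuadraticForm F (Fin n → F)) (Q₀ : QuadraticForm F₀ (Fin n → F₀))
    (e : (Fin n → F₀) → (Fin n → F)) (θ : F) : Prop where
  S : RatS Q Q₀ e
  hF : Fintype.card F = q ^ 2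
  fix : ∀ x : F, x ∈ F₀ ↔ x ^ q = x
  herm : ∀ v x, Cfsg.hermForm n F q v (e x) = polar Q v (e x)
  dec : ∀ v, ∃ a b, v = e a + θ • e b
  θ0 : θ ≠ 0
  θq : θ ^ q = -θ
  two : (2 : F) ≠ 0

namespace URat

variable {Q : QuadraticForm F (Fin n → F)} {Q₀ : QuadraticForm F₀ (Fin n → F₀)}
  {e : (Fin n → F₀) → (Fin n → F)} {θ : F} (U : URat n q Q Q₀ e θ)

include U

theorem hq : q ≠ 0 := by have := q_pos U.hF; omega

theorem herm_ee (x y : Fin n → F₀) : H (e x) (e y) = ((polar Q₀ x y : F₀) : F) := by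
  rw [U.herm, U.S.polar_e]

theorem herm_ee_zero {x y : Fin n → F₀} (h : polar Q₀ x y = 0) : H (e x) (e y) = 0 := by
  rw [U.herm_ee, h]; rfl

theorem herm_ee_one {x y : Fin n → F₀} (h : polar Q₀ x y = 1) : H (e x) (e y) = 1 := by
  rw [U.herm_ee, h]; rfl

theorem herm_self_zero {x : Fin n → F₀} (h : Q₀ x = 0) : H (e x) (e x) = 0 := by
  rw [U.herm_ee, polar_self, h]; simp

theorem coe_pow (c : F₀) : (c : F) ^ q = c := (U.fix c).mp c.2

theorem θ_notMem : θ ∉ F₀ := by
  intro h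
  have h1 := (U.fix θ).mp h
  rw [U.θq] at h1
  have h2 : (2 : F) * θ = 0 := by linear_combination -h1
  rcases mul_eq_zero.mp h2 with h3 | h3
  · exact U.two h3
  · exact U.θ0 h3

theorem im_zero {c₁ c₂ : F₀} (h : (c₁ : F) + θ * c₂ = 0) : c₁ = 0 ∧ c₂ = 0 := by
  have h2 : c₂ = 0 := by
    by_contra hne
    have hne' : (c₂ : F) ≠ 0 := fun h0 => hne (by exact_mod_cast h0)
    apply U.θ_notMem
    have : θ = -(c₁ : F) / c₂ := by
      field_simp
      linear_combination h
    rw [this]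
    exact F₀.div_mem (F₀.neg_mem c₁.2) c₂.2
  refine ⟨?_, h2⟩
  rw [h2] at h
  simp at h
  exact h

theorem herm_dec_right (a b x : Fin n → F₀) :
    H (e a + θ • e b) (e x) = ((polar Q₀ a x : F₀) : F) + θ * ((polar Q₀ b x : F₀) : F) := by
  rw [hermForm_add_left, hermForm_smul_left, U.herm_ee, U.herm_ee]

theorem herm_dec_left (x a b : Fin n → F₀) :
    H (e x) (e a + θ • e b) = ((polar Q₀ x a : F₀) : F) - θ * ((polar Q₀ x b : F₀) : F) := by
  rw [hermForm_add_right U.hF, hermForm_smul_right, U.herm_ee, U.herm_ee, U.θq]; ring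

theorem perp_of_dec {a b x : Fin n → F₀} (h : H (e a + θ • e b) (e x) = 0) :
    polar Q₀ a x = 0 ∧ polar Q₀ b x = 0 := by
  rw [U.herm_dec_right] at h
  exact U.im_zero h

theorem move1 (hrat : ∀ u a : Fin n → F₀, UE q M (e u) (e a) (-((Q₀ a : F₀) : F))) {x y w : Fin n → F₀}
    (hx : Q₀ x = 0) (hy : Q₀ y = 0) (hw : Q₀ w = 0) (h1 : polar Q₀ x w = 1) (h2 : polar Q₀ y w = 1) :
    ∃ h ∈ M, (h : Matrix (Fin n) (Fin n) F) *ᵥ e x = e y := by
  have a1 : H (e w) (e w) = 0 := U.herm_self_zero hw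
  have a2 : H (e (y - x)) (e w) = 0 := by
    apply U.herm_ee_zero
    rw [polar_sub_left, h1, h2, sub_self]
  have a3 : H (e w) (e (y - x)) = 0 := herm_eq_zero_symm U.hF a2
  refine ⟨_, hrat w (y - x) a1 a2 a3, ?_⟩
  have hQ : Q₀ (y - x) = - polar Q₀ x y := by
    rw [Q_sub', hx, hy, polar_comm]; ring
  have hp : polar Q₀ x (y - x) = polar Q₀ x y := by
    rw [polar_sub_right, polar_self, hx]; simp
  rw [ueich_mulVec, U.herm_ee, U.herm_ee, h1, hQ, hp, U.S.e_sub]
  push_cast
  module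

theorem move_ind (hn : 13 ≤ n) (hrat : ∀ u a : Fin n → F₀, UE q M (e u) (e a) (-((Q₀ a : F₀) : F)))
    {x y : Fin n → F₀} (hx : Q₀ x = 0) (hy : Q₀ y = 0) (hx0 : x ≠ 0) (hind : ∀ c : F, e y ≠ c • e x) :
    ∃ h ∈ M, (h : Matrix (Fin n) (Fin n) F) *ᵥ e x = e y := by
  obtain ⟨w, hw, h1, h2⟩ := U.S.sing ![x - y] x (by
    rw [U.S.range_one]
    intro hmem
    obtain ⟨c, hc⟩ := Submodule.mem_span_singleton.mp hmem
    rw [U.S.e_sub] at hc
    by_cases hc0 : c = 0
    · rw [hc0, zero_smul] at hc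
      exact U.S.e_ne_zero hx0 hc.symm
    · apply hind ((c - 1) / c)
      have : e y = c⁻¹ • (c • e y) := by rw [smul_smul, inv_mul_cancel₀ hc0, one_smul]
      rw [this]
      have h3 : c • e y = (c - 1) • e x := by
        rw [smul_sub] at hc
        rw [sub_smul, one_smul]
        linear_combination (exp := 1) -hc
      rw [h3, smul_smul]
      congr 1
      field_simp) (by simp; omega)
  have h1' : polar Q₀ (x - y) w = 0 := h1 0
  rw [polar_sub_left, h2] at h1'
  exact U.move1 hrat hx hy hw h2 (by linear_combination -h1')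

theorem move (hn : 13 ≤ n) (hrat : ∀ u a : Fin n → F₀, UE q M (e u) (e a) (-((Q₀ a : F₀) : F)))
    {x y : Fin n → F₀} (hx : Q₀ x = 0) (hy : Q₀ y = 0) (hx0 : x ≠ 0) (hy0 : y ≠ 0) :
    ∃ h ∈ M, (h : Matrix (Fin n) (Fin n) F) *ᵥ e x = e y := by
  obtain ⟨z, hz, -, hz2⟩ := U.S.sing_notMem (Fin.elim0 : Fin 0 → (Fin n → F₀)) ![x, y] (by simp; omega)
  obtain ⟨h₁, hh₁, e₁⟩ := U.move_ind hn hrat hx hz hx0 (by
    intro c hc
    apply hz2
    rw [hc]
    exact Submodule.smul_mem _ _ (Submodule.subset_span ⟨0, rfl⟩))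
  obtain ⟨h₂, hh₂, e₂⟩ := U.move_ind hn hrat hy hz hy0 (by
    intro c hc
    apply hz2
    rw [hc]
    exact Submodule.smul_mem _ _ (Submodule.subset_span ⟨1, rfl⟩))
  refine ⟨h₂⁻¹ * h₁, M.mul_mem (M.inv_mem hh₂) hh₁, ?_⟩
  rw [gl_mul_mulVec, e₁, ← e₂, gl_inv_mulVec]

/-- one transvection with rational centre gives all of them -/
theorem ucentres_of_utv (hn : 13 ≤ n) (hMU : M ≤ Cfsg.GU n F q)
    (hrat : ∀ u a : Fin n → F₀, UE q M (e u) (e a) (-((Q₀ a : F₀) : F)))
    {u : Fin n → F₀} (hu : Q₀ u = 0) (hu0 : u ≠ 0) {c : F} (hc0 : c ≠ 0) (hc : c + c ^ q = 0)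
    (hM : utv q (e u) c (U.herm_self_zero hu) ∈ M) : ∀ u', Q₀ u' = 0 → e u' ∈ ucentres q M := by
  intro u' hu'
  by_cases hu'0 : u' = 0
  · rw [hu'0, U.S.e_zero]; exact ucentres_zero U.hF M
  refine ⟨U.herm_self_zero hu', fun d hd => ?_⟩
  have key : ∀ l : F₀, utv q (e u') (c * ((l : F) * (l : F))) (U.herm_self_zero hu') ∈ M := by
    intro l
    by_cases hl : l = 0
    · have : utv q (e u') (c * ((l : F) * (l : F))) (U.herm_self_zero hu') = 1 := by
        apply gl_ext; intro x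
        rw [utv_mulVec, hl]; simp
      rw [this]; exact M.one_mem
    · have hlu : Q₀ (l • u') = 0 := by rw [QuadraticMap.map_smul, hu', smul_zero]
      obtain ⟨h, hh, e1⟩ := U.move hn hrat hu hlu hu0 (smul_ne_zero hl hu'0)
      have h0 : H ((h : Matrix (Fin n) (Fin n) F) *ᵥ e u) ((h : Matrix (Fin n) (Fin n) F) *ᵥ e u) = 0 := by
        rw [(mem_GU_iff h).mp (hMU hh)]; exact U.herm_self_zero hu
      have k1 : utv q ((h : Matrix (Fin n) (Fin n) F) *ᵥ e u) c h0 ∈ M := by
        rw [← conj_utv (hMU hh) (e u) c (U.herm_self_zero hu) h0]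
        exact M.mul_mem (M.mul_mem hh hM) (M.inv_mem hh)
      have h1 : H ((l : F) • e u') ((l : F) • e u') = 0 := by
        rw [← U.S.e_smul]; exact U.herm_self_zero hlu
      rw [utv_congr c (e1.trans (U.S.e_smul l u')) h0 h1, utv_smul (e u') (l : F) c (U.herm_self_zero hu') h1,
        U.coe_pow] at k1
      exact k1
  have hμ : d / c ∈ F₀ := by
    rw [U.fix, div_pow]
    have h1 : d ^ q = -d := by linear_combination hd
    have h2 : c ^ q = -c := by linear_combination hc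
    rw [h1, h2, neg_div_neg_eq]
  have h2mem : (2 : F) ∈ F₀ := by
    have : (2 : F) = 1 + 1 := by norm_num
    rw [this]; exact F₀.add_mem F₀.one_mem F₀.one_mem
  have k1 := key ⟨(d / c + 1) / 2, F₀.div_mem (F₀.add_mem hμ F₀.one_mem) h2mem⟩
  have k2 := key ⟨(d / c - 1) / 2, F₀.div_mem (F₀.sub_mem hμ F₀.one_mem) h2mem⟩
  have e2 : d = c * ((d / c + 1) / 2 * ((d / c + 1) / 2)) - c * ((d / c - 1) / 2 * ((d / c - 1) / 2)) := by
    have := U.two
    field_simp
    ring
  have k3 := M.mul_mem k1 (M.inv_mem k2)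
  rw [← utv_sub] at k3
  simp only [] at k3
  rw [← e2] at k3
  exact k3

theorem ucentres_hyp (hMU : M ≤ Cfsg.GU n F q) (hsing : ∀ u, Q₀ u = 0 → e u ∈ ucentres q M)
    {p r : Fin n → F₀} {κ : F} (hκ : κ ^ q = -κ) (hκ0 : κ ≠ 0) (hp : Q₀ p = 0) (hr : Q₀ r = 0)
    (hpr : polar Q₀ p r ≠ 0) : e p + κ • e r ∈ ucentres q M := by
  have hpr' : ((polar Q₀ p r : F₀) : F) ≠ 0 := fun h0 => hpr (by exact_mod_cast h0)
  apply ucentres_add U.hF hMU (hsing p hp) (ucentres_smul U.hF (hsing r hr) κ)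
  · rw [hermForm_smul_right, U.herm_ee, hκ]
    exact mul_ne_zero (neg_ne_zero.mpr hκ0) hpr'
  · simp only [hermForm_add_left, hermForm_add_right U.hF, hermForm_smul_left, hermForm_smul_right,
      U.herm_self_zero hp, U.herm_self_zero hr, U.herm_ee, hκ, polar_comm Q₀ r p]
    ring

/-- if all rational singular vectors are centres then all isotropic vectors are -/
theorem ucentres_all (hn : 13 ≤ n) (hMU : M ≤ Cfsg.GU n F q)
    (hsing : ∀ u, Q₀ u = 0 → e u ∈ ucentres q M) : ∀ z : Vn, H z z = 0 → z ∈ ucentres q M := by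
  intro z hz
  by_cases hz0 : z = 0
  · rw [hz0]; exact ucentres_zero U.hF M
  obtain ⟨x, hx, hzx⟩ : ∃ x, Q₀ x = 0 ∧ H z (e x) ≠ 0 := by
    by_contra hcon
    push Not at hcon
    apply hz0
    apply U.S.eq_zero_of_perp
    intro t
    obtain ⟨t₁, t₂, p1, p2, -, -, p5⟩ := sing_decomp U.S.nd₀ (by simp; omega) (u := 0) (t := t) (by simp)
      (by simp)
    rw [p5, U.S.e_add, polar_add_right, ← U.herm, ← U.herm, hcon t₁ p1, hcon t₂ p2, add_zero]
  set μ := H z (e x) with hμ
  suffices h : μ⁻¹ • z ∈ ucentres q M by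
    have := ucentres_smul U.hF h μ
    rwa [smul_smul, mul_inv_cancel₀ hzx, one_smul] at this
  obtain ⟨a, b, hab⟩ := U.dec (μ⁻¹ • z)
  have hz' : H (e a + θ • e b) (e a + θ • e b) = 0 := by
    rw [← hab, hermForm_smul_left, hermForm_smul_right, hz]; ring
  have h1 : H (e a + θ • e b) (e x) = 1 := by
    rw [← hab, hermForm_smul_left, ← hμ, inv_mul_cancel₀ hzx]
  rw [hab]
  obtain ⟨hax, hbx⟩ : polar Q₀ a x = 1 ∧ polar Q₀ b x = 0 := by
    rw [U.herm_dec_right] at h1
    have := U.im_zero (c₁ := polar Q₀ a x - 1) (c₂ := polar Q₀ b x) (by push_cast; linear_combination h1)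
    exact ⟨sub_eq_zero.mp this.1, this.2⟩
  have hδ : θ * θ ∈ F₀ := by rw [U.fix, mul_pow, U.θq]; ring
  set δ : F₀ := ⟨θ * θ, hδ⟩ with hδdef
  have hδc : (δ : F) = θ * θ := rfl
  have hQa : Q₀ a = δ * Q₀ b := by
    apply Subtype.ext
    push_cast
    rw [hδc]
    simp only [hermForm_add_left, hermForm_add_right U.hF, hermForm_smul_left, hermForm_smul_right,
      U.herm_ee, U.θq, polar_self, polar_comm Q₀ b a] at hz'
    push_cast at hz'
    simp only [nsmul_eq_mul, smul_eq_mul] at hz'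
    push_cast at hz'
    have h3 : (2 : F) * (((Q₀ a : F₀) : F) - θ * θ * ((Q₀ b : F₀) : F)) = 0 := by linear_combination hz'
    exact sub_eq_zero.mp ((mul_eq_zero.mp h3).resolve_left U.two)
  have hnθ : (-θ) ^ q = -(-θ) := by rw [neg_pow_q U.hF, U.θq]
  have claim : ∃ t : F₀, e a + θ • e (b + t • x) ∈ ucentres q M := by
    by_cases hb : Q₀ b = 0
    · have ha : Q₀ a = 0 := by rw [hQa, hb, mul_zero]
      by_cases hγ : polar Q₀ a b = 0
      · refine ⟨1, U.ucentres_hyp hMU hsing U.θq U.θ0 ha ?_ ?_⟩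
        · rw [Q_add_smul, hb, hx, hbx]; ring
        · rw [polar_add_right, polar_smul_right, hγ, hax]; simp
      · refine ⟨0, U.ucentres_hyp hMU hsing U.θq U.θ0 ha ?_ ?_⟩
        · rw [zero_smul, add_zero, hb]
        · rw [zero_smul, add_zero]; exact hγ
    · set t : F₀ := Q₀ b * (1 + δ) - polar Q₀ a b with ht
      refine ⟨t, ?_⟩
      set b₁ := b + t • x with hb₁
      have hQb₁ : Q₀ b₁ = Q₀ b := by rw [hb₁, Q_add_smul, hx, hbx]; ring
      have hab₁ : polar Q₀ a b₁ = Q₀ b * (1 + δ) := by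
        rw [hb₁, polar_add_right, polar_smul_right, hax, ht, smul_eq_mul]; ring
      have hx₁ : Q₀ (a + (-1 : F₀) • b₁) = 0 := by
        rw [Q_add_smul, hQb₁, hab₁, hQa]; ring
      have hx₂ : Q₀ (a + (-δ) • b₁) = 0 := by
        rw [Q_add_smul, hQb₁, hab₁, hQa]; ring
      have hθ1 : 1 - θ ≠ 0 := by
        intro h0
        apply U.θ_notMem
        have : θ = 1 := by linear_combination -h0
        rw [this]; exact F₀.one_mem
      have hθ1' : 1 + θ ≠ 0 := by
        intro h0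
        apply U.θ_notMem
        have : θ = -1 := by linear_combination h0
        rw [this]; exact F₀.neg_mem F₀.one_mem
      have hδ1 : 1 - δ ≠ 0 := by
        intro h0
        have h3 : ((1 - δ : F₀) : F) = 0 := by rw [h0]; rfl
        push_cast at h3
        rw [hδc] at h3
        have h4 : (1 - θ) * (1 + θ) = 0 := by linear_combination h3
        rcases mul_eq_zero.mp h4 with h5 | h5
        · exact hθ1 h5
        · exact hθ1' h5
      have hpol : polar Q₀ (a + (-δ) • b₁) (a + (-1 : F₀) • b₁) = -(Q₀ b * ((1 - δ) * (1 - δ))) := by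
        simp only [polar_add_left, polar_add_right, polar_smul_left, polar_smul_right, polar_self,
          polar_comm Q₀ b₁ a, hab₁, hQb₁, hQa, smul_eq_mul, nsmul_eq_mul]
        push_cast
        ring
      have k := U.ucentres_hyp hMU hsing hnθ (neg_ne_zero.mpr U.θ0) hx₂ hx₁ (by
        rw [hpol]
        exact neg_ne_zero.mpr (mul_ne_zero hb (mul_ne_zero hδ1 hδ1)))
      have k2 := ucentres_smul U.hF k (1 - θ)⁻¹
      have e2 : (1 - θ)⁻¹ • (e (a + (-δ) • b₁) + (-θ) • e (a + (-1 : F₀) • b₁)) = e a + θ • e b₁ := by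
        rw [U.S.e_add, U.S.e_add, U.S.e_smul, U.S.e_smul]
        push_cast
        rw [hδc]
        have : e a + -(θ * θ) • e b₁ + -θ • (e a + (-1 : F) • e b₁) = (1 - θ) • (e a + θ • e b₁) := by module
        rw [this, smul_smul, inv_mul_cancel₀ hθ1, one_smul]
      rwa [e2] at k2
  obtain ⟨t, ht⟩ := claim
  by_cases ht0 : t = 0
  · rw [ht0, zero_smul, add_zero] at ht; exact ht
  · have ht0' : (t : F) ≠ 0 := fun h0 => ht0 (by exact_mod_cast h0)
    have e1 : e a + θ • e b = (e a + θ • e (b + t • x)) + (-(θ * t)) • e x := by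
      rw [U.S.e_add, U.S.e_smul]; module
    rw [e1]
    apply ucentres_add U.hF hMU ht (ucentres_smul U.hF (hsing x hx) _)
    · rw [hermForm_smul_right, U.herm_dec_right, polar_add_left, polar_smul_left, hax, hbx, polar_self, hx]
      simp only [smul_zero, add_zero]
      push_cast
      rw [mul_zero, add_zero, mul_one]
      exact pow_ne_zero _ (neg_ne_zero.mpr (mul_ne_zero U.θ0 ht0'))
    · rw [← e1]; exact hz'

/-- a subgroup containing the rational Siegel transformations and a transvection with rational centre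
contains the special unitary group -/
theorem su_le_of_rat_utv (hn : 13 ≤ n) (hMU : M ≤ Cfsg.GU n F q)
    (hrat : ∀ u a : Fin n → F₀, UE q M (e u) (e a) (-((Q₀ a : F₀) : F)))
    {u : Fin n → F₀} (hu : Q₀ u = 0) (hu0 : u ≠ 0) {c : F} (hc0 : c ≠ 0) (hc : c + c ^ q = 0)
    (hM : utv q (e u) c (U.herm_self_zero hu) ∈ M) :
    Cfsg.GU n F q ⊓ Cfsg.Geo.specialLinear (Fin n) F ≤ M := by
  apply su_le_of_utv U.hF (by omega)
  intro v d hv hd
  obtain ⟨_, h⟩ := U.ucentres_all hn hMU (U.ucentres_of_utv hn hMU hrat hu hu0 hc0 hc hM) v hv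
  exact h d hd

end URat

end Cfsg.Agent.Lib.Helper29
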