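import Mathlib
import Cfsg.Agent.Lib.Helper29.SuO2

/-!
Unitary rational structures (forms over a subfield) on a unitary space: basic geometry.
-/

set_option autoImplicit false
set_option linter.unusedSectionVars false
set_option linter.unusedSimpArgs false

namespace Cfsg.Agent.Lib.Helper29

open Matrix Module
open Cfsg.Agent.H6 (add_pow_q pow_q_pow_q neg_pow_q sub_pow_q q_pos hermForm_add_left
  hermForm_smul_left hermForm_smul_right hermForm_add_right hermForm_conj)

variable {F : Type*} [Field F] [Fintype F] {n q q₀ : ℕ} {F₀ : Subfield F} [Fintype F₀]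

local notation "H" => Cfsg.hermForm n F q
local notation "H₀" => Cfsg.hermForm n F₀ q₀
local notation "Vn" => (Fin n → F)
local notation "V₀" => (Fin n → F₀)

/-- `e` embeds the standard unitary space over `F₀` as a rational structure of the standard unitary space over `F` -/
structure HRat (n q q₀ : ℕ) {F : Type*} [Field F] [Fintype F] (F₀ : Subfield F) [Fintype F₀]
    (e : (Fin n → F₀) → (Fin n → F)) : Prop where
  hF : Fintype.card F = q ^ 2
  hF₀ : Fintype.card F₀ = q₀ ^ 2
  e_add : ∀ x y, e (x + y) = e x + e y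
  e_smul : ∀ (c : F₀) x, e (c • x) = (c : F) • e x
  H_e : ∀ x y, Cfsg.hermForm n F q (e x) (e y) = ((Cfsg.hermForm n F₀ q₀ x y : F₀) : F)
  span : Submodule.span F (Set.range e) = ⊤
  conj : ∀ a : F₀, (a : F) ^ q = ((a ^ q₀ : F₀) : F)
  prime : (finrank F₀ F).Prime

theorem herm_perp_span {k : ℕ} {r : Fin k → Vn} {z : Vn} (h : ∀ i, H (r i) z = 0) :
    ∀ s ∈ Submodule.span F (Set.range r), H s z = 0 := by
  intro s hs
  induction hs using Submodule.span_induction with
  | mem x hx => obtain ⟨i, rfl⟩ := hx; exact h i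
  | zero => exact (hermDual n q z).map_zero
  | add x y _ _ hx hy => rw [hermForm_add_left, hx, hy, add_zero]
  | smul c x _ hx => rw [hermForm_smul_left, hx, mul_zero]

/-- an isotropic vector perpendicular to `k` vectors outside a subspace -/
theorem exists_isotropic_perp_notMem (hF : Fintype.card F = q ^ 2) {k : ℕ} (xs : Fin k → Vn)
    (A : Submodule F Vn) (hA : finrank F A + k + 1 < n) :
    ∃ z : Vn, H z z = 0 ∧ (∀ i, H z (xs i) = 0) ∧ z ∉ A := by
  obtain ⟨a, ha, haA⟩ := exists_perp_notMem (q := q) xs A (by omega)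
  have ha0 : a ≠ 0 := by
    rintro rfl
    exact haA (Submodule.zero_mem _)
  have hfr : finrank F (A ⊔ Submodule.span F {a} : Submodule F Vn) ≤ finrank F A + 1 := by
    have h1 := Submodule.finrank_add_le_finrank_add_finrank A (Submodule.span F {a})
    rw [finrank_span_singleton ha0] at h1
    exact h1
  obtain ⟨b, hb, hbA⟩ := exists_perp_notMem (q := q) xs (A ⊔ Submodule.span F {a}) (by omega)
  have haS : a ∈ A ⊔ Submodule.span F {a} :=
    Submodule.mem_sup_right (Submodule.mem_span_singleton_self a)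
  by_cases haa : H a a = 0
  · exact ⟨a, haa, ha, haA⟩
  set b' := b - (H b a / H a a) • a with hb'
  have hb'a : H b' a = 0 := by
    rw [hb', herm_sub_left, hermForm_smul_left]
    field_simp
    ring
  have hab' : H a b' = 0 := herm_eq_zero_symm hF hb'a
  have hb'x : ∀ i, H b' (xs i) = 0 := by
    intro i
    rw [hb', herm_sub_left, hermForm_smul_left, hb i, ha i]; ring
  have hb'A : b' ∉ A ⊔ Submodule.span F {a} := by
    intro h
    apply hbA
    have : b = b' + (H b a / H a a) • a := by rw [hb']; abel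
    rw [this]
    exact Submodule.add_mem _ h (Submodule.smul_mem _ _ haS)
  by_cases hbb : H b' b' = 0
  · exact ⟨b', hbb, hb'x, fun h => hb'A (Submodule.mem_sup_left h)⟩
  obtain ⟨l, hl⟩ := exists_norm_eq hF (-(H b' b') / H a a) (by
    rw [div_pow, neg_pow_q hF, herm_self_pow hF, herm_self_pow hF])
  refine ⟨l • a + b', ?_, fun i => ?_, fun h => ?_⟩
  · simp only [hermForm_add_left, hermForm_add_right hF, hermForm_smul_left, hermForm_smul_right, hb'a, hab']
    have h5 : (l * l ^ q) * H a a + H b' b' = 0 := by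
      rw [hl]
      field_simp
      ring
    linear_combination h5
  · rw [hermForm_add_left, hermForm_smul_left, ha i, hb'x i]; ring
  · apply hb'A
    have : b' = (l • a + b') - l • a := by abel
    rw [this]
    exact Submodule.sub_mem _ (Submodule.mem_sup_left h) (Submodule.smul_mem _ _ haS)

namespace HRat

variable {e : (Fin n → F₀) → (Fin n → F)} (S : HRat n q q₀ F₀ e)

include S

theorem hq : q ≠ 0 := by have := q_pos S.hF; omega

theorem hq₀ : q₀ ≠ 0 := by have := q_pos S.hF₀; omega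

theorem e_zero : e 0 = 0 := by
  have := S.e_smul 0 0
  simpa using this

theorem e_neg (x : V₀) : e (-x) = - e x := by
  have := S.e_smul (-1) x
  simpa using this

theorem e_sub (x y : V₀) : e (x - y) = e x - e y := by
  rw [sub_eq_add_neg, S.e_add, S.e_neg, sub_eq_add_neg]

theorem H_e_mem (x y : V₀) : H (e x) (e y) ∈ F₀ := by
  rw [S.H_e]; exact (H₀ x y).2

theorem H_e_zero {x y : V₀} (h : H₀ x y = 0) : H (e x) (e y) = 0 := by
  rw [S.H_e, h]; rfl

theorem H_e_one {x y : V₀} (h : H₀ x y = 1) : H (e x) (e y) = 1 := by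
  rw [S.H_e, h]; rfl

theorem symm₀ {x y : V₀} (h : H₀ x y = 0) : H₀ y x = 0 := herm_eq_zero_symm S.hF₀ h

theorem symm₁ {x y : V₀} (h : H₀ x y = 1) : H₀ y x = 1 := by
  rw [← hermForm_conj S.hF₀, h, one_pow]

theorem H₀_zero_of {x y : V₀} (h : H (e x) (e y) = 0) : H₀ x y = 0 := by
  rw [S.H_e] at h
  exact_mod_cast h

theorem herm_eq_zero_of {v : Vn} (h : ∀ x, H v (e x) = 0) (w : Vn) : H v w = 0 := by
  have hw : w ∈ Submodule.span F (Set.range e) := by rw [S.span]; trivial
  induction hw using Submodule.span_induction with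
  | mem x hx => obtain ⟨i, rfl⟩ := hx; exact h i
  | zero => exact herm_zero_right S.hq v
  | add x y _ _ hx hy => rw [hermForm_add_right S.hF, hx, hy, add_zero]
  | smul c x _ hx => rw [hermForm_smul_right, hx, mul_zero]

theorem eq_zero_of_perp {v : Vn} (h : ∀ x, H v (e x) = 0) : v = 0 := by
  by_contra hv
  obtain ⟨z, hz⟩ := exists_herm_ne_zero (q := q) S.hF hv
  exact herm_ne_zero_symm S.hF hz (S.herm_eq_zero_of h z)

theorem eq_zero_of_e {x : V₀} (h : e x = 0) : x = 0 := by
  by_contra hx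
  obtain ⟨z, hz⟩ := exists_herm_ne_zero (q := q₀) S.hF₀ hx
  apply hz
  apply S.H₀_zero_of
  rw [h]
  exact herm_zero_right S.hq _

theorem e_ne_zero {x : V₀} (h : x ≠ 0) : e x ≠ 0 := fun h0 => h (S.eq_zero_of_e h0)

theorem e_inj {x y : V₀} (h : e x = e y) : x = y := by
  have : e (x - y) = 0 := by rw [S.e_sub, h, sub_self]
  exact sub_eq_zero.mp (S.eq_zero_of_e this)

/-- a vector pairing rationally with all rational vectors is rational -/
theorem rep {v : Vn} (h : ∀ t, H v (e t) ∈ F₀) : ∃ x, e x = v := by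
  let φ : V₀ →ₗ[F₀] F₀ :=
    { toFun := fun t => (⟨H v (e t), h t⟩ : F₀) ^ q₀
      map_add' := fun a b => by
        rw [← add_pow_q S.hF₀]
        congr 1
        apply Subtype.ext
        simp only [S.e_add, hermForm_add_right S.hF]
        rfl
      map_smul' := fun c a => by
        apply Subtype.ext
        simp only [S.e_smul, hermForm_smul_right, RingHom.id_apply, smul_eq_mul]
        push_cast
        rw [mul_pow]
        have hc : ((c : F) ^ q) ^ q₀ = c := by
          have h1 : (((c ^ q₀) ^ q₀ : F₀) : F) = c := by rw [pow_q_pow_q S.hF₀]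
          push_cast at h1
          rw [S.conj]
          push_cast
          exact h1
        rw [hc] }
  obtain ⟨x, hx⟩ := exists_hermDual_eq S.hF₀ φ
  refine ⟨x, ?_⟩
  have : v - e x = 0 := by
    apply S.eq_zero_of_perp
    intro t
    rw [herm_sub_left, S.H_e, ← hermForm_conj S.hF₀, ← hx t]
    show H v (e t) - (((⟨H v (e t), h t⟩ : F₀) ^ q₀) ^ q₀ : F₀) = 0
    rw [pow_q_pow_q S.hF₀]
    simp
  exact (sub_eq_zero.mp this).symm

theorem dual {k : ℕ} (xs : Fin k → V₀) (x : V₀) (h : x ∉ Submodule.span F₀ (Set.range xs)) :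
    ∃ p, (∀ i, H₀ (xs i) p = 0) ∧ H₀ x p = 1 := by
  obtain ⟨z, h1, h2⟩ := exists_herm_perp_eq_one S.hF₀ _ h
  exact ⟨z, fun i => h1 _ (Submodule.subset_span ⟨i, rfl⟩), h2⟩

theorem notMem_of_perp {k : ℕ} {xs : Fin k → V₀} {x p : V₀} (hp : ∀ i, H₀ (xs i) p = 0) (hx : H₀ x p ≠ 0) :
    e x ∉ Submodule.span F (Set.range (fun i => e (xs i))) := by
  intro hmem
  have := herm_perp_span (q := q) (r := fun i => e (xs i)) (z := e p) (fun i => S.H_e_zero (hp i)) _ hmem
  exact hx (S.H₀_zero_of this)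

theorem notMem_span {k : ℕ} {xs : Fin k → V₀} {x : V₀} (h : x ∉ Submodule.span F₀ (Set.range xs)) :
    e x ∉ Submodule.span F (Set.range (fun i => e (xs i))) := by
  obtain ⟨p, hp, hp1⟩ := S.dual xs x h
  exact S.notMem_of_perp hp (by rw [hp1]; exact one_ne_zero)

theorem notMem_span' {k : ℕ} {xs : Fin k → V₀} {x : V₀}
    (h : e x ∉ Submodule.span F (Set.range (fun i => e (xs i)))) : x ∉ Submodule.span F₀ (Set.range xs) := by
  intro hx
  apply h
  clear h
  induction hx using Submodule.span_induction with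
  | mem x hx => obtain ⟨i, rfl⟩ := hx; exact Submodule.subset_span ⟨i, rfl⟩
  | zero => rw [S.e_zero]; exact Submodule.zero_mem _
  | add x y _ _ hx hy => rw [S.e_add]; exact Submodule.add_mem _ hx hy
  | smul c x _ hx => rw [S.e_smul]; exact Submodule.smul_mem _ _ hx

theorem dual' {k : ℕ} (xs : Fin k → V₀) (x : V₀)
    (h : e x ∉ Submodule.span F (Set.range (fun i => e (xs i)))) :
    ∃ p, (∀ i, H₀ (xs i) p = 0) ∧ H₀ x p = 1 :=
  S.dual xs x (S.notMem_span' h)

theorem dual0 {x : V₀} (hx : x ≠ 0) : ∃ p, H₀ x p = 1 := by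
  obtain ⟨p, -, hp⟩ := S.dual (Fin.elim0 : Fin 0 → V₀) x (by
    have : Set.range (Fin.elim0 : Fin 0 → V₀) = ∅ := Set.range_eq_empty _
    rw [this, Submodule.span_empty, Submodule.mem_bot]
    exact hx)
  exact ⟨p, hp⟩

/-- an isotropic rational vector perpendicular to `xs` pairing to one with `x` -/
theorem sing {k : ℕ} (xs : Fin k → V₀) (x : V₀)
    (h : e x ∉ Submodule.span F (Set.range (fun i => e (xs i)))) (hdim : 2 * k + 5 ≤ n) :
    ∃ z, H₀ z z = 0 ∧ (∀ i, H₀ (xs i) z = 0) ∧ H₀ x z = 1 := by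
  obtain ⟨p, hp, hp1⟩ := S.dual' xs x h
  obtain ⟨b, hb, hbb⟩ := exists_norm_perp S.hF₀ (Fin.cons x (Fin.cons p xs) : Fin (k + 1 + 1) → V₀)
    (by omega) (- H₀ p p) (by rw [neg_pow_q S.hF₀, herm_self_pow S.hF₀])
  have hbx : H₀ b x = 0 := by simpa using hb 0
  have hbp : H₀ b p = 0 := by simpa using hb 1
  have hbs : ∀ i, H₀ b (xs i) = 0 := by
    intro i
    have := hb i.succ.succ
    simpa using this
  refine ⟨p + b, ?_, fun i => ?_, ?_⟩
  · simp only [hermForm_add_left, hermForm_add_right S.hF₀, hbp, S.symm₀ hbp, hbb]; ring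
  · rw [hermForm_add_right S.hF₀, hp i, S.symm₀ (hbs i), add_zero]
  · rw [hermForm_add_right S.hF₀, hp1, S.symm₀ hbx, add_zero]

theorem sing_notMem {k j : ℕ} (xs : Fin k → V₀) (ys : Fin j → V₀) (hdim : k + j + 2 ≤ n) :
    ∃ z, H₀ z z = 0 ∧ (∀ i, H₀ (xs i) z = 0) ∧ e z ∉ Submodule.span F (Set.range (fun i => e (ys i))) := by
  have hfr : finrank F₀ (Submodule.span F₀ (Set.range ys)) ≤ j := finrank_span_range_le ys
  obtain ⟨z, h1, h2, h3⟩ := exists_isotropic_perp_notMem S.hF₀ xs (Submodule.span F₀ (Set.range ys)) (by omega)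
  exact ⟨z, h1, fun i => S.symm₀ (h2 i), S.notMem_span h3⟩

theorem ne_zero_of_notMem {k : ℕ} {xs : Fin k → V₀} {x : V₀}
    (h : e x ∉ Submodule.span F (Set.range (fun i => e (xs i)))) : x ≠ 0 := by
  rintro rfl
  apply h
  rw [S.e_zero]; exact Submodule.zero_mem _

theorem coe_conj (x y : V₀) : ((H₀ x y : F₀) : F) ^ q = ((H₀ y x : F₀) : F) := by
  rw [← S.H_e, hermForm_conj S.hF, S.H_e]

/-- separation by rational vectors -/
theorem sep : ∀ (k : ℕ) (xs : Fin k → V₀) (v : Vn),
    v ∉ Submodule.span F (Set.range (fun i => e (xs i))) →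
    ∃ x, (∀ i, H₀ (xs i) x = 0) ∧ H v (e x) ≠ 0 := by
  intro k
  induction k with
  | zero =>
    intro xs v hv
    by_contra hcon
    push Not at hcon
    apply hv
    rw [S.eq_zero_of_perp (fun x => hcon x (fun i => i.elim0))]
    exact Submodule.zero_mem _
  | succ k ih =>
    intro xs v hv
    set xs' : Fin k → V₀ := fun i => xs i.succ with hxs'
    have hle : Submodule.span F (Set.range (fun i => e (xs' i))) ≤
        Submodule.span F (Set.range (fun i => e (xs i))) := by
      apply Submodule.span_mono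
      rintro _ ⟨i, rfl⟩
      exact ⟨i.succ, rfl⟩
    by_cases h0 : e (xs 0) ∈ Submodule.span F (Set.range (fun i => e (xs' i)))
    · obtain ⟨x, hx, hvx⟩ := ih xs' v (fun h => hv (hle h))
      refine ⟨x, fun i => ?_, hvx⟩
      refine Fin.cases ?_ (fun i => hx i) i
      have h1 := herm_perp_span (q := q) (r := fun i => e (xs' i)) (z := e x)
        (fun i => S.H_e_zero (hx i)) _ h0
      exact S.H₀_zero_of h1
    · obtain ⟨f, hf, hf1⟩ := S.dual' xs' (xs 0) h0
      have hv' : v - H v (e f) • e (xs 0) ∉ Submodule.span F (Set.range (fun i => e (xs' i))) := by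
        intro h
        apply hv
        have h2 := Submodule.add_mem _ (hle h) (Submodule.smul_mem _ (H v (e f))
          (Submodule.subset_span (s := Set.range (fun i => e (xs i))) ⟨0, rfl⟩))
        simpa using h2
      obtain ⟨x, hx, hvx⟩ := ih xs' _ hv'
      refine ⟨x - H₀ x (xs 0) • f, fun i => ?_, ?_⟩
      · refine Fin.cases ?_ (fun i => ?_) i
        · rw [herm_sub_right S.hF₀, hermForm_smul_right, hf1, hermForm_conj S.hF₀]; ring
        · have h1 : H₀ (xs i.succ) x = 0 := hx i
          have h2 : H₀ (xs i.succ) f = 0 := hf i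
          rw [herm_sub_right S.hF₀, hermForm_smul_right, h1, h2]; ring
      · rw [S.e_sub, S.e_smul, herm_sub_right S.hF, hermForm_smul_right, S.coe_conj]
        rw [herm_sub_left, hermForm_smul_left, S.H_e (xs 0) x] at hvx
        intro h
        apply hvx
        linear_combination h

/-- a scalar carrying a non-zero rational vector to a rational vector is rational -/
theorem coeff_mem {c : F} {x y : V₀} (hy : y ≠ 0) (h : c • e x = e y) : c ∈ F₀ := by
  obtain ⟨p, hp⟩ := S.dual0 hy
  have h1 : c * H (e x) (e p) = H (e y) (e p) := by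
    rw [← h, hermForm_smul_left]
  rw [S.H_e, S.H_e, hp] at h1
  have hne : ((H₀ x p : F₀) : F) ≠ 0 := by
    intro h0
    rw [h0, mul_zero] at h1
    exact one_ne_zero (by exact_mod_cast h1.symm)
  have : c = ((1 : F₀) : F) / ((H₀ x p : F₀) : F) := by
    rw [← h1]; field_simp
  rw [this]
  exact F₀.div_mem (Subtype.mem _) (Subtype.mem _)

/-- every rational vector perpendicular to the isotropic vector `u` is a sum of two isotropic ones -/
theorem sing_decomp (hn : 7 ≤ n) (u t : V₀) (ht : H₀ t u = 0) :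
    ∃ t₁ t₂, H₀ t₁ t₁ = 0 ∧ H₀ t₂ t₂ = 0 ∧ H₀ t₁ u = 0 ∧ H₀ t₂ u = 0 ∧ t = t₁ + t₂ := by
  obtain ⟨α, hα⟩ := exists_trace_eq S.hF₀ (1 : F₀) (one_pow _)
  obtain ⟨b, hb, hbb⟩ := exists_norm_perp S.hF₀ ![u, t] (by omega) (-(α * α ^ q₀ * H₀ t t)) (by
    rw [neg_pow_q S.hF₀, mul_pow, mul_pow, pow_q_pow_q S.hF₀, herm_self_pow S.hF₀]; ring)
  have hbu : H₀ b u = 0 := hb 0
  have hbt : H₀ b t = 0 := hb 1
  have htb := S.symm₀ hbt
  have h1α : (1 - α) ^ q₀ = 1 - α ^ q₀ := by rw [sub_pow_q S.hF₀, one_pow]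
  refine ⟨α • t + b, (1 - α) • t - b, ?_, ?_, ?_, ?_, ?_⟩
  · simp only [hermForm_add_left, hermForm_add_right S.hF₀, hermForm_smul_left, hermForm_smul_right, hbt, htb,
      hbb]
    ring
  · simp only [herm_sub_left, herm_sub_right S.hF₀, hermForm_smul_left, hermForm_smul_right, hbt, htb,
      hbb, h1α]
    linear_combination (-(H₀ t t)) * hα
  · rw [hermForm_add_left, hermForm_smul_left, ht, hbu]; ring
  · rw [herm_sub_left, hermForm_smul_left, ht, hbu]; ring
  · module

/-- a vector perpendicular to `e u` pairing rationally with the rational isotropic vectors of `u^⊥` is rational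
modulo `e u` -/
theorem rep_mod (hn : 7 ≤ n) {u : V₀} {v : Vn} (hu0 : u ≠ 0)
    (h : ∀ z, H₀ z z = 0 → H₀ z u = 0 → H v (e z) ∈ F₀) : ∃ (x : V₀) (c : F), v = e x + c • e u := by
  obtain ⟨f, hf⟩ := S.dual0 hu0
  have h1 : ∀ t, H₀ t u = 0 → H v (e t) ∈ F₀ := by
    intro t ht
    obtain ⟨t₁, t₂, p1, p2, p3, p4, p5⟩ := S.sing_decomp hn u t ht
    rw [p5, S.e_add, hermForm_add_right S.hF]
    exact F₀.add_mem (h t₁ p1 p3) (h t₂ p2 p4)
  obtain ⟨x, hx⟩ := S.rep (v := v - H v (e f) • e u) (by
    intro t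
    have e1 : t = (t - H₀ t u • f) + H₀ t u • f := by abel
    have h2 : H₀ (t - H₀ t u • f) u = 0 := by
      rw [herm_sub_left, hermForm_smul_left, S.symm₁ hf]; ring
    have h3 := h1 _ h2
    have h4 : H (v - H v (e f) • e u) (e t) = H v (e (t - H₀ t u • f)) := by
      conv_lhs => rw [e1]
      rw [S.e_add, hermForm_add_right S.hF, herm_sub_left, herm_sub_left, hermForm_smul_left,
        hermForm_smul_left, S.H_e_zero (S.symm₀ h2), S.e_smul, hermForm_smul_right, hermForm_smul_right,
        S.H_e_one hf]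
      ring
    rw [h4]; exact h3)
  exact ⟨x, H v (e f), by rw [hx]; abel⟩

theorem range_one (u : V₀) : Set.range (fun i => e (![u] i)) = {e u} := by
  rw [Set.range_unique]
  rfl

theorem indep_of_dual {a b d d' : V₀} (h1 : H₀ a d = 1) (h2 : H₀ b d = 0)
    (h3 : H₀ a d' = 0) (h4 : H₀ b d' = 1) (α β : F) (h : α • e a + β • e b = 0) :
    α = 0 ∧ β = 0 := by
  constructor
  · have := congrArg (fun v => H v (e d)) h
    simp only [hermForm_add_left, hermForm_smul_left, S.H_e_one h1, S.H_e_zero h2,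
      herm_zero_left S.hq] at this
    simpa using this
  · have := congrArg (fun v => H v (e d')) h
    simp only [hermForm_add_left, hermForm_smul_left, S.H_e_one h4, S.H_e_zero h3,
      herm_zero_left S.hq] at this
    simpa using this

end HRat

end Cfsg.Agent.Lib.Helper29
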