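import Mathlib
import Cfsg.Agent.Lib.Helper29.SuR1
import Cfsg.Agent.Lib.Helper29.OmNd4

/-!
Orthogonal pairs `V = W ⊥ U` of a unitary space: basic geometry.
-/

set_option autoImplicit false
set_option linter.unusedSectionVars false
set_option linter.unusedSimpArgs false

namespace Cfsg.Agent.Lib.Helper29

open Matrix Module
open Cfsg.Agent.H6 (add_pow_q pow_q_pow_q neg_pow_q sub_pow_q q_pos hermForm_add_left
  hermForm_smul_left hermForm_smul_right hermForm_add_right hermForm_conj)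

variable {F : Type*} [Field F] [Fintype F] {n q : ℕ}

local notation "H" => Cfsg.hermForm n F q
local notation "Vn" => (Fin n → F)

/-- an orthogonal decomposition of the unitary space -/
structure HPair (q : ℕ) (W U : Submodule F (Fin n → F)) : Prop where
  perp : ∀ w ∈ W, ∀ u ∈ U, Cfsg.hermForm n F q w u = 0
  sup : ∀ x, ∃ a ∈ W, ∃ b ∈ U, x = a + b

namespace HPair

theorem perp' {W U : Submodule F Vn} (P : HPair q W U) (hF : Fintype.card F = q ^ 2) {w u : Vn} (hw : w ∈ W) (hu : u ∈ U) :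
    H u w = 0 := herm_eq_zero_symm hF (P.perp w hw u hu)

theorem symm {W U : Submodule F Vn} (P : HPair q W U) (hF : Fintype.card F = q ^ 2) : HPair q U W :=
  ⟨fun _ hu _ hw => P.perp' hF hw hu,
   fun x => by obtain ⟨a, ha, b, hb, rfl⟩ := P.sup x; exact ⟨b, hb, a, ha, add_comm _ _⟩⟩

theorem eq_zero_of_perp {W U : Submodule F Vn} (P : HPair q W U) (hF : Fintype.card F = q ^ 2) {a : Vn}
    (h1 : ∀ w ∈ W, H w a = 0) (h2 : ∀ u ∈ U, H u a = 0) : a = 0 := by
  by_contra h0
  obtain ⟨z, hz⟩ := exists_herm_ne_zero (q := q) hF h0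
  obtain ⟨x, hx, y, hy, rfl⟩ := P.sup z
  apply hz
  rw [hermForm_add_left, h1 x hx, h2 y hy, add_zero]

theorem mem_of_perp {W U : Submodule F Vn} (P : HPair q W U) (hF : Fintype.card F = q ^ 2) {z : Vn}
    (h : ∀ w ∈ W, H w z = 0) : z ∈ U := by
  obtain ⟨a, ha, b, hb, rfl⟩ := P.sup z
  have : a = 0 := by
    apply P.eq_zero_of_perp hF
    · intro w hw
      have := h w hw
      rwa [hermForm_add_right hF, P.perp w hw b hb, add_zero] at this
    · intro u hu
      exact P.perp' hF ha hu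
  rw [this, zero_add]
  exact hb

theorem disj {W U : Submodule F Vn} (P : HPair q W U) (hF : Fintype.card F = q ^ 2) {v : Vn} (hv : v ∈ W) (hv' : v ∈ U) :
    v = 0 :=
  P.eq_zero_of_perp hF (fun w hw => P.perp w hw v hv') (fun u hu => P.perp' hF hv hu)

theorem finrank_add {W U : Submodule F Vn} (P : HPair q W U) (hF : Fintype.card F = q ^ 2) :
    finrank F W + finrank F U = n := by
  have h := Submodule.finrank_sup_add_finrank_inf_eq W U
  have h1 : W ⊔ U = ⊤ := by
    rw [eq_top_iff]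
    intro z _
    obtain ⟨a, ha, b, hb, rfl⟩ := P.sup z
    exact Submodule.add_mem_sup ha hb
  have h2 : W ⊓ U = ⊥ := by
    rw [eq_bot_iff]
    intro x hx
    rw [Submodule.mem_bot]
    exact P.disj hF hx.1 hx.2
  rw [h1, h2, finrank_top, finrank_bot, add_zero, Module.finrank_fintype_fun_eq_card, Fintype.card_fin] at h
  exact h.symm

/-- duality inside `U` -/
theorem exists_dual {W U : Submodule F Vn} (P : HPair q W U) (hF : Fintype.card F = q ^ 2) (A : Submodule F Vn) (hA : A ≤ U)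
    {u : Vn} (hu : u ∈ U) (huA : u ∉ A) : ∃ y ∈ U, (∀ a ∈ A, H a y = 0) ∧ H u y = 1 := by
  have h1 : u ∉ W ⊔ A := by
    intro h
    obtain ⟨w, hw, a, ha, rfl⟩ := Submodule.mem_sup.1 h
    have : w = 0 := by
      apply P.disj hF hw
      have := U.sub_mem hu (hA ha)
      rwa [add_sub_cancel_right] at this
    rw [this, zero_add] at huA
    exact huA ha
  obtain ⟨y, hy, hy1⟩ := exists_herm_perp_eq_one (q := q) hF _ h1
  exact ⟨y, P.mem_of_perp hF (fun w hw => hy w (Submodule.mem_sup_left hw)),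
    fun a ha => hy a (Submodule.mem_sup_right ha), hy1⟩

theorem exists_dual₀ {W U : Submodule F Vn} (P : HPair q W U) (hF : Fintype.card F = q ^ 2) {u : Vn} (hu : u ∈ U)
    (hu0 : u ≠ 0) : ∃ y ∈ U, H u y = 1 := by
  obtain ⟨y, hy, -, h⟩ := P.exists_dual hF ⊥ bot_le hu (by simpa using hu0)
  exact ⟨y, hy, h⟩

/-- isotropic vectors of `U` -/
theorem exists_iso {W U : Submodule F Vn} (P : HPair q W U) (hF : Fintype.card F = q ^ 2) {j : ℕ} (ys : Fin j → Vn)
    (A : Submodule F Vn) (h : finrank F A + j + 1 < finrank F U) :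
    ∃ z ∈ U, H z z = 0 ∧ (∀ i, H z (ys i) = 0) ∧ z ∉ A := by
  let b := Module.finBasis F W
  have hadd := P.finrank_add hF
  obtain ⟨z, hzz, hz, hzA⟩ := exists_isotropic_perp_notMem (q := q) hF
    (Fin.append (fun i => ((b i : W) : Vn)) ys) A (by omega)
  refine ⟨z, ?_, hzz, fun i => ?_, hzA⟩
  · apply P.mem_of_perp hF
    intro w hw
    have h1 := b.sum_repr ⟨w, hw⟩
    have h2 : w = ∑ i, b.repr ⟨w, hw⟩ i • ((b i : W) : Vn) := by
      have h5 := congrArg (W.subtype) h1
      rw [map_sum] at h5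
      simp only [map_smul, Submodule.subtype_apply] at h5
      exact h5.symm
    rw [h2, herm_sum_left]
    apply Finset.sum_eq_zero
    intro i _
    have h3 := hz (Fin.castAdd j i)
    rw [Fin.append_left] at h3
    rw [hermForm_smul_left, herm_eq_zero_symm hF h3, mul_zero]
  · have h3 := hz (Fin.natAdd _ i)
    rwa [Fin.append_right] at h3

/-- vectors of `U` of prescribed norm -/
theorem exists_norm {W U : Submodule F Vn} (P : HPair q W U) (hF : Fintype.card F = q ^ 2) {j : ℕ} (ys : Fin j → Vn)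
    (A : Submodule F Vn) (hAU : A ≤ U) (hys : ∀ i, ys i ∈ A) (h : finrank F A + j + 1 < finrank F U)
    (r : F) (hr : r ^ q = r) :
    ∃ b ∈ U, (∀ i, H b (ys i) = 0) ∧ H b b = r ∧ b ∉ A := by
  obtain ⟨z, hzU, hzz, hz, hzA⟩ := P.exists_iso hF ys A h
  obtain ⟨y, hyU, hyA, hzy⟩ := P.exists_dual hF A hAU hzU hzA
  obtain ⟨l, hl⟩ := exists_isotropic_add hF hzz (y := y) (by rw [hzy]; exact one_ne_zero)
  set y' := y + l • z with hy'
  have hy'U : y' ∈ U := U.add_mem hyU (U.smul_mem _ hzU)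
  have hzy' : H z y' = 1 := by
    rw [hy', hermForm_add_right hF, hermForm_smul_right, hzz, hzy]; ring
  have hy'z : H y' z = 1 := by rw [← hermForm_conj hF, hzy', one_pow]
  have hy'ys : ∀ i, H y' (ys i) = 0 := by
    intro i
    rw [hy', hermForm_add_left, hermForm_smul_left, hz i, herm_eq_zero_symm hF (hyA _ (hys i))]; ring
  obtain ⟨m, hm⟩ := exists_trace_eq hF r hr
  obtain ⟨θ, hθ0, hθ⟩ := exists_trace_zero hF
  have key : ∀ c : F, c + c ^ q = r → (y' + c • z ∈ U ∧ (∀ i, H (y' + c • z) (ys i) = 0) ∧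
      H (y' + c • z) (y' + c • z) = r) := by
    intro c hc
    refine ⟨U.add_mem hy'U (U.smul_mem _ hzU), fun i => ?_, ?_⟩
    · rw [hermForm_add_left, hermForm_smul_left, hz i, hy'ys i]; ring
    · simp only [hermForm_add_left, hermForm_add_right hF, hermForm_smul_left, hermForm_smul_right, hl,
        hzz, hzy', hy'z]
      linear_combination hc
  by_cases h1 : y' + m • z ∈ A
  · obtain ⟨k1, k2, k3⟩ := key (m + θ) (by rw [add_pow_q hF]; linear_combination hm + hθ)
    refine ⟨_, k1, k2, k3, fun h2 => hzA ?_⟩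
    have h3 := A.smul_mem θ⁻¹ (A.sub_mem h2 h1)
    have e : θ⁻¹ • (y' + (m + θ) • z - (y' + m • z)) = z := by
      have : y' + (m + θ) • z - (y' + m • z) = θ • z := by module
      rw [this, smul_smul, inv_mul_cancel₀ hθ0, one_smul]
    rwa [e] at h3
  · obtain ⟨k1, k2, k3⟩ := key m hm
    exact ⟨_, k1, k2, k3, h1⟩

/-- an isotropic vector of `U` not perpendicular to a given vector -/
theorem exists_iso_not_perp {W U : Submodule F Vn} (P : HPair q W U) (hF : Fintype.card F = q ^ 2) (h4 : 4 ≤ finrank F U)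
    {u : Vn} (hu : u ∈ U) (hu0 : u ≠ 0) : ∃ z ∈ U, H z z = 0 ∧ H z u ≠ 0 := by
  have hfr : finrank F (Submodule.span F {u}) ≤ 1 := finrank_span_singleton_le' u
  obtain ⟨s, hsU, hss, hs, hsA⟩ := P.exists_iso hF ![u] (Submodule.span F {u}) (by omega)
  have hsu : H s u = 0 := hs 0
  have hus : H u s = 0 := herm_eq_zero_symm hF hsu
  have hs0 : s ≠ 0 := by
    rintro rfl
    exact hsA (Submodule.zero_mem _)
  have huS : u ∉ Submodule.span F {s} := by
    intro h
    obtain ⟨c, rfl⟩ := Submodule.mem_span_singleton.1 h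
    have hc : c ≠ 0 := by
      rintro rfl
      exact hu0 (zero_smul _ _)
    apply hsA
    have := (Submodule.span F {c • s}).smul_mem c⁻¹ (Submodule.mem_span_singleton_self (c • s))
    rwa [smul_smul, inv_mul_cancel₀ hc, one_smul] at this
  obtain ⟨y₁, hy₁U, hy₁, hy₁u⟩ := P.exists_dual hF (Submodule.span F {s})
    (by rw [Submodule.span_le]; rintro x rfl; exact hsU) hu huS
  obtain ⟨y₂, hy₂U, hy₂, hy₂s⟩ := P.exists_dual hF (Submodule.span F {u})
    (by rw [Submodule.span_le]; rintro x rfl; exact hu) hsU hsA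
  have a1 : H s y₁ = 0 := hy₁ s (Submodule.mem_span_singleton_self s)
  have a2 : H u y₂ = 0 := hy₂ u (Submodule.mem_span_singleton_self u)
  obtain ⟨l, hl⟩ := exists_isotropic_add hF hss (y := y₁ + y₂) (by
    rw [hermForm_add_right hF, a1, hy₂s]; simp)
  refine ⟨y₁ + y₂ + l • s, U.add_mem (U.add_mem hy₁U hy₂U) (U.smul_mem _ hsU), hl, ?_⟩
  apply herm_ne_zero_symm hF
  rw [hermForm_add_right hF, hermForm_add_right hF, hermForm_smul_right, hy₁u, a2, hus]
  simp

/-- an isotropic vector of `U` not perpendicular to two given vectors -/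
theorem exists_iso_not_perp₂ {W U : Submodule F Vn} (P : HPair q W U) (hF : Fintype.card F = q ^ 2) (h4 : 4 ≤ finrank F U)
    {u u' : Vn} (hu : u ∈ U) (hu0 : u ≠ 0) (hu' : u' ∈ U) (hu0' : u' ≠ 0) :
    ∃ z ∈ U, H z z = 0 ∧ H z u ≠ 0 ∧ H z u' ≠ 0 := by
  obtain ⟨z₁, hz₁U, hz₁, h1⟩ := P.exists_iso_not_perp hF h4 hu hu0
  obtain ⟨z₂, hz₂U, hz₂, h2⟩ := P.exists_iso_not_perp hF h4 hu' hu0'
  by_cases c1 : H z₁ u' = 0
  · by_cases c2 : H z₂ u = 0
    · obtain ⟨l, hl0, hl⟩ : ∃ l : F, l ≠ 0 ∧ H (z₁ + l • z₂) (z₁ + l • z₂) = 0 := by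
        by_cases c3 : H z₁ z₂ = 0
        · refine ⟨1, one_ne_zero, ?_⟩
          simp only [hermForm_add_left, hermForm_add_right hF, hermForm_smul_left, hermForm_smul_right,
            hz₁, hz₂, c3, herm_eq_zero_symm hF c3]
          ring
        · obtain ⟨θ, hθ0, hθ⟩ := exists_trace_zero hF
          have c4 : H z₂ z₁ ≠ 0 := herm_ne_zero_symm hF c3
          refine ⟨θ / H z₂ z₁, div_ne_zero hθ0 c4, ?_⟩
          have e1 : (θ / H z₂ z₁) ^ q * H z₁ z₂ = θ ^ q := by
            rw [div_pow, hermForm_conj hF, div_mul_cancel₀ _ c3]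
          have e2 : θ / H z₂ z₁ * H z₂ z₁ = θ := div_mul_cancel₀ _ c4
          simp only [hermForm_add_left, hermForm_add_right hF, hermForm_smul_left, hermForm_smul_right,
            hz₁, hz₂]
          linear_combination e1 + e2 + hθ
      refine ⟨z₁ + l • z₂, U.add_mem hz₁U (U.smul_mem _ hz₂U), hl, ?_, ?_⟩
      · rw [hermForm_add_left, hermForm_smul_left, c2, mul_zero, add_zero]; exact h1
      · rw [hermForm_add_left, hermForm_smul_left, c1, zero_add]; exact mul_ne_zero hl0 h2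
    · exact ⟨z₂, hz₂U, hz₂, c2, h2⟩
  · exact ⟨z₁, hz₁U, hz₁, h1, c1⟩

end HPair

end Cfsg.Agent.Lib.Helper29
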