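import Mathlib
import Cfsg.Agent.Lib.Helper29.SuNd1

/-!
Orthogonal pairs `V = W ⊥ U` of a unitary space: moving the `U`-component of a centre.
-/

set_option autoImplicit false
set_option linter.unusedSectionVars false
set_option linter.unusedSimpArgs false

namespace Cfsg.Agent.Lib.Helper29

open Matrix Module
open Cfsg.Agent.H6 (add_pow_q pow_q_pow_q neg_pow_q sub_pow_q q_pos hermForm_add_left
  hermForm_smul_left hermForm_smul_right hermForm_add_right hermForm_conj)

variable {F : Type*} [Field F] [Fintype F] {n q : ℕ}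

local notation "H" => Cfsg.hermForm n F q
local notation "Vn" => (Fin n → F)

theorem notMem_span_pair_of {v c d : Vn} (hc : ∀ α : F, c ≠ α • v)
    (hd : d ∉ Submodule.span F {v, c}) : c ∉ Submodule.span F {v, d} := by
  intro h
  obtain ⟨α, β, e⟩ := Submodule.mem_span_pair.1 h
  by_cases hβ : β = 0
  · rw [hβ, zero_smul, add_zero] at e
    exact hc α e.symm
  · apply hd
    refine Submodule.mem_span_pair.2 ⟨-(β⁻¹ * α), β⁻¹, ?_⟩
    rw [← e, smul_add, smul_smul, smul_smul, inv_mul_cancel₀ hβ]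
    module

namespace HPair

theorem iso_U_mem {W U : Submodule F Vn} (P : HPair q W U) (hF : Fintype.card F = q ^ 2)
    {M : Subgroup (GL (Fin n) F)}
    (hM : ∀ g ∈ Cfsg.GU n F q ⊓ Cfsg.Geo.specialLinear (Fin n) F,
      (∀ w ∈ W, (g : Matrix (Fin n) (Fin n) F) *ᵥ w ∈ W) → g ∈ M)
    {z : Vn} (hz : z ∈ U) (hzz : H z z = 0) : z ∈ ucentres q M := by
  refine ⟨hzz, fun c hc => hM _ (utv_mem_SU hF z c hzz hc) (fun w hw => ?_)⟩
  rw [utv_mulVec, P.perp w hw z hz]
  simpa using hw

theorem iso_W_mem {W U : Submodule F Vn} (P : HPair q W U) (hF : Fintype.card F = q ^ 2)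
    {M : Subgroup (GL (Fin n) F)}
    (hM : ∀ g ∈ Cfsg.GU n F q ⊓ Cfsg.Geo.specialLinear (Fin n) F,
      (∀ w ∈ W, (g : Matrix (Fin n) (Fin n) F) *ᵥ w ∈ W) → g ∈ M)
    {z : Vn} (hz : z ∈ W) (hzz : H z z = 0) : z ∈ ucentres q M := by
  refine ⟨hzz, fun c hc => hM _ (utv_mem_SU hF z c hzz hc) (fun w hw => ?_)⟩
  rw [utv_mulVec]
  exact W.add_mem hw (W.smul_mem _ hz)

/-- adding a perpendicular isotropic vector to the `U`-component -/
theorem move_add {W U : Submodule F Vn} (P : HPair q W U) (hF : Fintype.card F = q ^ 2)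
    {M : Subgroup (GL (Fin n) F)} (hMU : M ≤ Cfsg.GU n F q)
    (hM : ∀ g ∈ Cfsg.GU n F q ⊓ Cfsg.Geo.specialLinear (Fin n) F,
      (∀ w ∈ W, (g : Matrix (Fin n) (Fin n) F) *ᵥ w ∈ W) → g ∈ M)
    {w v e : Vn} (hw : w ∈ W) (hv : v ∈ U) (he : e ∈ U) (hee : H e e = 0) (hve : H v e = 0)
    (hne : v ∉ Submodule.span F {e}) (hx : w + v ∈ ucentres q M) : w + (v + e) ∈ ucentres q M := by
  obtain ⟨a, haU, ha, hva⟩ := P.exists_dual hF (Submodule.span F {e})
    (by rw [Submodule.span_le]; rintro x rfl; exact he) hv hne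
  have hea : H e a = 0 := ha e (Submodule.mem_span_singleton_self e)
  have hae : H a e = 0 := herm_eq_zero_symm hF hea
  have h1 : H (-a) e = 0 := by rw [herm_neg_left, hae, neg_zero]
  have h2 : H e (-a) = 0 := by rw [herm_neg_right hF, hea, neg_zero]
  obtain ⟨s, hs⟩ := exists_trace_eq hF (-(H a a)) (by rw [neg_pow_q hF, herm_self_pow hF])
  have hgM : ueich q e (-a) s hee h1 h2 ∈ M := by
    apply hM _ ⟨ueich_mem_GU hF e (-a) s hee h1 h2 (by
      rw [herm_neg_left, herm_neg_right hF]; linear_combination hs), ueich_mem_SL _ _ _ _ _ _⟩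
    intro x hx
    rw [ueich_mulVec, P.perp x hx e he, herm_neg_right hF, P.perp x hx a haU]
    simpa using hx
  have := ucentres_mulVec hMU hgM hx
  rw [ueich_mulVec, hermForm_add_left, P.perp w hw e he, hve, herm_neg_right hF, hermForm_add_left,
    P.perp w hw a haU, hva] at this
  have e1 : w + v + ((0 : F) + 0) • -a + (s * (0 + 0) - -(0 + 1)) • e = w + (v + e) := by module
  rwa [e1] at this

/-- moving between perpendicular vectors of the same norm -/
theorem move_orth {W U : Submodule F Vn} (P : HPair q W U) (hF : Fintype.card F = q ^ 2)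
    {M : Subgroup (GL (Fin n) F)} (hMU : M ≤ Cfsg.GU n F q)
    (hM : ∀ g ∈ Cfsg.GU n F q ⊓ Cfsg.Geo.specialLinear (Fin n) F,
      (∀ w ∈ W, (g : Matrix (Fin n) (Fin n) F) *ᵥ w ∈ W) → g ∈ M)
    {w a c d : Vn} {r : F} (hw : w ∈ W) (ha : a ∈ U) (hc : c ∈ U) (hd : d ∈ U)
    (haa : H a a = r) (hcc : H c c = r) (hdd : H d d = r) (hac : H a c = 0) (had : H a d = 0)
    (hcd : H c d = 0) (ha0 : a ≠ 0) (hind : c ∉ Submodule.span F {a, d})
    (hx : w + a ∈ ucentres q M) : w + c ∈ ucentres q M := by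
  obtain ⟨ε, hε⟩ := exists_norm_eq hF (-1 : F) (by rw [neg_pow_q hF, one_pow])
  have hca := herm_eq_zero_symm hF hac
  have hda := herm_eq_zero_symm hF had
  have hdc := herm_eq_zero_symm hF hcd
  have s1 := P.move_add hF hMU hM hw ha (e := c + ε • d) (U.add_mem hc (U.smul_mem _ hd)) (by
      simp only [hermForm_add_left, hermForm_add_right hF, hermForm_smul_left, hermForm_smul_right, hcc, hdd,
        hcd, hdc]
      linear_combination r * hε) (by
      simp only [hermForm_add_right hF, hermForm_smul_right, hac, had]; ring) (by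
      intro h
      obtain ⟨μ, hμ⟩ := Submodule.mem_span_singleton.1 h
      have hμ0 : μ ≠ 0 := by
        rintro rfl
        exact ha0 (by rw [← hμ, zero_smul])
      apply hind
      refine Submodule.mem_span_pair.2 ⟨μ⁻¹, -ε, ?_⟩
      rw [← hμ, smul_smul, inv_mul_cancel₀ hμ0]
      module) hx
  have s2 := P.move_add hF hMU hM hw (v := a + (c + ε • d)) (e := -(a + ε • d))
    (U.add_mem ha (U.add_mem hc (U.smul_mem _ hd))) (U.neg_mem (U.add_mem ha (U.smul_mem _ hd))) (by
      simp only [herm_neg_left, herm_neg_right hF, hermForm_add_left, hermForm_add_right hF,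
        hermForm_smul_left, hermForm_smul_right, haa, hdd, had, hda]
      linear_combination r * hε) (by
      simp only [herm_neg_right hF, hermForm_add_left, hermForm_add_right hF,
        hermForm_smul_left, hermForm_smul_right, haa, hcc, hdd, hcd, hdc, hac, hca, had, hda]
      linear_combination -r * hε) (by
      intro h
      obtain ⟨μ, hμ⟩ := Submodule.mem_span_singleton.1 h
      apply hind
      refine Submodule.mem_span_pair.2 ⟨-μ - 1, (-μ - 1) * ε, ?_⟩
      have : c = (a + (c + ε • d)) - (a + ε • d) := by abel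
      rw [this, ← hμ]
      module) s1
  have e1 : a + (c + ε • d) + -(a + ε • d) = c := by abel
  rwa [e1] at s2

/-- transitivity on the vectors of `U` of a given norm -/
theorem move_norm {W U : Submodule F Vn} (P : HPair q W U) (hF : Fintype.card F = q ^ 2)
    {M : Subgroup (GL (Fin n) F)} (hMU : M ≤ Cfsg.GU n F q)
    (hM : ∀ g ∈ Cfsg.GU n F q ⊓ Cfsg.Geo.specialLinear (Fin n) F,
      (∀ w ∈ W, (g : Matrix (Fin n) (Fin n) F) *ᵥ w ∈ W) → g ∈ M)
    (h7 : 7 ≤ finrank F U)
    {w v v' : Vn} (hw : w ∈ W) (hv : v ∈ U) (hv' : v' ∈ U) (hv0 : v ≠ 0) (hv0' : v' ≠ 0)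
    (hN : H v' v' = H v v) (hx : w + v ∈ ucentres q M) : w + v' ∈ ucentres q M := by
  have hr : (H v v) ^ q = H v v := herm_self_pow hF v
  have pair_le : ∀ x y : Vn, x ∈ U → y ∈ U → Submodule.span F {x, y} ≤ U := by
    intro x y hx hy
    rw [Submodule.span_le]
    rintro z (rfl | rfl)
    · exact hx
    · exact hy
  have pair_mem : ∀ (x y : Vn) (i : Fin 2), ![x, y] i ∈ Submodule.span F {x, y} := by
    intro x y i
    fin_cases i
    · exact Submodule.subset_span (by simp)
    · exact Submodule.subset_span (by simp)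
  have pair_fr : ∀ x y : Vn, finrank F (Submodule.span F {x, y}) + 2 + 1 < finrank F U := by
    intro x y
    have := finrank_span_pair_le x y
    omega
  obtain ⟨c, hcU, hc, hcc, hcA⟩ := P.exists_norm hF ![v, v'] _ (pair_le v v' hv hv') (pair_mem v v')
    (pair_fr v v') _ hr
  have hcv : H c v = 0 := hc 0
  have hcv' : H c v' = 0 := hc 1
  obtain ⟨d, hdU, hd, hdd, hdA⟩ := P.exists_norm hF ![v, c] _ (pair_le v c hv hcU) (pair_mem v c)
    (pair_fr v c) _ hr
  have hdv : H d v = 0 := hd 0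
  have hdc : H d c = 0 := hd 1
  obtain ⟨d', hdU', hd', hdd', hdA'⟩ := P.exists_norm hF ![c, v'] _ (pair_le c v' hcU hv')
    (pair_mem c v') (pair_fr c v') _ hr
  have hdc' : H d' c = 0 := hd' 0
  have hdv' : H d' v' = 0 := hd' 1
  have hc0 : c ≠ 0 := by
    rintro rfl
    exact hcA (Submodule.zero_mem _)
  have s1 := P.move_orth hF hMU hM hw hv hcU hdU rfl hcc hdd (herm_eq_zero_symm hF hcv)
    (herm_eq_zero_symm hF hdv) (herm_eq_zero_symm hF hdc) hv0 (notMem_span_pair_of (by
      intro α h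
      apply hcA
      rw [h]
      exact Submodule.smul_mem _ _ (Submodule.subset_span (by simp))) hdA) hx
  exact P.move_orth hF hMU hM hw hcU hv' hdU' hcc hN hdd' hcv'
    (herm_eq_zero_symm hF hdc') (herm_eq_zero_symm hF hdv') hc0 (notMem_span_pair_of (by
      intro α h
      have hα : α ≠ 0 := by
        rintro rfl
        exact hv0' (by rw [h, zero_smul])
      apply hcA
      have : c = α⁻¹ • v' := by rw [h, smul_smul, inv_mul_cancel₀ hα, one_smul]
      rw [this]
      exact Submodule.smul_mem _ _ (Submodule.subset_span (by simp))) hdA') s1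

end HPair

end Cfsg.Agent.Lib.Helper29
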