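import Mathlib
import Cfsg.Agent.Lib.Helper29.SuNd2

/-!
Orthogonal pairs `V = W ⊥ U` of a unitary space: good vectors of `W` and the main theorem.
-/

set_option autoImplicit false
set_option linter.unusedSectionVars false
set_option linter.unusedSimpArgs false

namespace Cfsg.Agent.Lib.Helper29

open Matrix Module
open Cfsg.Agent.H6 (add_pow_q pow_q_pow_q neg_pow_q sub_pow_q q_pos hermForm_add_left
  hermForm_smul_left hermForm_smul_right hermForm_add_right hermForm_conj)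

variable {F : Type*} [Field F] [Fintype F] {n q : ℕ}

local notation "H" => Cfsg.hermForm n F q
local notation "Vn" => (Fin n → F)

/-- `w ∈ W` all of whose isotropic extensions by vectors of `U` are centres -/
def HGood (q : ℕ) (M : Subgroup (GL (Fin n) F)) (W U : Submodule F (Fin n → F)) (w : Fin n → F) : Prop :=
  w ∈ W ∧ ∀ u ∈ U, Cfsg.hermForm n F q u u = - Cfsg.hermForm n F q w w → w + u ∈ ucentres q M

namespace HPair

theorem norm_add {W U : Submodule F Vn} (P : HPair q W U) (hF : Fintype.card F = q ^ 2)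
    {w u : Vn} (hw : w ∈ W) (hu : u ∈ U) : H (w + u) (w + u) = H w w + H u u := by
  simp only [hermForm_add_left, hermForm_add_right hF, P.perp w hw u hu, P.perp' hF hw hu]
  ring

theorem good_of_mem {W U : Submodule F Vn} (P : HPair q W U) (hF : Fintype.card F = q ^ 2)
    {M : Subgroup (GL (Fin n) F)} (hMU : M ≤ Cfsg.GU n F q)
    (hM : ∀ g ∈ Cfsg.GU n F q ⊓ Cfsg.Geo.specialLinear (Fin n) F,
      (∀ w ∈ W, (g : Matrix (Fin n) (Fin n) F) *ᵥ w ∈ W) → g ∈ M)
    (h7 : 7 ≤ finrank F U) {w v : Vn} (hw : w ∈ W) (hv : v ∈ U) (hv0 : v ≠ 0)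
    (hx : w + v ∈ ucentres q M) : HGood q M W U w := by
  have hq : q ≠ 0 := by have := q_pos hF; omega
  refine ⟨hw, fun u hu hN => ?_⟩
  have h1 := hx.1
  rw [P.norm_add hF hw hv] at h1
  by_cases hu0 : u = 0
  · subst hu0
    rw [add_zero]
    apply P.iso_W_mem hF hM hw
    rw [herm_zero_left hq] at hN
    linear_combination hN
  · exact P.move_norm hF hMU hM h7 hw hv hu hv0 hu0 (by linear_combination hN - h1) hx

theorem good_zero {W U : Submodule F Vn} (P : HPair q W U) (hF : Fintype.card F = q ^ 2)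
    {M : Subgroup (GL (Fin n) F)}
    (hM : ∀ g ∈ Cfsg.GU n F q ⊓ Cfsg.Geo.specialLinear (Fin n) F,
      (∀ w ∈ W, (g : Matrix (Fin n) (Fin n) F) *ᵥ w ∈ W) → g ∈ M) : HGood q M W U 0 := by
  have hq : q ≠ 0 := by have := q_pos hF; omega
  refine ⟨W.zero_mem, fun u hu hN => ?_⟩
  rw [zero_add]
  apply P.iso_U_mem hF hM hu
  rw [hN, herm_zero_left hq, neg_zero]

theorem good_smul {W U : Submodule F Vn} (P : HPair q W U) (hF : Fintype.card F = q ^ 2)
    {M : Subgroup (GL (Fin n) F)}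
    (hM : ∀ g ∈ Cfsg.GU n F q ⊓ Cfsg.Geo.specialLinear (Fin n) F,
      (∀ w ∈ W, (g : Matrix (Fin n) (Fin n) F) *ᵥ w ∈ W) → g ∈ M)
    {w : Vn} (hw : HGood q M W U w) (c : F) : HGood q M W U (c • w) := by
  by_cases hc : c = 0
  · rw [hc, zero_smul]
    exact P.good_zero hF hM
  refine ⟨W.smul_mem _ hw.1, fun u hu hN => ?_⟩
  have hcq : c ^ q ≠ 0 := pow_ne_zero _ hc
  have h1 := hw.2 (c⁻¹ • u) (U.smul_mem _ hu) (by
    rw [hermForm_smul_left, hermForm_smul_right, hN, hermForm_smul_left, hermForm_smul_right, inv_pow]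
    field_simp)
  have h2 := ucentres_smul hF h1 c
  rwa [smul_add, smul_smul, mul_inv_cancel₀ hc, one_smul] at h2

theorem good_add {W U : Submodule F Vn} (P : HPair q W U) (hF : Fintype.card F = q ^ 2)
    {M : Subgroup (GL (Fin n) F)} (hMU : M ≤ Cfsg.GU n F q)
    (hM : ∀ g ∈ Cfsg.GU n F q ⊓ Cfsg.Geo.specialLinear (Fin n) F,
      (∀ w ∈ W, (g : Matrix (Fin n) (Fin n) F) *ᵥ w ∈ W) → g ∈ M)
    (h7 : 7 ≤ finrank F U) {w₁ w₂ : Vn} (h₁ : HGood q M W U w₁) (h₂ : HGood q M W U w₂) :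
    HGood q M W U (w₁ + w₂) := by
  have hq : q ≠ 0 := by have := q_pos hF; omega
  refine ⟨W.add_mem h₁.1 h₂.1, fun u hu hN => ?_⟩
  by_cases hu0 : u = 0
  · subst hu0
    rw [add_zero]
    apply P.iso_W_mem hF hM (W.add_mem h₁.1 h₂.1)
    rw [herm_zero_left hq] at hN
    linear_combination hN
  -- the trace condition
  set τ : F := H u u - H w₁ w₁ + H w₂ w₂ with hτ
  have hτq : τ ^ q = τ := by
    rw [hτ, add_pow_q hF, sub_pow_q hF, herm_self_pow hF, herm_self_pow hF, herm_self_pow hF]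
  obtain ⟨μ₀, hμ₀⟩ := exists_trace_eq hF τ hτq
  obtain ⟨θ, hθ0, hθ⟩ := exists_trace_zero hF
  obtain ⟨μ, hμ, hμne⟩ : ∃ μ : F, μ + μ ^ q = τ ∧ H w₁ w₂ + μ + H w₁ w₁ ≠ 0 := by
    by_cases hb : H w₁ w₂ + μ₀ + H w₁ w₁ = 0
    · refine ⟨μ₀ + θ, by rw [add_pow_q hF]; linear_combination hμ₀ + hθ, ?_⟩
      intro h
      apply hθ0
      linear_combination h - hb
    · exact ⟨μ₀, hμ₀, hb⟩
  obtain ⟨y, hyU, huy⟩ := P.exists_dual₀ hF hu hu0
  have hyu : H y u = 1 := by rw [← hermForm_conj hF, huy, one_pow]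
  have hfr := finrank_span_pair_le u y
  obtain ⟨b, hbU, hb, hbb, -⟩ := P.exists_norm hF ![u, y] (Submodule.span F {u, y}) (by
      rw [Submodule.span_le]
      rintro z (rfl | rfl)
      · exact hu
      · exact hyU) (by
      intro i
      fin_cases i
      · exact Submodule.subset_span (by simp)
      · exact Submodule.subset_span (by simp)) (by omega)
    (- H w₁ w₁ - H (μ • y) (μ • y)) (by
      rw [sub_pow_q hF, neg_pow_q hF, herm_self_pow hF, herm_self_pow hF])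
  have hbu : H b u = 0 := hb 0
  have hby : H b y = 0 := hb 1
  have hub : H u b = 0 := herm_eq_zero_symm hF hbu
  have hyb : H y b = 0 := herm_eq_zero_symm hF hby
  set u₁ := μ • y + b with hu₁
  have hu₁U : u₁ ∈ U := U.add_mem (U.smul_mem _ hyU) hbU
  have n1 : H u₁ u₁ = - H w₁ w₁ := by
    have : H u₁ u₁ = H (μ • y) (μ • y) + H b b := by
      rw [hu₁]
      simp only [hermForm_add_left, hermForm_add_right hF, hermForm_smul_left, hermForm_smul_right, hby, hyb]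
      ring
    rw [this, hbb]; ring
  have n2 : H u₁ u = μ := by
    rw [hu₁, hermForm_add_left, hermForm_smul_left, hyu, hbu]; ring
  have n3 : H u u₁ = μ ^ q := by rw [← n2, hermForm_conj hF]
  have n4 : H (u - u₁) (u - u₁) = - H w₂ w₂ := by
    simp only [herm_sub_left, herm_sub_right hF, n1, n2, n3]
    rw [hτ] at hμ
    linear_combination -hμ
  have x₁ := h₁.2 u₁ hu₁U n1
  have x₂ := h₂.2 (u - u₁) (U.sub_mem hu hu₁U) n4
  have e : w₁ + w₂ + u = (w₁ + u₁) + (w₂ + (u - u₁)) := by abel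
  rw [e]
  apply ucentres_add hF hMU x₁ x₂
  · have : H (w₁ + u₁) (w₂ + (u - u₁)) = H w₁ w₂ + μ + H w₁ w₁ := by
      simp only [hermForm_add_left, hermForm_add_right hF, herm_sub_right hF, n1, n2,
        P.perp w₁ h₁.1 u hu, P.perp w₁ h₁.1 u₁ hu₁U, P.perp' hF h₂.1 hu₁U]
      ring
    rw [this]
    exact hμne
  · rw [← e, P.norm_add hF (W.add_mem h₁.1 h₂.1) hu, hN]; ring

theorem good_step {W U : Submodule F Vn}
    {M : Subgroup (GL (Fin n) F)} (hMU : M ≤ Cfsg.GU n F q)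
    {w w' : Vn} (hw : HGood q M W U w) (hw' : w' ∈ W) (hN : H w' w' = H w w)
    (ht : ∀ u ∈ U, ∃ t ∈ M, (t : Matrix (Fin n) (Fin n) F) *ᵥ (w + u) = w' + u) :
    HGood q M W U w' := by
  refine ⟨hw', fun u hu hNu => ?_⟩
  obtain ⟨t, htM, e⟩ := ht u hu
  rw [← e]
  exact ucentres_mulVec hMU htM (hw.2 u hu (by rw [hNu, hN]))

theorem good_of_not_perp {W U : Submodule F Vn} (P : HPair q W U) (hF : Fintype.card F = q ^ 2)
    {M : Subgroup (GL (Fin n) F)} (hMU : M ≤ Cfsg.GU n F q)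
    (hM : ∀ g ∈ Cfsg.GU n F q ⊓ Cfsg.Geo.specialLinear (Fin n) F,
      (∀ w ∈ W, (g : Matrix (Fin n) (Fin n) F) *ᵥ w ∈ W) → g ∈ M)
    (h7 : 7 ≤ finrank F U) {w a : Vn} (hw : HGood q M W U w) (ha : a ∈ W) (hwa : H w a ≠ 0) :
    HGood q M W U a := by
  obtain ⟨c, hc0, hg⟩ : ∃ c : F, c ≠ 0 ∧ HGood q M W U (w + (c * H w a) • a) := by
    by_cases haa : H a a = 0
    · obtain ⟨θ, hθ0, hθ⟩ := exists_trace_zero hF
      have htM : utv q a θ haa ∈ M := (P.iso_W_mem hF hM ha haa).2 θ hθ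
      refine ⟨θ, hθ0, good_step hMU hw (W.add_mem hw.1 (W.smul_mem _ ha)) ?_ (fun u hu => ⟨_, htM, ?_⟩)⟩
      · rw [← utv_mulVec a θ haa w, (mem_GU_iff _).mp (hMU htM)]
      · rw [utv_mulVec, hermForm_add_left, P.perp' hF ha hu, add_zero]
        abel
    · obtain ⟨m, hm⟩ := exists_trace_eq hF (-(H a a)) (by rw [neg_pow_q hF, herm_self_pow hF])
      have hm0 : m ≠ 0 := by
        rintro rfl
        apply haa
        have hq : q ≠ 0 := by have := q_pos hF; omega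
        rw [zero_pow hq] at hm
        linear_combination hm
      have hmq : m ^ q ≠ 0 := pow_ne_zero _ hm0
      have h1 : m⁻¹ + m⁻¹ ^ q + m⁻¹ * m⁻¹ ^ q * H a a = 0 := by
        rw [inv_pow]
        field_simp
        linear_combination hm
      have hA : uref q a m⁻¹ (m⁻¹ ^ q) h1 ∈ Cfsg.GU n F q := uref_mem_GU hF a m⁻¹ h1
      refine ⟨m⁻¹, inv_ne_zero hm0, good_step hMU hw (W.add_mem hw.1 (W.smul_mem _ ha)) ?_ (fun u hu => ?_)⟩
      · rw [← uref_mulVec a m⁻¹ (m⁻¹ ^ q) h1 w, (mem_GU_iff _).mp hA]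
      · have hfr : finrank F (Submodule.span F {u}) ≤ 1 := finrank_span_singleton_le' u
        obtain ⟨b, hbU, hb, hbb, -⟩ := P.exists_norm hF ![u] (Submodule.span F {u}) (by
            rw [Submodule.span_le]
            rintro z rfl
            exact hu) (by
            intro i
            fin_cases i
            exact Submodule.mem_span_singleton_self u) (by omega) (H a a) (herm_self_pow hF a)
        have hbu : H b u = 0 := hb 0
        have hub : H u b = 0 := herm_eq_zero_symm hF hbu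
        have h2 : m⁻¹ ^ q + (m⁻¹ ^ q) ^ q + m⁻¹ ^ q * (m⁻¹ ^ q) ^ q * H b b = 0 := by
          rw [pow_q_pow_q hF, hbb]
          linear_combination h1
        have hB : uref q b (m⁻¹ ^ q) ((m⁻¹ ^ q) ^ q) h2 ∈ Cfsg.GU n F q := uref_mem_GU hF b (m⁻¹ ^ q) h2
        refine ⟨uref q a m⁻¹ (m⁻¹ ^ q) h1 * uref q b (m⁻¹ ^ q) ((m⁻¹ ^ q) ^ q) h2, ?_, ?_⟩
        · apply hM _ ⟨(Cfsg.GU n F q).mul_mem hA hB, (mem_specialLinear_iff _).2 (by
            rw [Units.val_mul, Matrix.det_mul, uref_det, uref_det, hbb]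
            linear_combination (H a a) * h1)⟩
          intro x hx
          have hbx : (uref q b (m⁻¹ ^ q) ((m⁻¹ ^ q) ^ q) h2 : Matrix (Fin n) (Fin n) F) *ᵥ x = x := by
            rw [uref_mulVec, P.perp x hx b hbU]
            simp
          rw [gl_mul_mulVec, hbx, uref_mulVec]
          exact W.add_mem hx (W.smul_mem _ ha)
        · have hbx : (uref q b (m⁻¹ ^ q) ((m⁻¹ ^ q) ^ q) h2 : Matrix (Fin n) (Fin n) F) *ᵥ (w + u)
              = w + u := by
            rw [uref_mulVec, hermForm_add_left, P.perp w hw.1 b hbU, hub]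
            simp
          rw [gl_mul_mulVec, hbx, uref_mulVec, hermForm_add_left, P.perp' hF ha hu, add_zero]
          abel
  have hκ : c * H w a ≠ 0 := mul_ne_zero hc0 hwa
  have h3 := P.good_smul hF hM (P.good_add hF hMU hM h7 hg (P.good_smul hF hM hw (-1))) (c * H w a)⁻¹
  have e : (c * H w a)⁻¹ • (w + (c * H w a) • a + (-1 : F) • w) = a := by
    have : w + (c * H w a) • a + (-1 : F) • w = (c * H w a) • a := by module
    rw [this, smul_smul, inv_mul_cancel₀ hκ, one_smul]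
  rwa [e] at h3

/-- main theorem -/
theorem su_le {W U : Submodule F Vn} (P : HPair q W U) (hF : Fintype.card F = q ^ 2) (hn : 5 ≤ n)
    {M : Subgroup (GL (Fin n) F)} (hMU : M ≤ Cfsg.GU n F q)
    (hM : ∀ g ∈ Cfsg.GU n F q ⊓ Cfsg.Geo.specialLinear (Fin n) F,
      (∀ w ∈ W, (g : Matrix (Fin n) (Fin n) F) *ᵥ w ∈ W) → g ∈ M)
    (h7 : 7 ≤ finrank F U) (hlt : finrank F W < finrank F U)
    {g : GL (Fin n) F} (hg : g ∈ M) {w₁ : Vn} (hw₁ : w₁ ∈ W)
    (hgw₁ : (g : Matrix (Fin n) (Fin n) F) *ᵥ w₁ ∉ W) :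
    Cfsg.GU n F q ⊓ Cfsg.Geo.specialLinear (Fin n) F ≤ M := by
  have hq : q ≠ 0 := by have := q_pos hF; omega
  obtain ⟨u₂, hu₂, hgu₂⟩ : ∃ u₂ ∈ U, (g : Matrix (Fin n) (Fin n) F) *ᵥ u₂ ∉ W := by
    by_contra hcon
    push Not at hcon
    have h1 : U.map (Matrix.mulVecLin (g : Matrix (Fin n) (Fin n) F)) ≤ W := by
      rintro _ ⟨u, hu, rfl⟩
      exact hcon u hu
    have h2 := Submodule.finrank_mono h1
    rw [Cfsg.Agent.Lib.Helper15.finrank_map_GL] at h2
    omega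
  obtain ⟨w', hw', u', hu', e1⟩ := P.sup ((g : Matrix (Fin n) (Fin n) F) *ᵥ w₁)
  obtain ⟨w'', hw'', u'', hu'', e2⟩ := P.sup ((g : Matrix (Fin n) (Fin n) F) *ᵥ u₂)
  have hu0' : u' ≠ 0 := by
    rintro rfl
    rw [add_zero] at e1
    exact hgw₁ (e1 ▸ hw')
  have hu0'' : u'' ≠ 0 := by
    rintro rfl
    rw [add_zero] at e2
    exact hgu₂ (e2 ▸ hw'')
  obtain ⟨z, hzU, hzz, hz1, hz2⟩ := P.exists_iso_not_perp₂ hF (by omega) hu' hu0' hu'' hu0''
  have hx₀ := ucentres_mulVec hMU (M.inv_mem hg) (P.iso_U_mem hF hM hzU hzz)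
  have hinv : ∀ v : Vn, H (((g⁻¹ : GL (Fin n) F) : Matrix (Fin n) (Fin n) F) *ᵥ z) v
      = H z ((g : Matrix (Fin n) (Fin n) F) *ᵥ v) := by
    intro v
    rw [← (mem_GU_iff g).mp (hMU hg), gl_mulVec_inv]
  obtain ⟨w₀, hw₀, u₀, hu₀, e0⟩ := P.sup (((g⁻¹ : GL (Fin n) F) : Matrix (Fin n) (Fin n) F) *ᵥ z)
  have k1 := hinv w₁
  rw [e0, e1, hermForm_add_left, hermForm_add_right hF, P.perp' hF hw₁ hu₀, P.perp' hF hw' hzU] at k1
  have k2 := hinv u₂
  rw [e0, e2, hermForm_add_left, hermForm_add_right hF, P.perp w₀ hw₀ u₂ hu₂, P.perp' hF hw'' hzU] at k2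
  have hw₀0 : w₀ ≠ 0 := by
    rintro rfl
    rw [herm_zero_left hq] at k1
    apply hz1
    linear_combination -k1
  have hu₀0 : u₀ ≠ 0 := by
    rintro rfl
    rw [herm_zero_left hq] at k2
    apply hz2
    linear_combination -k2
  rw [e0] at hx₀
  have hgood₀ := P.good_of_mem hF hMU hM h7 hw₀ hu₀ hu₀0 hx₀
  obtain ⟨a₀, ha₀, ha₀1⟩ := (P.symm hF).exists_dual₀ hF hw₀ hw₀0
  have hga₀ := P.good_of_not_perp hF hMU hM h7 hgood₀ ha₀ (by rw [ha₀1]; exact one_ne_zero)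
  have hall : ∀ v ∈ W, HGood q M W U v := by
    intro v hv
    by_cases hc : H w₀ v = 0
    · have h1 := P.good_of_not_perp hF hMU hM h7 hgood₀ (W.add_mem ha₀ hv) (by
        rw [hermForm_add_right hF, ha₀1, hc]; simp)
      have h2 := P.good_add hF hMU hM h7 h1 (P.good_smul hF hM hga₀ (-1))
      have e : a₀ + v + (-1 : F) • a₀ = v := by module
      rwa [e] at h2
    · exact P.good_of_not_perp hF hMU hM h7 hgood₀ hv hc
  apply su_le_of_utv hF hn
  intro v c hv hc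
  obtain ⟨a, ha, b, hb, rfl⟩ := P.sup v
  have h1 := hv
  rw [P.norm_add hF ha hb] at h1
  exact ((hall a ha).2 b hb (by linear_combination h1)).2 c hc

end HPair

end Cfsg.Agent.Lib.Helper29
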