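import Mathlib
import Cfsg.Agent.Lib.Helper29.SuNd3

/-!
Maximality in `SU` of the stabiliser of a non-degenerate subspace of dimension less than `n / 2`.
-/

set_option autoImplicit false
set_option linter.unusedSectionVars false
set_option linter.unusedSimpArgs false

namespace Cfsg.Agent.Lib.Helper29

open Matrix Module
open Cfsg.Agent.H6 (add_pow_q pow_q_pow_q neg_pow_q sub_pow_q q_pos hermForm_add_left
  hermForm_smul_left hermForm_smul_right hermForm_add_right hermForm_conj)

variable {F : Type*} [Field F] [Fintype F] {n q : ℕ}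

local notation "H" => Cfsg.hermForm n F q
local notation "Vn" => (Fin n → F)

/-- the orthogonal complement -/
def hperp (hF : Fintype.card F = q ^ 2) (W : Submodule F (Fin n → F)) : Submodule F (Fin n → F) where
  carrier := {z | ∀ a ∈ W, Cfsg.hermForm n F q a z = 0}
  add_mem' := by
    intro x y hx hy a ha
    rw [hermForm_add_right hF, hx a ha, hy a ha, add_zero]
  zero_mem' := by
    intro a _
    have hq : q ≠ 0 := by have := q_pos hF; omega
    exact herm_zero_right hq a
  smul_mem' := by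
    intro c x hx a ha
    rw [hermForm_smul_right, hx a ha, mul_zero]

theorem herm_perp_of_basis {W : Submodule F Vn} {κ : Type*} [Fintype κ] (b : Basis κ F W) {z : Vn}
    (h : ∀ i, H ((b i : W) : Vn) z = 0) : ∀ a ∈ W, H a z = 0 := by
  intro w hw
  have h1 := b.sum_repr ⟨w, hw⟩
  have h2 : w = ∑ i, b.repr ⟨w, hw⟩ i • ((b i : W) : Vn) := by
    have h5 := congrArg (W.subtype) h1
    rw [map_sum] at h5
    simp only [map_smul, Submodule.subtype_apply] at h5
    exact h5.symm
  rw [h2, herm_sum_left]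
  apply Finset.sum_eq_zero
  intro i _
  rw [hermForm_smul_left, h i, mul_zero]

theorem hpair_hperp (hF : Fintype.card F = q ^ 2) (W : Submodule F Vn)
    (hW : Cfsg.Geo.IsNondegenerateOn (Cfsg.hermForm n F q) W) : HPair q W (hperp hF W) where
  perp := fun w hw u hu => hu w hw
  sup := by
    intro z
    let b := Module.finBasis F W
    let ψ : W →ₗ[F] (Fin (finrank F W) → F) :=
      LinearMap.pi (fun i => (hermDual n q ((b i : W) : Vn)) ∘ₗ W.subtype)
    have hψ : ∀ (w : W) i, ψ w i = H (w : Vn) ((b i : W) : Vn) := fun w i => rfl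
    have hinj : Function.Injective ψ := by
      rw [← LinearMap.ker_eq_bot, LinearMap.ker_eq_bot']
      intro w hw
      by_contra hne
      have hne' : (w : Vn) ≠ 0 := fun h => hne (Subtype.ext h)
      obtain ⟨⟨x, hx, hxw⟩, -⟩ := hW w w.2 hne'
      apply hxw
      apply herm_perp_of_basis b _ x hx
      intro i
      apply herm_eq_zero_symm hF
      rw [← hψ, hw]
      rfl
    have hs : Function.Surjective ψ :=
      (LinearMap.injective_iff_surjective_of_finrank_eq_finrank (by simp)).mp hinj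
    obtain ⟨w, hw⟩ := hs (fun i => H z ((b i : W) : Vn))
    refine ⟨w, w.2, z - w, ?_, by abel⟩
    apply herm_perp_of_basis b
    intro i
    apply herm_eq_zero_symm hF
    rw [herm_sub_left, ← hψ, hw, sub_self]

theorem su_stab_isMaximalIn_of_nondeg (hF : Fintype.card F = q ^ 2) (hn : 13 ≤ n)
    (W : Submodule F Vn) (hW0 : W ≠ ⊥)
    (hW : Cfsg.Geo.IsNondegenerateOn (Cfsg.hermForm n F q) W) (hdim : 2 * finrank F W < n) :
    Cfsg.Geo.IsMaximalIn (Cfsg.GU n F q ⊓ Cfsg.Geo.specialLinear (Fin n) F)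
      (Cfsg.Geo.subspaceStabilizer W ⊓ (Cfsg.GU n F q ⊓ Cfsg.Geo.specialLinear (Fin n) F)) := by
  have P := hpair_hperp hF W hW
  have hadd := P.finrank_add hF
  refine ⟨lt_of_le_of_ne inf_le_right ?_, ?_⟩
  · intro heq
    obtain ⟨a, ha, ha0⟩ := Submodule.exists_mem_ne_zero_of_ne_bot hW0
    obtain ⟨w', hw', haw'⟩ := (P.symm hF).exists_dual₀ hF ha ha0
    obtain ⟨u, hu, -, huu, hu0⟩ := P.exists_norm hF (Fin.elim0 : Fin 0 → Vn) ⊥ bot_le (fun i => i.elim0)
      (by rw [finrank_bot]; omega) (- H a a) (by rw [neg_pow_q hF, herm_self_pow hF])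
    have hu0' : u ≠ 0 := by simpa using hu0
    obtain ⟨θ, hθ0, hθ⟩ := exists_trace_zero hF
    have hxx : H (a + u) (a + u) = 0 := by rw [P.norm_add hF ha hu, huu]; ring
    have h1 := utv_mem_SU hF (a + u) θ hxx hθ
    rw [← heq] at h1
    have h2 := ((mem_subspaceStabilizer_iff W _).mp h1.1 w').mp hw'
    have hw'a : H w' a = 1 := by rw [← hermForm_conj hF, haw', one_pow]
    rw [utv_mulVec, hermForm_add_right hF, hw'a, P.perp w' hw' u hu, add_zero, mul_one] at h2
    have h3 := (W.add_mem_iff_right hw').mp h2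
    have h4 := W.smul_mem θ⁻¹ h3
    rw [smul_smul, inv_mul_cancel₀ hθ0, one_smul] at h4
    have h5 := (W.add_mem_iff_right ha).mp h4
    exact hu0' (P.disj hF h5 hu)
  · intro M hPM hMS
    by_cases hMP : M ≤ Cfsg.Geo.subspaceStabilizer W
    · left
      exact le_antisymm (le_inf hMP hMS) hPM
    · right
      obtain ⟨g, hg, hgW⟩ := SetLike.not_le_iff_exists.mp hMP
      have hMU : M ≤ Cfsg.GU n F q := hMS.trans inf_le_left
      obtain ⟨w₁, hw₁, hgw₁⟩ : ∃ w₁ ∈ W, (g : Matrix (Fin n) (Fin n) F) *ᵥ w₁ ∉ W := by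
        by_contra hcon
        push Not at hcon
        exact hgW (Cfsg.Agent.Lib.Helper15.mem_subspaceStabilizer_of_forall W g hcon)
      exact le_antisymm hMS (P.su_le hF (by omega) hMU
        (fun g hg h => hPM ⟨Cfsg.Agent.Lib.Helper15.mem_subspaceStabilizer_of_forall W g h, hg⟩)
        (by omega) (by omega) hg hw₁ hgw₁)

end Cfsg.Agent.Lib.Helper29
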