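import Mathlib
import Cfsg.Agent.Lib.Helper29.SuO2

/-!
Orthogonal rational structures on a unitary space: the overgroups of the rational Siegel
transformations.
-/

set_option autoImplicit false
set_option linter.unusedSectionVars false
set_option linter.unusedSimpArgs false

namespace Cfsg.Agent.Lib.Helper29

open Matrix QuadraticMap Module
open Cfsg.Agent.H6 (add_pow_q pow_q_pow_q neg_pow_q sub_pow_q q_pos hermForm_add_left
  hermForm_smul_left hermForm_smul_right hermForm_add_right hermForm_conj)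

variable {F : Type*} [Field F] [Fintype F] {n q : ℕ} {F₀ : Subfield F}

local notation "H" => Cfsg.hermForm n F q
local notation "Vn" => (Fin n → F)

variable {M : Subgroup (GL (Fin n) F)}

theorem gl_mulVec_inj (g : GL (Fin n) F) {x y : Vn}
    (h : (g : Matrix (Fin n) (Fin n) F) *ᵥ x = (g : Matrix (Fin n) (Fin n) F) *ᵥ y) : x = y := by
  have := congrArg (fun v => ((g⁻¹ : GL (Fin n) F) : Matrix (Fin n) (Fin n) F) *ᵥ v) h
  simpa only [gl_inv_mulVec] using this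

namespace URat

variable {Q : QuadraticForm F (Fin n → F)} {Q₀ : QuadraticForm F₀ (Fin n → F₀)}
  {e : (Fin n → F₀) → (Fin n → F)} {θ : F} (U : URat n q Q Q₀ e θ)

/-- the Siegel transformations of `M` with rational centre are rational -/
def UStar (_U : URat n q Q Q₀ e θ) (M : Subgroup (GL (Fin n) F)) : Prop :=
  ∀ (u : Fin n → F₀) (v : Vn) (s : F), Q₀ u = 0 → u ≠ 0 → H v (e u) = 0 → UE q M (e u) v s →
    ∃ (x : Fin n → F₀) (c : F), v = e x + c • e u

include U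

theorem su_le_of_not_star (hn : 13 ≤ n) (hMU : M ≤ Cfsg.GU n F q)
    (hrat : ∀ u a : Fin n → F₀, UE q M (e u) (e a) (-((Q₀ a : F₀) : F))) (h : ¬ U.UStar M) :
    Cfsg.GU n F q ⊓ Cfsg.Geo.specialLinear (Fin n) F ≤ M := by
  unfold UStar at h
  push Not at h
  obtain ⟨u, v, s, hu, hu0, hvu, hE, hv⟩ := h
  obtain ⟨z, hz, huz, hvz⟩ : ∃ z, Q₀ z = 0 ∧ polar Q₀ u z = 0 ∧ polar Q v (e z) ∉ F₀ := by
    by_contra hcon
    push Not at hcon
    obtain ⟨x, c, hx⟩ := U.S.rep_mod (by rw [Fintype.card_fin]; exact hn) hu hu0 hcon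
    exact hv x c hx
  rw [← U.herm] at hvz
  have hzu : H (e z) (e u) = 0 := U.herm_ee_zero (by rw [polar_comm]; exact huz)
  have k0 := hrat u z
  have X := UE_mul U.hF hE k0 hvu hzu
  have Y := UE_congr (UE_mul U.hF k0 hE hzu hvu) rfl (add_comm _ _) rfl
  have D := UE_diff U.hF X Y (by rw [hermForm_add_left, hvu, hzu, add_zero])
  set h := H v (e z) with hh
  have D' : UE q M (e u) 0 (h - h ^ q) := by
    refine UE_congr D rfl rfl ?_
    rw [hh, hermForm_conj U.hF]; ring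
  apply U.su_le_of_rat_utv hn hMU hrat hu hu0 (c := h - h ^ q) ?_ ?_ (utv_of_UE U.hF D' _)
  · intro h0
    apply hvz
    rw [U.fix]
    linear_combination -h0
  · rw [sub_pow_q U.hF, pow_q_pow_q U.hF]; ring

/-- rational singular points go to rational points -/
theorem point_rat (hn : 13 ≤ n) (hMU : M ≤ Cfsg.GU n F q)
    (hrat : ∀ u a : Fin n → F₀, UE q M (e u) (e a) (-((Q₀ a : F₀) : F))) (hstar : U.UStar M)
    {g : GL (Fin n) F} (hg : g ∈ M) {u : Fin n → F₀} (hu : Q₀ u = 0) :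
    ∃ (c : F) (r : Fin n → F₀), (g : Matrix (Fin n) (Fin n) F) *ᵥ e u = c • e r := by
  by_contra hcon
  push Not at hcon
  have hgU := hMU hg
  have hiso := (mem_GU_iff g).mp hgU
  obtain ⟨a, b, hab⟩ := U.dec ((g : Matrix (Fin n) (Fin n) F) *ᵥ e u)
  set y := (g : Matrix (Fin n) (Fin n) F) *ᵥ e u with hy
  obtain ⟨w, hw, hw1, hw2⟩ := U.S.sing_notMem ![a, b] ![a, b] (by simp; omega)
  have hwa : polar Q₀ a w = 0 := hw1 0
  have hwb : polar Q₀ b w = 0 := hw1 1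
  have hw0 : w ≠ 0 := by
    rintro rfl
    apply hw2
    rw [U.S.e_zero]; exact Submodule.zero_mem _
  obtain ⟨p, hp1, hp2⟩ := U.S.dual ![a, b] w hw2
  have hpa : polar Q₀ a p = 0 := hp1 0
  have hpb : polar Q₀ b p = 0 := hp1 1
  have hyw : H y (e w) = 0 := by rw [hab, U.herm_dec_right, hwa, hwb]; simp
  have hyp : H y (e p) = 0 := by rw [hab, U.herm_dec_right, hpa, hpb]; simp
  obtain ⟨c, d, hcd⟩ := U.dec (((g⁻¹ : GL (Fin n) F) : Matrix (Fin n) (Fin n) F) *ᵥ e w)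
  set D := Submodule.span F (Set.range (fun i => e (![u, c, d] i))) with hD
  have hfr : finrank F D ≤ 3 := finrank_span_range_le _
  obtain ⟨z, hz1, hz2⟩ := exists_perp_notMem (q := q) ![e w, e a, e b] (glMap g D)
    (by rw [finrank_glMap]; omega)
  obtain ⟨z₁, z₂, hz⟩ := U.dec z
  have hzw := U.perp_of_dec (x := w) (by rw [← hz]; exact hz1 0)
  have hza := U.perp_of_dec (x := a) (by rw [← hz]; exact hz1 1)
  have hzb := U.perp_of_dec (x := b) (by rw [← hz]; exact hz1 2)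
  obtain ⟨t, htw, hta, htb, htD⟩ : ∃ t, polar Q₀ t w = 0 ∧ polar Q₀ t a = 0 ∧ polar Q₀ t b = 0 ∧
      e t ∉ glMap g D := by
    by_cases h1 : e z₁ ∈ glMap g D
    · refine ⟨z₂, hzw.2, hza.2, hzb.2, fun h2 => hz2 ?_⟩
      rw [hz]; exact Submodule.add_mem _ h1 (Submodule.smul_mem _ _ h2)
    · exact ⟨z₁, hzw.1, hza.1, hzb.1, h1⟩
  rw [mem_glMap] at htD
  obtain ⟨v₀, hv1, hv2⟩ := U.S.sep 3 ![u, c, d] _ htD
  have hvu : polar Q₀ u v₀ = 0 := hv1 0
  have hvc : polar Q₀ c v₀ = 0 := hv1 1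
  have hvd : polar Q₀ d v₀ = 0 := hv1 2
  rw [← U.herm, ← hiso, gl_mulVec_inv] at hv2
  set v := (g : Matrix (Fin n) (Fin n) F) *ᵥ e v₀ with hv
  have hvw : H v (e w) = 0 := by
    have : e w = (g : Matrix (Fin n) (Fin n) F) *ᵥ (((g⁻¹ : GL (Fin n) F) : Matrix (Fin n) (Fin n) F) *ᵥ e w) := by
      rw [gl_mulVec_inv]
    rw [this, hv, hiso, hcd, U.herm_dec_left, polar_comm Q₀ v₀ c, polar_comm Q₀ v₀ d, hvc, hvd]; simp
  have hyy : H y y = 0 := by rw [hy, hiso]; exact U.herm_self_zero hu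
  have hvy : H v y = 0 := by rw [hy, hv, hiso]; exact U.herm_ee_zero (by rw [polar_comm]; exact hvu)
  have hyv : H y v = 0 := herm_eq_zero_symm U.hF hvy
  have hk := UE_conj hg hgU (hrat u v₀) hyy hvy hyv
  set k := ueich q y v (-((Q₀ v₀ : F₀) : F)) hyy hvy hyv with hkdef
  have hkw : (k : Matrix (Fin n) (Fin n) F) *ᵥ e w = e w := by
    rw [hkdef, ueich_mulVec, herm_eq_zero_symm U.hF hyw, herm_eq_zero_symm U.hF hvw]; simp
  have hyt : H y (e t) = 0 := by
    rw [hab, U.herm_dec_right, polar_comm Q₀ a t, polar_comm Q₀ b t, hta, htb]; simp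
  have hkt : (k : Matrix (Fin n) (Fin n) F) *ᵥ e t = e t - H (e t) v • y := by
    rw [hkdef, ueich_mulVec, herm_eq_zero_symm U.hF hyt]; module
  have htw' : H (e t) (e w) = 0 := U.herm_ee_zero htw
  have E₁ := UE_congr (UE_conj hk (hMU hk) (hrat w t)) hkw hkt rfl
  have E₂ := UE_inv U.hF (hrat w t) htw'
  have E₃ := UE_mul U.hF E₁ E₂ (by rw [herm_sub_left, hermForm_smul_left, htw', hyw]; ring)
    (by rw [herm_neg_left, htw', neg_zero])
  have E₄ := UE_congr E₃ rfl (show e t - H (e t) v • y + -e t = (-H (e t) v) • y by module) rfl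
  obtain ⟨x, c', hx⟩ := hstar w _ _ hw hw0 (by rw [hermForm_smul_left, hyw, mul_zero]) E₄
  have h1 := congrArg (fun s => H s (e p)) hx
  simp only [hermForm_add_left, hermForm_smul_left, hyp, U.herm_ee, hp2, mul_zero] at h1
  have hc' : c' = ((-(polar Q₀ x p) : F₀) : F) := by
    push_cast
    push_cast at h1
    linear_combination -h1
  apply hcon (-H (e t) v)⁻¹ (x + (-(polar Q₀ x p)) • w)
  rw [U.S.e_add, U.S.e_smul, ← hc', ← hx, smul_smul, inv_mul_cancel₀ (neg_ne_zero.mpr hv2), one_smul]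

/-- two rational vectors are scaled in the same way -/
theorem pair_scal_gl {g : GL (Fin n) F} {u u' r r' r'' d₀ d₀' : Fin n → F₀} {c c' c'' : F}
    (h1 : polar Q₀ u d₀ = 1) (h2 : polar Q₀ u' d₀ = 0) (h3 : polar Q₀ u d₀' = 0) (h4 : polar Q₀ u' d₀' = 1)
    (hr : (g : Matrix (Fin n) (Fin n) F) *ᵥ e u = c • e r)
    (hr' : (g : Matrix (Fin n) (Fin n) F) *ᵥ e u' = c' • e r')
    (hr'' : (g : Matrix (Fin n) (Fin n) F) *ᵥ e (u + u') = c'' • e r'') :
    ∃ r₂ : Fin n → F₀, (g : Matrix (Fin n) (Fin n) F) *ᵥ e u' = c • e r₂ := by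
  have S := U.S
  have hind : ∀ α β : F, α • e u + β • e u' = 0 → α = 0 ∧ β = 0 := S.indep_of_dual h1 h2 h3 h4
  have hind' : ∀ α β : F, α • (c • e r) + β • (c' • e r') = 0 → α = 0 ∧ β = 0 := by
    intro α β h
    apply hind
    apply gl_mulVec_inj g
    rw [Matrix.mulVec_add, Matrix.mulVec_smul, Matrix.mulVec_smul, hr, hr', h, Matrix.mulVec_zero]
  have hc : c ≠ 0 := by
    rintro rfl
    have := (hind' 1 0 (by simp)).1
    exact one_ne_zero this
  have hc' : c' ≠ 0 := by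
    rintro rfl
    have := (hind' 0 1 (by simp)).2
    exact one_ne_zero this
  obtain ⟨p, p1, p2⟩ := S.dual ![r'] r (by
    rw [S.range_one]
    intro hmem
    obtain ⟨m, hm⟩ := Submodule.mem_span_singleton.mp hmem
    have := (hind' c⁻¹ (-(m * c'⁻¹)) (by
      rw [smul_smul, smul_smul, inv_mul_cancel₀ hc, one_smul, ← hm]
      have : -(m * c'⁻¹) * c' = -m := by field_simp
      rw [this]; module)).1
    exact inv_ne_zero hc this)
  have p10 : polar Q₀ r' p = 0 := p1 0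
  obtain ⟨p', p1', p2'⟩ := S.dual ![r] r' (by
    rw [S.range_one]
    intro hmem
    obtain ⟨m, hm⟩ := Submodule.mem_span_singleton.mp hmem
    have := (hind' (-(m * c⁻¹)) c'⁻¹ (by
      rw [smul_smul, smul_smul, inv_mul_cancel₀ hc', one_smul, ← hm]
      have : -(m * c⁻¹) * c = -m := by field_simp
      rw [this]; module)).2
    exact inv_ne_zero hc' this)
  have p10' : polar Q₀ r p' = 0 := p1' 0
  have key : c • e r + c' • e r' = c'' • e r'' := by rw [← hr, ← hr', ← hr'', S.e_add, Matrix.mulVec_add]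
  have k1 : c = c'' * ((polar Q₀ r'' p : F₀) : F) := by
    have := congrArg (fun v => polar Q v (e p)) key
    simp only [polar_add_left, polar_smul_left, S.polar_e_one p2, S.polar_e_zero p10, S.polar_e r'' p] at this
    simpa using this
  have k2 : c' = c'' * ((polar Q₀ r'' p' : F₀) : F) := by
    have := congrArg (fun v => polar Q v (e p')) key
    simp only [polar_add_left, polar_smul_left, S.polar_e_one p2', S.polar_e_zero p10', S.polar_e r'' p'] at this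
    simpa using this
  have hne : ((polar Q₀ r'' p : F₀) : F) ≠ 0 := by
    intro h0
    rw [h0, mul_zero] at k1
    exact hc k1
  refine ⟨(polar Q₀ r'' p' / polar Q₀ r'' p) • r', ?_⟩
  rw [hr', S.e_smul, smul_smul]
  congr 1
  push_cast
  rw [k2, k1]
  field_simp

theorem rational_of_points (hn : 13 ≤ n) {g : GL (Fin n) F}
    (hpt : ∀ u : Fin n → F₀, Q₀ u = 0 → ∃ (c : F) (r : Fin n → F₀),
      (g : Matrix (Fin n) (Fin n) F) *ᵥ e u = c • e r) :
    ∃ c : F, c ≠ 0 ∧ ∀ x, ∃ x', (g : Matrix (Fin n) (Fin n) F) *ᵥ e x = c • e x' := by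
  have S := U.S
  obtain ⟨u₀, c0, -, c2⟩ := S.sing_notMem (Fin.elim0 : Fin 0 → (Fin n → F₀)) (Fin.elim0 : Fin 0 → (Fin n → F₀))
    (by simp; omega)
  have hu₀0 : u₀ ≠ 0 := by
    rintro rfl
    apply c2
    rw [S.e_zero]; exact Submodule.zero_mem _
  obtain ⟨c, r₀, hr₀⟩ := hpt u₀ c0
  have hc : c ≠ 0 := by
    rintro rfl
    rw [zero_smul] at hr₀
    apply S.e_ne_zero hu₀0
    apply gl_mulVec_inj g
    rw [hr₀, Matrix.mulVec_zero]
  have hsing : ∀ u : Fin n → F₀, Q₀ u = 0 → ∃ r : Fin n → F₀,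
      (g : Matrix (Fin n) (Fin n) F) *ᵥ e u = c • e r := by
    intro u hu
    by_cases hu0 : u = 0
    · exact ⟨0, by rw [hu0, S.e_zero]; simp⟩
    obtain ⟨da, hda⟩ := S.dual0 hu₀0
    obtain ⟨db, hdb⟩ := S.dual0 hu0
    obtain ⟨u₁, d0, d1, d2⟩ := S.sing_notMem ![u₀, u, da, db] ![u₀, u] (by simp; omega)
    have d10 : polar Q₀ u₀ u₁ = 0 := d1 0
    have d11 : polar Q₀ u u₁ = 0 := d1 1
    have d12 : polar Q₀ da u₁ = 0 := d1 2
    have d13 : polar Q₀ db u₁ = 0 := d1 3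
    obtain ⟨dc, f1, f2⟩ := S.dual ![u₀, u] u₁ d2
    have f10 : polar Q₀ u₀ dc = 0 := f1 0
    have f11 : polar Q₀ u dc = 0 := f1 1
    obtain ⟨c₁, r₁, hr₁⟩ := hpt u₁ d0
    obtain ⟨c₂, r₂, hr₂⟩ := hpt (u₀ + u₁) (by rw [QuadraticMap.map_add Q₀, c0, d0, d10]; simp)
    obtain ⟨r₁', hr₁'⟩ := U.pair_scal_gl hda (by rw [polar_comm]; exact d12) f10 f2 hr₀ hr₁ hr₂
    obtain ⟨c₃, r₃, hr₃⟩ := hpt u hu
    obtain ⟨c₄, r₄, hr₄⟩ := hpt (u₁ + u) (by
      rw [QuadraticMap.map_add Q₀, hu, d0, polar_comm, d11]; simp)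
    exact U.pair_scal_gl f2 f11 (by rw [polar_comm]; exact d13) hdb hr₁' hr₃ hr₄
  refine ⟨c, hc, fun x => ?_⟩
  obtain ⟨t₁, t₂, p1, p2, -, -, p5⟩ := sing_decomp S.nd₀ (by simp; omega) (u := 0) (t := x) (by simp) (by simp)
  obtain ⟨r₁, hr₁⟩ := hsing t₁ p1
  obtain ⟨r₂, hr₂⟩ := hsing t₂ p2
  exact ⟨r₁ + r₂, by rw [p5, S.e_add, Matrix.mulVec_add, hr₁, hr₂, S.e_add, smul_add]⟩

/-- the main theorem -/
theorem su_le (hn : 13 ≤ n) (hMU : M ≤ Cfsg.GU n F q)
    (hrat : ∀ u a : Fin n → F₀, UE q M (e u) (e a) (-((Q₀ a : F₀) : F)))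
    {g : GL (Fin n) F} (hg : g ∈ M)
    (hgn : ¬ ∃ c : F, c ≠ 0 ∧ ∀ x, ∃ x', (g : Matrix (Fin n) (Fin n) F) *ᵥ e x = c • e x') :
    Cfsg.GU n F q ⊓ Cfsg.Geo.specialLinear (Fin n) F ≤ M := by
  by_cases hstar : U.UStar M
  · exact absurd (U.rational_of_points hn (fun u hu => U.point_rat hn hMU hrat hstar hg hu)) hgn
  · exact U.su_le_of_not_star hn hMU hrat hstar

end URat

end Cfsg.Agent.Lib.Helper29
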