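import Mathlib
import Cfsg.Prelude.Def_GeometricClasses
import Cfsg.Agent.Lib.Helper29.SuPair1

/-!
Dual bases of a pair of complementary totally singular subspaces of the unitary space, the swapping
isometry, and the maximality of the stabiliser of the pair.
-/

set_option autoImplicit false

namespace Cfsg.Agent.Lib.Helper29

open Matrix Module
open Cfsg.Agent.H6 (add_pow_q pow_q_pow_q neg_pow_q sub_pow_q q_pos hermForm_add_left
  hermForm_smul_left hermForm_smul_right hermForm_add_right hermForm_conj)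

variable {F : Type*} [Field F] [Fintype F] {n q : ℕ}

local notation "H" => Cfsg.hermForm n F q
local notation "Vn" => (Fin n → F)

namespace UPair

theorem exists_hypB {W W' : Submodule F Vn} (h : UPair q W W') :
    ∃ (κ : F) (e f : Fin (finrank F W) → Vn), HypB n q κ e f ∧ (∀ i, e i ∈ W) ∧ (∀ i, f i ∈ W') := by
  classical
  have hF := h.hF
  obtain ⟨κ, hκ0, hκ⟩ := exists_trace_zero hF
  let b := Module.finBasis F W
  let e : Fin (finrank F W) → Vn := fun i => (b i : Vn)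
  have he : ∀ i, e i ∈ W := fun i => (b i).2
  have hli : LinearIndependent F e := b.linearIndependent.map' W.subtype (Submodule.ker_subtype W)
  have hex : ∀ j, ∃ a' ∈ W', (∀ a ∈ Submodule.span F (e '' (Set.univ \ {j})), H a a' = 0) ∧
      H (e j) a' = 1 := by
    intro j
    apply h.exists_dual _ _ (he j) (linearIndependent_iff_notMem_span.mp hli j)
    rw [Submodule.span_le]
    rintro _ ⟨i, -, rfl⟩
    exact he i
  choose f₀ hf₀ hf0 hf1 using hex
  have hef : ∀ i j, H (e i) ((κ ^ q) • f₀ j) = if i = j then κ else 0 := by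
    intro i j
    rw [hermForm_smul_right, pow_q_pow_q hF]
    by_cases hij : i = j
    · subst hij; rw [if_pos rfl, hf1, mul_one]
    · rw [if_neg hij, hf0 j _ (Submodule.subset_span ⟨i, ⟨trivial, hij⟩, rfl⟩), mul_zero]
  have repr_eq : ∀ (a : Vn) (ha : a ∈ W), a = ∑ i, b.repr ⟨a, ha⟩ i • e i := by
    intro a ha
    have h6 : (⟨a, ha⟩ : W) = ∑ i, b.repr ⟨a, ha⟩ i • b i := (b.sum_repr _).symm
    have h7 := congrArg (W.subtype) h6
    rw [map_sum] at h7
    exact h7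
  refine ⟨κ, e, fun j => (κ ^ q) • f₀ j, ⟨hF, hκ0, hκ, hef, fun i j => h.ts _ (he i) _ (he j),
    fun i j => h.ts' _ (W'.smul_mem _ (hf₀ i)) _ (W'.smul_mem _ (hf₀ j)), ?_⟩, he,
    fun j => W'.smul_mem _ (hf₀ j)⟩
  intro v hve hvf
  have hvW : v ∈ W := by
    apply h.mem_of_perp
    intro a ha
    rw [repr_eq a ha, ← hermDual_apply v (∑ i, _), map_sum]
    apply Finset.sum_eq_zero
    intro i _
    rw [map_smul, hermDual_apply, herm_eq_zero_symm hF (hve i), smul_zero]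
  rw [repr_eq v hvW]
  apply Finset.sum_eq_zero
  intro j _
  have h1 := hvf j
  rw [← hermDual_apply _ v] at h1
  conv_lhs at h1 => rw [repr_eq v hvW]
  rw [map_sum] at h1
  simp only [map_smul, hermDual_apply, hef, smul_eq_mul, mul_ite, mul_zero,
    Finset.sum_ite_eq', Finset.mem_univ, if_true] at h1
  rw [(mul_eq_zero.mp h1).resolve_right hκ0, zero_smul]

end UPair

namespace HypB

variable {k : ℕ} {κ : F} {e f : Fin k → (Fin n → F)}

theorem exists_swap (B : HypB n q κ e f) :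
    ∃ s ∈ Cfsg.GU n F q ⊓ Cfsg.Geo.specialLinear (Fin n) F,
      ∀ i, (s : Matrix (Fin n) (Fin n) F) *ᵥ e i = f i ∧
        (s : Matrix (Fin n) (Fin n) F) *ᵥ f i = - e i := by
  have hF := B.hF
  have hc := inv_trace_zero B.κtr
  have aux : ∀ j : ℕ, j ≤ k → ∃ s ∈ Cfsg.GU n F q ⊓ Cfsg.Geo.specialLinear (Fin n) F,
      (∀ i : Fin k, i.val < j → (s : Matrix (Fin n) (Fin n) F) *ᵥ e i = f i ∧
        (s : Matrix (Fin n) (Fin n) F) *ᵥ f i = - e i) ∧
      (∀ i : Fin k, j ≤ i.val → (s : Matrix (Fin n) (Fin n) F) *ᵥ e i = e i ∧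
        (s : Matrix (Fin n) (Fin n) F) *ᵥ f i = f i) := by
    intro j
    induction j with
    | zero =>
      intro _
      exact ⟨1, Subgroup.one_mem _, fun i hi => absurd hi (by omega), fun i _ => by simp⟩
    | succ j ih =>
      intro hj
      obtain ⟨s, hs, h1, h2⟩ := ih (by omega)
      let a : Fin k := ⟨j, by omega⟩
      set N := utv q (f a) κ⁻¹ (B.ff a a) * utv q (e a) κ⁻¹ (B.ee a a) * utv q (f a) κ⁻¹ (B.ff a a)
        with hN
      have hNS : N ∈ Cfsg.GU n F q ⊓ Cfsg.Geo.specialLinear (Fin n) F :=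
        Subgroup.mul_mem _ (Subgroup.mul_mem _ (utv_mem_SU hF _ _ _ hc) (utv_mem_SU hF _ _ _ hc))
          (utv_mem_SU hF _ _ _ hc)
      have e1 : κ⁻¹ * κ = 1 := inv_mul_cancel₀ B.κ0
      have e2 : κ⁻¹ * -κ = -1 := by rw [mul_neg, e1]
      have hNe : (N : Matrix (Fin n) (Fin n) F) *ᵥ e a = f a := by
        have a1 : (utv q (f a) κ⁻¹ (B.ff a a) : Matrix (Fin n) (Fin n) F) *ᵥ e a = e a + f a := by
          rw [utv_mulVec, B.ef_self, e1, one_smul]
        have a2 : (utv q (e a) κ⁻¹ (B.ee a a) : Matrix (Fin n) (Fin n) F) *ᵥ (e a + f a) = f a := by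
          rw [utv_mulVec, hermForm_add_left, B.ee, B.fe_self, zero_add, e2]; module
        have a3 : (utv q (f a) κ⁻¹ (B.ff a a) : Matrix (Fin n) (Fin n) F) *ᵥ f a = f a := by
          rw [utv_mulVec, B.ff]; simp
        rw [hN, gl_mul_mulVec, gl_mul_mulVec, a1, a2, a3]
      have hNf : (N : Matrix (Fin n) (Fin n) F) *ᵥ f a = - e a := by
        have a3 : (utv q (f a) κ⁻¹ (B.ff a a) : Matrix (Fin n) (Fin n) F) *ᵥ f a = f a := by
          rw [utv_mulVec, B.ff]; simp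
        have a4 : (utv q (e a) κ⁻¹ (B.ee a a) : Matrix (Fin n) (Fin n) F) *ᵥ f a = f a - e a := by
          rw [utv_mulVec, B.fe_self, e2]; module
        have a5 : (utv q (f a) κ⁻¹ (B.ff a a) : Matrix (Fin n) (Fin n) F) *ᵥ (f a - e a) = - e a := by
          rw [utv_mulVec, herm_sub_left, B.ff, B.ef_self, zero_sub, e2]; module
        rw [hN, gl_mul_mulVec, gl_mul_mulVec, a3, a4, a5]
      have hNx : ∀ x : Vn, H x (e a) = 0 → H x (f a) = 0 →
          (N : Matrix (Fin n) (Fin n) F) *ᵥ x = x := by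
        intro x hx1 hx2
        have t1 : (utv q (f a) κ⁻¹ (B.ff a a) : Matrix (Fin n) (Fin n) F) *ᵥ x = x := by
          rw [utv_mulVec, hx2]; simp
        have t2 : (utv q (e a) κ⁻¹ (B.ee a a) : Matrix (Fin n) (Fin n) F) *ᵥ x = x := by
          rw [utv_mulVec, hx1]; simp
        rw [hN, gl_mul_mulVec, gl_mul_mulVec, t1, t2, t1]
      have hne : ∀ i : Fin k, i.val ≠ j → i ≠ a := by
        intro i hi h'
        apply hi
        rw [h']
      refine ⟨N * s, Subgroup.mul_mem _ hNS hs, ?_, ?_⟩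
      · intro i hi
        by_cases hij : i.val = j
        · have hia : i = a := Fin.ext hij
          rw [hia]
          exact ⟨by rw [gl_mul_mulVec N s, (h2 a le_rfl).1, hNe],
            by rw [gl_mul_mulVec N s, (h2 a le_rfl).2, hNf]⟩
        · have hia := hne i hij
          exact ⟨by rw [gl_mul_mulVec N s, (h1 i (by omega)).1, hNx _ (B.fe_ne hia) (B.ff _ _)],
            by rw [gl_mul_mulVec N s, (h1 i (by omega)).2, Matrix.mulVec_neg,
              hNx _ (B.ee _ _) (B.ef_ne hia)]⟩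
      · intro i hi
        have hia := hne i (by omega)
        exact ⟨by rw [gl_mul_mulVec N s, (h2 i (by omega)).1, hNx _ (B.ee _ _) (B.ef_ne hia)],
          by rw [gl_mul_mulVec N s, (h2 i (by omega)).2, hNx _ (B.fe_ne hia) (B.ff _ _)]⟩
  obtain ⟨s, hs, h1, -⟩ := aux k le_rfl
  exact ⟨s, hs, fun i => h1 i i.2⟩

end HypB

namespace UPair

theorem exists_swap {W W' : Submodule F Vn} (h : UPair q W W') :
    ∃ s ∈ Cfsg.GU n F q ⊓ Cfsg.Geo.specialLinear (Fin n) F,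
      (∀ w ∈ W, (s : Matrix (Fin n) (Fin n) F) *ᵥ w ∈ W') ∧
      (∀ w' ∈ W', (s : Matrix (Fin n) (Fin n) F) *ᵥ w' ∈ W) := by
  obtain ⟨κ, e, f, B, he, hf⟩ := h.exists_hypB
  obtain ⟨s, hs, hsef⟩ := B.exists_swap
  have key : ∀ x : Vn, (s : Matrix (Fin n) (Fin n) F) *ᵥ x
      = ∑ i, ((H x (f i) / κ) • f i + (H x (e i) / -κ) • (- e i)) := by
    intro x
    rw [← Matrix.toLin'_apply]
    conv_lhs => rw [B.expand x]
    simp only [map_sum, map_add, map_smul, Matrix.toLin'_apply, (hsef _).1, (hsef _).2]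
  refine ⟨s, hs, ?_, ?_⟩
  · intro w hw
    rw [key]
    refine Submodule.sum_mem _ fun i _ => ?_
    rw [h.ts w hw _ (he i), zero_div, zero_smul, add_zero]
    exact W'.smul_mem _ (hf i)
  · intro w hw
    rw [key]
    refine Submodule.sum_mem _ fun i _ => ?_
    rw [h.ts' w hw _ (hf i), zero_div, zero_smul, zero_add]
    exact W.smul_mem _ (W.neg_mem (he i))

variable (M : Subgroup (GL (Fin n) F))

/-- If all vectors of `W` are centres of `M`, then `M` contains `SU`. -/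
theorem su_le_of_ucentres {W W' : Submodule F Vn} (h : UPair q W W')
    (hMS : M ≤ Cfsg.GU n F q ⊓ Cfsg.Geo.specialLinear (Fin n) F)
    (hdim : 1 ≤ finrank F W)
    (hLev : ∀ g ∈ Cfsg.GU n F q ⊓ Cfsg.Geo.specialLinear (Fin n) F,
      (∀ w ∈ W, (g : Matrix (Fin n) (Fin n) F) *ᵥ w ∈ W) →
      (∀ w' ∈ W', (g : Matrix (Fin n) (Fin n) F) *ᵥ w' ∈ W') → g ∈ M)
    {s : GL (Fin n) F} (hs : s ∈ M)
    (hsW' : ∀ w' ∈ W', (s : Matrix (Fin n) (Fin n) F) *ᵥ w' ∈ W)
    (hc : ∀ w ∈ W, w ∈ ucentres q M) :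
    Cfsg.GU n F q ⊓ Cfsg.Geo.specialLinear (Fin n) F ≤ M := by
  have hF := h.hF
  have hMU : M ≤ Cfsg.GU n F q := fun x hx => (hMS hx).1
  have hc' : ∀ w' ∈ W', w' ∈ ucentres q M := by
    intro w' hw'
    have := ucentres_mulVec hMU (M.inv_mem hs) (hc _ (hsW' w' hw'))
    rwa [gl_inv_mulVec] at this
  obtain ⟨θ, hθ0, hθ⟩ := exists_trace_zero hF
  have hall : ∀ z : Vn, H z z = 0 → z ∈ ucentres q M := by
    intro z hz
    obtain ⟨w, hw, w', hw', rfl⟩ := h.sum z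
    by_cases hww : H w w' = 0
    · by_cases hw'0 : w' = 0
      · rw [hw'0, add_zero]; exact hc w hw
      obtain ⟨w₁, hw₁, -, hw₁1⟩ := h.symm.exists_dual ⊥ bot_le hw' (by simpa using hw'0)
      -- `H w' w₁ = 1`
      set w₀ := (θ ^ q) • w₁ with hw₀def
      have hw₀ : w₀ ∈ W := W.smul_mem _ hw₁
      have h1 : H w' w₀ = θ := by
        rw [hw₀def, hermForm_smul_right, hw₁1, mul_one, pow_q_pow_q hF]
      have h2 : H w₀ w' = θ ^ q := by rw [← h1, hermForm_conj hF]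
      have hθq : θ ^ q ≠ 0 := pow_ne_zero _ hθ0
      have h3 : (w + w₀) + w' ∈ ucentres q M := by
        apply ucentres_add hF hMU (hc _ (W.add_mem hw hw₀)) (hc' w' hw')
        · rw [hermForm_add_left, hww, zero_add, h2]; exact hθq
        · simp only [hermForm_add_left, hermForm_add_right hF, h.ts w hw w hw, h.ts w hw w₀ hw₀,
            h.ts w₀ hw₀ w hw, h.ts w₀ hw₀ w₀ hw₀, h.ts' w' hw' w' hw', hww,
            herm_eq_zero_symm hF hww, h1, h2]
          linear_combination hθ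
      have h4 := ucentres_add hF hMU h3 (ucentres_smul hF (hc w₀ hw₀) (-1)) (by
        rw [hermForm_smul_right, hermForm_add_left, hermForm_add_left, h.ts w hw w₀ hw₀,
          h.ts w₀ hw₀ w₀ hw₀, h1, neg_pow_q hF, one_pow]
        simpa using hθ0) (by
        have e : w + w₀ + w' + (-1 : F) • w₀ = w + w' := by module
        rw [e]; exact hz)
      have e : w + w₀ + w' + (-1 : F) • w₀ = w + w' := by module
      rwa [e] at h4
    · exact ucentres_add hF hMU (hc w hw) (hc' w' hw') hww hz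
  have hM : ∀ (v : Vn) (c : F) (hv : H v v = 0), c + c ^ q = 0 → utv q v c hv ∈ M := by
    intro v c hv hcc
    obtain ⟨_, h'⟩ := hall v hv
    exact h' c hcc
  obtain ⟨κ, e, f, B, he, hf⟩ := h.exists_hypB
  refine B.su_le M hMS hM ⟨finrank F W - 1, by omega⟩ (by simp; omega) ?_
  intro g hg l _ _ hform
  apply hLev g hg
  · intro w hw
    rw [hform, h.ts w hw _ (he _), zero_div, mul_zero, zero_smul, add_zero]
    exact W.add_mem hw (W.smul_mem _ (he _))
  · intro w hw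
    rw [hform, h.ts' w hw _ (hf _), zero_div, mul_zero, zero_smul, add_zero]
    exact W'.add_mem hw (W'.smul_mem _ (hf _))

theorem main {W W' : Submodule F Vn} (h : UPair q W W')
    (hdim : 4 ≤ finrank F W) (hdim' : 4 ≤ finrank F W')
    (hMS : M ≤ Cfsg.GU n F q ⊓ Cfsg.Geo.specialLinear (Fin n) F)
    (hLev : ∀ g ∈ Cfsg.GU n F q ⊓ Cfsg.Geo.specialLinear (Fin n) F,
      (∀ w ∈ W, (g : Matrix (Fin n) (Fin n) F) *ᵥ w ∈ W) →
      (∀ w' ∈ W', (g : Matrix (Fin n) (Fin n) F) *ᵥ w' ∈ W') → g ∈ M)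
    {s : GL (Fin n) F} (hs : s ∈ M)
    (hsW : ∀ w ∈ W, (s : Matrix (Fin n) (Fin n) F) *ᵥ w ∈ W')
    (hsW' : ∀ w' ∈ W', (s : Matrix (Fin n) (Fin n) F) *ᵥ w' ∈ W)
    (hne : ¬ Cfsg.GU n F q ⊓ Cfsg.Geo.specialLinear (Fin n) F ≤ M) {g : GL (Fin n) F}
    (hg : g ∈ M) :
    ((∀ w ∈ W, (g : Matrix (Fin n) (Fin n) F) *ᵥ w ∈ W) ∧
      (∀ w' ∈ W', (g : Matrix (Fin n) (Fin n) F) *ᵥ w' ∈ W')) ∨
    ((∀ w ∈ W, (g : Matrix (Fin n) (Fin n) F) *ᵥ w ∈ W') ∧
      (∀ w' ∈ W', (g : Matrix (Fin n) (Fin n) F) *ᵥ w' ∈ W)) := by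
  have hF := h.hF
  have hMU : M ≤ Cfsg.GU n F q := fun x hx => (hMS hx).1
  have hLev' : ∀ g ∈ Cfsg.GU n F q ⊓ Cfsg.Geo.specialLinear (Fin n) F,
      (∀ w ∈ W', (g : Matrix (Fin n) (Fin n) F) *ᵥ w ∈ W') →
      (∀ w' ∈ W, (g : Matrix (Fin n) (Fin n) F) *ᵥ w' ∈ W) → g ∈ M :=
    fun g hg h1 h2 => hLev g hg h2 h1
  have hL : ∀ a ∈ W, ∀ a' ∈ W', ∀ (h1 : H a a = 0) (h2 : H a' a = 0) (h3 : H a a' = 0),
      ueich q a a' 0 h1 h2 h3 ∈ M := by
    intro a ha a' ha' h1 h2 h3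
    apply hLev _ ⟨ueich_mem_GU hF a a' 0 h1 h2 h3 (by
      rw [h.ts' a' ha' a' ha', zero_pow (by have := q_pos hF; omega)]; ring),
      ueich_mem_SL a a' 0 h1 h2 h3⟩
    · intro w hw
      rw [ueich_mulVec, h.ts w hw a ha, zero_smul, add_zero]
      exact W.add_mem hw (W.smul_mem _ ha)
    · intro w hw
      rw [ueich_mulVec, h.ts' w hw a' ha', sub_zero, zero_mul, zero_smul, add_zero]
      exact W'.add_mem hw (W'.smul_mem _ ha')
  have hL' : ∀ a ∈ W', ∀ a' ∈ W, ∀ (h1 : H a a = 0) (h2 : H a' a = 0) (h3 : H a a' = 0),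
      ueich q a a' 0 h1 h2 h3 ∈ M := by
    intro a ha a' ha' h1 h2 h3
    apply hLev' _ ⟨ueich_mem_GU hF a a' 0 h1 h2 h3 (by
      rw [h.ts a' ha' a' ha', zero_pow (by have := q_pos hF; omega)]; ring),
      ueich_mem_SL a a' 0 h1 h2 h3⟩
    · intro w hw
      rw [ueich_mulVec, h.ts' w hw a ha, zero_smul, add_zero]
      exact W'.add_mem hw (W'.smul_mem _ ha)
    · intro w hw
      rw [ueich_mulVec, h.ts w hw a' ha', sub_zero, zero_mul, zero_smul, add_zero]
      exact W.add_mem hw (W.smul_mem _ ha')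
  have hNQ : ∀ x ∈ M, (∀ w ∈ W, (x : Matrix (Fin n) (Fin n) F) *ᵥ w = w) → x = 1 := by
    intro x hx hxW
    by_contra hx1
    exact hne (h.su_le_of_ucentres M hMS (by omega) hLev hs hsW'
      (h.ucentres_of_fix M hMU hL (by omega) hx hx1 hxW))
  have hNQ' : ∀ x ∈ M, (∀ w ∈ W', (x : Matrix (Fin n) (Fin n) F) *ᵥ w = w) → x = 1 := by
    intro x hx hxW
    by_contra hx1
    exact hne (h.symm.su_le_of_ucentres M hMS (by omega) hLev' hs hsW
      (h.symm.ucentres_of_fix M hMU hL' (by omega) hx hx1 hxW))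
  have B1 := fun (x : GL (Fin n) F) (hx : x ∈ M) =>
    h.stab_of_stab M hMU hL hNQ (by omega) hx
  have B1' := fun (x : GL (Fin n) F) (hx : x ∈ M) =>
    h.symm.stab_of_stab M hMU hL' hNQ' (by omega) hx
  have hY := h.map (hMU hg)
  by_cases hYW : glMap g W ≤ W
  · left
    have h1 : ∀ w ∈ W, (g : Matrix (Fin n) (Fin n) F) *ᵥ w ∈ W :=
      fun w hw => hYW (mulVec_mem_glMap g W hw)
    exact ⟨h1, B1 g hg h1⟩
  by_cases hYW' : glMap g W ≤ W'
  · right
    have h1 : ∀ w ∈ W, (g : Matrix (Fin n) (Fin n) F) *ᵥ w ∈ W' :=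
      fun w hw => hYW' (mulVec_mem_glMap g W hw)
    refine ⟨h1, fun w' hw' => ?_⟩
    have h3 := B1 (s * g) (M.mul_mem hs hg) (fun w hw => by
      rw [gl_mul_mulVec]; exact hsW' _ (h1 w hw)) w' hw'
    rw [gl_mul_mulVec] at h3
    obtain ⟨a, ha, a', ha', e⟩ := h.sum ((g : Matrix (Fin n) (Fin n) F) *ᵥ w')
    rw [e, Matrix.mulVec_add] at h3
    have h4 := (W'.add_mem_iff_right (hsW a ha)).mp h3
    have h5 := h.disj (hsW' a' ha') h4
    have h6 : a' = 0 := by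
      by_contra hne'
      exact gl_mulVec_ne_zero s hne' h5
    rw [e, h6, add_zero]
    exact ha
  exfalso
  obtain ⟨w, hw, w', hw', p1, p2, p3, y, hy, hyY⟩ := h.exists_moved hY hYW hYW' (by omega)
  have hE := hL w hw w' hw' p1 p2 p3
  set k := g⁻¹ * ueich q w w' 0 p1 p2 p3 * g with hk
  have hkM : k ∈ M := M.mul_mem (M.mul_mem (M.inv_mem hg) hE) hg
  have hgU := (mem_GU_iff g).mp (hMU hg)
  have hkW : ¬ ∀ w ∈ W, (k : Matrix (Fin n) (Fin n) F) *ᵥ w ∈ W := by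
    intro hcon
    apply hyY
    have h1 := hcon _ ((mem_glMap g W y).mp hy)
    rw [hk, gl_mul_mulVec, gl_mul_mulVec, gl_mulVec_inv] at h1
    exact (mem_glMap g W _).mpr h1
  have hfix : ∀ r : Vn, H r (((g⁻¹ : GL (Fin n) F) : Matrix (Fin n) (Fin n) F) *ᵥ w) = 0 →
      H r (((g⁻¹ : GL (Fin n) F) : Matrix (Fin n) (Fin n) F) *ᵥ w') = 0 →
      (k : Matrix (Fin n) (Fin n) F) *ᵥ r = r := by
    intro r h1 h3
    rw [← hgU, gl_mulVec_inv] at h1 h3
    rw [hk, gl_mul_mulVec, gl_mul_mulVec, ueich_mulVec, h1, h3]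
    simp
  obtain ⟨r, hr, hrk, hr0⟩ := exists_mem_ker_notMem W ⊥
    ![hermDual n q (((g⁻¹ : GL (Fin n) F) : Matrix (Fin n) (Fin n) F) *ᵥ w),
      hermDual n q (((g⁻¹ : GL (Fin n) F) : Matrix (Fin n) (Fin n) F) *ᵥ w')]
    (by simp; omega)
  have hr0' : r ≠ 0 := by simpa using hr0
  obtain ⟨r₂, hr₂, hr₂k, hr₂r⟩ := exists_mem_ker_notMem W (Submodule.span F {r})
    ![hermDual n q (((g⁻¹ : GL (Fin n) F) : Matrix (Fin n) (Fin n) F) *ᵥ w),
      hermDual n q (((g⁻¹ : GL (Fin n) F) : Matrix (Fin n) (Fin n) F) *ᵥ w')]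
    (by
      have := finrank_span_singleton (K := F) hr0'
      omega)
  have hkr : (k : Matrix (Fin n) (Fin n) F) *ᵥ r = r :=
    hfix r (by simpa using hrk 0) (by simpa using hrk 1)
  have hkr₂ : (k : Matrix (Fin n) (Fin n) F) *ᵥ r₂ = r₂ :=
    hfix r₂ (by simpa using hr₂k 0) (by simpa using hr₂k 1)
  have hZ := h.map (hMU hkM)
  have hrZ : r ∈ glMap k W := by
    have := mulVec_mem_glMap k W hr
    rwa [hkr] at this
  have hr₂Z : r₂ ∈ glMap k W := by
    have := mulVec_mem_glMap k W hr₂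
    rwa [hkr₂] at this
  have hB1Z : ∀ x ∈ M, (∀ z ∈ glMap k W, (x : Matrix (Fin n) (Fin n) F) *ᵥ z ∈ glMap k W) →
      ∀ z' ∈ glMap k W', (x : Matrix (Fin n) (Fin n) F) *ᵥ z' ∈ glMap k W' := by
    intro x hx hxZ z' hz'
    have h1 := B1 (k⁻¹ * x * k) (M.mul_mem (M.mul_mem (M.inv_mem hkM) hx) hkM) (by
      intro w hw
      rw [gl_mul_mulVec, gl_mul_mulVec]
      exact (mem_glMap k W _).mp (hxZ _ (mulVec_mem_glMap k W hw))) _ ((mem_glMap k W' z').mp hz')
    rw [gl_mul_mulVec, gl_mul_mulVec, gl_mulVec_inv] at h1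
    exact (mem_glMap k W' _).mpr h1
  have hle := h.le_of_common M hZ hL hB1Z hr hrZ hr₂ hr₂Z (ind_of_notMem_span hr0' hr₂r)
  have hkW' : ∀ w' ∈ W', (k : Matrix (Fin n) (Fin n) F) *ᵥ w' ∈ W' := by
    intro w' hw'
    apply h.symm.mem_of_perp
    intro a' ha'
    exact hZ.ts' _ (hle ha') _ (mulVec_mem_glMap k W' hw')
  exact hkW (B1' k hkM hkW')

end UPair

end Cfsg.Agent.Lib.Helper29
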