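import Mathlib
import Cfsg.Agent.Lib.Helper29.SuR1

/-!
Unitary rational structures: a subgroup containing the rational Siegel transformations and a
non-rational Siegel transformation with rational centre contains the special unitary group.
-/

set_option autoImplicit false
set_option linter.unusedSectionVars false
set_option linter.unusedSimpArgs false

namespace Cfsg.Agent.Lib.Helper29

open Matrix Module
open Cfsg.Agent.H6 (add_pow_q pow_q_pow_q neg_pow_q sub_pow_q q_pos hermForm_add_left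
  hermForm_smul_left hermForm_smul_right hermForm_add_right hermForm_conj)

variable {F : Type*} [Field F] [Fintype F] {n q q₀ : ℕ} {F₀ : Subfield F} [Fintype F₀]

local notation "H" => Cfsg.hermForm n F q
local notation "H₀" => Cfsg.hermForm n F₀ q₀
local notation "Vn" => (Fin n → F)
local notation "V₀" => (Fin n → F₀)

variable {M : Subgroup (GL (Fin n) F)}

theorem UE_comm (hF : Fintype.card F = q ^ 2) {k : GL (Fin n) F} (hk : k ∈ M) (hkU : k ∈ Cfsg.GU n F q)
    {w v : Vn} {s : F} (h : UE q M w v s) (hkw : (k : Matrix (Fin n) (Fin n) F) *ᵥ w = w) (hvw : H v w = 0) :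
    UE q M w ((k : Matrix (Fin n) (Fin n) F) *ᵥ v - v) (H v ((k : Matrix (Fin n) (Fin n) F) *ᵥ v - v)) := by
  have c1 := UE_congr (UE_conj hk hkU h) hkw rfl rfl
  have c2 := UE_inv hF h hvw
  have hkv : H ((k : Matrix (Fin n) (Fin n) F) *ᵥ v) w = 0 := by
    have := (mem_GU_iff k).mp hkU v w
    rw [hkw] at this
    rw [this, hvw]
  have c3 := UE_mul hF c1 c2 hkv (by rw [herm_neg_left, hvw, neg_zero])
  refine UE_congr c3 rfl (by abel) ?_
  rw [herm_neg_left, herm_sub_right hF]; ring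

theorem UE_comm_ueich (hF : Fintype.card F = q ^ 2) (hMU : M ≤ Cfsg.GU n F q) {x y w v : Vn} {t s : F}
    (hk : UE q M x y t) (h : UE q M w v s) (hx : H x x = 0) (hyx : H y x = 0) (hwx : H w x = 0)
    (hwy : H w y = 0) (hvw : H v w = 0) :
    UE q M w (H v x • y + (t * H v x - H v y) • x) (H v (H v x • y + (t * H v x - H v y) • x)) := by
  have hxy := herm_eq_zero_symm hF hyx
  have hkM := hk hx hyx hxy
  have hkw : (ueich q x y t hx hyx hxy : Matrix (Fin n) (Fin n) F) *ᵥ w = w := by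
    rw [ueich_mulVec, hwx, hwy]; simp
  have c := UE_comm hF hkM (hMU hkM) h hkw hvw
  have e1 : (ueich q x y t hx hyx hxy : Matrix (Fin n) (Fin n) F) *ᵥ v - v
      = H v x • y + (t * H v x - H v y) • x := by rw [ueich_mulVec]; abel
  rw [e1] at c
  exact c

theorem UE_of_utv (hF : Fintype.card F = q ^ 2) {w : Vn} {c : F} (hw : H w w = 0) (h : utv q w c hw ∈ M) :
    UE q M w 0 c := by
  intro h1 h2 h3
  have hq : q ≠ 0 := by have := q_pos hF; omega
  have e : ueich q w 0 c h1 h2 h3 = utv q w c hw := by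
    apply gl_ext; intro x; rw [ueich_mulVec, utv_mulVec, herm_zero_right hq]; simp
  rw [e]; exact h

/-- all Siegel transformations with centre `w` and vector `a` lie in `M` -/
def UAdm (q : ℕ) (M : Subgroup (GL (Fin n) F)) (w a : Fin n → F) : Prop :=
  Cfsg.hermForm n F q a w = 0 ∧ ∀ s : F, s + s ^ q + Cfsg.hermForm n F q a a = 0 → UE q M w a s

theorem UAdm_add (hF : Fintype.card F = q ^ 2) {w a a' : Vn} (h : UAdm q M w a) (h' : UAdm q M w a') :
    UAdm q M w (a + a') := by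
  refine ⟨by rw [hermForm_add_left, h.1, h'.1, add_zero], fun s'' hs'' => ?_⟩
  obtain ⟨s, hs⟩ := exists_trace_eq hF (- H a a) (by rw [neg_pow_q hF, herm_self_pow hF])
  have k := UE_mul hF (h.2 s (by rw [hs]; ring)) (h'.2 (s'' - s + H a' a) (by
    rw [add_pow_q hF, sub_pow_q hF, hermForm_conj hF]
    simp only [hermForm_add_left, hermForm_add_right hF] at hs''
    linear_combination hs'' - hs)) h.1 h'.1
  exact UE_congr k rfl rfl (by ring)

theorem exists_sub_conj (hF : Fintype.card F = q ^ 2) {d : F} (hd : d + d ^ q = 0) : ∃ c : F, c - c ^ q = d := by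
  obtain ⟨κ, hκ0, hκ⟩ := exists_trace_zero hF
  have h1 : d ^ q = -d := by linear_combination hd
  have h2 : κ ^ q = -κ := by linear_combination hκ
  obtain ⟨c', hc'⟩ := exists_trace_eq hF (d / κ) (by rw [div_pow, h1, h2, neg_div_neg_eq])
  refine ⟨κ * c', ?_⟩
  rw [mul_pow, h2]
  have : κ * c' - -κ * c' ^ q = κ * (c' + c' ^ q) := by ring
  rw [this, hc']
  field_simp

namespace HRat

variable {e : (Fin n → F₀) → (Fin n → F)} (S : HRat n q q₀ F₀ e)

include S

theorem exists_rat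
    (hrat : ∀ (u a : V₀) (s : F₀), (s : F) + (s : F) ^ q + H (e a) (e a) = 0 → UE q M (e u) (e a) (s : F))
    (u a : V₀) : ∃ t : F, UE q M (e u) (e a) t := by
  obtain ⟨t₀, ht₀⟩ := exists_trace_eq S.hF₀ (- H₀ a a) (by rw [neg_pow_q S.hF₀, herm_self_pow S.hF₀])
  refine ⟨t₀, hrat u a t₀ ?_⟩
  rw [S.conj, S.H_e]
  have : ((t₀ + t₀ ^ q₀ + H₀ a a : F₀) : F) = 0 := by rw [ht₀]; simp
  exact_mod_cast this

theorem rat0
    (hrat : ∀ (u a : V₀) (s : F₀), (s : F) + (s : F) ^ q + H (e a) (e a) = 0 → UE q M (e u) (e a) (s : F))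
    (u a : V₀) (ha : H₀ a a = 0) : UE q M (e u) (e a) 0 := by
  have := hrat u a 0 (by rw [S.H_e, ha]; simp [S.hq])
  exact UE_congr this rfl rfl (by simp)

theorem pmove (hMU : M ≤ Cfsg.GU n F q)
    (hrat : ∀ (u a : V₀) (s : F₀), (s : F) + (s : F) ^ q + H (e a) (e a) = 0 → UE q M (e u) (e a) (s : F))
    {a : F} {u w w' y : V₀} (hT : UE q M (e u) (a • e w) 0) (hw' : H₀ w' w' = 0)
    (h1 : H₀ u w' = 0) (h2 : H₀ w w' = 0) (h3 : H₀ u y = 0) (h4 : H₀ y w' = 0) (h5 : H₀ w y = 1)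
    (h6 : H₀ w u = 0) : UE q M (e u) (a • e w') 0 := by
  obtain ⟨t, ht⟩ := S.exists_rat hrat w' y
  have k := UE_comm_ueich S.hF hMU ht hT (S.H_e_zero hw') (S.H_e_zero h4) (S.H_e_zero h1) (S.H_e_zero h3)
    (by rw [hermForm_smul_left, S.H_e_zero h6, mul_zero])
  have e1 : H (a • e w) (e w') = 0 := by rw [hermForm_smul_left, S.H_e_zero h2, mul_zero]
  have e2 : H (a • e w) (e y) = a := by rw [hermForm_smul_left, S.H_e_one h5, mul_one]
  rw [e1, e2] at k
  have ev : (0 : F) • e y + (t * 0 - a) • e w' = (-a) • e w' := by module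
  rw [ev] at k
  have k2 := UE_inv S.hF k (by rw [hermForm_smul_left, S.H_e_zero (S.symm₀ h1), mul_zero])
  refine UE_congr k2 rfl (by module) ?_
  simp only [hermForm_smul_left, hermForm_smul_right, S.H_e_zero h2, S.H_e_zero hw']
  ring

theorem pswap {a : F} {u w : V₀} (hT : UE q M (e u) (a • e w) 0) (hu : H₀ u u = 0) (huw : H₀ u w = 0) :
    UE q M (e w) ((-(a ^ q)) • e u) 0 := by
  intro h1 h2 h3
  have a1 : H (e u) (e u) = 0 := S.H_e_zero hu
  have a2 : H (a • e w) (e u) = 0 := by rw [hermForm_smul_left, S.H_e_zero (S.symm₀ huw), mul_zero]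
  have a3 := herm_eq_zero_symm S.hF a2
  have : ueich q (e w) ((-(a ^ q)) • e u) 0 h1 h2 h3 = ueich q (e u) (a • e w) 0 a1 a2 a3 := by
    apply gl_ext; intro x
    rw [ueich_mulVec, ueich_mulVec, hermForm_smul_right, hermForm_smul_right, neg_pow_q S.hF,
      pow_q_pow_q S.hF]
    module
  rw [this]; exact hT _ _ _

theorem pspread (hn : 13 ≤ n) (hMU : M ≤ Cfsg.GU n F q)
    (hrat : ∀ (u a : V₀) (s : F₀), (s : F) + (s : F) ^ q + H (e a) (e a) = 0 → UE q M (e u) (e a) (s : F))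
    {a : F} {u w : V₀} (hu : H₀ u u = 0) (huw : H₀ u w = 0) (hu0 : u ≠ 0)
    (hind : e w ∉ Submodule.span F (Set.range (fun i => e (![u] i)))) (hT : UE q M (e u) (a • e w) 0) :
    ∀ u' w', H₀ u' u' = 0 → H₀ w' w' = 0 → H₀ u' w' = 0 → UE q M (e u') ((-(a ^ q)) • e w') 0 := by
  intro u' w' hu' hw' huw'
  obtain ⟨y₀, a1, a2⟩ := S.dual' ![u] w hind
  have a1' : H₀ u y₀ = 0 := a1 0
  obtain ⟨y₀', b1⟩ := S.dual0 hu0
  obtain ⟨x₁, c0, c1, c2⟩ := S.sing_notMem ![u, w, u', w', y₀, y₀'] ![u'] (by omega)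
  have c10 : H₀ u x₁ = 0 := c1 0
  have c11 : H₀ w x₁ = 0 := c1 1
  have c12 : H₀ u' x₁ = 0 := c1 2
  have c13 : H₀ w' x₁ = 0 := c1 3
  have c14 : H₀ y₀ x₁ = 0 := c1 4
  have c15 : H₀ y₀' x₁ = 0 := c1 5
  obtain ⟨y₁, d1, d2⟩ := S.dual' ![u'] x₁ c2
  have d1' : H₀ u' y₁ = 0 := d1 0
  obtain ⟨x₂, f0, f1, f2⟩ := S.sing_notMem ![u, u', w', x₁, y₁, y₀'] ![u', w'] (by omega)
  have f10 : H₀ u x₂ = 0 := f1 0
  have f11 : H₀ u' x₂ = 0 := f1 1
  have f12 : H₀ w' x₂ = 0 := f1 2
  have f13 : H₀ x₁ x₂ = 0 := f1 3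
  have f14 : H₀ y₁ x₂ = 0 := f1 4
  have f15 : H₀ y₀' x₂ = 0 := f1 5
  obtain ⟨y₂, g1, g2⟩ := S.dual' ![u', w'] x₂ f2
  have g10 : H₀ u' y₂ = 0 := g1 0
  have g11 : H₀ w' y₂ = 0 := g1 1
  have m1 := S.pmove hMU hrat hT c0 c10 c11 a1' c14 a2 (S.symm₀ huw)
  have s1 := S.pswap m1 hu c10
  have m2 := S.pmove hMU hrat s1 f0 f13 f10 (S.symm₀ c15) f15 b1 c10
  have s2 := S.pswap m2 c0 f13
  have s2' : UE q M (e x₂) (a • e x₁) 0 := UE_congr s2 rfl (by
    rw [neg_pow_q S.hF, pow_q_pow_q S.hF, neg_neg]) rfl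
  have m3 := S.pmove hMU hrat s2' hu' (S.symm₀ f11) (S.symm₀ c12) (S.symm₀ f14) (S.symm₀ d1') d2 f13
  have s3 := S.pswap m3 f0 (S.symm₀ f11)
  exact S.pmove hMU hrat s3 hw' huw' (S.symm₀ f12) g10 (S.symm₀ g11) g2 (S.symm₀ f11)

theorem pfull (hn : 13 ≤ n) (hMU : M ≤ Cfsg.GU n F q)
    (hrat : ∀ (u a : V₀) (s : F₀), (s : F) + (s : F) ^ q + H (e a) (e a) = 0 → UE q M (e u) (e a) (s : F))
    {a : F} (ha : a ∉ F₀) {u w : V₀} (hu : H₀ u u = 0) (huw : H₀ u w = 0) (hu0 : u ≠ 0)
    (hind : e w ∉ Submodule.span F (Set.range (fun i => e (![u] i)))) (hT : UE q M (e u) (a • e w) 0) :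
    ∀ (c : F) (u' w' : V₀), H₀ u' u' = 0 → H₀ w' w' = 0 → H₀ u' w' = 0 → UE q M (e u') (c • e w') 0 := by
  let R : Subalgebra F₀ F :=
    { carrier := {c | ∀ u' w', H₀ u' u' = 0 → H₀ w' w' = 0 → H₀ u' w' = 0 → UE q M (e u') (c • e w') 0}
      mul_mem' := by
        intro c d hc hd u' w' hu' hw' huw'
        obtain ⟨x', c0, c1, c2⟩ := S.sing_notMem ![u', w'] ![u', w'] (by omega)
        have c10 : H₀ u' x' = 0 := c1 0
        have c11 : H₀ w' x' = 0 := c1 1
        obtain ⟨y', d0, d1, d2⟩ := S.sing ![u', w'] x' c2 (by omega)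
        have d10 : H₀ u' y' = 0 := d1 0
        have d11 : H₀ w' y' = 0 := d1 1
        have kd := S.pswap (hd y' w' d0 hw' (S.symm₀ d11)) d0 (S.symm₀ d11)
        have k := UE_comm_ueich S.hF hMU kd (hc u' x' hu' c0 c10) (S.H_e_zero hw')
          (by rw [hermForm_smul_left, S.H_e_zero (S.symm₀ d11), mul_zero]) (S.H_e_zero huw')
          (by rw [hermForm_smul_right, S.H_e_zero d10, mul_zero])
          (by rw [hermForm_smul_left, S.H_e_zero (S.symm₀ c10), mul_zero])
        have e1 : H (c • e x') (e w') = 0 := by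
          rw [hermForm_smul_left, S.H_e_zero (S.symm₀ c11), mul_zero]
        have e2 : H (c • e x') ((-(d ^ q)) • e y') = -(c * d) := by
          rw [hermForm_smul_left, hermForm_smul_right, S.H_e_one d2, neg_pow_q S.hF, pow_q_pow_q S.hF]
          ring
        rw [e1, e2] at k
        refine UE_congr k rfl (by module) ?_
        simp only [hermForm_add_right S.hF, hermForm_smul_left, hermForm_smul_right,
          S.H_e_zero (S.symm₀ c11), zero_pow S.hq]
        ring
      add_mem' := by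
        intro c d hc hd u' w' hu' hw' huw'
        have k := UE_mul S.hF (hc u' w' hu' hw' huw') (hd u' w' hu' hw' huw')
          (by rw [hermForm_smul_left, S.H_e_zero (S.symm₀ huw'), mul_zero])
          (by rw [hermForm_smul_left, S.H_e_zero (S.symm₀ huw'), mul_zero])
        refine UE_congr k rfl (by module) ?_
        rw [hermForm_smul_left, hermForm_smul_right, S.H_e_zero hw']; ring
      algebraMap_mem' := by
        intro r u' w' hu' hw' huw'
        have : (algebraMap F₀ F r) • e w' = e (r • w') := by rw [S.e_smul]; rfl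
        rw [this]
        exact S.rat0 hrat _ _ (by rw [hermForm_smul_left, hermForm_smul_right, hw']; ring) }
  have haR : -(a ^ q) ∈ R := S.pspread hn hMU hrat hu huw hu0 hind hT
  have hs := Subalgebra.isSimpleOrder_of_finrank_prime F₀ F S.prime
  rcases hs.eq_bot_or_eq_top R with h | h
  · exfalso
    rw [h, Algebra.mem_bot] at haR
    obtain ⟨r, hr⟩ := haR
    apply ha
    have h1 : a = (-(-(a ^ q))) ^ q := by rw [neg_neg, pow_q_pow_q S.hF]
    rw [h1, ← hr]
    exact F₀.pow_mem (F₀.neg_mem r.2) _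
  · intro c
    have : c ∈ R := by rw [h]; exact Algebra.mem_top
    exact this

theorem notMem_span_empty {x : V₀} (hx : x ≠ 0) (xs : Fin 0 → V₀) :
    e x ∉ Submodule.span F (Set.range (fun i => e (xs i))) := by
  have : Set.range (fun i => e (xs i)) = ∅ := Set.range_eq_empty _
  rw [this, Submodule.span_empty, Submodule.mem_bot]
  exact S.e_ne_zero hx

theorem ucentres_of_full (hn : 13 ≤ n)
    (hfull : ∀ (c : F) (u' w' : V₀), H₀ u' u' = 0 → H₀ w' w' = 0 → H₀ u' w' = 0 → UE q M (e u') (c • e w') 0)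
    {u : V₀} (hu : H₀ u u = 0) : e u ∈ ucentres q M := by
  refine ⟨S.H_e_zero hu, fun d hd => ?_⟩
  obtain ⟨c, rfl⟩ := exists_sub_conj S.hF hd
  obtain ⟨w, w0, w1, w2⟩ := S.sing_notMem ![u] ![u] (by omega)
  have w10 : H₀ u w = 0 := w1 0
  obtain ⟨w', x0, x1, x2⟩ := S.sing ![u] w w2 (by omega)
  have x10 : H₀ u w' = 0 := x1 0
  have p1 : H (c • e w) (e u) = 0 := by rw [hermForm_smul_left, S.H_e_zero (S.symm₀ w10), mul_zero]
  have p2 : H ((1 : F) • e w') (e u) = 0 := by rw [hermForm_smul_left, S.H_e_zero (S.symm₀ x10), mul_zero]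
  have X := UE_mul S.hF (hfull c u w hu w0 w10) (hfull 1 u w' hu x0 x10) p1 p2
  have Y := UE_congr (UE_mul S.hF (hfull 1 u w' hu x0 x10) (hfull c u w hu w0 w10) p2 p1) rfl
    (add_comm _ _) rfl
  have D := UE_diff S.hF X Y (by rw [hermForm_add_left, p1, p2, add_zero])
  apply utv_of_UE S.hF (UE_congr D rfl rfl ?_)
  simp only [hermForm_smul_left, hermForm_smul_right, S.H_e_one x2, S.H_e_one (S.symm₁ x2), one_pow]
  ring

theorem UAdm_of_full (hn : 13 ≤ n)
    (hfull : ∀ (c : F) (u' w' : V₀), H₀ u' u' = 0 → H₀ w' w' = 0 → H₀ u' w' = 0 → UE q M (e u') (c • e w') 0)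
    {u : V₀} (hu : H₀ u u = 0) (hu0 : u ≠ 0) {a : Vn} (ha : H a (e u) = 0) : UAdm q M (e u) a := by
  obtain ⟨f', hf'⟩ := S.dual0 hu0
  have hf : H₀ f' u = 1 := S.symm₁ hf'
  have hcen := S.ucentres_of_full hn hfull hu
  have hα : ∀ (c : F) (w : V₀), H₀ w w = 0 → H₀ w u = 0 → UAdm q M (e u) (c • e w) := by
    intro c w hw hwu
    have p1 : H (c • e w) (e u) = 0 := by rw [hermForm_smul_left, S.H_e_zero hwu, mul_zero]
    refine ⟨p1, fun s hs => ?_⟩
    have hs' : s + s ^ q = 0 := by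
      rw [hermForm_smul_left, hermForm_smul_right, S.H_e_zero hw] at hs
      linear_combination hs
    have k := UE_mul S.hF (hfull c u w hu hw (S.symm₀ hwu)) (UE_of_utv S.hF hcen.1 (hcen.2 s hs')) p1
      (herm_zero_left S.hq _)
    refine UE_congr k rfl (by simp) ?_
    rw [herm_zero_left S.hq]; ring
  have key : ∀ (v : Vn) (c : F), UAdm q M (e u) (c • (v - H v (e u) • e f')) := by
    intro v
    have hv : v ∈ Submodule.span F (Set.range e) := by rw [S.span]; trivial
    induction hv using Submodule.span_induction with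
    | mem x hx =>
      obtain ⟨x, rfl⟩ := hx
      intro c
      have e1 : e x - H (e x) (e u) • e f' = e (x - H₀ x u • f') := by
        rw [S.e_sub, S.e_smul, S.H_e]
      rw [e1]
      obtain ⟨t₁, t₂, p1, p2, p3, p4, p5⟩ := S.sing_decomp (by omega) u (x - H₀ x u • f') (by
        rw [herm_sub_left, hermForm_smul_left, hf]; ring)
      rw [p5, S.e_add, smul_add]
      exact UAdm_add S.hF (hα c t₁ p1 p3) (hα c t₂ p2 p4)
    | zero =>
      intro c
      have := hα c 0 (herm_zero_left S.hq₀ _) (herm_zero_left S.hq₀ _)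
      rw [S.e_zero] at this
      rw [herm_zero_left S.hq]
      simpa using this
    | add x y _ _ hx hy =>
      intro c
      have : c • (x + y - H (x + y) (e u) • e f')
          = c • (x - H x (e u) • e f') + c • (y - H y (e u) • e f') := by
        rw [hermForm_add_left]; module
      rw [this]
      exact UAdm_add S.hF (hx c) (hy c)
    | smul d x _ hx =>
      intro c
      have : c • (d • x - H (d • x) (e u) • e f') = (c * d) • (x - H x (e u) • e f') := by
        rw [hermForm_smul_left]; module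
      rw [this]
      exact hx _
  have := key a 1
  rwa [ha, zero_smul, sub_zero, one_smul] at this

theorem su_le_of_full (hn : 13 ≤ n) (hMU : M ≤ Cfsg.GU n F q)
    (hfull : ∀ (c : F) (u' w' : V₀), H₀ u' u' = 0 → H₀ w' w' = 0 → H₀ u' w' = 0 → UE q M (e u') (c • e w') 0) :
    Cfsg.GU n F q ⊓ Cfsg.Geo.specialLinear (Fin n) F ≤ M := by
  have hall : ∀ z : Vn, H z z = 0 → z ∈ ucentres q M := by
    intro z hz
    by_cases hz0 : z = 0
    · rw [hz0]; exact ucentres_zero S.hF M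
    obtain ⟨x, hx, hzx⟩ : ∃ x, H₀ x x = 0 ∧ H z (e x) ≠ 0 := by
      by_contra hcon
      push Not at hcon
      apply hz0
      apply S.eq_zero_of_perp
      intro t
      obtain ⟨t₁, t₂, p1, p2, -, -, p5⟩ := S.sing_decomp (by omega) 0 t (herm_zero_right S.hq₀ _)
      rw [p5, S.e_add, hermForm_add_right S.hF, hcon t₁ p1, hcon t₂ p2, add_zero]
    have hx0 : x ≠ 0 := by
      rintro rfl
      apply hzx
      rw [S.e_zero, herm_zero_right S.hq]
    set μ := H z (e x) with hμ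
    suffices h : μ⁻¹ • z ∈ ucentres q M by
      have := ucentres_smul S.hF h μ
      rwa [smul_smul, mul_inv_cancel₀ hzx, one_smul] at this
    set z' := μ⁻¹ • z with hz'
    have hz'z : H z' z' = 0 := by rw [hz', hermForm_smul_left, hermForm_smul_right, hz]; ring
    have hz'x : H z' (e x) = 1 := by rw [hz', hermForm_smul_left, ← hμ, inv_mul_cancel₀ hzx]
    obtain ⟨x', y0, -, y2⟩ := S.sing (Fin.elim0 : Fin 0 → V₀) x (S.notMem_span_empty hx0 _) (by omega)
    have hx'x : H (e x') (e x) = 1 := S.H_e_one (S.symm₁ y2)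
    have ha : H (z' - e x') (e x) = 0 := by rw [herm_sub_left, hz'x, hx'x, sub_self]
    have hA := S.UAdm_of_full hn hfull hx hx0 ha
    have hE := hA.2 (H (e x') z') (by
      rw [hermForm_conj S.hF]
      simp only [herm_sub_left, herm_sub_right S.hF, hz'z, S.H_e_zero y0]
      ring) (S.H_e_zero hx) ha (herm_eq_zero_symm S.hF ha)
    have h1 := ucentres_mulVec hMU hE (S.ucentres_of_full hn hfull y0)
    rw [ueich_mulVec, hx'x, herm_sub_right S.hF, S.H_e_zero y0] at h1
    have e1 : e x' + (1 : F) • (z' - e x') + (H (e x') z' * 1 - (H (e x') z' - 0)) • e x = z' := by module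
    rwa [e1] at h1
  apply su_le_of_utv S.hF (by omega)
  intro v d hv hd
  exact (hall v hv).2 d hd

/-- the Siegel transformations of `M` with rational centre are rational -/
def HStar (_S : HRat n q q₀ F₀ e) (M : Subgroup (GL (Fin n) F)) : Prop :=
  ∀ (u : V₀) (v : Vn) (s : F), H₀ u u = 0 → u ≠ 0 → H v (e u) = 0 → UE q M (e u) v s →
    ∃ (x : V₀) (c : F), v = e x + c • e u

theorem su_le_of_not_star (hn : 13 ≤ n) (hMU : M ≤ Cfsg.GU n F q)
    (hrat : ∀ (u a : V₀) (s : F₀), (s : F) + (s : F) ^ q + H (e a) (e a) = 0 → UE q M (e u) (e a) (s : F))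
    (h : ¬ S.HStar M) : Cfsg.GU n F q ⊓ Cfsg.Geo.specialLinear (Fin n) F ≤ M := by
  unfold HStar at h
  push Not at h
  obtain ⟨u, v, s, hu, hu0, hvu, hE, hv⟩ := h
  obtain ⟨z, hz, hzu, hvz⟩ : ∃ z, H₀ z z = 0 ∧ H₀ z u = 0 ∧ H v (e z) ∉ F₀ := by
    by_contra hcon
    push Not at hcon
    obtain ⟨x, c, hx⟩ := S.rep_mod (by omega) hu0 hcon
    exact hv x c hx
  obtain ⟨w, w0, w1, w2⟩ := S.sing_notMem ![u, z] ![u, z] (by omega)
  have w10 : H₀ u w = 0 := w1 0
  have w11 : H₀ z w = 0 := w1 1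
  obtain ⟨z', z1, z2⟩ := S.dual' ![u, z] w w2
  have z10 : H₀ u z' = 0 := z1 0
  have z11 : H₀ z z' = 0 := z1 1
  obtain ⟨w', x0, x1, x2⟩ := S.sing_notMem ![u, w, z, z'] ![u] (by omega)
  have x10 : H₀ u w' = 0 := x1 0
  have x11 : H₀ w w' = 0 := x1 1
  have x12 : H₀ z w' = 0 := x1 2
  have x13 : H₀ z' w' = 0 := x1 3
  -- first commutator, with `E(z, w)`
  have kA := UE_comm_ueich S.hF hMU (S.rat0 hrat z w w0) hE (S.H_e_zero hz) (S.H_e_zero (S.symm₀ w11))
    (S.H_e_zero (S.symm₀ hzu)) (S.H_e_zero w10) hvu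
  set v' := H v (e z) • e w + (0 * H v (e z) - H v (e w)) • e z with hv'
  obtain ⟨t, ht⟩ := S.exists_rat hrat w' z'
  have hv'u : H v' (e u) = 0 := by
    rw [hv', hermForm_add_left, hermForm_smul_left, hermForm_smul_left, S.H_e_zero (S.symm₀ w10),
      S.H_e_zero hzu]; ring
  have kB := UE_comm_ueich S.hF hMU ht kA (S.H_e_zero x0) (S.H_e_zero x13) (S.H_e_zero x10)
    (S.H_e_zero z10) hv'u
  have e1 : H v' (e w') = 0 := by
    rw [hv', hermForm_add_left, hermForm_smul_left, hermForm_smul_left, S.H_e_zero x11, S.H_e_zero x12]; ring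
  have e2 : H v' (e z') = H v (e z) := by
    rw [hv', hermForm_add_left, hermForm_smul_left, hermForm_smul_left, S.H_e_one z2, S.H_e_zero z11]; ring
  rw [e1, e2] at kB
  have kC : UE q M (e u) ((-(H v (e z))) • e w') 0 := by
    refine UE_congr kB rfl (by module) ?_
    have ev : (0 : F) • e z' + (t * 0 - H v (e z)) • e w' = (-(H v (e z))) • e w' := by module
    rw [ev, hermForm_smul_right, e1, mul_zero]
  have ha : -(H v (e z)) ∉ F₀ := fun h => hvz (by simpa using F₀.neg_mem h)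
  exact S.su_le_of_full hn hMU (S.pfull hn hMU hrat ha hu x10 hu0 x2 kC)

end HRat

end Cfsg.Agent.Lib.Helper29
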