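import Mathlib
import Cfsg.Agent.Lib.Helper29.SuR2
import Cfsg.Agent.Lib.Helper29.SuO3

/-!
Unitary rational structures: propagation of rationality.
-/

set_option autoImplicit false
set_option linter.unusedSectionVars false
set_option linter.unusedSimpArgs false

namespace Cfsg.Agent.Lib.Helper29

open Matrix Module
open Cfsg.Agent.H6 (add_pow_q pow_q_pow_q neg_pow_q sub_pow_q q_pos hermForm_add_left
  hermForm_smul_left hermForm_smul_right hermForm_add_right hermForm_conj)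

variable {F : Type*} [Field F] [Fintype F] {n q q₀ : ℕ} {F₀ : Subfield F} [Fintype F₀]

local notation "H" => Cfsg.hermForm n F q
local notation "H₀" => Cfsg.hermForm n F₀ q₀
local notation "Vn" => (Fin n → F)
local notation "V₀" => (Fin n → F₀)

variable {M : Subgroup (GL (Fin n) F)}

namespace HRat

variable {e : (Fin n → F₀) → (Fin n → F)} (S : HRat n q q₀ F₀ e)

include S

theorem exists_c₀ : ∃ θ₀ : F₀, θ₀ ≠ 0 ∧ (θ₀ : F) + (θ₀ : F) ^ q = 0 := by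
  obtain ⟨θ₀, h0, h1⟩ := exists_trace_zero S.hF₀
  refine ⟨θ₀, h0, ?_⟩
  rw [S.conj]
  exact_mod_cast h1

theorem rat_utv
    (hrat : ∀ (u a : V₀) (s : F₀), (s : F) + (s : F) ^ q + H (e a) (e a) = 0 → UE q M (e u) (e a) (s : F))
    {θ₀ : F₀} (hθ : (θ₀ : F) + (θ₀ : F) ^ q = 0) {u : V₀} (hu : H₀ u u = 0) :
    utv q (e u) (θ₀ : F) (S.H_e_zero hu) ∈ M := by
  have h1 := hrat u 0 θ₀ (by rw [S.e_zero, herm_zero_left S.hq, add_zero]; exact hθ)
  rw [S.e_zero] at h1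
  exact utv_of_UE S.hF h1 _

theorem line_of_utv (hMU : M ≤ Cfsg.GU n F q)
    (hrat : ∀ (u a : V₀) (s : F₀), (s : F) + (s : F) ^ q + H (e a) (e a) = 0 → UE q M (e u) (e a) (s : F))
    (hstar : S.HStar M) {y : Vn} {c : F} (hy : H y y = 0) (hc : c ≠ 0) (hmem : utv q y c hy ∈ M)
    {w : V₀} (hw : H₀ w w = 0) (hw0 : w ≠ 0) (hyw : H y (e w) = 0) :
    ∃ (μ : F) (r : V₀) (c' : F), y = μ • (e r + c' • e w) := by
  by_cases hspan : y ∈ Submodule.span F (Set.range (fun i => e (![w] i)))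
  · rw [S.range_one] at hspan
    obtain ⟨m, hm⟩ := Submodule.mem_span_singleton.mp hspan
    exact ⟨m, 0, 1, by rw [S.e_zero, ← hm]; simp⟩
  · obtain ⟨t, ht1, ht2⟩ := S.sep 1 ![w] y hspan
    have ht1' : H₀ w t = 0 := ht1 0
    obtain ⟨s, hs⟩ := S.exists_rat hrat w t
    have hτw : (utv q y c hy : Matrix (Fin n) (Fin n) F) *ᵥ e w = e w := by
      rw [utv_mulVec, herm_eq_zero_symm S.hF hyw]; simp
    have k := UE_comm S.hF hmem (hMU hmem) hs hτw (S.H_e_zero (S.symm₀ ht1'))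
    have e1 : (utv q y c hy : Matrix (Fin n) (Fin n) F) *ᵥ e t - e t = (c * H (e t) y) • y := by
      rw [utv_mulVec]; abel
    rw [e1] at k
    obtain ⟨x, c', hx⟩ := hstar w _ _ hw hw0 (by rw [hermForm_smul_left, hyw, mul_zero]) k
    have hne : c * H (e t) y ≠ 0 := mul_ne_zero hc (herm_ne_zero_symm S.hF ht2)
    exact ⟨(c * H (e t) y)⁻¹, x, c', by rw [← hx, smul_smul, inv_mul_cancel₀ hne, one_smul]⟩

/-- the centre of a transvection of `M` perpendicular to a rational isotropic vector is rational -/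
theorem RD_of_utv (hn : 13 ≤ n) (hMU : M ≤ Cfsg.GU n F q)
    (hrat : ∀ (u a : V₀) (s : F₀), (s : F) + (s : F) ^ q + H (e a) (e a) = 0 → UE q M (e u) (e a) (s : F))
    (hstar : S.HStar M) {y : Vn} {c : F} (hy : H y y = 0) (hc : c ≠ 0) (hmem : utv q y c hy ∈ M)
    {w : V₀} (hw : H₀ w w = 0) (hw0 : w ≠ 0) (hyw : H y (e w) = 0) :
    ∃ (μ : F) (r : V₀), y = μ • e r := by
  obtain ⟨μ, r, c', h1⟩ := S.line_of_utv hMU hrat hstar hy hc hmem hw hw0 hyw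
  by_cases hμ : μ = 0
  · exact ⟨0, 0, by rw [h1, hμ]; simp⟩
  have hrw : H₀ r w = 0 := by
    apply S.H₀_zero_of
    rw [h1, hermForm_smul_left, hermForm_add_left, hermForm_smul_left, S.H_e_zero hw, mul_zero, add_zero] at hyw
    exact (mul_eq_zero.mp hyw).resolve_left hμ
  obtain ⟨w₂, a0, a1, a2⟩ := S.sing_notMem ![r, w] ![r, w] (by omega)
  have a10 : H₀ r w₂ = 0 := a1 0
  have a11 : H₀ w w₂ = 0 := a1 1
  obtain ⟨p, p1, p2⟩ := S.dual' ![r, w] w₂ a2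
  have p10 : H₀ r p = 0 := p1 0
  have p11 : H₀ w p = 0 := p1 1
  have hyw₂ : H y (e w₂) = 0 := by
    rw [h1, hermForm_smul_left, hermForm_add_left, hermForm_smul_left, S.H_e_zero a10, S.H_e_zero a11]; ring
  have hyp : H y (e p) = 0 := by
    rw [h1, hermForm_smul_left, hermForm_add_left, hermForm_smul_left, S.H_e_zero p10, S.H_e_zero p11]; ring
  obtain ⟨μ₂, r₂, c₂, h2⟩ := S.line_of_utv hMU hrat hstar hy hc hmem a0 (S.ne_zero_of_notMem a2) hyw₂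
  by_cases hμ₂ : μ₂ = 0
  · exact ⟨0, 0, by rw [h2, hμ₂]; simp⟩
  rw [h2, hermForm_smul_left, hermForm_add_left, hermForm_smul_left, S.H_e_one p2, S.H_e, mul_one] at hyp
  have h3 := (mul_eq_zero.mp hyp).resolve_left hμ₂
  have hc₂ : c₂ = ((-(H₀ r₂ p) : F₀) : F) := by
    push_cast
    linear_combination h3
  exact ⟨μ₂, r₂ + (-(H₀ r₂ p)) • w₂, by rw [S.e_add, S.e_smul, ← hc₂, ← h2]⟩

theorem rational_step (hn : 13 ≤ n) (hMU : M ≤ Cfsg.GU n F q)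
    (hrat : ∀ (u a : V₀) (s : F₀), (s : F) + (s : F) ^ q + H (e a) (e a) = 0 → UE q M (e u) (e a) (s : F))
    (hstar : S.HStar M) {g : GL (Fin n) F} (hg : g ∈ M) {u₁ r₁ : V₀} {β : F} (hu₁ : H₀ u₁ u₁ = 0)
    (hu₁0 : u₁ ≠ 0) (h₁ : (g : Matrix (Fin n) (Fin n) F) *ᵥ e u₁ = β • e r₁)
    {u : V₀} (hu : H₀ u u = 0) (huu : H₀ u u₁ = 0) :
    ∃ (c : F) (r : V₀), (g : Matrix (Fin n) (Fin n) F) *ᵥ e u = c • e r := by
  have hiso := (mem_GU_iff g).mp (hMU hg)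
  have hne : (g : Matrix (Fin n) (Fin n) F) *ᵥ e u₁ ≠ 0 := by
    intro h0
    apply S.e_ne_zero hu₁0
    apply gl_mulVec_inj g
    rw [h0, Matrix.mulVec_zero]
  have hβ : β ≠ 0 := by
    rintro rfl
    rw [zero_smul] at h₁
    exact hne h₁
  have hr₁0 : r₁ ≠ 0 := by
    rintro rfl
    rw [S.e_zero, smul_zero] at h₁
    exact hne h₁
  have hβq : β ^ q ≠ 0 := pow_ne_zero _ hβ
  have hr₁ : H₀ r₁ r₁ = 0 := by
    apply S.H₀_zero_of
    have h2 := hiso (e u₁) (e u₁)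
    rw [h₁, hermForm_smul_left, hermForm_smul_right, S.H_e_zero hu₁] at h2
    exact (mul_eq_zero.mp ((mul_eq_zero.mp h2).resolve_left hβ)).resolve_left hβq
  obtain ⟨θ₀, hθ0, hθ⟩ := S.exists_c₀
  have hθ0' : (θ₀ : F) ≠ 0 := fun h0 => hθ0 (by exact_mod_cast h0)
  have hy : H ((g : Matrix (Fin n) (Fin n) F) *ᵥ e u) ((g : Matrix (Fin n) (Fin n) F) *ᵥ e u) = 0 := by
    rw [hiso]; exact S.H_e_zero hu
  have hmem : utv q ((g : Matrix (Fin n) (Fin n) F) *ᵥ e u) (θ₀ : F) hy ∈ M := by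
    rw [← conj_utv (hMU hg) (e u) _ (S.H_e_zero hu) hy]
    exact M.mul_mem (M.mul_mem hg (S.rat_utv hrat hθ hu)) (M.inv_mem hg)
  apply S.RD_of_utv hn hMU hrat hstar hy hθ0' hmem hr₁ hr₁0
  have h2 := hiso (e u) (e u₁)
  rw [h₁, hermForm_smul_right, S.H_e_zero huu] at h2
  exact (mul_eq_zero.mp h2).resolve_left hβq

/-- two rational vectors are scaled in the same way -/
theorem pair_scal_gl {g : GL (Fin n) F} {u u' r r' r'' d₀ d₀' : V₀} {c c' c'' : F}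
    (h1 : H₀ u d₀ = 1) (h2 : H₀ u' d₀ = 0) (h3 : H₀ u d₀' = 0) (h4 : H₀ u' d₀' = 1)
    (hr : (g : Matrix (Fin n) (Fin n) F) *ᵥ e u = c • e r)
    (hr' : (g : Matrix (Fin n) (Fin n) F) *ᵥ e u' = c' • e r')
    (hr'' : (g : Matrix (Fin n) (Fin n) F) *ᵥ e (u + u') = c'' • e r'') :
    ∃ r₂ : V₀, (g : Matrix (Fin n) (Fin n) F) *ᵥ e u' = c • e r₂ := by
  have hind : ∀ α β : F, α • e u + β • e u' = 0 → α = 0 ∧ β = 0 := S.indep_of_dual h1 h2 h3 h4
  have hind' : ∀ α β : F, α • (c • e r) + β • (c' • e r') = 0 → α = 0 ∧ β = 0 := by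
    intro α β h
    apply hind
    apply gl_mulVec_inj g
    rw [Matrix.mulVec_add, Matrix.mulVec_smul, Matrix.mulVec_smul, hr, hr', h, Matrix.mulVec_zero]
  have hc : c ≠ 0 := by
    rintro rfl
    have := (hind' 1 0 (by simp)).1
    exact one_ne_zero this
  have hc' : c' ≠ 0 := by
    rintro rfl
    have := (hind' 0 1 (by simp)).2
    exact one_ne_zero this
  obtain ⟨p, p1, p2⟩ := S.dual' ![r'] r (by
    rw [S.range_one]
    intro hmem
    obtain ⟨m, hm⟩ := Submodule.mem_span_singleton.mp hmem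
    have := (hind' c⁻¹ (-(m * c'⁻¹)) (by
      rw [smul_smul, smul_smul, inv_mul_cancel₀ hc, one_smul, ← hm]
      have : -(m * c'⁻¹) * c' = -m := by field_simp
      rw [this]; module)).1
    exact inv_ne_zero hc this)
  have p10 : H₀ r' p = 0 := p1 0
  obtain ⟨p', p1', p2'⟩ := S.dual' ![r] r' (by
    rw [S.range_one]
    intro hmem
    obtain ⟨m, hm⟩ := Submodule.mem_span_singleton.mp hmem
    have := (hind' (-(m * c⁻¹)) c'⁻¹ (by
      rw [smul_smul, smul_smul, inv_mul_cancel₀ hc', one_smul, ← hm]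
      have : -(m * c⁻¹) * c = -m := by field_simp
      rw [this]; module)).2
    exact inv_ne_zero hc' this)
  have p10' : H₀ r p' = 0 := p1' 0
  have key : c • e r + c' • e r' = c'' • e r'' := by rw [← hr, ← hr', ← hr'', S.e_add, Matrix.mulVec_add]
  have k1 : c = c'' * ((H₀ r'' p : F₀) : F) := by
    have := congrArg (fun v => H v (e p)) key
    simp only [hermForm_add_left, hermForm_smul_left, S.H_e_one p2, S.H_e_zero p10, S.H_e r'' p] at this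
    simpa using this
  have k2 : c' = c'' * ((H₀ r'' p' : F₀) : F) := by
    have := congrArg (fun v => H v (e p')) key
    simp only [hermForm_add_left, hermForm_smul_left, S.H_e_one p2', S.H_e_zero p10', S.H_e r'' p'] at this
    simpa using this
  have hne : ((H₀ r'' p : F₀) : F) ≠ 0 := by
    intro h0
    rw [h0, mul_zero] at k1
    exact hc k1
  refine ⟨(H₀ r'' p' / H₀ r'' p) • r', ?_⟩
  rw [hr', S.e_smul, smul_smul]
  congr 1
  push_cast
  rw [k2, k1]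
  field_simp

theorem rational_of_points (hn : 13 ≤ n) {g : GL (Fin n) F}
    (hpt : ∀ u : V₀, H₀ u u = 0 → ∃ (c : F) (r : V₀), (g : Matrix (Fin n) (Fin n) F) *ᵥ e u = c • e r) :
    ∃ c : F, c ≠ 0 ∧ ∀ x, ∃ x', (g : Matrix (Fin n) (Fin n) F) *ᵥ e x = c • e x' := by
  obtain ⟨u₀, c0, -, c2⟩ := S.sing_notMem (Fin.elim0 : Fin 0 → V₀) (Fin.elim0 : Fin 0 → V₀) (by omega)
  have hu₀0 : u₀ ≠ 0 := S.ne_zero_of_notMem c2
  obtain ⟨c, r₀, hr₀⟩ := hpt u₀ c0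
  have hc : c ≠ 0 := by
    rintro rfl
    rw [zero_smul] at hr₀
    apply S.e_ne_zero hu₀0
    apply gl_mulVec_inj g
    rw [hr₀, Matrix.mulVec_zero]
  have hsing : ∀ u : V₀, H₀ u u = 0 → ∃ r : V₀, (g : Matrix (Fin n) (Fin n) F) *ᵥ e u = c • e r := by
    intro u hu
    by_cases hu0 : u = 0
    · exact ⟨0, by rw [hu0, S.e_zero]; simp⟩
    obtain ⟨da, hda⟩ := S.dual0 hu₀0
    obtain ⟨db, hdb⟩ := S.dual0 hu0
    obtain ⟨u₁, d0, d1, d2⟩ := S.sing_notMem ![u₀, u, da, db] ![u₀, u] (by omega)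
    have d10 : H₀ u₀ u₁ = 0 := d1 0
    have d11 : H₀ u u₁ = 0 := d1 1
    have d12 : H₀ da u₁ = 0 := d1 2
    have d13 : H₀ db u₁ = 0 := d1 3
    obtain ⟨dc, f1, f2⟩ := S.dual' ![u₀, u] u₁ d2
    have f10 : H₀ u₀ dc = 0 := f1 0
    have f11 : H₀ u dc = 0 := f1 1
    obtain ⟨c₁, r₁, hr₁⟩ := hpt u₁ d0
    obtain ⟨c₂, r₂, hr₂⟩ := hpt (u₀ + u₁) (by
      simp only [hermForm_add_left, hermForm_add_right S.hF₀, c0, d0, d10, S.symm₀ d10]; ring)
    obtain ⟨r₁', hr₁'⟩ := S.pair_scal_gl hda (S.symm₀ d12) f10 f2 hr₀ hr₁ hr₂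
    obtain ⟨c₃, r₃, hr₃⟩ := hpt u hu
    obtain ⟨c₄, r₄, hr₄⟩ := hpt (u₁ + u) (by
      simp only [hermForm_add_left, hermForm_add_right S.hF₀, hu, d0, d11, S.symm₀ d11]; ring)
    exact S.pair_scal_gl f2 f11 (S.symm₀ d13) hdb hr₁' hr₃ hr₄
  refine ⟨c, hc, fun x => ?_⟩
  obtain ⟨t₁, t₂, p1, p2, -, -, p5⟩ := S.sing_decomp (by omega) 0 x (herm_zero_right S.hq₀ _)
  obtain ⟨r₁, hr₁⟩ := hsing t₁ p1
  obtain ⟨r₂, hr₂⟩ := hsing t₂ p2
  exact ⟨r₁ + r₂, by rw [p5, S.e_add, Matrix.mulVec_add, hr₁, hr₂, S.e_add, smul_add]⟩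

/-- an element of `M` carrying one rational isotropic point to a rational point is rational -/
theorem rational_of_one (hn : 13 ≤ n) (hMU : M ≤ Cfsg.GU n F q)
    (hrat : ∀ (u a : V₀) (s : F₀), (s : F) + (s : F) ^ q + H (e a) (e a) = 0 → UE q M (e u) (e a) (s : F))
    (hstar : S.HStar M) {g : GL (Fin n) F} (hg : g ∈ M) {u₁ r₁ : V₀} {β : F} (hu₁ : H₀ u₁ u₁ = 0)
    (hu₁0 : u₁ ≠ 0) (h₁ : (g : Matrix (Fin n) (Fin n) F) *ᵥ e u₁ = β • e r₁) :
    ∃ c : F, c ≠ 0 ∧ ∀ x, ∃ x', (g : Matrix (Fin n) (Fin n) F) *ᵥ e x = c • e x' := by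
  apply S.rational_of_points hn
  intro u hu
  obtain ⟨u', a0, a1, a2⟩ := S.sing_notMem ![u₁, u] (Fin.elim0 : Fin 0 → V₀) (by omega)
  have a10 : H₀ u₁ u' = 0 := a1 0
  have a11 : H₀ u u' = 0 := a1 1
  obtain ⟨β', r', h'⟩ := S.rational_step hn hMU hrat hstar hg hu₁ hu₁0 h₁ a0 (S.symm₀ a10)
  exact S.rational_step hn hMU hrat hstar hg a0 (S.ne_zero_of_notMem a2) h' hu a11

end HRat

end Cfsg.Agent.Lib.Helper29
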