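import Mathlib
import Cfsg.Agent.Lib.Helper29.SuR3
import Cfsg.Agent.Lib.Helper29.Tame
import Cfsg.Agent.Lib.Helper29.SubfieldSp2

/-!
Unitary rational structures: every element of a proper overgroup of the rational group is rational.
-/

set_option autoImplicit false
set_option linter.unusedSectionVars false
set_option linter.unusedSimpArgs false

namespace Cfsg.Agent.Lib.Helper29

open Matrix Module
open Cfsg.Agent.H6 (add_pow_q pow_q_pow_q neg_pow_q sub_pow_q q_pos hermForm_add_left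
  hermForm_smul_left hermForm_smul_right hermForm_add_right hermForm_conj)

variable {F : Type*} [Field F] [Fintype F] {n q q₀ : ℕ} {F₀ : Subfield F} [Fintype F₀]

local notation "H" => Cfsg.hermForm n F q
local notation "H₀" => Cfsg.hermForm n F₀ q₀
local notation "Vn" => (Fin n → F)
local notation "V₀" => (Fin n → F₀)

variable {M : Subgroup (GL (Fin n) F)}

namespace HRat

variable {e : (Fin n → F₀) → (Fin n → F)} (S : HRat n q q₀ F₀ e)

include S

theorem forall_mem_of_e (A : Submodule F Vn) (x : GL (Fin n) F)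
    (h : ∀ s, (x : Matrix (Fin n) (Fin n) F) *ᵥ e s - e s ∈ A) (y : Vn) :
    (x : Matrix (Fin n) (Fin n) F) *ᵥ y - y ∈ A := by
  let N : Vn →ₗ[F] Vn := Matrix.toLin' (x : Matrix (Fin n) (Fin n) F) - LinearMap.id
  have htop : (⊤ : Submodule F Vn) ≤ A.comap N := by
    rw [← S.span, Submodule.span_le]
    rintro _ ⟨s, rfl⟩
    have := h s
    simpa [N] using this
  have h5 := htop (Submodule.mem_top : y ∈ ⊤)
  simpa [N] using h5

set_option maxHeartbeats 1600000 in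
theorem rational_of_mem (hn : 13 ≤ n) (hMU : M ≤ Cfsg.GU n F q)
    (hrat : ∀ (u a : V₀) (s : F₀), (s : F) + (s : F) ^ q + H (e a) (e a) = 0 → UE q M (e u) (e a) (s : F))
    (hstar : S.HStar M) {g : GL (Fin n) F} (hg : g ∈ M) :
    ∃ c : F, c ≠ 0 ∧ ∀ x, ∃ x', (g : Matrix (Fin n) (Fin n) F) *ᵥ e x = c • e x' := by
  obtain ⟨u₀, c0, -, c2⟩ := S.sing_notMem (Fin.elim0 : Fin 0 → V₀) (Fin.elim0 : Fin 0 → V₀) (by omega)
  have hu₀0 : u₀ ≠ 0 := S.ne_zero_of_notMem c2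
  set w := (g : Matrix (Fin n) (Fin n) F) *ᵥ e u₀ with hw
  by_cases hRD : ∃ (β : F) (r : V₀), w = β • e r
  · obtain ⟨β, r, h⟩ := hRD
    exact S.rational_of_one hn hMU hrat hstar hg c0 hu₀0 h
  exfalso
  push Not at hRD
  have hw0 : w ≠ 0 := fun h0 => hRD 0 0 (by rw [h0]; simp)
  obtain ⟨t₁, t₂, ht₂, hratio⟩ : ∃ t₁ t₂ : V₀, H w (e t₂) ≠ 0 ∧ H w (e t₁) / H w (e t₂) ∉ F₀ := by
    by_contra hcon
    push Not at hcon
    obtain ⟨t₂, ht₂⟩ : ∃ t₂, H w (e t₂) ≠ 0 := by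
      by_contra h
      push Not at h
      exact hw0 (S.eq_zero_of_perp h)
    obtain ⟨x, hx⟩ := S.rep (v := (H w (e t₂))⁻¹ • w) (fun t => by
      rw [hermForm_smul_left, mul_comm, ← div_eq_mul_inv]
      exact hcon t t₂ ht₂)
    apply hRD (H w (e t₂)) x
    rw [hx, smul_smul, mul_inv_cancel₀ ht₂, one_smul]
  obtain ⟨a₁, p1, k1, k1'⟩ := S.sing_notMem ![t₁, t₂] (Fin.elim0 : Fin 0 → V₀) (by omega)
  have ha₁0 : a₁ ≠ 0 := S.ne_zero_of_notMem k1'
  have k10 : H₀ t₁ a₁ = 0 := k1 0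
  have k11 : H₀ t₂ a₁ = 0 := k1 1
  obtain ⟨a₂, p2, k2, k2'⟩ := S.sing_notMem ![t₁, t₂, a₁] ![a₁] (by omega)
  have k20 : H₀ t₁ a₂ = 0 := k2 0
  have k21 : H₀ t₂ a₂ = 0 := k2 1
  have k22 : H₀ a₁ a₂ = 0 := k2 2
  obtain ⟨d₂, l1, l2⟩ := S.dual' ![a₁] a₂ k2'
  have l10 : H₀ a₁ d₂ = 0 := l1 0
  obtain ⟨f₁, hf₁⟩ := S.dual0 ha₁0
  obtain ⟨l, -, m1, m2⟩ := S.sing_notMem ![t₁, t₂] ![a₁, a₂] (by omega)
  have m10 : H₀ t₁ l = 0 := m1 0
  have m11 : H₀ t₂ l = 0 := m1 1
  obtain ⟨d, n1, n2⟩ := S.dual' ![a₁, a₂] l m2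
  have n10 : H₀ a₁ d = 0 := n1 0
  have n11 : H₀ a₂ d = 0 := n1 1
  obtain ⟨θ₀, hθ0, hθ⟩ := S.exists_c₀
  have hθ0' : (θ₀ : F) ≠ 0 := fun h0 => hθ0 (by exact_mod_cast h0)
  obtain ⟨p, hp⟩ := CharP.exists F
  have hpp : Fact p.Prime := ⟨CharP.char_is_prime F p⟩
  set A : Submodule F Vn := Submodule.span F {e a₁, e a₂} with hA
  set U : Submodule F Vn := Submodule.span F {e a₁, e a₂, w} with hU
  have haA : e a₁ ∈ A := Submodule.subset_span (by simp)
  have hbA : e a₂ ∈ A := Submodule.subset_span (by simp)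
  have tiA : ∀ u ∈ A, ∀ u' ∈ A, H u u' = 0 := by
    intro u hu u' hu'
    obtain ⟨α, β, rfl⟩ := Submodule.mem_span_pair.mp hu
    obtain ⟨α', β', rfl⟩ := Submodule.mem_span_pair.mp hu'
    simp only [hermForm_add_left, hermForm_add_right S.hF, hermForm_smul_left, hermForm_smul_right,
      S.H_e_zero p1, S.H_e_zero p2, S.H_e_zero k22, S.H_e_zero (S.symm₀ k22)]
    ring
  have hAperp : ∀ (t : V₀), H₀ a₁ t = 0 → H₀ a₂ t = 0 → ∀ u ∈ A, H u (e t) = 0 := by
    intro t h1 h2 u hu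
    obtain ⟨α, β, rfl⟩ := Submodule.mem_span_pair.mp hu
    rw [hermForm_add_left, hermForm_smul_left, hermForm_smul_left, S.H_e_zero h1, S.H_e_zero h2]; ring
  have hAU : A ≤ U := Submodule.span_mono (by
    intro v hv
    simp only [Set.mem_insert_iff, Set.mem_singleton_iff] at hv ⊢
    tauto)
  have hEL : resid M A ≤ resid M U := by
    rintro x ⟨hx, hx'⟩
    exact ⟨hx, fun y => hAU (hx' y)⟩
  have fixA : ∀ a ∈ resid M A, ∀ u ∈ A, (a : Matrix (Fin n) (Fin n) F) *ᵥ u = u := by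
    intro a ha u hu
    by_contra hcon
    obtain ⟨z, hz⟩ := exists_herm_ne_zero (q := q) S.hF (sub_ne_zero.mpr hcon)
    apply herm_ne_zero_symm S.hF hz
    have h1 := gl_mulVec_inv a z
    set y := ((a⁻¹ : GL (Fin n) F) : Matrix (Fin n) (Fin n) F) *ᵥ z
    rw [← h1, herm_sub_left, (mem_GU_iff a).mp (hMU ha.1) u y]
    have h2 := tiA u hu _ (ha.2 y)
    rw [herm_sub_right S.hF] at h2
    linear_combination -h2
  have ratio : ∀ B₁ c' : F, c' ≠ 0 → c' * (B₁ * H w (e t₁)) ∈ F₀ → c' * (B₁ * H w (e t₂)) ∈ F₀ → B₁ = 0 := by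
    intro B₁ c' hc' h1 h2
    by_contra hB
    apply hratio
    have : H w (e t₁) / H w (e t₂) = (c' * (B₁ * H w (e t₁))) / (c' * (B₁ * H w (e t₂))) := by
      field_simp
    rw [this]
    exact F₀.div_mem h1 h2
  have utvE : ∀ (u₁ : V₀) (hu₁ : H₀ u₁ u₁ = 0), e u₁ ∈ A → utv q (e u₁) (θ₀ : F) (S.H_e_zero hu₁) ∈ resid M A := by
    intro u₁ hu₁ huA
    refine ⟨S.rat_utv hrat hθ hu₁, fun y => ?_⟩
    rw [utv_mulVec, add_sub_cancel_left]
    exact A.smul_mem _ huA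
  have key : resid M U ≤ resid M A := by
    apply tame p _ _ hEL
    · intro a ha
      apply gl_ext
      intro y
      rw [gl_pow_of_fix a (fun y => fixA a ha _ (ha.2 y)), CharP.cast_eq_zero F p]
      simp
    · intro a ha b hb
      apply gl_ext
      intro y
      rw [gl_mul_mulVec, gl_mul_mulVec]
      have h1 := fixA a ha _ (hb.2 y)
      have h2 := fixA b hb _ (ha.2 y)
      rw [Matrix.mulVec_sub] at h1 h2
      have h3 : (a : Matrix (Fin n) (Fin n) F) *ᵥ ((b : Matrix (Fin n) (Fin n) F) *ᵥ y) =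
          (b : Matrix (Fin n) (Fin n) F) *ᵥ y - y + (a : Matrix (Fin n) (Fin n) F) *ᵥ y := by
        rw [← h1]; abel
      have h4 : (b : Matrix (Fin n) (Fin n) F) *ᵥ ((a : Matrix (Fin n) (Fin n) F) *ᵥ y) =
          (a : Matrix (Fin n) (Fin n) F) *ᵥ y - y + (b : Matrix (Fin n) (Fin n) F) *ᵥ y := by
        rw [← h2]; abel
      rw [h3, h4]; abel
    · refine ⟨_, utvE a₁ p1 haA, _, utvE a₂ p2 hbA, ?_, ?_⟩
      · intro h1
        have h2 := congrArg (fun z : GL (Fin n) F => (z : Matrix (Fin n) (Fin n) F) *ᵥ (e f₁)) h1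
        simp only [utv_mulVec, S.H_e_one (S.symm₁ hf₁), Units.val_one, Matrix.one_mulVec, mul_one] at h2
        have h3 : (θ₀ : F) • e a₁ = 0 := by
          have : e f₁ + (θ₀ : F) • e a₁ = e f₁ + 0 := by rw [h2, add_zero]
          exact add_left_cancel this
        exact (smul_ne_zero hθ0' (S.e_ne_zero ha₁0)) h3
      · intro hmem
        obtain ⟨z, hz⟩ := Subgroup.mem_zpowers_iff.mp hmem
        have h1 := gl_zpow_fix (utv q (e a₁) (θ₀ : F) (S.H_e_zero p1)) (e d₂)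
          (by rw [utv_mulVec, S.H_e_zero (S.symm₀ l10)]; simp) z
        rw [hz, utv_mulVec, S.H_e_one (S.symm₁ l2), mul_one] at h1
        have h3 : (θ₀ : F) • e a₂ = 0 := by
          have : e d₂ + (θ₀ : F) • e a₂ = e d₂ + 0 := by rw [h1, add_zero]
          exact add_left_cancel this
        exact (smul_ne_zero hθ0' (S.e_ne_zero (S.ne_zero_of_notMem k2'))) h3
    · intro x hx a ha ha1 hxa
      obtain ⟨ca, hca0, hca⟩ := S.rational_of_one hn hMU hrat hstar ha.1 p1 ha₁0 (β := 1) (r₁ := a₁)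
        (by rw [fixA a ha _ haA, one_smul])
      have hcaF : ca ∈ F₀ := by
        obtain ⟨x₁, hx₁⟩ := hca a₁
        rw [fixA a ha _ haA] at hx₁
        exact S.coeff_mem ha₁0 hx₁.symm
      obtain ⟨s, hs⟩ : ∃ s : V₀, (a : Matrix (Fin n) (Fin n) F) *ᵥ e s ≠ e s := by
        by_contra hcon
        push Not at hcon
        apply ha1
        apply gl_ext
        intro y
        have h1 := S.forall_mem_of_e ⊥ a (fun s => by rw [hcon s, sub_self]; exact Submodule.zero_mem _) y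
        rw [Submodule.mem_bot, sub_eq_zero] at h1
        rw [h1, Units.val_one, Matrix.one_mulVec]
      obtain ⟨s', hs'⟩ := hca s
      set us : V₀ := (⟨ca, hcaF⟩ : F₀) • s' - s with husdef
      have hus : e us = (a : Matrix (Fin n) (Fin n) F) *ᵥ e s - e s := by
        rw [husdef, S.e_sub, S.e_smul, hs']
      have hus0 : us ≠ 0 := by
        intro h0
        rw [h0, S.e_zero] at hus
        exact hs (sub_eq_zero.mp hus.symm)
      have husA : e us ∈ A := by rw [hus]; exact ha.2 _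
      have husi : H₀ us us = 0 := S.H₀_zero_of (tiA _ husA _ husA)
      have hxu : (x : Matrix (Fin n) (Fin n) F) *ᵥ e us ∈ A := by
        have h1 := hxa.2 ((x : Matrix (Fin n) (Fin n) F) *ᵥ e s)
        rw [gl_mul_mulVec, gl_mul_mulVec, gl_inv_mulVec, ← Matrix.mulVec_sub, ← hus] at h1
        exact h1
      have hy : H ((x : Matrix (Fin n) (Fin n) F) *ᵥ e us) ((x : Matrix (Fin n) (Fin n) F) *ᵥ e us) = 0 :=
        tiA _ hxu _ hxu
      have hmem : utv q ((x : Matrix (Fin n) (Fin n) F) *ᵥ e us) (θ₀ : F) hy ∈ M := by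
        rw [← conj_utv (hMU hx.1) (e us) _ (S.H_e_zero husi) hy]
        exact M.mul_mem (M.mul_mem hx.1 (S.rat_utv hrat hθ husi)) (M.inv_mem hx.1)
      obtain ⟨μ, r, hμr⟩ := S.RD_of_utv hn hMU hrat hstar hy hθ0' hmem p1 ha₁0 (tiA _ hxu _ haA)
      obtain ⟨c, hc0, hc⟩ := S.rational_of_one hn hMU hrat hstar hx.1 husi hus0 hμr
      have dec : ∀ y, ∃ A₁ A₂ B₁ : F, (x : Matrix (Fin n) (Fin n) F) *ᵥ y - y
          = A₁ • e a₁ + A₂ • e a₂ + B₁ • w := fun y => by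
        obtain ⟨A₁, A₂, B₁, h⟩ := Submodule.mem_span_triple.mp (hx.2 y)
        exact ⟨A₁, A₂, B₁, h.symm⟩
      have pair : ∀ (y : Vn) (A₁ A₂ B₁ : F) (t : V₀), H₀ a₁ t = 0 → H₀ a₂ t = 0 →
          (x : Matrix (Fin n) (Fin n) F) *ᵥ y - y = A₁ • e a₁ + A₂ • e a₂ + B₁ • w →
          H ((x : Matrix (Fin n) (Fin n) F) *ᵥ y) (e t) - H y (e t) = B₁ * H w (e t) := by
        intro y A₁ A₂ B₁ t h1 h2 h
        rw [← herm_sub_left, h, hermForm_add_left, hermForm_add_left, hermForm_smul_left, hermForm_smul_left,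
          hermForm_smul_left, S.H_e_zero h1, S.H_e_zero h2]
        ring
      have hcF : c ∈ F₀ := by
        obtain ⟨l', hl'⟩ := hc l
        obtain ⟨A₁, A₂, B₁, hAB⟩ := dec (e l)
        have hB : B₁ = 0 := by
          apply ratio B₁ c⁻¹ (inv_ne_zero hc0)
          · rw [← pair _ A₁ A₂ B₁ t₁ (S.symm₀ k10) (S.symm₀ k20) hAB, hl', hermForm_smul_left,
              S.H_e_zero (S.symm₀ m10), sub_zero, inv_mul_cancel_left₀ hc0]
            exact S.H_e_mem _ _
          · rw [← pair _ A₁ A₂ B₁ t₂ (S.symm₀ k11) (S.symm₀ k21) hAB, hl', hermForm_smul_left,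
              S.H_e_zero (S.symm₀ m11), sub_zero, inv_mul_cancel_left₀ hc0]
            exact S.H_e_mem _ _
        have h3 := pair _ A₁ A₂ B₁ d n10 n11 hAB
        rw [hB, zero_mul, hl', hermForm_smul_left, S.H_e_one n2, S.H_e] at h3
        have hne : ((H₀ l' d : F₀) : F) ≠ 0 := by
          intro h0
          rw [h0, mul_zero] at h3
          exact one_ne_zero (by linear_combination -h3)
        have : c = 1 / ((H₀ l' d : F₀) : F) := by
          field_simp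
          linear_combination h3
        rw [this]
        exact F₀.div_mem F₀.one_mem (Subtype.mem _)
      refine ⟨hx.1, S.forall_mem_of_e A x (fun s => ?_)⟩
      obtain ⟨s', hs'⟩ := hc s
      obtain ⟨A₁, A₂, B₁, hAB⟩ := dec (e s)
      have hB : B₁ = 0 := by
        apply ratio B₁ 1 one_ne_zero
        · rw [one_mul, ← pair _ A₁ A₂ B₁ t₁ (S.symm₀ k10) (S.symm₀ k20) hAB, hs', hermForm_smul_left]
          exact F₀.sub_mem (F₀.mul_mem hcF (S.H_e_mem _ _)) (S.H_e_mem _ _)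
        · rw [one_mul, ← pair _ A₁ A₂ B₁ t₂ (S.symm₀ k11) (S.symm₀ k21) hAB, hs', hermForm_smul_left]
          exact F₀.sub_mem (F₀.mul_mem hcF (S.H_e_mem _ _)) (S.H_e_mem _ _)
      rw [hAB, hB, zero_smul, add_zero]
      exact A.add_mem (A.smul_mem _ haA) (A.smul_mem _ hbA)
  have hww : H w w = 0 := by
    rw [hw, (mem_GU_iff g).mp (hMU hg)]; exact S.H_e_zero c0
  have hy : utv q w (θ₀ : F) hww ∈ resid M U := by
    refine ⟨?_, fun y => ?_⟩
    · rw [← conj_utv (hMU hg) (e u₀) _ (S.H_e_zero c0) hww]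
      exact M.mul_mem (M.mul_mem hg (S.rat_utv hrat hθ c0)) (M.inv_mem hg)
    · rw [utv_mulVec, add_sub_cancel_left]
      exact U.smul_mem _ (Submodule.subset_span (by simp))
  obtain ⟨z, hz⟩ := exists_herm_ne_zero (q := q) S.hF hw0
  have h2 := (key hy).2 z
  rw [utv_mulVec, add_sub_cancel_left] at h2
  have hne : (θ₀ : F) * H z w ≠ 0 := mul_ne_zero hθ0' hz
  have h3 := A.smul_mem ((θ₀ : F) * H z w)⁻¹ h2
  rw [smul_smul, inv_mul_cancel₀ hne, one_smul] at h3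
  exact ht₂ (hAperp t₂ (S.symm₀ k11) (S.symm₀ k21) w h3)

/-- the main theorem on unitary rational structures -/
theorem su_le (hn : 13 ≤ n) (hMU : M ≤ Cfsg.GU n F q)
    (hrat : ∀ (u a : V₀) (s : F₀), (s : F) + (s : F) ^ q + H (e a) (e a) = 0 → UE q M (e u) (e a) (s : F))
    {g : GL (Fin n) F} (hg : g ∈ M)
    (hgn : ¬ ∃ c : F, c ≠ 0 ∧ ∀ x, ∃ x', (g : Matrix (Fin n) (Fin n) F) *ᵥ e x = c • e x') :
    Cfsg.GU n F q ⊓ Cfsg.Geo.specialLinear (Fin n) F ≤ M := by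
  by_cases hstar : S.HStar M
  · exact absurd (S.rational_of_mem hn hMU hrat hstar hg) hgn
  · exact S.su_le_of_not_star hn hMU hrat hstar

end HRat

end Cfsg.Agent.Lib.Helper29
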