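import Mathlib
import Cfsg.Prelude.Def_GeometricClasses
import Cfsg.Agent.Lib.Helper29.SuBasic
import Cfsg.Agent.H5.Herm

/-!
Reduction of a general unitary form (`Cfsg.Geo.IsUnitaryForm σ f`) over a finite field to the
standard form `Cfsg.hermForm n F q`.
-/

set_option autoImplicit false
set_option linter.unusedSimpArgs false

namespace Cfsg.Agent.Lib.Helper29

open Matrix Module Polynomial

theorem exists_q_of_involution {F : Type*} [Field F] [Fintype F] (σ : F ≃+* F)
    (hne : σ ≠ RingEquiv.refl F) (hinv : ∀ a, σ (σ a) = a) :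
    ∃ q : ℕ, Fintype.card F = q ^ 2 ∧ ∀ a, σ a = a ^ q := by
  classical
  let K : Subfield F := RingHom.eqLocusField (σ : F →+* F) (RingHom.id F)
  have hK : ∀ x, x ∈ K ↔ σ x = x := fun x => Iff.rfl
  obtain ⟨p, hp⟩ := CharP.exists F
  have hpK : CharP K p := RingHom.charP (algebraMap K F) (algebraMap K F).injective p
  obtain ⟨k, hpp, hq⟩ := FiniteField.card K p
  have : Fact p.Prime := ⟨hpp⟩
  set q := Fintype.card K with hqdef
  have hq1 : 1 < q := Fintype.one_lt_card
  have hKpow : ∀ x, σ x = x → x ^ q = x := by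
    intro x hx
    have := FiniteField.pow_card (⟨x, (hK x).mpr hx⟩ : K)
    exact congrArg Subtype.val this
  have hadd : ∀ a b : F, (a + b) ^ q = a ^ q + b ^ q := by
    intro a b; rw [hq]; exact add_pow_char_pow a b p k
  have hsub : ∀ a b : F, (a - b) ^ q = a ^ q - b ^ q := by
    intro a b; rw [hq]; exact sub_pow_char_pow a b k
  -- roots of X^q - X
  have hroots : ∀ x : F, x ^ q = x → σ x = x := by
    intro x hx
    let R : Finset F := ((X ^ q - X : F[X]).roots).toFinset
    have hne0 : (X ^ q - X : F[X]) ≠ 0 := FiniteField.X_pow_card_sub_X_ne_zero F hq1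
    have hRcard : R.card ≤ q := by
      calc R.card ≤ Multiset.card (X ^ q - X : F[X]).roots := Multiset.toFinset_card_le _
        _ ≤ (X ^ q - X : F[X]).natDegree := Polynomial.card_roots' _
        _ = q := FiniteField.X_pow_card_sub_X_natDegree_eq F hq1
    have hmemR : ∀ y : F, y ∈ R ↔ y ^ q = y := by
      intro y
      rw [Multiset.mem_toFinset, Polynomial.mem_roots hne0, Polynomial.IsRoot.def]
      simp [sub_eq_zero]
    let I : Finset F := Finset.univ.image (fun y : K => (y : F))
    have hIcard : I.card = q := by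
      rw [Finset.card_image_of_injective _ Subtype.val_injective, Finset.card_univ]
    have hIR : I ⊆ R := by
      intro y hy
      obtain ⟨z, -, rfl⟩ := Finset.mem_image.mp hy
      exact (hmemR _).mpr (hKpow _ ((hK _).mp z.2))
    have hEq : I = R := Finset.eq_of_subset_of_card_le hIR (by rw [hIcard]; exact hRcard)
    have : x ∈ I := by rw [hEq]; exact (hmemR x).mpr hx
    obtain ⟨z, -, rfl⟩ := Finset.mem_image.mp this
    exact (hK _).mp z.2
  have hσ : ∀ a, σ a = a ^ q := by
    intro x
    by_cases hx : σ x = x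
    · rw [hx, hKpow x hx]
    · have ht : (x + σ x) ^ q = x + σ x := hKpow _ (by rw [map_add, hinv, add_comm])
      have hm : (x * σ x) ^ q = x * σ x := hKpow _ (by rw [map_mul, hinv, mul_comm])
      have h0 : x * x - (x + σ x) * x + x * σ x = 0 := by ring
      have h1 : (x * x - (x + σ x) * x + x * σ x) ^ q = 0 := by
        rw [h0, zero_pow (by omega)]
      rw [hadd, hsub, mul_pow, mul_pow, ht, hm] at h1
      have h2 : (x ^ q - x) * (x ^ q - σ x) = 0 := by linear_combination h1
      rcases mul_eq_zero.mp h2 with h | h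
      · exact absurd (hroots x (sub_eq_zero.mp h)) hx
      · exact (sub_eq_zero.mp h).symm
  refine ⟨q, ?_, hσ⟩
  have hle : Fintype.card F ≤ q ^ 2 := by
    have hq2 : 1 < q ^ 2 := by nlinarith
    have hne0 : (X ^ (q ^ 2) - X : F[X]) ≠ 0 := FiniteField.X_pow_card_sub_X_ne_zero F hq2
    calc Fintype.card F = (Finset.univ : Finset F).card := rfl
      _ ≤ ((X ^ (q ^ 2) - X : F[X]).roots).toFinset.card := by
          apply Finset.card_le_card
          intro y _
          rw [Multiset.mem_toFinset, Polynomial.mem_roots hne0, Polynomial.IsRoot.def]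
          have : y ^ (q ^ 2) = y := by
            rw [pow_two, pow_mul, ← hσ, ← hσ, hinv]
          simp [this]
      _ ≤ Multiset.card (X ^ (q ^ 2) - X : F[X]).roots := Multiset.toFinset_card_le _
      _ ≤ (X ^ (q ^ 2) - X : F[X]).natDegree := Polynomial.card_roots' _
      _ = q ^ 2 := FiniteField.X_pow_card_sub_X_natDegree_eq F hq2
  have hcard : Fintype.card F = q ^ Module.finrank K F := by
    have := Module.card_eq_pow_finrank (K := K) (V := F)
    simpa [Nat.card_eq_fintype_card] using this
  have hlt : q < Fintype.card F := by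
    obtain ⟨x, hx⟩ : ∃ x, σ x ≠ x := by
      by_contra hcon
      push Not at hcon
      exact hne (RingEquiv.ext hcon)
    rw [hqdef]
    apply Fintype.card_lt_of_injective_of_notMem (fun y : K => (y : F)) Subtype.val_injective
      (b := x)
    rintro ⟨y, rfl⟩
    exact hx ((hK _).mp y.2)
  have hd : 2 ≤ Module.finrank K F := by
    by_contra hcon
    push Not at hcon
    rw [hcard] at hlt
    have : q ^ Module.finrank K F ≤ q ^ 1 := Nat.pow_le_pow_right (by omega) (by omega)
    rw [pow_one] at this
    exact absurd hlt (not_lt.mpr this)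
  apply le_antisymm hle
  rw [hcard]
  exact Nat.pow_le_pow_right (by omega) hd

theorem exists_gl_herm {F : Type*} [Field F] [Fintype F] {n q : ℕ} (hq : q ≠ 0) (σ : F ≃+* F)
    (f : (Fin n → F) → (Fin n → F) → F) (hf : Cfsg.Geo.IsUnitaryForm σ f)
    (hσq : ∀ a, σ a = a ^ q) :
    ∃ g₀ : GL (Fin n) F, ∀ x y, f ((g₀ : Matrix (Fin n) (Fin n) F) *ᵥ x)
      ((g₀ : Matrix (Fin n) (Fin n) F) *ᵥ y) = Cfsg.hermForm n F q x y := by
  let σ' : F →+* F := σ
  have hσ' : σ' ≠ RingHom.id F := by
    intro h
    apply hf.ne_refl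
    ext a
    exact congrFun (congrArg DFunLike.coe h) a
  have hadd_r : ∀ x y y', f x (y + y') = f x y + f x y' := by
    intro x y y'
    rw [hf.herm, hf.add_left, map_add, ← hf.herm, ← hf.herm]
  have hsmul_r : ∀ (c : F) x y, f x (c • y) = σ c * f x y := by
    intro c x y
    rw [hf.herm, hf.smul_left, map_mul, ← hf.herm]
  let B : (Fin n → F) →ₛₗ[σ'] (Fin n → F) →ₗ[F] F :=
    LinearMap.mk₂'ₛₗ σ' (RingHom.id F) (fun y x => f x y)
      (fun y y' x => hadd_r x y y') (fun c y x => hsmul_r c x y)
      (fun y x x' => hf.add_left x x' y) (fun c y x => hf.smul_left c x y)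
  have hB : ∀ y x, B y x = f x y := fun y x => rfl
  have hS : B.IsSymm := by
    rw [LinearMap.isSymm_def]
    intro x y
    rw [hB, hB]
    exact (hf.herm x y).symm
  have hsep : ∀ x, (∀ y, B x y = 0) → x = 0 := by
    intro x hx
    by_contra hne
    obtain ⟨⟨y, hy⟩, -⟩ := hf.nondegenerate x hne
    exact hy (hx y)
  obtain ⟨b, hb⟩ := Cfsg.Agent.H5Herm.exists_orthonormal σ' hσ' hf.involutive n (Fin n → F) B hS hsep
    (by simp)
  let L : (Fin n → F) →ₗ[F] (Fin n → F) := Fintype.linearCombination F b
  have hL : ∀ x, L x = ∑ i, x i • b i := fun x => Fintype.linearCombination_apply F b x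
  have key : ∀ x y, f (L x) (L y) = Cfsg.hermForm n F q x y := by
    intro x y
    rw [← hB, hL, hL]
    simp only [map_sum, LinearMap.sum_apply, map_smulₛₗ, LinearMap.smul_apply, hb, smul_eq_mul,
      RingHom.id_apply]
    unfold Cfsg.hermForm
    simp only [mul_ite, mul_one, mul_zero, Finset.sum_ite_eq, Finset.sum_ite_eq', Finset.mem_univ,
      if_true]
    apply Finset.sum_congr rfl
    intro i _
    have : σ' (y i) = (y i) ^ q := hσq _
    rw [this, mul_comm]
  have hinj : Function.Injective L := by
    rw [← LinearMap.ker_eq_bot, LinearMap.ker_eq_bot']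
    intro x hx
    funext i
    have h1 := key x (Pi.single i 1)
    rw [hx] at h1
    have h0 : f 0 (L (Pi.single i 1)) = 0 := by
      have := hf.smul_left 0 0 (L (Pi.single i 1))
      simpa using this
    rw [h0, Cfsg.Agent.H6.hermForm_single_right hq] at h1
    simpa using h1.symm
  refine ⟨ofLE (LinearEquiv.ofInjectiveEndo L hinj), fun x y => ?_⟩
  rw [ofLE_mulVec, ofLE_mulVec]
  exact key x y

end Cfsg.Agent.Lib.Helper29
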