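import Mathlib
import Cfsg.Agent.Lib.Helper29.SuR4
import Cfsg.Agent.Lib.Helper29.UnitaryStd

/-!
Unitary rational structures: construction from a matrix `P`.
-/

set_option autoImplicit false
set_option linter.unusedSectionVars false
set_option linter.unusedSimpArgs false

namespace Cfsg.Agent.Lib.Helper29

open Matrix Module
open Cfsg.Agent.H6 (add_pow_q pow_q_pow_q neg_pow_q sub_pow_q q_pos hermForm_add_left
  hermForm_smul_left hermForm_smul_right hermForm_add_right hermForm_conj)

variable {F : Type*} [Field F] [Fintype F] {n q : ℕ} {F₀ : Subfield F} [Fintype F₀]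

local notation "H" => Cfsg.hermForm n F q
local notation "Vn" => (Fin n → F)
local notation "V₀" => (Fin n → F₀)

/-- a subfield of odd prime index is not fixed by the involution -/
theorem exists_mem_pow_q_ne (hF : Fintype.card F = q ^ 2) (hprime : (finrank F₀ F).Prime)
    (h2 : finrank F₀ F ≠ 2) : ∃ a ∈ F₀, a ^ q ≠ a := by
  by_contra hcon
  push Not at hcon
  obtain ⟨θ, hθ⟩ := exists_pow_q_ne hF
  let K : Subalgebra F₀ F :=
    { carrier := {x | x ^ q = x}
      mul_mem' := by
        intro a b ha hb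
        show (a * b) ^ q = a * b
        rw [mul_pow, ha, hb]
      add_mem' := by
        intro a b ha hb
        show (a + b) ^ q = a + b
        rw [add_pow_q hF, ha, hb]
      algebraMap_mem' := fun r => hcon _ r.2 }
  have hs := Subalgebra.isSimpleOrder_of_finrank_prime F₀ F hprime
  have hfix : ∀ x : F, x ^ q = x → x ∈ F₀ := by
    intro x hx
    rcases hs.eq_bot_or_eq_top K with h | h
    · have hxK : x ∈ K := hx
      rw [h, Algebra.mem_bot] at hxK
      obtain ⟨r, hr⟩ := hxK
      rw [← hr]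
      exact r.2
    · exfalso
      have : θ ∈ K := by rw [h]; exact Algebra.mem_top
      exact hθ this
  let φ : F → F₀ × F₀ := fun x =>
    (⟨x + x ^ q, hfix _ (by rw [add_pow_q hF, pow_q_pow_q hF, add_comm])⟩,
     ⟨θ * x + (θ * x) ^ q, hfix _ (by rw [add_pow_q hF, pow_q_pow_q hF, add_comm])⟩)
  have hinj : Function.Injective φ := by
    intro x y hxy
    have h1 : x + x ^ q = y + y ^ q := congrArg (fun p : F₀ × F₀ => (p.1 : F)) hxy
    have h3 : θ * x + (θ * x) ^ q = θ * y + (θ * y) ^ q := congrArg (fun p : F₀ × F₀ => (p.2 : F)) hxy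
    rw [mul_pow, mul_pow] at h3
    have h4 : (θ ^ q - θ) * (x - y) = 0 := by linear_combination θ ^ q * h1 - h3
    exact sub_eq_zero.mp ((mul_eq_zero.mp h4).resolve_left (sub_ne_zero.mpr hθ))
  have hle := Fintype.card_le_of_injective φ hinj
  rw [Fintype.card_prod] at hle
  have hcard : Fintype.card F = Fintype.card F₀ ^ finrank F₀ F := by
    have := Module.card_eq_pow_finrank (K := F₀) (V := F)
    simpa [Nat.card_eq_fintype_card] using this
  have h3 : 3 ≤ finrank F₀ F := by
    have := hprime.two_le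
    omega
  have hN : 2 ≤ Fintype.card F₀ := Fintype.one_lt_card
  have h5 : Fintype.card F₀ ^ 3 ≤ Fintype.card F₀ ^ finrank F₀ F := Nat.pow_le_pow_right (by omega) h3
  rw [← hcard] at h5
  have h6 : Fintype.card F₀ ^ 3 = Fintype.card F₀ * Fintype.card F₀ * Fintype.card F₀ := by ring
  nlinarith

/-- the restriction of the involution to `F₀` -/
def conjEquiv (hF : Fintype.card F = q ^ 2) (F₀ : Subfield F) : F₀ ≃+* F₀ where
  toFun a := ⟨(a : F) ^ q, F₀.pow_mem a.2 q⟩
  invFun a := ⟨(a : F) ^ q, F₀.pow_mem a.2 q⟩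
  left_inv a := Subtype.ext (pow_q_pow_q hF _)
  right_inv a := Subtype.ext (pow_q_pow_q hF _)
  map_mul' a b := Subtype.ext (mul_pow _ _ _)
  map_add' a b := Subtype.ext (add_pow_q hF _ _)

theorem exists_hRat (hF : Fintype.card F = q ^ 2) (hprime : (finrank F₀ F).Prime)
    (h2 : finrank F₀ F ≠ 2) (P : GL (Fin n) F)
    (hP : ∀ x y : V₀, H (ratEmb F₀ P x) (ratEmb F₀ P y) ∈ F₀) :
    ∃ (q₀ : ℕ) (g₀ : GL (Fin n) F₀),
      HRat n q q₀ F₀ (fun x => ratEmb F₀ P ((g₀ : Matrix (Fin n) (Fin n) F₀) *ᵥ x)) := by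
  have hq : q ≠ 0 := by have := q_pos hF; omega
  set σ₀ := conjEquiv hF F₀ with hσ₀
  have hσc : ∀ a : F₀, ((σ₀ a : F₀) : F) = (a : F) ^ q := fun a => rfl
  have hne : σ₀ ≠ RingEquiv.refl F₀ := by
    intro h
    obtain ⟨a, ha, hne⟩ := exists_mem_pow_q_ne hF hprime h2
    apply hne
    have := congrArg (fun τ : F₀ ≃+* F₀ => ((τ ⟨a, ha⟩ : F₀) : F)) h
    exact this
  have hinv : ∀ a, σ₀ (σ₀ a) = a := fun a => Subtype.ext (pow_q_pow_q hF _)
  obtain ⟨q₀, hF₀, hσq⟩ := exists_q_of_involution σ₀ hne hinv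
  have hq₀ : q₀ ≠ 0 := by have := q_pos hF₀; omega
  let f₀ : V₀ → V₀ → F₀ := fun x y => ⟨H (ratEmb F₀ P x) (ratEmb F₀ P y), hP x y⟩
  have hnd : ∀ v : V₀, v ≠ 0 → ∃ x, f₀ x v ≠ 0 := by
    intro v hv
    by_contra hcon
    push Not at hcon
    have hv' : ratEmb F₀ P v ≠ 0 := fun h => hv (ratEmb_eq_zero P h)
    obtain ⟨z, hz⟩ := exists_herm_ne_zero (q := q) hF hv'
    apply hz
    have hzs : z ∈ Submodule.span F (Set.range (ratEmb F₀ P)) := by rw [span_ratEmb]; trivial
    induction hzs using Submodule.span_induction with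
    | mem x hx =>
      obtain ⟨x, rfl⟩ := hx
      exact congrArg Subtype.val (hcon x)
    | zero => exact herm_zero_left hq _
    | add x y _ _ hx hy =>
      by_cases h1 : H x (ratEmb F₀ P v) = 0
      · by_cases h3 : H y (ratEmb F₀ P v) = 0
        · rw [hermForm_add_left, h1, h3, add_zero]
        · exact absurd (hy h3) h3
      · exact absurd (hx h1) h1
    | smul c x _ hx =>
      by_cases h1 : H x (ratEmb F₀ P v) = 0
      · rw [hermForm_smul_left, h1, mul_zero]
      · exact absurd (hx h1) h1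
  have hherm : ∀ v w, f₀ v w = σ₀ (f₀ w v) := by
    intro v w
    apply Subtype.ext
    rw [hσc]
    exact (hermForm_conj hF _ _).symm
  have hf : Cfsg.Geo.IsUnitaryForm σ₀ f₀ :=
    { ne_refl := hne
      involutive := hinv
      add_left := fun x y v => Subtype.ext (by
        show H (ratEmb F₀ P (x + y)) _ = H _ _ + H _ _
        rw [ratEmb_add, hermForm_add_left])
      smul_left := fun c x v => Subtype.ext (by
        show H (ratEmb F₀ P (c • x)) _ = c * H _ _
        rw [ratEmb_smul, hermForm_smul_left])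
      herm := hherm
      nondegenerate := fun v hv => by
        obtain ⟨x, hx⟩ := hnd v hv
        refine ⟨⟨x, hx⟩, ⟨x, fun h => hx ?_⟩⟩
        rw [hherm, h, map_zero] }
  obtain ⟨g₀, hg₀⟩ := exists_gl_herm hq₀ σ₀ f₀ hf hσq
  refine ⟨q₀, g₀, ?_⟩
  exact
    { hF := hF
      hF₀ := hF₀
      e_add := fun x y => by rw [Matrix.mulVec_add, ratEmb_add]
      e_smul := fun c x => by rw [Matrix.mulVec_smul, ratEmb_smul]
      H_e := fun x y => congrArg Subtype.val (hg₀ x y)
      span := by
        rw [eq_top_iff, ← span_ratEmb (F₀ := F₀) P]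
        apply Submodule.span_mono
        rintro _ ⟨x, rfl⟩
        exact ⟨((g₀⁻¹ : GL (Fin n) F₀) : Matrix (Fin n) (Fin n) F₀) *ᵥ x, by
          show ratEmb F₀ P _ = _
          rw [gl_mulVec_inv]⟩
      conj := fun a => by rw [← hσq, hσc]
      prime := hprime }

end Cfsg.Agent.Lib.Helper29
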