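import Mathlib
import Cfsg.Prelude.Def_GeometricClasses
import Cfsg.Agent.Lib.Helper29.SubfieldSp2
import Cfsg.Agent.S0752

/-!
Standardising a rational structure for the symplectic form.
-/

set_option autoImplicit false

namespace Cfsg.Agent.Lib.Helper29

open Matrix Module
open Cfsg.Agent.H5Symp (form_add_left form_add_right form_smul_left form_smul_right form_neg_left
  form_neg_right form_sub_left form_sub_right form_zero_left form_zero_right form_swap form_self
  form_single_inl form_single_inr)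

variable {m : ℕ} {F : Type*} [Field F]

local notation "Vm" => (Fin m ⊕ Fin m → F)
local notation "B" => Cfsg.sympForm m F

theorem exists_std (F₀ : Subfield F) (P : GL (Fin m ⊕ Fin m) F) (ζ : F) (hζ : ζ ≠ 0)
    (hP : Cfsg.Geo.IsFormRationalStructure (Cfsg.sympForm m F) F₀ ζ P) :
    ∃ R ∈ ratGL (Fin m ⊕ Fin m) F₀, ∀ x y : Vm,
      ζ * B (((P * R : GL (Fin m ⊕ Fin m) F) : Matrix (Fin m ⊕ Fin m) (Fin m ⊕ Fin m) F) *ᵥ x)
        (((P * R : GL (Fin m ⊕ Fin m) F) : Matrix (Fin m ⊕ Fin m) (Fin m ⊕ Fin m) F) *ᵥ y)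
        = B x y := by
  let up : (Fin m ⊕ Fin m → F₀) → Vm := fun u t => (u t : F)
  have up_add : ∀ u v, up (u + v) = up u + up v := fun u v => rfl
  have up_smul : ∀ (c : F₀) u, up (c • u) = (c : F) • up u := fun c u => rfl
  have upV : ∀ u, RV F₀ (up u) := fun u t => (u t).2
  let β₀ : LinearMap.BilinForm F₀ (Fin m ⊕ Fin m → F₀) :=
    LinearMap.mk₂ F₀ (fun u v => (⟨ζ * B ((P : Matrix (Fin m ⊕ Fin m) (Fin m ⊕ Fin m) F) *ᵥ up u)
        ((P : Matrix (Fin m ⊕ Fin m) (Fin m ⊕ Fin m) F) *ᵥ up v), hP _ _ (upV u) (upV v)⟩ : F₀))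
      (by
        intro u u' v
        apply Subtype.ext
        simp only [up_add, Matrix.mulVec_add, form_add_left, mul_add]
        rfl)
      (by
        intro c u v
        apply Subtype.ext
        simp only [up_smul, Matrix.mulVec_smul, form_smul_left]
        show _ = (c : F) * _
        ring)
      (by
        intro u v v'
        apply Subtype.ext
        simp only [up_add, Matrix.mulVec_add, form_add_right, mul_add]
        rfl)
      (by
        intro c u v
        apply Subtype.ext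
        simp only [up_smul, Matrix.mulVec_smul, form_smul_right]
        show _ = (c : F) * _
        ring)
  have hβ : ∀ u v, ((β₀ u v : F₀) : F) = ζ * B ((P : Matrix (Fin m ⊕ Fin m) (Fin m ⊕ Fin m) F) *ᵥ up u)
        ((P : Matrix (Fin m ⊕ Fin m) (Fin m ⊕ Fin m) F) *ᵥ up v) := fun u v => rfl
  have hA : β₀.IsAlt := by
    intro u
    apply Subtype.ext
    rw [hβ, form_self, mul_zero]
    rfl
  obtain ⟨m', k, b, h1, h2, h3, h4⟩ := Cfsg.Agent.S0752.result β₀ hA
  have up_single : ∀ t, up (Pi.single t 1) = Pi.single t 1 := by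
    intro t
    ext s
    simp only [up, Pi.single_apply]
    split_ifs <;> rfl
  have hk : k = 0 := by
    by_contra hk0
    have j : Fin k := ⟨0, Nat.pos_of_ne_zero hk0⟩
    apply b.ne_zero (Sum.inr j)
    set u := b (Sum.inr j) with hu
    have h5 : ∀ t, B ((P : Matrix (Fin m ⊕ Fin m) (Fin m ⊕ Fin m) F) *ᵥ Pi.single t 1)
        ((P : Matrix (Fin m ⊕ Fin m) (Fin m ⊕ Fin m) F) *ᵥ up u) = 0 := by
      intro t
      have h6 := congrArg (fun z : F₀ => (z : F)) (h4 j (Pi.single t 1))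
      simp only [hβ, up_single] at h6
      have h7 : ((0 : F₀) : F) = 0 := rfl
      rw [h7] at h6
      rw [form_swap, (mul_eq_zero.mp h6).resolve_left hζ, neg_zero]
    have h6 : (P : Matrix (Fin m ⊕ Fin m) (Fin m ⊕ Fin m) F) *ᵥ up u = 0 := by
      by_contra hne
      obtain ⟨z, hz⟩ := exists_form_ne_zero hne
      apply hz
      let φ : Dual F Vm := (formDual ((P : Matrix (Fin m ⊕ Fin m) (Fin m ⊕ Fin m) F) *ᵥ up u)) ∘ₗ
        Matrix.toLin' (P : Matrix (Fin m ⊕ Fin m) (Fin m ⊕ Fin m) F)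
      have hφ : φ = 0 := by
        apply (Pi.basisFun F (Fin m ⊕ Fin m)).ext
        intro t
        simp only [Pi.basisFun_apply, LinearMap.zero_apply]
        exact h5 t
      have h8 : φ (((P⁻¹ : GL (Fin m ⊕ Fin m) F) : Matrix (Fin m ⊕ Fin m) (Fin m ⊕ Fin m) F) *ᵥ z) = 0 := by
        rw [hφ]; rfl
      have h9 : B ((P : Matrix (Fin m ⊕ Fin m) (Fin m ⊕ Fin m) F) *ᵥ
          (((P⁻¹ : GL (Fin m ⊕ Fin m) F) : Matrix (Fin m ⊕ Fin m) (Fin m ⊕ Fin m) F) *ᵥ z))
          ((P : Matrix (Fin m ⊕ Fin m) (Fin m ⊕ Fin m) F) *ᵥ up u) = 0 := h8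
      rw [gl_mulVec_inv] at h9
      rw [form_swap, h9, neg_zero]
    have h7 := gl_inv_mulVec P (up u)
    rw [h6, Matrix.mulVec_zero] at h7
    ext t
    exact (congrFun h7 t).symm
  have hm' : m' = m := by
    have h5 := Module.finrank_eq_card_basis b
    simp at h5
    omega
  subst hk
  subst hm'
  let c : Fin m' ⊕ Fin m' → (Fin m' ⊕ Fin m' → F₀) :=
    Sum.elim (fun i => b (Sum.inl (Sum.inr i))) (fun i => b (Sum.inl (Sum.inl i)))
  let L : (Fin m' ⊕ Fin m' → F) →ₗ[F] (Fin m' ⊕ Fin m' → F) :=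
    Fintype.linearCombination F (fun t => up (c t))
  have hL : ∀ t, L (Pi.single t 1) = up (c t) := by
    intro t
    simp [L, Fintype.linearCombination_apply, Pi.single_apply]
  let Φ₁ : (Fin m' ⊕ Fin m' → F) →ₗ[F] (Fin m' ⊕ Fin m' → F) →ₗ[F] F :=
    LinearMap.mk₂ F (fun x y => ζ * Cfsg.sympForm m' F
      ((P : Matrix (Fin m' ⊕ Fin m') (Fin m' ⊕ Fin m') F) *ᵥ L x)
      ((P : Matrix (Fin m' ⊕ Fin m') (Fin m' ⊕ Fin m') F) *ᵥ L y))
      (by intro x x' y; simp only [map_add, Matrix.mulVec_add, form_add_left, mul_add])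
      (by intro a x y; simp only [map_smul, Matrix.mulVec_smul, form_smul_left, smul_eq_mul]; ring)
      (by intro x y y'; simp only [map_add, Matrix.mulVec_add, form_add_right, mul_add])
      (by intro a x y; simp only [map_smul, Matrix.mulVec_smul, form_smul_right, smul_eq_mul]; ring)
  let Φ₂ : (Fin m' ⊕ Fin m' → F) →ₗ[F] (Fin m' ⊕ Fin m' → F) →ₗ[F] F :=
    LinearMap.mk₂ F (fun x y => Cfsg.sympForm m' F x y)
      (by intro x x' y; simp only [form_add_left])
      (by intro a x y; simp only [form_smul_left, smul_eq_mul])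
      (by intro x y y'; simp only [form_add_right])
      (by intro a x y; simp only [form_smul_right, smul_eq_mul])
  have hΦ : Φ₁ = Φ₂ := by
    apply (Pi.basisFun F (Fin m' ⊕ Fin m')).ext
    intro s
    apply (Pi.basisFun F (Fin m' ⊕ Fin m')).ext
    intro t
    simp only [Pi.basisFun_apply]
    show ζ * Cfsg.sympForm m' F
      ((P : Matrix (Fin m' ⊕ Fin m') (Fin m' ⊕ Fin m') F) *ᵥ L (Pi.single s 1))
      ((P : Matrix (Fin m' ⊕ Fin m') (Fin m' ⊕ Fin m') F) *ᵥ L (Pi.single t 1))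
      = Cfsg.sympForm m' F (Pi.single s 1) (Pi.single t 1)
    rw [hL, hL, ← hβ]
    rcases s with i | i <;> rcases t with j | j
    · show ((β₀ (b (Sum.inl (Sum.inr i))) (b (Sum.inl (Sum.inr j))) : F₀) : F) = Cfsg.sympForm m' F (eb i) (eb j)
      rw [h3, form_eb_eb]; rfl
    · show ((β₀ (b (Sum.inl (Sum.inr i))) (b (Sum.inl (Sum.inl j))) : F₀) : F) = Cfsg.sympForm m' F (eb i) (fb j)
      rw [← LinearMap.IsAlt.neg hA (b (Sum.inl (Sum.inl j))) (b (Sum.inl (Sum.inr i))), h1]
      by_cases hij : i = j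
      · subst hij
        rw [form_eb_fb_self]; simp
      · rw [form_eb_fb hij, if_neg (Ne.symm hij)]; simp
    · show ((β₀ (b (Sum.inl (Sum.inl i))) (b (Sum.inl (Sum.inr j))) : F₀) : F) = Cfsg.sympForm m' F (fb i) (eb j)
      rw [h1]
      by_cases hij : i = j
      · subst hij
        rw [form_fb_eb_self]; simp
      · rw [form_fb_eb hij, if_neg hij]; simp
    · show ((β₀ (b (Sum.inl (Sum.inl i))) (b (Sum.inl (Sum.inl j))) : F₀) : F) = Cfsg.sympForm m' F (fb i) (fb j)
      rw [h2, form_fb_fb]; rfl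
  have key : ∀ x y, ζ * Cfsg.sympForm m' F
      ((P : Matrix (Fin m' ⊕ Fin m') (Fin m' ⊕ Fin m') F) *ᵥ L x)
      ((P : Matrix (Fin m' ⊕ Fin m') (Fin m' ⊕ Fin m') F) *ᵥ L y) = Cfsg.sympForm m' F x y := by
    intro x y
    have := congrArg (fun Φ => Φ x y) hΦ
    exact this
  have hinj : Function.Injective L := by
    rw [← LinearMap.ker_eq_bot, LinearMap.ker_eq_bot']
    intro x hx
    by_contra hne
    obtain ⟨z, hz⟩ := exists_form_ne_zero hne
    apply hz
    rw [← key, hx, Matrix.mulVec_zero, form_zero_left, mul_zero]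
  refine ⟨ofLE (LinearEquiv.ofInjectiveEndo L hinj), ?_, fun x y => ?_⟩
  · rw [mem_ratGL_iff]
    refine ⟨1, one_ne_zero, fun t s => ?_⟩
    rw [one_mul, ← gl_apply, ofLE_mulVec]
    show L (Pi.single s 1) t ∈ F₀
    rw [hL]
    exact upV _ t
  · rw [gl_mul_mulVec, gl_mul_mulVec, ofLE_mulVec, ofLE_mulVec]
    exact key x y

end Cfsg.Agent.Lib.Helper29
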